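import Cfsg.Agent.H9.Ch.NI0

/-! Order bound of primitive groups: the arithmetic statement of the simply primitive case. -/

set_option autoImplicit false

namespace Cfsg.Agent.H2.NU

open H3.Ch

/-- `d` is allowed as a lower bound of the distinguishing sets in degree `m` -/
def Dm (m d : ℕ) : Prop := ∀ k, 4 * (m - 1) ≤ k * (3 * k - 2) ∨ m ≤ 4 * k → d ≤ k

/-- exponent bound of the prime `p` -/
def Uq (m d μ p : ℕ) : ℕ :=
  (m / p).factorial.factorization p + if p = m then 1 else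
    min (m / max (2 * p) ((d + p - 1) / p * p))
      ((m + max (2 * p) ((d + p - 1) / p * p) - (μ + p - 1) / p * p) / max (2 * p) ((d + p - 1) / p * p))

/-- the Sylow bound -/
def Sy (m d μ : ℕ) : ℕ := ∏ p ∈ (Finset.range (m + 1)).filter Nat.Prime, p ^ Uq m d μ p

/-- tangent line bounds `(A, B)` -/
noncomputable def LN (m d : ℕ) : List ℝ → ℝ × ℝ
  | [] => (0, (m : ℝ) / d)
  | y :: l => ((LN m d l).1 + (Real.log y - 1 + 1 / y), 1 / y + (1 - (d : ℝ) / m) * (LN m d l).2)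

def NumU : Prop := ∀ n t m x : ℕ, 8 ≤ n → 1 ≤ t → t + 3 ≤ n → (∀ r < t, ¬ Mil n r) → m + t = n + 1 →
  (∀ d μ, Dm m d → Mu n t μ → x ≤ Sy m d μ) →
  (∀ d, Dm m d → (d : ℝ) * Real.log x ≤ m * H9.Ch.psi m) →
  (∀ d l, 0 < d → Dm m d → (∀ y ∈ l, 1 ≤ y) → Real.log x ≤ (LN m d l).1 + (LN m d l).2 * ((m : ℝ) - 1)) →
  n.descFactorial (t - 1) * x ≤ 4 ^ n

end Cfsg.Agent.H2.NU
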