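import Cfsg.Agent.H2.Zass4

/-! A simple group with abelian TI Sylow subgroups acting doubly transitively on them is `PSL₂`;
exponents in `PSL₂`; traces of `p`-th powers. -/

set_option autoImplicit false
set_option linter.unusedSimpArgs false
set_option linter.unusedSectionVars false
set_option linter.unusedVariables false

namespace Cfsg.Agent.H2.SP

open MulAction Matrix
open scoped MatrixGroups Pointwise

theorem psl_of_TI {G : Type*} [Group G] [Finite G] [IsSimpleGroup G]
    (hna : ¬ ∀ x y : G, x * y = y * x) {p : ℕ} [hp : Fact p.Prime] (hp2 : p ≠ 2)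
    (hd : p ∣ Nat.card G)
    (hTI : ∀ Q Q' : Sylow p G, ∀ u ∈ Q, u ∈ Q' → u ≠ 1 → Q = Q')
    (hab : ∀ Q : Sylow p G, ∀ x ∈ Q, ∀ y ∈ Q, x * y = y * x)
    (hC : ∀ Q : Sylow p G, ∀ u ∈ Q, u ≠ 1 → ∀ g, g * u = u * g → g ∈ Q)
    (hcyc : ∀ (Q : Sylow p G) (D : Subgroup G), (∀ d ∈ D, d • Q = Q) → (∀ d ∈ D, d ∈ Q → d = 1) →
      IsCyclic D)
    (Q : Sylow p G) (hn : Nat.card (Sylow p G) ≤ Nat.card Q + 1)
    (K : Type) [Field K] [Finite K] (hK : Nat.card K = Nat.card Q) : Nonempty (G ≃* PSL(2, K)) := by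
  classical
  have hcard : ∀ R : Sylow p G, Nat.card R = Nat.card Q := fun R => by
    rw [R.card_eq_multiplicity, Q.card_eq_multiplicity]
  have hpQ : p ∣ Nat.card Q := Q.dvd_card_of_dvd_card hd
  have hQ1 : ∀ R : Sylow p G, ∃ u ∈ R, u ≠ 1 := by
    intro R
    by_contra! h
    have : Nat.card R = 1 := by
      rw [Subgroup.card_eq_one, eq_bot_iff]; exact h
    rw [← hcard R, this, Nat.dvd_one] at hpQ
    exact hp.out.one_lt.ne' hpQ
  have hfix : ∀ R R' : Sylow p G, R ≠ R' → ∀ u ∈ R, u • R' = R' → u = 1 := by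
    intro R R' h u hu hu'
    by_contra h1
    have : u ∈ (R : Subgroup G) ⊓ Subgroup.normalizer (R' : Set G) :=
      ⟨hu, Sylow.smul_eq_iff_mem_normalizer.1 hu'⟩
    rw [IsPGroup.inf_normalizer_sylow R.isPGroup'] at this
    exact h (hTI R R' u hu this.2 h1)
  have hself : ∀ R : Sylow p G, ∀ u ∈ R, u • R = R := fun R u hu =>
    Sylow.smul_eq_iff_mem_normalizer.2 (Subgroup.le_normalizer hu)
  have hconj : ∀ R : Sylow p G, ∀ g, g • R = R → ∀ u ∈ R, g * u * g⁻¹ ∈ R := fun R g hg u hu =>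
    (Subgroup.mem_normalizer_iff.1 (Sylow.smul_eq_iff_mem_normalizer.1 hg) u).1 hu
  have hnn : ¬ ∀ g : G, g • Q = Q := by
    intro h
    have : (Q : Subgroup G).Normal := ⟨fun u hu g => hconj Q g (h g) u hu⟩
    rcases this.eq_bot_or_eq_top with h1 | h1
    · obtain ⟨u, hu, hu1⟩ := hQ1 Q
      exact hu1 ((Subgroup.eq_bot_iff_forall _).1 h1 u hu)
    · exact hna fun x y => hab Q x (show x ∈ (Q : Subgroup G) from h1 ▸ trivial) y
        (show y ∈ (Q : Subgroup G) from h1 ▸ trivial)
  have : FaithfulSMul G (Sylow p G) := by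
    refine ⟨fun {a b} h => ?_⟩
    rcases (inferInstance : (toPermHom G (Sylow p G)).ker.Normal).eq_bot_or_eq_top with h1 | h1
    · exact (MonoidHom.ker_eq_bot_iff _).1 h1 (Equiv.ext h)
    · refine absurd (fun g => ?_) hnn
      have : g ∈ (toPermHom G (Sylow p G)).ker := h1 ▸ trivial
      exact congrArg (fun σ : Equiv.Perm (Sylow p G) => σ Q) this
  have hreg : ∀ a y z : Sylow p G, y ≠ a → z ≠ a → ∃! u : (a : Subgroup G), (u : G) • y = z := by
    intro a y z hy hz
    let f : ↥(a : Subgroup G) → {w : Sylow p G // w ≠ a} := fun u => ⟨(u : G) • y, fun h => hy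
      ((smul_left_cancel_iff (u : G)).1 (h.trans (hself a u u.2).symm))⟩
    have hf : Function.Injective f := by
      intro u v h
      have h1 : (u : G) • y = (v : G) • y := congrArg Subtype.val h
      have := hfix a y hy.symm ((v : G)⁻¹ * u) (mul_mem (inv_mem v.2) u.2)
        (by rw [mul_smul, h1, inv_smul_smul])
      exact Subtype.ext (inv_mul_eq_one.1 this).symm
    have := card_ne_add_one a
    obtain ⟨u, hu⟩ := (hf.bijective_of_nat_card_le (by rw [hcard]; omega)).2 ⟨z, hz⟩
    exact ⟨u, congrArg Subtype.val hu, fun v hv => hf ((Subtype.ext hv).trans hu.symm)⟩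
  have h2 : ∀ a b c d : Sylow p G, a ≠ b → c ≠ d → ∃ g : G, g • a = c ∧ g • b = d := by
    intro a b c d hab hcd
    obtain ⟨g, rfl⟩ := exists_smul_eq G a c
    obtain ⟨u, hu, -⟩ := hreg (g • a) (g • b) d (by simpa using hab.symm) hcd.symm
    exact ⟨u * g, by rw [mul_smul, hself _ _ u.2], by rw [mul_smul, hu]⟩
  have h3 : ∀ (g : G) (a b c : Sylow p G), a ≠ b → b ≠ c → a ≠ c → g • a = a → g • b = b →
      g • c = c → g = 1 := by
    intro g a b c hab hbc hac ha hb hc
    obtain ⟨u, hu, hu'⟩ := hreg a b c hab.symm hac.symm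
    have h1 := congrArg Subtype.val (hu' ⟨_, hconj a g ha u u.2⟩ (by
      change (g * u * g⁻¹) • b = c
      rw [mul_smul, mul_smul, inv_smul_eq_iff.2 hb.symm, hu, hc]))
    refine hfix a b hab g (hC a u u.2 (fun h => hbc ?_) g (mul_inv_eq_iff_eq_mul.1 h1)) hb
    rw [← hu, h, one_smul]
  push Not at hnn
  obtain ⟨g0, hg0⟩ := hnn
  obtain ⟨V, _, _, C, -⟩ := exists_coord hg0.symm (Q : Subgroup G) (hself Q) (hconj Q) (hab Q) (hreg Q)
  have := C.finite
  have hV := C.card
  have hΩ : Nat.card (Sylow p G) = Nat.card Q + 1 := by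
    refine le_antisymm hn ?_
    rw [← card_ne_add_one Q, Nat.add_le_add_iff_right]
    refine Nat.card_le_card_of_injective (fun u : (Q : Subgroup G) => (⟨(u : G) • g0 • Q,
      fun h => hg0 ((smul_left_cancel_iff (u : G)).1 (h.trans (hself Q u u.2).symm))⟩ :
        {w : Sylow p G // w ≠ Q})) fun u v h => ?_
    exact (hreg Q (g0 • Q) ((v : G) • g0 • Q) hg0 (fun h => hg0
      ((smul_left_cancel_iff (v : G)).1 (h.trans (hself Q v v.2).symm)))).unique
      (congrArg Subtype.val h) rfl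
  have hle : p ≤ Nat.card Q := Nat.le_of_dvd Nat.card_pos hpQ
  have h1p := hp.out.two_le
  have : Nontrivial V := Finite.one_lt_card_iff_nontrivial.1 (by omega)
  rcases C.dichotomy h2 h3 (fun N hN htr => by
    rcases hN.eq_bot_or_eq_top with rfl | rfl
    · obtain ⟨⟨g, hg⟩, h⟩ := htr.exists_smul_eq Q (g0 • Q)
      obtain rfl := Subgroup.mem_bot.1 hg
      exact absurd (h.symm.trans (one_smul _ _)) hg0
    · obtain ⟨u, hu, hu1⟩ := hQ1 Q
      refine ⟨Q, fun h => hu1 ?_⟩
      exact congrArg Subtype.val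
        ((Subgroup.eq_bot_iff_forall _).1 h ⟨u, trivial⟩ (hself Q u hu))) with h | ⟨-, -, h⟩
  · exfalso
    have hd := card_of_reg (C.reg_of_three h h3)
    have hodd : Odd (Nat.card Q) := by
      rw [Q.card_eq_multiplicity]; exact (hp.out.odd_of_ne_two hp2).pow
    have := hcyc Q (St G Q (g0 • Q)) (fun d hd => hd.1) fun d hd h => hfix _ _ hg0.symm d h hd.2
    have := Fintype.ofFinite (Sylow p G)
    obtain ⟨S⟩ : Nonempty (Sylow 2 (St G Q (g0 • Q))) := inferInstance
    obtain ⟨x, -, hx⟩ := exists_odd_of_cyclic h3 hg0.symm (by omega) (by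
      obtain ⟨k, hk⟩ := hodd
      exact ⟨k, by omega⟩) S inferInstance
    let χ := Equiv.Perm.sign.comp (toPermHom G (Sylow p G))
    rcases (inferInstance : χ.ker.Normal).eq_bot_or_eq_top with h1 | h1
    · exact hna fun x y => (MonoidHom.ker_eq_bot_iff _).1 h1 (by rw [map_mul, map_mul, mul_comm])
    · exact hx (show x ∈ χ.ker from h1 ▸ trivial)
  · exact h K (by omega)

theorem trace_pow_char {F n : Type*} [Field F] [Fintype n] [DecidableEq n] (p : ℕ) [Fact p.Prime]
    [CharP F p] (k : ℕ) (M : Matrix n n F) : (M ^ p ^ k).trace = M.trace ^ p ^ k := by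
  open Polynomial in
  cases isEmpty_or_nonempty n
  · simp [Matrix.trace, zero_pow (pow_pos (Fact.out : p.Prime).pos k).ne']
  have h1 : expand F (p ^ k) (M ^ p ^ k).charpoly = M.charpoly ^ p ^ k := by
    unfold charpoly
    rw [AlgHom.map_det, ← coe_detMonoidHom, ← (detMonoidHom : Matrix n n F[X] →* F[X]).map_pow]
    apply congr_arg det
    refine matPolyEquiv.injective ?_
    rw [map_pow, matPolyEquiv_charmatrix, sub_pow_char_pow_of_commute, ← C_pow]
    · exact (id (matPolyEquiv_eq_X_pow_sub_C (p ^ k) M) :)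
    · exact (C M).commute_X
  rw [← map_iterateFrobenius_expand, map_expand] at h1
  have h2 := expand_injective (pow_pos (Fact.out : p.Prime).pos k) h1
  rw [Matrix.trace_eq_neg_charpoly_coeff, Matrix.trace_eq_neg_charpoly_coeff, h2, coeff_map,
    ← map_neg, iterateFrobenius_def]

theorem sq_two {K : Type*} [Field K] (A : Matrix (Fin 2) (Fin 2) K) :
    A * A = A.trace • A - A.det • 1 := by
  ext i j
  fin_cases i <;> fin_cases j <;> simp [Matrix.mul_apply, Fin.sum_univ_two, trace_fin_two,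
    det_fin_two] <;> ring

theorem pow_two_span {K : Type*} [Field K] (A : Matrix (Fin 2) (Fin 2) K) (n : ℕ) :
    ∃ a b : K, A ^ n = a • 1 + b • A := by
  induction n with
  | zero => exact ⟨1, 0, by simp⟩
  | succ n ih =>
    obtain ⟨a, b, h⟩ := ih
    refine ⟨-(b * A.det), a + b * A.trace, ?_⟩
    rw [pow_succ, h, add_mul, smul_mul_assoc, smul_mul_assoc, sq_two, one_mul]
    module

theorem center_of_scalar {K : Type*} [Field K] {A : SL(2, K)} {c : K}
    (h : (A : Matrix (Fin 2) (Fin 2) K) = c • 1) : A ∈ Subgroup.center SL(2, K) := by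
  rw [Subgroup.mem_center_iff]
  intro g
  ext1
  simp [h]

theorem sl2_pow {K : Type*} [Field K] [Fintype K] (h2 : (2 : K) ≠ 0) (A : SL(2, K)) :
    A ^ Fintype.card K ∈ Subgroup.center SL(2, K) ∨ A ^ Fintype.card K = A ∨
      A ^ Fintype.card K = A⁻¹ := by
  obtain ⟨a, b, h⟩ := pow_two_span (A : Matrix (Fin 2) (Fin 2) K) (Fintype.card K)
  have ht := FiniteField.trace_pow_card (A : Matrix (Fin 2) (Fin 2) K)
  have hd : ((A : Matrix (Fin 2) (Fin 2) K) ^ Fintype.card K).det = 1 := by simp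
  have hA := A.det_coe
  rw [FiniteField.pow_card, h] at ht
  rw [h] at hd
  simp only [trace_fin_two, det_fin_two, Matrix.add_apply, Matrix.smul_apply, one_apply_eq,
    smul_eq_mul, one_apply_ne (show (0 : Fin 2) ≠ 1 by simp),
    one_apply_ne (show (1 : Fin 2) ≠ 0 by simp)] at ht hd hA
  have ha : a = (A 0 0 + A 1 1) * (1 - b) / 2 := by field_simp; linear_combination ht
  have key : (1 - b) * (1 + b) * (4 - (A 0 0 + A 1 1) ^ 2) = 0 := by
    have e : 2 * a = (A 0 0 + A 1 1) * (1 - b) := by linear_combination ht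
    have e2 : a ^ 2 + a * b * (A 0 0 + A 1 1) + b ^ 2 = 1 := by
      linear_combination hd - b ^ 2 * hA
    linear_combination (-4) * e2 + (2 * a + (A 0 0 + A 1 1) * (1 - b) +
      2 * b * (A 0 0 + A 1 1)) * e
  rcases mul_eq_zero.1 key with h1 | h1
  · rcases mul_eq_zero.1 h1 with h1 | h1
    · right; left
      have hb : b = 1 := by linear_combination -h1
      ext1
      simp [h, ha, hb]
    · right; right
      have hb : b = -1 := by linear_combination h1
      rw [eq_inv_iff_mul_eq_one]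
      apply Subtype.ext
      change (A : Matrix (Fin 2) (Fin 2) K) ^ Fintype.card K * (A : Matrix (Fin 2) (Fin 2) K) = 1
      rw [h, add_mul, smul_mul_assoc,
        smul_mul_assoc, sq_two, A.det_coe, trace_fin_two, ha, hb, one_mul]
      match_scalars
      · field_simp; ring
      · ring
  · left
    obtain ⟨p, hp⟩ := CharP.exists K
    obtain ⟨n, hpp, hn⟩ := FiniteField.card K p
    have := Fact.mk hpp
    set c : K := (A 0 0 + A 1 1) / 2 with hc
    have hN : ((A : Matrix (Fin 2) (Fin 2) K) - c • 1) ^ 2 = 0 := by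
      rw [sq, sub_mul, mul_sub, mul_sub, sq_two, A.det_coe, trace_fin_two]
      simp only [smul_mul_assoc, mul_smul_comm, one_mul, mul_one, hc]
      match_scalars
      · field_simp; ring
      · field_simp; linear_combination -h1
    refine center_of_scalar (c := c ^ Fintype.card K) ?_
    have h3 : ((A : Matrix (Fin 2) (Fin 2) K) - c • 1) ^ Fintype.card K = 0 :=
      pow_eq_zero_of_le Fintype.one_lt_card hN
    rw [hn, sub_pow_char_pow_of_commute _ _ ((Commute.one_right _).smul_right c), sub_eq_zero] at h3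
    change (A : Matrix (Fin 2) (Fin 2) K) ^ Fintype.card K = _
    rw [hn, h3, smul_pow, one_pow]

theorem sl2_sq {K : Type*} [Field K] (h2 : (2 : K) ≠ 0) {A : SL(2, K)} (h : A * A = 1) :
    A ∈ Subgroup.center SL(2, K) := by
  have h1 := sq_two (A : Matrix (Fin 2) (Fin 2) K)
  have h' : (A : Matrix (Fin 2) (Fin 2) K) * A = 1 := congrArg Subtype.val h
  rw [h', A.det_coe, one_smul, eq_sub_iff_add_eq, ← two_smul K] at h1
  have ht : (A : Matrix (Fin 2) (Fin 2) K).trace ≠ 0 := by
    intro h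
    rw [h, zero_smul] at h1
    simpa [h2] using congrFun (congrFun h1 0) 0
  refine center_of_scalar (c := 2 / (A : Matrix (Fin 2) (Fin 2) K).trace) ?_
  rw [div_eq_inv_mul, mul_smul, h1, smul_smul, inv_mul_cancel₀ ht, one_smul]

theorem psl2_pow {K : Type*} [Field K] [Fintype K] (h2 : (2 : K) ≠ 0) {m : ℕ}
    (hm : Fintype.card K = 2 * m + 1) (x : PSL(2, K)) :
    x ^ (2 * m + 1) = 1 ∨ x ^ m = 1 ∨ x ^ (m + 1) = 1 := by
  obtain ⟨A, rfl⟩ := QuotientGroup.mk_surjective x
  simp only [← QuotientGroup.mk_pow, QuotientGroup.eq_one_iff]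
  rcases sl2_pow h2 A with h | h | h
  · exact Or.inl (hm ▸ h)
  · refine Or.inr (Or.inl (sl2_sq h2 ?_))
    rw [hm, pow_succ, mul_eq_right] at h
    rw [← pow_add, ← two_mul, h]
  · refine Or.inr (Or.inr (sl2_sq h2 ?_))
    rw [hm, eq_inv_iff_mul_eq_one, ← pow_succ] at h
    rw [← pow_add, ← h]
    congr 1
    ring

end Cfsg.Agent.H2.SP
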