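import Cfsg.Agent.H2.SP3
import Cfsg.Agent.H2.SP4
import Cfsg.Agent.H9.Sp.Cl4
import Cfsg.Agent.H3.PglBasic
import Cfsg.Agent.H7.AschDensity
import Cfsg.Agent.H7.AschSubfield

/-! Regular unipotent elements in dimension four and the identification of `PSL₂(q)`. -/

set_option autoImplicit false
set_option linter.unusedSimpArgs false
set_option linter.unusedSectionVars false
set_option linter.unusedVariables false

namespace Cfsg.Agent.H2.SP

open Module Matrix Polynomial Cfsg.Agent.H6 Cfsg.Agent.H9.Sp Cfsg.Geo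
open scoped MatrixGroups

section
variable {F : Type*} [Field F] {ι : Type} [Fintype ι] [DecidableEq ι]

theorem nil_pow_card {N : Matrix ι ι F} (h : IsNilpotent N) : N ^ Fintype.card ι = 0 := by
  have h1 := (Matrix.isNilpotent_charpoly_sub_pow_of_isNilpotent h).eq_zero
  have h2 := N.aeval_self_charpoly
  rw [sub_eq_zero] at h1
  simpa [h1] using h2

theorem cyc (hι : Fintype.card ι = 4) {N X : Matrix ι ι F} (h4 : N ^ 4 = 0) (h3 : N ^ 3 ≠ 0)
    (h : X * N = N * X) : ∃ f : F[X], X = aeval N f := by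
  obtain ⟨w, hw⟩ : ∃ w, N ^ 3 *ᵥ w ≠ 0 := by
    by_contra! H
    exact h3 (Matrix.ext_of_mulVec_single fun i => by rw [H, zero_mulVec])
  have e : ∀ i, 4 ≤ i → N ^ i = 0 := fun i hi => pow_eq_zero_of_le hi h4
  have li : LinearIndependent F fun i : Fin 4 => N ^ (i : ℕ) *ᵥ w := by
    rw [Fintype.linearIndependent_iff]
    intro g hg
    have k : ∀ j : ℕ, ∑ i : Fin 4, g i • N ^ (j + i) *ᵥ w = 0 := fun j => by
      have := congrArg (N ^ j *ᵥ ·) hg
      simpa only [mulVec_sum, mulVec_smul, mulVec_mulVec, ← pow_add, mulVec_zero] using this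
    have k3 := k 3
    have k2 := k 2
    have k1 := k 1
    have k0 := k 0
    simp [Fin.sum_univ_four, e, hw] at k3
    simp [Fin.sum_univ_four, e, hw, k3] at k2
    simp [Fin.sum_univ_four, e, hw, k3, k2] at k1
    simp [Fin.sum_univ_four, e, hw, k3, k2, k1] at k0
    intro i
    fin_cases i <;> assumption
  let b := basisOfLinearIndependentOfCardEqFinrank li (by simp [hι])
  have hb : ∀ i, b i = N ^ (i : ℕ) *ᵥ w := fun i => by simp [b]
  refine ⟨∑ i : Fin 4, C (b.repr (X *ᵥ w) i) * Polynomial.X ^ (i : ℕ), ?_⟩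
  apply Matrix.toLin'.injective
  refine b.ext fun j => ?_
  have hc : X * N ^ (j : ℕ) = N ^ (j : ℕ) * X := (Commute.pow_right h j).eq
  rw [toLin'_apply, toLin'_apply, hb, mulVec_mulVec, hc, ← mulVec_mulVec]
  conv_lhs => rw [← b.sum_repr (X *ᵥ w)]
  simp only [map_sum, map_mul, aeval_C, map_pow, aeval_X, sum_mulVec, mulVec_sum, mulVec_smul, hb,
    mulVec_mulVec, ← pow_add, Algebra.algebraMap_eq_smul_one, smul_mul_assoc, one_mul,
    smul_mulVec, add_comm, Finset.sum_mul]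

theorem poly_two (f : F[X]) : ∃ (a b : F) (g : F[X]), f = C a + C b * X + X ^ 2 * g :=
  ⟨f.coeff 0, f.divX.coeff 0, f.divX.divX, by
    conv_lhs => rw [← X_mul_divX_add f, ← X_mul_divX_add f.divX]
    ring⟩

theorem coef_zero {N : Matrix ι ι F} (h4 : N ^ 4 = 0) (h3 : N ^ 3 ≠ 0) {a b : F} {g : F[X]}
    (h : aeval N (C a + C b * X + X ^ 2 * g) = 0) : a = 0 ∧ b = 0 := by
  have e : ∀ (c : F) (g' : F[X]), aeval N (C c * X ^ 3 + X ^ 4 * g') = 0 → c = 0 := by
    intro c g' h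
    simpa [h4, h3, Algebra.algebraMap_eq_smul_one] using h
  have h1 := e a (C b + X * g) (by
    rw [show C a * X ^ 3 + X ^ 4 * (C b + X * g) = X ^ 3 * (C a + C b * X + X ^ 2 * g) by ring,
      map_mul, h, mul_zero])
  refine ⟨h1, e b g ?_⟩
  rw [show C b * X ^ 3 + X ^ 4 * g = X ^ 2 * (C a + C b * X + X ^ 2 * g) by simp [h1]; ring,
    map_mul, h, mul_zero]

theorem pow_char_scalar {p : ℕ} [Fact p.Prime] [CharP F p] [Nonempty ι] (hp : 4 ≤ p)
    {N : Matrix ι ι F} (h4 : N ^ 4 = 0) (a b : F) (g : F[X]) :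
    aeval N (C a + C b * X + X ^ 2 * g) ^ p = a ^ p • (1 : Matrix ι ι F) := by
  rw [← map_pow, show C a + C b * X + X ^ 2 * g = C a + X * (C b + X * g) by ring, add_pow_char,
    mul_pow, map_add, map_mul, map_pow (aeval N) X, aeval_X, pow_eq_zero_of_le hp h4, zero_mul,
    add_zero, ← C_pow, aeval_C, Algebra.algebraMap_eq_smul_one]

/-- leading coefficient of a unipotent element of `F[N]` -/
def Lead (N u : Matrix ι ι F) (a : F) : Prop := ∃ g : F[X], u = aeval N (1 + C a * X + X ^ 2 * g)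

theorem Lead.mul {N u v : Matrix ι ι F} {a b : F} (h : Lead N u a) (h' : Lead N v b) :
    Lead N (u * v) (a + b) := by
  obtain ⟨f, rfl⟩ := h
  obtain ⟨g, rfl⟩ := h'
  exact ⟨C a * C b + g * (1 + C a * X) + f * (1 + C b * X + X ^ 2 * g), by
    rw [← map_mul, C_add]; congr 1; ring⟩

theorem Lead.uniq {N u : Matrix ι ι F} (h4 : N ^ 4 = 0) (h3 : N ^ 3 ≠ 0) {a b : F} (h : Lead N u a)
    (h' : Lead N u b) : a = b := by
  obtain ⟨f, h⟩ := h
  obtain ⟨g, h'⟩ := h'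
  refine sub_eq_zero.1 (coef_zero h4 h3 (a := 0) (g := f - g) ?_).2
  rw [show C (0 : F) + C (a - b) * X + X ^ 2 * (f - g) =
    (1 + C a * X + X ^ 2 * f) - (1 + C b * X + X ^ 2 * g) by simp; ring, map_sub, ← h, ← h',
    sub_self]

theorem Lead.zero {N u : Matrix ι ι F} (h4 : N ^ 4 = 0) (h : Lead N u 0) : (u - 1) ^ 3 = 0 := by
  obtain ⟨f, rfl⟩ := h
  rw [← map_one (aeval (R := F) N), ← map_sub, ← map_pow, show (1 + C 0 * X + X ^ 2 * f - 1) ^ 3 =
    X ^ 4 * (X ^ 2 * f ^ 3) by simp; ring, map_mul, map_pow, aeval_X, h4, zero_mul]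

theorem Lead.conj {N u : Matrix ι ι F} {a c : F} (h : Lead N u a) (g : GL ι F)
    (h' : Lead N (g.1 * (1 + N) * (g⁻¹).1) c) : Lead N (g.1 * u * (g⁻¹).1) (a * c) := by
  obtain ⟨f, rfl⟩ := h
  obtain ⟨k, hk⟩ := h'
  have h1 : g.1 * N * (g⁻¹).1 = aeval N (C c * X + X ^ 2 * k) := by
    rw [mul_add, add_mul, mul_one, Units.mul_inv, add_assoc, map_add, map_one] at hk
    exact add_left_cancel hk
  have h2 : ∀ f : F[X], g.1 * aeval N f * (g⁻¹).1 = aeval (g.1 * N * (g⁻¹).1) f := by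
    intro f
    induction f using Polynomial.induction_on' with
    | add p q hp hq => rw [map_add, map_add, mul_add, add_mul, hp, hq]
    | monomial n a =>
      rw [aeval_monomial, aeval_monomial, Units.conj_pow, Algebra.algebraMap_eq_smul_one]
      simp
  refine ⟨C a * k + (C c + X * k) ^ 2 * f.comp (C c * X + X ^ 2 * k), ?_⟩
  rw [h2, h1, ← aeval_comp]
  congr 1
  simp
  ring

end

section
variable {F : Type*} [Field F] [Fintype F] {H P : Subgroup (GL (Fin 2 ⊕ Fin 2) F)}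

/-- `P` modulo scalars -/
abbrev MS (P : Subgroup (GL (Fin 2 ⊕ Fin 2) F)) := P ⧸ (scalars (Fin 2 ⊕ Fin 2) F).subgroupOf P

theorem scal_sq (hP : P ≤ spGL 2 F) {g : P} (h : (g : MS P) = 1) : g ^ 2 = 1 := by
  obtain ⟨c, hc⟩ := (mem_scalars_iff g.1).1 ((QuotientGroup.eq_one_iff g).1 h)
  obtain ⟨e, f, hef⟩ := exists_hyp (symp_B0 2 F) (by simp)
  have := (mem_spGL _).1 (hP g.2) e f
  simp [gl0_apply, hc, smul_mulVec, hef] at this
  ext1
  ext1
  simp [hc, sq, smul_smul, this]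

theorem lift_eq (hP : P ≤ spGL 2 F) {p : ℕ} (hp : Odd p) {u v : P} (hu : u ^ p = 1) (hv : v ^ p = 1)
    (h : (u : MS P) = v) : u = v := by
  have h0 := QuotientGroup.eq.1 h
  have h1 := scal_sq hP ((QuotientGroup.eq_one_iff _).2 h0)
  have h2 : Commute (u⁻¹ * v) u := Subtype.ext (scalar_comm h0 _)
  have h3 : (u⁻¹ * v) ^ p = 1 := by
    have := h2.symm.mul_pow p
    rwa [mul_inv_cancel_left, hu, hv, one_mul, eq_comm] at this
  obtain ⟨k, rfl⟩ := hp
  rw [pow_succ, pow_mul, h1, one_pow, one_mul] at h3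
  exact inv_mul_eq_one.1 h3

variable {p : ℕ} [hp : Fact p.Prime] [CharP F p]

/-- every non-trivial element of order `p` is regular unipotent -/
def Reg (P : Subgroup (GL (Fin 2 ⊕ Fin 2) F)) (p : ℕ) : Prop :=
  ∀ u ∈ P, u ^ p = 1 → u ≠ 1 → (u.1 - 1) ^ 3 ≠ 0

theorem nil4 {u : GL (Fin 2 ⊕ Fin 2) F} {k : ℕ} (h : u ^ p ^ k = 1) : (u.1 - 1) ^ 4 = 0 := by
  refine nil_pow_card ⟨p ^ k, ?_⟩
  rw [sub_pow_char_pow_of_commute _ _ (Commute.one_right _), ← Units.val_pow_eq_pow_val, h]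
  simp

theorem Reg.five (h : Reg P p) (hp2 : p ≠ 2) {u : GL (Fin 2 ⊕ Fin 2) F} (hu : u ∈ P)
    (h1 : u ^ p = 1) (h2 : u ≠ 1) : 5 ≤ p := by
  by_contra h5
  have h3 : p = 3 := by
    have := hp.out.two_le
    have h4 : p ≠ 4 := by rintro rfl; exact absurd hp.out (by norm_num)
    omega
  subst h3
  refine h u hu h1 h2 ?_
  rw [sub_pow_char_of_commute _ (Commute.one_right _), ← Units.val_pow_eq_pow_val, h1]
  simp

theorem pow_p (h5 : 5 ≤ p) {u : GL (Fin 2 ⊕ Fin 2) F} {k : ℕ} (h : u ^ p ^ k = 1) : u ^ p = 1 := by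
  have := pow_eq_zero_of_le (show 4 ≤ p by omega) (nil4 h)
  rw [sub_pow_char_of_commute _ (Commute.one_right _), sub_eq_zero, one_pow] at this
  exact Units.ext this

theorem Reg.cent (h : Reg P p) (h5 : 5 ≤ p) {u : P} (h1 : u ^ p = 1) (h2 : u ≠ 1) {g : P}
    (hg : g * u = u * g) : ∃ (a b : F) (f : F[X]),
      g.1.1 = aeval (u.1.1 - 1) (C a + C b * X + X ^ 2 * f) ∧ g.1.1 ^ p = a ^ p • 1 := by
  have h1' : u.1 ^ p = 1 := congrArg Subtype.val h1
  have h4 := nil4 (k := 1) (by simpa using h1')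
  obtain ⟨f, hf⟩ := cyc (X := g.1.1) (by simp) h4 (h u u.2 h1' (by simpa using h2)) (by
    have : g.1.1 * u.1.1 = u.1.1 * g.1.1 := congrArg (fun x : P => x.1.1) hg
    rw [mul_sub, sub_mul, this, mul_one, one_mul])
  obtain ⟨a, b, k, rfl⟩ := poly_two f
  exact ⟨a, b, k, hf, by rw [hf, pow_char_scalar (by omega) h4]⟩

/-- the structure of a Sylow subgroup -/
theorem Reg.sylow (h : Reg P p) (hP : P ≤ spGL 2 F) (hp2 : p ≠ 2) (hd : p ∣ Nat.card (MS P))
    (Q : Sylow p (MS P)) : 5 ≤ p ∧ (∀ x ∈ Q, ∃ u : P, u ^ p = 1 ∧ (u : MS P) = x) ∧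
      ∃ a : Q → F, Function.Injective a ∧ (∀ x y, a (x * y) = a x + a y) ∧ ∃ z, a z = 1 ∧
        ∀ (g : MS P) (hg : ∀ x ∈ Q, g * x * g⁻¹ ∈ Q) (x : Q),
          a ⟨_, hg x x.2⟩ = a x * a ⟨_, hg z z.2⟩ := by
  have hodd := hp.out.odd_of_ne_two hp2
  obtain ⟨R, rfl⟩ := Sylow.mapSurjective_surjective
    (QuotientGroup.mk'_surjective ((scalars _ F).subgroupOf P)) p Q
  set Q := R.mapSurjective (QuotientGroup.mk'_surjective ((scalars _ F).subgroupOf P))
  have hQ : ∀ x ∈ Q, ∃ u ∈ R, (u : MS P) = x := fun x hx => hx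
  have hnt : Nontrivial R := by
    by_contra h0
    rw [not_nontrivial_iff_subsingleton] at h0
    have h1 : Nat.card Q = 1 := by
      rw [Subgroup.card_eq_one, eq_bot_iff]
      intro x hx
      obtain ⟨u, hu, rfl⟩ := hQ x hx
      rw [show u = 1 from congrArg Subtype.val (Subsingleton.elim (⟨u, hu⟩ : R) 1)]
      rfl
    have := Q.dvd_card_of_dvd_card hd
    rw [h1, Nat.dvd_one] at this
    exact hp.out.one_lt.ne' this
  have hnt' := R.isPGroup'.center_nontrivial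
  obtain ⟨⟨z, hz⟩, hz1⟩ := exists_prime_orderOf_dvd_card' (G := Subgroup.center R) p (by
    obtain ⟨n, hn, e⟩ := (R.isPGroup'.to_subgroup (Subgroup.center R)).nontrivial_iff_card.1 hnt'
    rw [e]; exact dvd_pow_self p hn.ne')
  have z1 : (z : P) ^ p = 1 := by
    have := pow_orderOf_eq_one (⟨z, hz⟩ : Subgroup.center R)
    rw [hz1] at this
    exact congrArg (fun x : Subgroup.center R => x.1.1) this
  have z2 : (z : P) ≠ 1 := by
    intro h0
    have : (⟨z, hz⟩ : Subgroup.center R) = 1 := Subtype.ext (Subtype.ext h0)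
    rw [this, orderOf_one] at hz1
    exact hp.out.one_lt.ne hz1
  have z1' : z.1.1 ^ p = 1 := congrArg Subtype.val z1
  have z2' : z.1.1 ≠ 1 := by simpa using z2
  have h5 := h.five hp2 z.1.2 z1' z2'
  have hR : ∀ u ∈ R, u ^ p = 1 := fun u hu => by
    obtain ⟨k, hk⟩ := R.isPGroup' ⟨u, hu⟩
    exact Subtype.ext (pow_p h5 (congrArg (fun x : R => x.1.1) hk))
  set N := z.1.1.1 - 1 with hN
  have h4 : N ^ 4 = 0 := nil4 (k := 1) (by simpa using z1')
  have h3 : N ^ 3 ≠ 0 := h _ z.1.2 z1' z2'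
  have hL : ∀ u ∈ R, ∃ a, Lead N u.1.1 a := by
    intro u hu
    obtain ⟨a, b, f, e1, e2⟩ := h.cent h5 z1 z2 (g := u)
      (congrArg Subtype.val (Subgroup.mem_center_iff.1 hz ⟨u, hu⟩))
    have e3 : u.1.1 ^ p = 1 := congrArg (fun x : P => x.1.1) (hR u hu)
    have e4 : a ^ p = 1 := by
      simpa [e3] using (congrFun (congrFun e2 (.inl 0)) (.inl 0)).symm
    have e5 : a = 1 := frobenius_inj F p (by simpa [frobenius_def] using e4)
    exact ⟨b, f, by simpa [e5] using e1⟩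
  choose l hl1 hl2 using hQ
  choose a ha using hL
  have key : ∀ (x : Q) (u : P) (b : F), u ^ p = 1 → (u : MS P) = x → Lead N u.1.1 b →
      a _ (hl1 x x.2) = b := by
    intro x u b h1 h2 h5
    obtain rfl := lift_eq hP hodd h1 (hR _ (hl1 x x.2)) (h2.trans (hl2 x x.2).symm)
    exact (ha _ _).uniq h4 h3 h5
  have hmul : ∀ x y : Q, a _ (hl1 (x * y : Q) (x * y).2) = a _ (hl1 x x.2) + a _ (hl1 y y.2) :=
    fun x y => key _ (l x x.2 * l y y.2) _ (hR _ (mul_mem (hl1 _ _) (hl1 _ _)))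
      (by rw [QuotientGroup.mk_mul, hl2, hl2]; rfl) ((ha _ _).mul (ha _ _))
  refine ⟨h5, fun x hx => ⟨_, hR _ (hl1 x hx), hl2 x hx⟩, fun x => a _ (hl1 x x.2), ?_, hmul,
    ⟨z.1, z, z.2, rfl⟩, key _ z _ z1 rfl ⟨0, by simp [hN]⟩, fun g hg x => ?_⟩
  · intro x y e
    have e1 := hmul (x * y⁻¹) y
    simp only [inv_mul_cancel_right] at e1
    have e2 : a _ (hl1 (x * y⁻¹ : Q) (x * y⁻¹).2) = 0 := by linear_combination e - e1
    have e3 := (e2 ▸ ha _ (hl1 (x * y⁻¹ : Q) (x * y⁻¹).2)).zero h4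
    have e4 : l (x * y⁻¹ : Q) (x * y⁻¹).2 = 1 := by
      by_contra h0
      exact h _ (l _ _).2 (congrArg Subtype.val (hR _ (hl1 _ _))) (by simpa using h0) e3
    have e5 := hl2 (x * y⁻¹ : Q) (x * y⁻¹).2
    rw [e4] at e5
    exact mul_inv_eq_one.1 (Subtype.ext e5.symm)
  · obtain ⟨g, rfl⟩ := QuotientGroup.mk_surjective g
    refine key _ (g * l x x.2 * g⁻¹) _ (by rw [conj_pow, hR _ (hl1 _ _)]; simp)
      (by simp [hl2]) ((ha _ _).conj g.1 ?_)
    have := lift_eq hP hodd (u := g * z * g⁻¹) (by rw [conj_pow, z1]; simp)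
      (hR _ (hl1 _ (hg _ ⟨z, z.2, rfl⟩))) (by rw [hl2]; simp)
    convert ha _ (hl1 _ (hg _ ⟨z, z.2, rfl⟩)) using 1
    · rw [← this, hN]
      simp
    · rfl

/-- centralisers of `p`-elements are `p`-groups -/
theorem Reg.cent_pow (h : Reg P p) (hP : P ≤ spGL 2 F) (h5 : 5 ≤ p) {u : P} (h1 : u ^ p = 1)
    (h2 : (u : MS P) ≠ 1) {g : MS P} (hg : g * u = u * g) : g ^ p = 1 := by
  obtain ⟨g, rfl⟩ := QuotientGroup.mk_surjective g
  have := lift_eq hP (hp.out.odd_of_ne_two (by omega)) (u := g * u * g⁻¹)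
    (by rw [conj_pow, h1]; simp) h1 (by simp [hg])
  obtain ⟨a, b, f, -, e⟩ := h.cent h5 h1 (by rintro rfl; exact h2 rfl)
    (mul_inv_eq_iff_eq_mul.1 this)
  rw [← QuotientGroup.mk_pow, QuotientGroup.eq_one_iff, Subgroup.mem_subgroupOf, mem_scalars_iff]
  refine ⟨Units.mk0 (a ^ p) fun h0 => ?_, e⟩
  rw [h0, zero_smul, ← Units.val_pow_eq_pow_val] at e
  exact Units.ne_zero _ e

theorem trace_inv (hP : P ≤ spGL 2 F) {g : GL (Fin 2 ⊕ Fin 2) F} (hg : g ∈ P) :
    (g⁻¹).1.trace = g.1.trace := by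
  have := (symp_B0 2 F).trace_adj (X := (gl0 g : End F _)) (Y := ((gl0 g)⁻¹ : _ ≃ₗ[F] _))
    (Sp_left ((mem_spGL g).1 (hP hg)))
  rw [← map_inv, gl0_coe, gl0_coe, trace_toLin'_eq, trace_toLin'_eq] at this
  exact this.symm

theorem Reg.facts (h : Reg P p) (hP : P ≤ spGL 2 F) (hp2 : p ≠ 2) (hd : p ∣ Nat.card (MS P)) :
    5 ≤ p ∧ (∀ Q : Sylow p (MS P), ∀ x ∈ Q, ∀ y ∈ Q, x * y = y * x) ∧
    (∀ Q : Sylow p (MS P), ∀ u ∈ Q, u ≠ 1 → ∀ g, g * u = u * g → g ∈ Q) ∧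
    (∀ Q Q' : Sylow p (MS P), ∀ u ∈ Q, u ∈ Q' → u ≠ 1 → Q = Q') ∧
    (∀ (Q : Sylow p (MS P)) (D : Subgroup (MS P)), (∀ d ∈ D, d • Q = Q) →
      (∀ d ∈ D, d ∈ Q → d = 1) → IsCyclic D) ∧
    ∀ Q : Sylow p (MS P), Nat.card Q ≤ Fintype.card F := by
  have h5 := (h.sylow hP hp2 hd default).1
  have hab : ∀ Q : Sylow p (MS P), ∀ x ∈ Q, ∀ y ∈ Q, x * y = y * x := by
    intro Q x hx y hy
    obtain ⟨-, -, a, h1, h2, -⟩ := h.sylow hP hp2 hd Q
    exact congrArg Subtype.val (h1 (a₁ := ⟨x, hx⟩ * ⟨y, hy⟩) (a₂ := ⟨y, hy⟩ * ⟨x, hx⟩)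
      (by rw [h2, h2, add_comm]))
  have hC : ∀ Q : Sylow p (MS P), ∀ u ∈ Q, u ≠ 1 → Subgroup.centralizer {u} = Q := by
    intro Q x hx h1
    obtain ⟨u, hu, rfl⟩ := (h.sylow hP hp2 hd Q).2.1 x hx
    refine Q.is_maximal' (fun g => ⟨1, Subtype.ext ?_⟩) fun g hg =>
      Subgroup.mem_centralizer_singleton_iff.2 (hab Q g hg _ hx)
    rw [pow_one]
    exact h.cent_pow hP h5 hu h1 (Subgroup.mem_centralizer_singleton_iff.1 g.2)
  have hC' : ∀ Q : Sylow p (MS P), ∀ u ∈ Q, u ≠ 1 → ∀ g, g * u = u * g → g ∈ Q := by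
    intro Q u hu h1 g hg
    have := Subgroup.mem_centralizer_singleton_iff.2 hg
    rwa [hC Q u hu h1] at this
  refine ⟨h5, hab, hC', fun Q Q' u h1 h2 h3 => Sylow.ext ((hC Q u h1 h3).symm.trans (hC Q' u h2 h3)),
    fun Q D h1 h2 => ?_, fun Q => ?_⟩
  · obtain ⟨-, -, a, a1, a2, z, a3, a4⟩ := h.sylow hP hp2 hd Q
    have hn : ∀ d : D, ∀ x ∈ Q, (d : MS P) * x * (d : MS P)⁻¹ ∈ Q := fun d x hx =>
      (Subgroup.mem_normalizer_iff.1 (Sylow.smul_eq_iff_mem_normalizer.1 (h1 d d.2)) x).1 hx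
    have z1 : z.1 ≠ 1 := by
      intro h0
      have := a2 z z
      rw [show z * z = z from Subtype.ext (by simp [h0]), a3] at this
      simp at this
    let χ : D →* F :=
      { toFun d := a ⟨_, hn d z z.2⟩
        map_one' := by simpa using a3
        map_mul' d e := by
          rw [mul_comm, ← a4 d (hn d) ⟨_, hn e z z.2⟩]
          congr 2
          simp [mul_assoc] }
    refine isCyclic_of_injective_ringHom χ ((injective_iff_map_eq_one χ).2 fun d hd => ?_)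
    have := congrArg Subtype.val (a1 (hd.trans a3.symm))
    exact Subtype.ext (h2 d d.2 (hC' Q z z.2 z1 d (mul_inv_eq_iff_eq_mul.1 this)))
  · obtain ⟨-, -, a, a1, -⟩ := h.sylow hP hp2 hd Q
    rw [← Nat.card_eq_fintype_card]
    exact Nat.card_le_card_of_injective a a1

/-- If all `p`-elements are regular unipotent and the Sylow `p`-subgroups are permuted doubly
transitively then the residual core is `PSL₂(F)`. -/
theorem psl_of_reg (hodd : Odd (Fintype.card F)) (hP : P ≤ spGL 2 F) (hc : IsResidualCore H P)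
    (h : Reg P p) (hd : p ∣ Nat.card (MS P)) (Q : Sylow p (MS P))
    (hn : Nat.card (Sylow p (MS P)) ≤ Nat.card Q + 1) :
    5 ≤ p ∧ Nat.card Q = Fintype.card F ∧ Nonempty ((MS P) ≃* PSL(2, F)) := by
  have hp2 : p ≠ 2 := by
    rintro rfl
    exact two_ne hodd (CharP.cast_eq_zero F 2)
  obtain ⟨h5, hab, hC, hTI, hcyc, hle⟩ := h.facts hP hp2 hd
  have := hc.simple
  obtain ⟨s, hs⟩ := IsPGroup.iff_card.1 Q.isPGroup'
  have hs0 : s ≠ 0 := by
    rintro rfl
    have := Q.dvd_card_of_dvd_card hd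
    rw [hs, pow_zero, Nat.dvd_one] at this
    omega
  have hK := GaloisField.card p s hs0
  obtain ⟨e⟩ := psl_of_TI (fun h => hc.nonabelian ⟨⟨h⟩⟩) hp2 hd hTI hab hC hcyc Q hn
    (GaloisField p s) (hK.trans hs.symm)
  letI := Fintype.ofFinite (GaloisField p s)
  rw [Nat.card_eq_fintype_card] at hK
  have hq : Fintype.card F ≤ p ^ s := by
    obtain ⟨τ, hτ⟩ := H7.exists_powHom (F := F) (p := p) (k := s)
    by_contra! k
    obtain ⟨a, ha⟩ := H7.exists_pow_ne (Nat.one_lt_pow hs0 hp.out.one_lt) k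
    refine hc.no_subfield _ (H7.fixField_ne_top ⟨a, by rwa [hτ]⟩)
      ((H7.absIrr_iff.2 hc.absIrred).realisableOver _ fun A hA => H7.mem_fixField.2 ?_)
    obtain ⟨m, hm⟩ : Odd (p ^ s) := (hp.out.odd_of_ne_two hp2).pow
    have hsq : ∀ n : ℕ, e (⟨A, hA⟩ : P) ^ n = 1 → A ^ (2 * n) = 1 := by
      intro n hn
      rw [← map_pow, map_eq_one_iff _ e.injective, ← QuotientGroup.mk_pow] at hn
      rw [mul_comm, pow_mul]
      exact congrArg Subtype.val (scal_sq hP hn)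
    rw [hτ, ← trace_pow_char, ← Units.val_pow_eq_pow_val]
    rcases psl2_pow (two_ne (hK ▸ ⟨m, hm⟩)) (hK.trans hm) (e (⟨A, hA⟩ : P)) with h1 | h1 | h1
    · have h2 : (A ^ 2) ^ p ^ s = 1 := by rw [← pow_mul, hm]; exact hsq _ h1
      rw [← map_pow, map_eq_one_iff _ e.injective, ← QuotientGroup.mk_pow,
        QuotientGroup.eq_one_iff, Subgroup.mem_subgroupOf, mem_scalars_iff] at h1
      obtain ⟨c, hc⟩ := h1
      have hc' : (A ^ p ^ s).1 = (c : F) • 1 := by rw [hm]; exact hc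
      have h3 : (c : F) ^ 2 = 1 := by
        rw [← pow_mul, mul_comm, pow_mul] at h2
        have := congrArg Units.val h2
        rw [Units.val_pow_eq_pow_val, hc', _root_.smul_pow, one_pow] at this
        simpa using congrFun (congrFun this (.inl 0)) (.inl 0)
      have h4 : τ ((c : F) * 4) = c * 4 := by
        rw [map_mul, map_ofNat, hτ, hm, pow_succ, pow_mul, h3, one_pow, one_mul]
      have h6 : τ A.1.trace = c * 4 := by
        rw [hτ, ← trace_pow_char, ← Units.val_pow_eq_pow_val, hc']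
        simp
      rw [τ.injective (h6.trans h4.symm), hc']
      simp
    · rw [hm, pow_succ, hsq _ h1, one_mul]
    · have h2 := hsq _ h1
      rw [show 2 * (m + 1) = 2 * m + 1 + 1 by ring, pow_succ, mul_eq_one_iff_eq_inv] at h2
      rw [hm, h2, trace_inv hP hA]
  have hq' : Fintype.card F = p ^ s := le_antisymm hq (hs ▸ hle Q)
  exact ⟨h5, hs.trans hq'.symm,
    ⟨e.trans (H3.pslCongr (FiniteField.ringEquivOfCardEq (hK.trans hq'.symm)))⟩⟩

end

end Cfsg.Agent.H2.SP
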