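import Cfsg.Agent.H6.S5.C2

/-! Groups preserving a perfect pairing: the Fourier lemma. -/

set_option autoImplicit false
set_option linter.unusedSimpArgs false
set_option linter.unusedSectionVars false
set_option linter.unusedVariables false

namespace Cfsg.Agent.H2.CK

open Module Submodule Finset

variable {F V W : Type*} [Field F] [Fintype F] [AddCommGroup V] [Module F V] [FiniteDimensional F V]
  [AddCommGroup W] [Module F W] [FiniteDimensional F W] (Γ : Type*) [Group Γ] [Finite Γ]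
  [DistribMulAction Γ V] [SMulCommClass Γ F V] [DistribMulAction Γ W] [SMulCommClass Γ F W]

local notation "q" => Fintype.card F

/-- an invariant perfect pairing, the group containing the scalars -/
structure Pr (B : V →ₗ[F] W →ₗ[F] F) : Prop where
  l : ∀ v, (∀ w, B v w = 0) → v = 0
  r : ∀ w, (∀ v, B v w = 0) → w = 0
  inv : ∀ (g : Γ) v w, B (g • v) (g • w) = B v w
  sc : ∀ c : F, c ≠ 0 → ∃ z : Γ, (∀ v : V, z • v = c • v) ∧ ∀ w : W, z • w = c⁻¹ • w

/-- the annihilator -/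
def pp (B : V →ₗ[F] W →ₗ[F] F) (S : Submodule F V) : Submodule F W := S.dualAnnihilator.comap B.flip

/-- the stabiliser of a subspace -/
def st (S : Submodule F V) : Subgroup Γ where
  carrier := {g | ∀ v ∈ S, g • v ∈ S}
  mul_mem' a b v hv := by rw [mul_smul]; exact a _ (b _ hv)
  one_mem' v hv := by rwa [one_smul]
  inv_mem' {g} a v hv := by
    have : ∀ n : ℕ, g ^ n • v ∈ S := fun n => by
      induction n with
      | zero => simpa using hv
      | succ n ih => rw [pow_succ', mul_smul]; exact a _ ih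
    have e : g⁻¹ = g ^ (orderOf g - 1) := by
      rw [inv_eq_iff_mul_eq_one, ← pow_succ', Nat.sub_add_cancel (orderOf_pos g), pow_orderOf_eq_one]
    exact e ▸ this _

variable {Γ} {B : V →ₗ[F] W →ₗ[F] F} {S : Submodule F V} {x y z v : V} {φ ψ w : W} {g : Γ}

theorem mem_pp : w ∈ pp B S ↔ ∀ v ∈ S, B v w = 0 := by simp [pp, mem_dualAnnihilator]

theorem mem_st : g ∈ st Γ S ↔ ∀ v ∈ S, g • v ∈ S := Iff.rfl

theorem mem_st1 : g ∈ st Γ (F ∙ x) ↔ g • x ∈ F ∙ x :=
  ⟨fun h => h _ (mem_span_singleton_self x), fun h v hv => by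
    obtain ⟨c, rfl⟩ := mem_span_singleton.1 hv
    rw [smul_comm]; exact smul_mem _ _ h⟩

theorem mem_st2 : g ∈ st Γ (span F {x, y}) ↔ g • x ∈ span F {x, y} ∧ g • y ∈ span F {x, y} :=
  ⟨fun h => ⟨h _ (subset_span (by simp)), h _ (subset_span (by simp))⟩, fun h v hv => by
    obtain ⟨c, d, rfl⟩ := mem_span_pair.1 hv
    rw [smul_add, smul_comm, smul_comm g]; exact add_mem (smul_mem _ _ h.1) (smul_mem _ _ h.2)⟩

theorem sc_st {c : F} (h : ∀ v : V, g • v = c • v) : g ∈ st Γ S := fun v hv => h v ▸ smul_mem _ _ hv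

theorem shift {A : Type*} [AddCommGroup A] [Fintype A] {f : A → ℂ} {a : A} {c : ℂ} (hc : c ≠ 1)
    (h : ∀ x, f (x + a) = c * f x) : ∑ x, f x = 0 := by
  have := Equiv.sum_comp (Equiv.addRight a) f
  simp only [Equiv.coe_addRight, h, ← mul_sum] at this
  exact mul_left_cancel₀ (sub_ne_zero.2 hc) (by linear_combination this)

namespace Pr

variable (h : Pr Γ B)
include h

theorem flip : Pr Γ B.flip :=
  ⟨h.r, h.l, fun g w v => h.inv g v w, fun c hc => by
    obtain ⟨z, a, b⟩ := h.sc c⁻¹ (inv_ne_zero hc)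
    exact ⟨z, by simpa using b, a⟩⟩

theorem inv' (g : Γ) (v : V) (w : W) : B (g • v) w = B v (g⁻¹ • w) := by
  rw [← h.inv g v, smul_inv_smul]

theorem inv'' (g : Γ) (v : V) (w : W) : B v (g • w) = B (g⁻¹ • v) w := by
  rw [← h.inv g _ w, smul_inv_smul]

theorem le : finrank F V ≤ finrank F W := by
  rw [← Subspace.dual_finrank_eq (K := F) (V := W)]
  exact LinearMap.finrank_le_finrank_of_injective (f := B)
    ((injective_iff_map_eq_zero B).2 fun v e => h.l v (LinearMap.congr_fun e))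

theorem fr : finrank F W = finrank F V := h.flip.le.antisymm h.le

theorem bij : Function.Bijective B.flip := by
  have i : Function.Injective B.flip :=
    (injective_iff_map_eq_zero B.flip).2 fun v e => h.r v (LinearMap.congr_fun e)
  exact ⟨i, (LinearMap.injective_iff_surjective_of_finrank_eq_finrank
    (h.fr.trans Subspace.dual_finrank_eq.symm)).1 i⟩

theorem sep (hv : v ∉ S) : ∃ w, B v w = 1 ∧ ∀ s ∈ S, B s w = 0 := by
  obtain ⟨f, f1, f2⟩ := H6.exists_dual_one hv
  obtain ⟨w, rfl⟩ := h.bij.2 f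
  exact ⟨w, f2, f1⟩

theorem ex1 (hv : v ≠ 0) : ∃ w, B v w = 1 := (h.sep (S := ⊥) (by simpa)).imp fun _ a => a.1

theorem ex2 (hv : y ∉ F ∙ x) : ∃ w, B x w = 0 ∧ B y w = 1 :=
  (h.sep hv).imp fun _ a => ⟨a.2 _ (mem_span_singleton_self x), a.1⟩

theorem ex3 (hv : z ∉ span F {x, y}) : ∃ w, B x w = 0 ∧ B y w = 0 ∧ B z w = 1 :=
  (h.sep hv).imp fun _ a => ⟨a.2 _ (subset_span (by simp)), a.2 _ (subset_span (by simp)), a.1⟩

theorem fr_pp (S : Submodule F V) : finrank F S + finrank F (pp B S) = finrank F V := by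
  rw [← Subspace.finrank_add_finrank_dualAnnihilator_eq S]
  congr 1
  exact ((LinearEquiv.ofBijective _ h.bij).ofSubmodule' S.dualAnnihilator).finrank_eq

theorem mem_of_pp (hv : ∀ w ∈ pp B S, B v w = 0) : v ∈ S := by
  by_contra e
  obtain ⟨w, a, b⟩ := h.sep e
  simp [hv w (mem_pp.2 b)] at a

theorem pp_pp (S : Submodule F V) : pp B.flip (pp B S) = S :=
  le_antisymm (fun v hv => h.mem_of_pp (mem_pp.1 hv)) fun v hv => mem_pp.2 fun w hw => mem_pp.1 hw v hv

theorem st_pp (hg : g ∈ st Γ S) : g ∈ st Γ (pp B S) := fun w hw => mem_pp.2 fun v hv => by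
  rw [h.inv'']; exact mem_pp.1 hw _ (inv_mem hg v hv)

theorem ft (O : Set V) (X U : Submodule F V) (hO : ∀ v ∈ O, ∀ a ∈ X, v + a ∈ O)
    (ht : ∀ w ∈ pp B X, ∀ w' ∈ pp B X, w ∉ pp B U → w' ∉ pp B U →
      ∃ g : Γ, g • w = w' ∧ ∀ v, g • v ∈ O ↔ v ∈ O)
    {v u : V} (hv : v ∈ O) (h1 : v ∉ X) (hu : u ∈ U) (h2 : v + u ∉ X) : v + u ∈ O := by
  classical
  have : Finite V := Module.finite_of_finite F
  have : Finite W := Module.finite_of_finite F
  have := Fintype.ofFinite V
  have := Fintype.ofFinite W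
  let e := AddChar.FiniteField.primitiveChar_to_Complex F
  obtain ⟨c, hc⟩ : ∃ c, e c ≠ 1 := by
    by_contra! hh
    exact AddChar.FiniteField.primitiveChar_to_Complex_isPrimitive F (one_ne_zero (α := F))
      (by ext a; simpa using hh _)
  let f : W → ℂ := fun w => ∑ v, if v ∈ O then e (B v w) else 0
  have s1 : ∀ (T : Submodule F W) v, (∃ w ∈ T, B v w ≠ 0) →
      ∑ w, (if w ∈ T then e (B v w) else 0) = 0 := fun T v ⟨w, hw, n⟩ =>
    shift (a := (c / B v w) • w) hc fun y => by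
      have m := smul_mem T (c / B v w) hw
      rw [map_add, map_smul, smul_eq_mul, div_mul_cancel₀ _ n, AddChar.map_add_eq_mul]
      simp only [T.add_mem_iff_left m]
      split_ifs <;> simp [mul_comm]
  have s2 : ∀ v, ∑ w, f w * e (B (-v) w) = if v ∈ O then (Fintype.card W : ℂ) else 0 := fun v => by
    simp only [f, sum_mul]
    rw [sum_comm, sum_eq_single v]
    · split_ifs <;> simp [← AddChar.map_add_eq_mul]
    · intro y _ n
      split_ifs
      · simpa [← AddChar.map_add_eq_mul, sub_eq_add_neg] using s1 ⊤ (y - v) (by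
          by_contra! hh; exact n (sub_eq_zero.1 (h.l _ fun w => hh w trivial)))
      · simp
    · simp
  have s3 : ∀ w, w ∉ pp B X → f w = 0 := fun w hw => by
    rw [mem_pp] at hw
    push Not at hw
    obtain ⟨a, ha, n⟩ := hw
    refine shift (a := (c / B a w) • a) hc fun y => ?_
    have m := smul_mem X (c / B a w) ha
    have : y + (c / B a w) • a ∈ O ↔ y ∈ O := ⟨fun k => by simpa using hO _ k _ (neg_mem m), fun k => hO _ k _ m⟩
    simp only [this, map_add, map_smul, LinearMap.add_apply, LinearMap.smul_apply, smul_eq_mul,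
      div_mul_cancel₀ _ n, AddChar.map_add_eq_mul]
    split_ifs <;> simp [mul_comm]
  obtain ⟨a, ha⟩ : ∃ a, ∀ w ∈ pp B X, w ∉ pp B U → f w = a := by
    by_cases k : ∃ w ∈ pp B X, w ∉ pp B U
    · obtain ⟨w', a, b⟩ := k
      refine ⟨f w', fun w c d => ?_⟩
      obtain ⟨g, rfl, k⟩ := ht w c w' a d b
      exact Fintype.sum_equiv (MulAction.toPerm g) _ _ fun y => by simp [k, h.inv]
    · exact ⟨0, fun w a b => absurd ⟨w, a, b⟩ k⟩
  have s4 : ∀ v, v ∉ X → ∑ w, (if w ∈ pp B X then e (B (-v) w) else 0) = 0 := fun v hv =>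
    s1 _ _ (by by_contra! hh; exact hv (h.mem_of_pp fun w hw => by simpa using hh w hw))
  have s5 : ∑ w, (f w * e (B (-v) w) - f w * e (B (-(v + u)) w)) =
      ∑ w, (a * (if w ∈ pp B X then e (B (-v) w) else 0) -
        a * (if w ∈ pp B X then e (B (-(v + u)) w) else 0)) := sum_congr rfl fun w _ => by
    by_cases k : w ∈ pp B U
    · simp [mem_pp.1 k u hu]
    by_cases k' : w ∈ pp B X
    · simp [ha w k' k, k']
    · simp [s3 w k', k']
  rw [sum_sub_distrib, sum_sub_distrib, ← mul_sum, ← mul_sum, s2, s2, s4 _ h1, s4 _ h2, if_pos hv] at s5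
  by_contra n
  simp [n] at s5

theorem ft' (Y : Subgroup Γ) (U : Submodule F V)
    (ht : ∀ w w', w ∉ pp B U → w' ∉ pp B U → ∃ g ∈ Y, g • w = w')
    {v v' : V} (h1 : v ≠ 0) (hu : v' - v ∈ U) (h2 : v' ≠ 0) : ∃ g ∈ Y, g • v = v' := by
  have := h.ft {y | ∃ g ∈ Y, g • v = y} ⊥ U (by simp) (fun w _ w' _ a b => by
    obtain ⟨g, hg, e⟩ := ht w w' a b
    exact ⟨g, e, fun y => ⟨fun ⟨k, hk, e⟩ => ⟨g⁻¹ * k, mul_mem (inv_mem hg) hk, by simp [mul_smul, e]⟩,
      fun ⟨k, hk, e⟩ => ⟨g * k, mul_mem hg hk, by simp [mul_smul, e]⟩⟩⟩)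
    (v := v) ⟨1, one_mem _, one_smul _ _⟩ (by simpa) hu (by simpa)
  simpa using this

end Pr

end Cfsg.Agent.H2.CK
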