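import Cfsg.Agent.H2.CK9

/-! General lemmas on flags. -/

set_option autoImplicit false
set_option linter.unusedSimpArgs false
set_option linter.unusedSectionVars false
set_option linter.unusedVariables false

namespace Cfsg.Agent.H2.CK

open Module Submodule

variable {F V W : Type*} [Field F] [Fintype F] [AddCommGroup V] [Module F V] [FiniteDimensional F V]
  [AddCommGroup W] [Module F W] [FiniteDimensional F W] {Γ : Type*} [Group Γ] [Finite Γ]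
  [DistribMulAction Γ V] [SMulCommClass Γ F V] [DistribMulAction Γ W] [SMulCommClass Γ F W]
  {B : V →ₗ[F] W →ₗ[F] F} {S T : Submodule F V} {x y z v x' y' v' : V} {φ ψ χ w φ' ψ' : W} {g : Γ}
  {p : ℕ} [Fact p.Prime] [CharP F p] {Q : Sylow p Γ}

local notation "q" => Fintype.card F
local notation "ℓ[" x ", " y "]" => span F {x, y}

theorem Pr.orb (h : Pr Γ B) (Y : Subgroup Γ) (X U : Submodule F V) (hY : Y ≤ st Γ X)
    (h1 : ∀ v, v ∉ X → ∀ a ∈ X, ∃ g ∈ Y, g • v = v + a)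
    (ht : ∀ w ∈ pp B X, ∀ w' ∈ pp B X, w ∉ pp B U → w' ∉ pp B U → ∃ g ∈ Y, g • w = w')
    {v u : V} (hv : v ∉ X) (hu : u ∈ U) (h2 : v + u ∉ X) : ∃ g ∈ Y, g • v = v + u :=
  h.ft {t | ∃ g ∈ Y, g • v = t} X U (by
    rintro _ ⟨g, hg, rfl⟩ a ha
    obtain ⟨k, hk, e⟩ := h1 _ (nm_st (hY hg) hv) a ha
    exact ⟨k * g, mul_mem hk hg, by rw [mul_smul, e]⟩) (fun w a w' b c d => by
      obtain ⟨g, hg, e⟩ := ht w a w' b c d
      refine ⟨g, e, fun t => ⟨?_, ?_⟩⟩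
      · rintro ⟨k, hk, e⟩; exact ⟨g⁻¹ * k, mul_mem (inv_mem hg) hk, by rw [mul_smul, e, inv_smul_smul]⟩
      · rintro ⟨k, hk, rfl⟩; exact ⟨g * k, mul_mem hg hk, mul_smul _ _ _⟩)
    ⟨1, one_mem _, one_smul _ _⟩ hv hu h2

theorem Pr.pp_mp (h : Pr Γ B) (g : Γ) (S : Submodule F V) : pp B (mp g S) = mp g (pp B S) := by
  ext w
  simp only [mem_pp, mem_mp]
  exact ⟨fun k v hv => by rw [← h.inv']; exact k _ (by simpa), fun k v hv => by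
    have := k _ hv; rwa [h.inv] at this⟩

namespace Cf

variable (h : Cf Γ B)
include h

theorem qin (h1 : Q.1 ≤ st Γ ℓ[x, y]) (h2 : Fx Q x) (x0 : x ≠ 0) (h3 : Q.1 ≤ st Γ S) (a : x ∈ S)
    (b : 2 ≤ finrank F S) : y ∈ S := by
  obtain ⟨z, m, n⟩ := SetLike.exists_of_lt (lt_of_le_of_ne (le1.2 a) fun e => by
    rw [← e, fr1 x0] at b; omega)
  obtain ⟨z, m, n, k⟩ := step h2.st h3 m n
  exact ln_le.2 ⟨a, m⟩ (h.uql (fun g hg => mem_st2.2 ⟨l3 (mem_st1.1 (h2.st hg)), by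
    simpa using add_mem (l3 (k g hg) : _ ∈ ℓ[x, z]) (l2 x z)⟩) h1 h2 x0 n)

theorem xt (x : V) (φ : W) : x ∈ pp B.flip (Ul Γ p φ x) := mem_pp.2 fun w k => h.flip.ul_orth k

theorem th (x0 : x ≠ 0) (φ0 : φ ≠ 0) (e : B x φ = 0) : pp B.flip (Ul Γ p φ x) ≤ pp B.flip (F ∙ φ) :=
  fun v hv => pp1.2 (mem_pp.1 hv _ (h.flip.ul_self φ0 x0 e))

/-- A0 -/
theorem ut (x0 : x ≠ 0) (φ0 : φ ≠ 0)
    (b : finrank F (Ul Γ p φ x : Submodule F W) + 2 ≤ finrank F V) :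
    (Ul Γ p x φ : Submodule F V) ≤ pp B.flip (Ul Γ p φ x) := span_le.2 fun y hy => by
  obtain ⟨Q, k1, k2, k3⟩ := h.pr x0 hy
  have c := h.flip.fr_pp (Ul Γ p φ x)
  rw [h.fr] at c
  exact h.qin k1 k3 x0 (fun g hg => h.flip.st_pp (st_ul (k2.st hg) (k3.st hg) φ0 x0)) (h.xt x φ) (by omega)

/-- A1 -/
theorem cos (x0 : x ≠ 0) (φ0 : φ ≠ 0) (e : B x φ = 0) {u : V} (a : v ∉ F ∙ x)
    (b : u ∈ (Ul Γ p x φ : Submodule F V)) (c : v + u ∉ F ∙ x) :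
    ∃ g ∈ st Γ (F ∙ x) ⊓ st Γ (F ∙ φ), g • v = v + u :=
  h.orb _ (F ∙ x) _ inf_le_left (fun v a t b => h.t2 (p := p) x0 φ0 e (nz a)
    (nz (S := F ∙ x) fun k => a (by simpa using sub_mem k b)) (by simpa))
    (fun w a w' b c d => h.tb' x0 (pp1.1 a) (pp1.1 b) c d) a b c

theorem cos' (x0 : x ≠ 0) (φ0 : φ ≠ 0) (e : B x φ = 0) (a : y ∉ F ∙ x) (a' : y ∈ (Ul Γ p x φ : Submodule F V))
    (b : z ∉ F ∙ x) (b' : z ∈ (Ul Γ p x φ : Submodule F V)) :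
    ∃ g ∈ st Γ (F ∙ x) ⊓ st Γ (F ∙ φ), g • y = z := by
  simpa using h.cos x0 φ0 e a (sub_mem b' a') (by simpa)

theorem ust (φ0 : φ ≠ 0) (hg : g ∈ st Γ (F ∙ φ)) (v : V) :
    (Ul Γ p (g • v) φ : Submodule F V) = mp g (Ul Γ p v φ) := by
  by_cases v0 : v = 0
  · subst v0
    rw [← ul_mp, smul_zero]
    have : g • φ ≠ 0 := ne0 φ0 g
    simp only [Ul]
    congr; ext y
    exact ⟨fun k => k.of (mem_st1.1 hg) this, fun k => k.of (mem_sp1 (mem_st1.1 hg) this) φ0⟩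
  rw [← ul_mp, ul_congr (sp1 _) (ne0 v0 g) (mem_st1.1 hg) (ne0 φ0 g)]

theorem tst (φ0 : φ ≠ 0) (hg : g ∈ st Γ (F ∙ φ)) (v0 : v ≠ 0) :
    pp B.flip (Ul Γ p φ (g • v)) = mp g (pp B.flip (Ul Γ p φ v)) := by
  rw [← h.flip.pp_mp, ← ul_mp, ul_congr (mem_st1.1 hg) (ne0 φ0 g) (sp1 _) (ne0 v0 g)]

theorem tsym (x0 : x ≠ 0) (φ0 : φ ≠ 0) (e : B x φ = 0) (z0 : z ≠ 0) (k : z ∈ pp B.flip (Ul Γ p φ x)) :
    x ∈ pp B.flip (Ul Γ p φ z) := by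
  by_contra n
  have : Finite V := Module.finite_of_finite F
  have e' := pp1' (h.th x0 φ0 e k)
  have key : ∀ x' z', x' ≠ 0 → B x' φ = 0 → B z' φ = 0 → z' ∉ pp B.flip (Ul Γ p φ x') →
      x' ∈ pp B.flip (Ul Γ p φ z') := fun x' z' c d f n' => by
    obtain ⟨g, g1, g2⟩ := h.fl z φ x' φ z0 φ0 e' c φ0 d
    replace g2 := mem_st1.2 g2
    have e1 : (Ul Γ p φ (g • z) : Submodule F W) = Ul Γ p φ x' := ul_congr (sp1 _) φ0 g1 (ne0 z0 g)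
    obtain ⟨l, hl, rfl⟩ := h.flip.tb' (p := p) (x := φ) (φ := x') (ψ := g • x) φ0
      (pp1.1 (h.flip.st_pp g2 _ (pp1.2 e))) f (by rwa [← e1, h.tst φ0 g2 z0, smul_mp]) n'
    have : l • g • z ∈ pp B.flip (Ul Γ p φ (l • g • x)) := by
      rwa [h.tst φ0 hl.1 (ne0 x0 g), smul_mp, h.tst φ0 g2 x0, smul_mp]
    exact le1.2 this (mem_sp1 (hl.2 _ g1) (ne0 (ne0 z0 g) l))
  obtain ⟨ψ, b⟩ := h.flip.exn1 φ
  have fr : ∀ v, v ≠ 0 → B v φ = 0 → finrank F (pp B.flip (Ul Γ p φ v)) = finrank F (pp B.flip (Ul Γ p φ x)) :=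
    fun v c d => by
      have := h.flip.fr_ul (p := p) φ0 c d φ0 b
      have := h.flip.fr_ul (p := p) φ0 x0 e φ0 b
      have := h.flip.fr_pp (Ul Γ p φ v)
      have := h.flip.fr_pp (Ul Γ p φ x)
      omega
  have lt : finrank F (pp B.flip (Ul Γ p φ x)) < finrank F (pp B.flip (F ∙ φ)) := by
    rw [← fr z z0 e']
    exact finrank_lt_finrank_of_lt (lt_of_le_of_ne (h.th z0 φ0 e') fun k => n (k ▸ pp1.2 e))
  have := dc ((pp B.flip (F ∙ φ) : Set V) \ {0}) ((pp B.flip (F ∙ φ) : Set V) \ {0})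
    (fun y' z' => z' ∉ pp B.flip (Ul Γ p φ y'))
    (m := q ^ finrank F (pp B.flip (F ∙ φ)) - q ^ finrank F (pp B.flip (Ul Γ p φ x)))
    (n := q ^ finrank F (pp B.flip (Ul Γ p φ x)) - 1)
    (fun y' hy => by
      rw [← fr y' hy.2 (pp1' hy.1), ← ncard_diff (h.th hy.2 φ0 (pp1' hy.1))]
      exact Set.ncard_le_ncard fun v hv => ⟨⟨hv.1, nz hv.2⟩, hv.2⟩)
    fun z' hz => by
      rw [← fr z' hz.2 (pp1' hz.1), ← ncard_nz]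
      exact Set.ncard_le_ncard fun v hv => ⟨key v z' hv.1.2 (pp1' hv.1.1) (pp1' hz.1) hv.2, hv.1.2⟩
  have := Nat.le_of_mul_le_mul_left this ((Set.ncard_pos (Set.toFinite _)).2 ⟨x, pp1.2 e, x0⟩)
  have q2 : 2 ≤ q := Fintype.one_lt_card
  have k1 := Nat.pow_le_pow_right (n := q) (by omega) lt
  have k2 := Nat.one_le_pow (finrank F (pp B.flip (Ul Γ p φ x))) q (by omega)
  rw [pow_succ] at k1
  have := Nat.mul_le_mul_left (q ^ finrank F (pp B.flip (Ul Γ p φ x))) q2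
  omega

theorem t2y {Y : Subgroup Γ} (hY : Sc F V W Y) (hQ : Q.1 ≤ Y) (e1 : Fx Q x) (v0 : v ≠ 0) (v1 : v' ≠ 0)
    (a : v' - v ∈ F ∙ x) : ∃ g ∈ Y, g • v = v' := by
  refine h.ft' _ _ (fun w w' c d => ?_) v0 a v1
  rw [pp1] at c d
  refine ov (B := B.flip) hY.flip ⊤ {x} ?_ trivial trivial ⟨x, rfl, c⟩ ⟨x, rfl, d⟩
  rintro _ rfl ψ - ψ' - c d
  obtain ⟨g, hg, e⟩ := h.s1 e1 c d
  exact ⟨g, hQ hg, e⟩

include p in
theorem trl2 (x0 : x ≠ 0) (a : y ∉ F ∙ x) (b : v ∉ ℓ[x, y]) {u : V} (c : u ∈ ℓ[x, y]) :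
    ∃ g ∈ st Γ (F ∙ x) ⊓ st Γ ℓ[x, y], g • v = v + u := by
  obtain ⟨φ, k⟩ := h.exph p x0 a
  obtain ⟨Q, k1, -, k3⟩ := h.pr x0 k
  have hQ : Q.1 ≤ st Γ (F ∙ x) ⊓ st Γ ℓ[x, y] := le_inf k3.st k1
  refine h.orb _ (F ∙ x) _ inf_le_left (fun v a t b => h.t2y (h.sc2 _ _) hQ k3 (nz a)
    (nz (S := F ∙ x) fun k => a (by simpa using sub_mem k b)) (by simpa)) (fun w a w' b c d => ?_)
    (fun e => b (l3 e)) c fun e => b (by simpa using sub_mem (l3 e) c)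
  refine ov (B := B.flip) (h.sc2 _ _).flip (pp B (F ∙ x)) {y} ?_ a b
    ⟨y, rfl, fun e => c (pp2.2 ⟨pp1.1 a, e⟩)⟩ ⟨y, rfl, fun e => d (pp2.2 ⟨pp1.1 b, e⟩)⟩
  rintro _ rfl ψ i ψ' j c d
  obtain ⟨g, hg, e⟩ := h.s3 k1 k3 x0 ‹_› (pp1.1 i) c (pp1.1 j) d
  exact ⟨g, hQ hg, e⟩

end Cf

end Cfsg.Agent.H2.CK
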