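import Cfsg.Agent.H2.CK10

/-! The case of planes, I. -/

set_option autoImplicit false
set_option linter.unusedSimpArgs false
set_option linter.unusedSectionVars false
set_option linter.unusedVariables false

namespace Cfsg.Agent.H2.CK

open Module Submodule

variable {F V W : Type*} [Field F] [Fintype F] [AddCommGroup V] [Module F V] [FiniteDimensional F V]
  [AddCommGroup W] [Module F W] [FiniteDimensional F W] {Γ : Type*} [Group Γ] [Finite Γ]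
  [DistribMulAction Γ V] [SMulCommClass Γ F V] [DistribMulAction Γ W] [SMulCommClass Γ F W]
  {B : V →ₗ[F] W →ₗ[F] F} {S T : Submodule F V} {x y z v x' y' v' : V} {φ ψ χ w φ' ψ' : W} {g : Γ}
  {p : ℕ} [Fact p.Prime] [CharP F p] {Q : Sylow p Γ}

local notation "q" => Fintype.card F
local notation "ℓ[" x ", " y "]" => span F {x, y}

variable (p Γ W) in
/-- span of the special planes on a flag -/
def Nx (x : V) (S : Submodule F V) : Submodule F V := span F {v | ∃ φ : W, Ph Γ p S φ ∧ Ph Γ p ℓ[x, v] φ}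

variable (p Γ W) in
/-- span of the special planes on a line -/
def Nl (S : Submodule F V) : Submodule F V :=
  span F {v | ∃ x ∈ S, x ≠ 0 ∧ ∃ φ : W, Ph Γ p S φ ∧ Ph Γ p ℓ[x, v] φ}

theorem lnx (hS : finrank F S = 2) (a : x ∈ S) (x0 : x ≠ 0) : ∃ y, y ∉ F ∙ x ∧ ℓ[x, y] = S := by
  obtain ⟨z, m, n⟩ := SetLike.exists_of_lt (lt_of_le_of_ne (le1.2 a) fun e => by
    rw [← e, fr1 x0] at hS; omega)
  exact ⟨z, n, ln_eq' hS.le x0 n a m⟩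

theorem npp {I : Set V} (c : w ∉ pp B (span F I)) : ∃ y ∈ I, B.flip w y ≠ 0 := by
  by_contra! hh
  exact c (mem_pp.2 fun v hv => (span_le (p := LinearMap.ker (B.flip w))).2 hh hv)

theorem nl_mp (g : Γ) (S : Submodule F V) : Nl W Γ p (mp g S) = mp g (Nl W Γ p S) := by
  rw [mp.eq_1 g (Nl W Γ p S), Nl, Nl, map_span]
  congr; ext v
  refine ⟨fun ⟨x, a, b, φ, c, d⟩ => ⟨g⁻¹ • v, ⟨g⁻¹ • x, mem_mp.1 a, ne0 b _, g⁻¹ • φ, ?_, ?_⟩, by simp⟩, ?_⟩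
  · exact mp_inv g S ▸ Ph.mp c g⁻¹
  · simpa [mp_pair] using d.mp g⁻¹
  · rintro ⟨v, ⟨x, a, b, φ, c, d⟩, rfl⟩
    exact ⟨g • x, smul_mp.2 a, ne0 b _, g • φ, c.mp g, by simpa [mp_pair] using d.mp g⟩

namespace Cf

variable (h : Cf Γ B)
include h

section

variable (u : ∀ (x : V) (φ : W), x ≠ 0 → φ ≠ 0 → B x φ = 0 → finrank F (Ul Γ p x φ : Submodule F V) = 3)
include u

theorem fa (x0 : x ≠ 0) (a : y ∉ F ∙ x) : finrank F (pp B (Wl Γ B p ℓ[x, y])) = 2 := by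
  obtain ⟨φ, k⟩ := h.exph p x0 a
  have := h.fr_ul (p := p) x0 k.1 (h.po1 k) x0 a
  have := u x φ x0 k.1 (h.po1 k)
  have := h.fr_pp (Wl Γ B p ℓ[x, y])
  omega

theorem al (x0 : x ≠ 0) (a : y ∉ F ∙ x) (b : ψ ∉ F ∙ φ) (k1 : Ph Γ p ℓ[x, y] φ) (k2 : Ph Γ p ℓ[x, y] ψ) :
    ℓ[φ, ψ] = pp B (Wl Γ B p ℓ[x, y]) := ln_eq' (h.fa u x0 a).le k1.1 b (h.ph_pp k1) (h.ph_pp k2)

theorem a2a (x0 : x ≠ 0) (a : y ∉ F ∙ x) (b : ψ ∉ F ∙ φ) (k1 : Ph Γ p ℓ[x, y] φ) (k2 : Ph Γ p ℓ[x, y] ψ) :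
    Ph Γ p ℓ[φ, ψ] x := by
  obtain ⟨Q, a1, a2, a3⟩ := h.pr x0 k1
  exact ⟨x0, Q, fun g hg => h.al u x0 a b k1 k2 ▸ h.st_pp (h.st_wl (a1 hg)), a3⟩

theorem back (φ0 : φ ≠ 0) (k : Ph Γ p ℓ[φ, ψ] x) (ψ0 : ψ ≠ 0) :
    ∃ y, y ∉ F ∙ x ∧ Ph Γ p ℓ[x, y] φ ∧ Ph Γ p ℓ[x, y] ψ := by
  obtain ⟨Q, k1, k2, k3⟩ := h.flip.pr φ0 k
  obtain ⟨z, n⟩ := h.exn1 x
  obtain ⟨z, -, n, m⟩ := step k2.st (T := ⊤) (fun _ _ _ _ => trivial) trivial n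
  have s : Q.1 ≤ st Γ ℓ[x, z] := fun g hg => mem_st2.2 ⟨l3 (mem_st1.1 (k2.st hg)), by
    simpa using add_mem (l3 (m g hg) : _ ∈ ℓ[x, z]) (l2 x z)⟩
  have j : Ph Γ p ℓ[x, z] φ := ⟨φ0, Q, s, k3⟩
  exact ⟨z, n, j, h.ta k.1 n ψ0 (h.flip.qin k1 k3 φ0 (fun g hg => h.st_pp (h.st_wl (s hg))) (h.ph_pp j)
    (h.fa u k.1 n).ge)⟩

theorem b2 (x0 : x ≠ 0) (φ0 : φ ≠ 0) (e : B x φ = 0) : finrank F (Ul Γ p φ x : Submodule F W) ≤ 3 := by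
  have : Finite V := Module.finite_of_finite F
  have : Finite W := Module.finite_of_finite F
  have := dc ((Ul Γ p φ x : Submodule F W) \ (F ∙ φ) : Set W) ((Ul Γ p x φ : Submodule F V) \ (F ∙ x) : Set V)
    (fun ψ y => Ph Γ p ℓ[x, y] ψ) (m := q ^ 2 - q ^ 1) (n := q ^ 2 - q ^ 1) (fun ψ k => by
      obtain ⟨y, a, k1, k2⟩ := h.back u φ0 ((h.flip.mem_ul φ0 x0 e).1 k.1) (nz k.2)
      rw [← fr2 x0 a, ← fr1 (F := F) x0, ← ncard_diff (le1.2 (l1 _ _))]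
      refine Set.ncard_le_ncard fun t ht => ?_
      have e := ln_eq x0 ht.2 (l1 _ _) ht.1
      exact ⟨⟨subset_span (e ▸ k1 :), ht.2⟩, e ▸ k2⟩)
    fun y k => by
      rw [← h.fa u x0 k.2, ← fr1 (F := F) φ0, ← ncard_diff (le1.2 (h.ph_pp ((h.mem_ul x0 φ0 e).1 k.1)))]
      exact Set.ncard_le_ncard fun t ht => ⟨h.ph_pp ht.2, ht.1.2⟩
  rw [ncard_diff (le1.2 (h.ul_self x0 φ0 e)), ncard_diff (le1.2 (h.flip.ul_self φ0 x0 e)), u x φ x0 φ0 e,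
    fr1 x0, fr1 φ0] at this
  have q2 : 2 ≤ q := Fintype.one_lt_card
  have k := Nat.le_of_mul_le_mul_right this (Nat.sub_pos_of_lt (Nat.pow_lt_pow_right q2 (by omega)))
  by_contra! n
  have := Nat.pow_lt_pow_right q2 n
  have := Nat.pow_lt_pow_right q2 (show 1 < 3 by omega)
  omega

theorem u3 (x0 : x ≠ 0) (a : y ∉ F ∙ x) (k : Ph Γ p ℓ[x, y] φ) (b : v ∉ ℓ[x, y])
    (c : v ∈ (Ul Γ p x φ : Submodule F V)) : ℓ[x, y] ⊔ F ∙ v = Ul Γ p x φ :=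
  eq_of_le_of_finrank_eq (le3 (h.ul_self x0 k.1 (h.po1 k)) (subset_span k) c)
    ((fr3 x0 a b).trans (u x φ x0 k.1 (h.po1 k)).symm)

theorem trA (x0 : x ≠ 0) (a : y ∉ F ∙ x) (k : Ph Γ p ℓ[x, y] φ) (b : ψ ∈ pp B ℓ[x, y]) (b' : ψ' ∈ pp B ℓ[x, y])
    (m : v ∈ (Ul Γ p x φ : Submodule F V)) (c : B v ψ = 1) (c' : B v ψ' = 1) :
    ∃ g ∈ st Γ (F ∙ x) ⊓ st Γ ℓ[x, y], g • ψ = ψ' := by
  have n : ψ' ∉ pp B (Ul Γ p x φ) := fun e => by simp [mem_pp.1 e v m] at c'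
  obtain ⟨g, hg, rfl⟩ := h.tb' x0 (pp2.1 b).1 (pp2.1 b').1 (fun e => by simp [mem_pp.1 e v m] at c) n
  refine ⟨g, ⟨hg.1, mem_st2.2 ⟨l3 (mem_st1.1 hg.1), by_contra fun e => n ?_⟩⟩, rfl⟩
  rw [← h.u3 u x0 a k e (st_ul hg.1 hg.2 x0 k.1 _ (subset_span k))]
  exact mem_pp.2 fun t m => (le3 (S := LinearMap.ker (B.flip (g • ψ))) (pp2.1 b').1 (pp2.1 b').2
    (by simpa [h.inv] using (pp2.1 b).2)) m

theorem orbN (x0 : x ≠ 0) (a : y ∉ F ∙ x) (b : v ∉ ℓ[x, y]) (b' : v' ∉ ℓ[x, y]) (c : v ∈ Nx W Γ p x ℓ[x, y])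
    (c' : v' ∈ Nx W Γ p x ℓ[x, y]) : ∃ g ∈ st Γ (F ∙ x) ⊓ st Γ ℓ[x, y], g • v = v' := by
  simpa using h.orb _ ℓ[x, y] (Nx W Γ p x ℓ[x, y]) inf_le_right (fun v b t c => h.trl2 (p := p) x0 a b c)
    (fun w i w' j c d => ov (B := B.flip) (h.sc2 _ _).flip (pp B ℓ[x, y])
      {v | ∃ φ : W, Ph Γ p ℓ[x, y] φ ∧ Ph Γ p ℓ[x, v] φ} (fun t ⟨φ, k1, k2⟩ ψ i ψ' j c d =>
      h.trA u x0 a k1 i j (subset_span k2) c d) i j (npp c) (npp d)) b (sub_mem c' c) (by simpa)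

theorem unx (x0 : x ≠ 0) (k : Ph Γ p ℓ[x, y] φ) : Ul Γ p x φ ≤ Nx W Γ p x ℓ[x, y] :=
  span_mono fun v m => ⟨φ, k, m⟩

theorem mem_nx (x0 : x ≠ 0) (a : y ∉ F ∙ x) (c : v ∈ Nx W Γ p x ℓ[x, y]) :
    ∃ φ : W, Ph Γ p ℓ[x, y] φ ∧ v ∈ (Ul Γ p x φ : Submodule F V) := by
  obtain ⟨φ, k⟩ := h.exph p x0 a
  have le : ℓ[x, y] ≤ Ul Γ p x φ := ln_le.2 ⟨h.ul_self x0 k.1 (h.po1 k), subset_span k⟩
  by_cases b : v ∈ ℓ[x, y]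
  · exact ⟨φ, k, le b⟩
  obtain ⟨t, m, n⟩ := SetLike.exists_of_lt (lt_of_le_of_ne le fun e => by
    have := u x φ x0 k.1 (h.po1 k); rw [← e, fr2 x0 a] at this; omega)
  obtain ⟨g, hg, rfl⟩ := h.orbN u x0 a n b (h.unx u x0 k m) c
  refine ⟨g • φ, mp_st hg.2 ▸ k.mp g, ?_⟩
  rwa [← ul_congr (mem_st1.1 hg.1) (ne0 x0 g) (sp1 _) (ne0 k.1 g), ul_mp, smul_mp]

variable (u' : ∀ (φ : W) (x : V), φ ≠ 0 → x ≠ 0 → B.flip φ x = 0 → finrank F (Ul Γ p φ x : Submodule F W) = 3)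
include u'

theorem bl (x0 : x ≠ 0) (a : y ∉ F ∙ x) (b : ψ ∉ F ∙ φ) (k1 : Ph Γ p ℓ[x, y] φ) (k2 : Ph Γ p ℓ[x, y] ψ)
    (k : Ph Γ p ℓ[φ, ψ] z) : z ∈ ℓ[x, y] := by
  rw [h.flip.al u' k1.1 b a (h.a2a u x0 a b k1 k2)
    (h.a2a u (nz a) (ind_symm x0 a) b (ln_comm (F := F) x y ▸ k1) (ln_comm (F := F) x y ▸ k2))]
  exact h.flip.ph_pp k

theorem a2b (x0 : x ≠ 0) (a : y ∉ F ∙ x) (b : ψ ∉ F ∙ φ) (k1 : Ph Γ p ℓ[x, y] φ) (k2 : Ph Γ p ℓ[x, y] ψ)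
    (j1 : z ∈ (Ul Γ p x φ : Submodule F V)) (j2 : z ∈ (Ul Γ p x ψ : Submodule F V)) : z ∈ ℓ[x, y] := by
  by_cases m : z ∈ F ∙ x
  · exact l3 m
  rw [h.mem_ul x0 k1.1 (h.po1 k1), ln_comm] at j1
  rw [h.mem_ul x0 k2.1 (h.po1 k2), ln_comm] at j2
  exact h.bl u u' x0 a b k1 k2 (h.a2a u (nz m) (ind_symm x0 m) b j1 j2)

theorem nx4 (x0 : x ≠ 0) (a : y ∉ F ∙ x) : finrank F (Nx W Γ p x ℓ[x, y]) = 4 := by
  have : Finite V := Module.finite_of_finite F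
  have : Finite W := Module.finite_of_finite F
  obtain ⟨φ, k⟩ := h.exph p x0 a
  have le : ∀ φ : W, Ph Γ p ℓ[x, y] φ → ℓ[x, y] ≤ Ul Γ p x φ := fun φ k =>
    ln_le.2 ⟨h.ul_self x0 k.1 (h.po1 k), subset_span k⟩
  obtain ⟨ψ, b, e⟩ := lnx (h.fa u x0 a) (h.ph_pp k) k.1
  have k2 := h.ta x0 a (nz b) (e ▸ l2 _ _)
  have c1 := finrank_lt_finrank_of_lt (lt_of_le_of_ne (h.unx u x0 k) fun e => by
    have := finrank_mono (show Ul Γ p x ψ ≤ ℓ[x, y] from fun z hz =>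
      h.a2b u u' x0 a b k k2 (e ▸ h.unx u x0 k2 hz) hz)
    rw [u x ψ x0 k2.1 (h.po1 k2), fr2 x0 a] at this; omega)
  rw [u x φ x0 k.1 (h.po1 k)] at c1
  have := dc (Nx W Γ p x ℓ[x, y] \ ℓ[x, y] : Set V) (pp B (Wl Γ B p ℓ[x, y]) \ {0} : Set W)
    (fun v φ => v ∈ (Ul Γ p x φ : Submodule F V)) (m := q ^ 1 - 1) (n := q ^ 3 - q ^ 2) (fun v hv => by
      obtain ⟨φ, k, m⟩ := h.mem_nx u x0 a hv.1
      rw [show q ^ 1 - 1 = _ from fr1 (F := F) k.1 ▸ (ncard_nz (F ∙ φ)).symm]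
      exact Set.ncard_le_ncard fun t ht => ⟨⟨le1.2 (h.ph_pp k) ht.1, ht.2⟩, by
        rwa [ul_congr (sp1 _) x0 ht.1 ht.2]⟩)
    fun φ hφ => by
      have k := h.ta x0 a hφ.2 hφ.1
      rw [← u x φ x0 k.1 (h.po1 k), ← fr2 x0 a, ← ncard_diff (le φ k)]
      exact Set.ncard_le_ncard fun t ht => ⟨ht.2, ht.1.2⟩
  rw [ncard_diff ((le φ k).trans (h.unx u x0 k)), ncard_nz, h.fa u x0 a, fr2 x0 a] at this
  by_contra n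
  have q2 : 2 ≤ q := Fintype.one_lt_card
  have p1 : ∀ i j, i ≤ j → q ^ i ≤ q ^ j := fun i j e => Nat.pow_le_pow_right (by omega) e
  replace this := (Nat.mul_le_mul_right _ (Nat.sub_le_sub_right (p1 5 _ (by omega)) _)).trans this
  zify [p1 2 5 (by omega), p1 2 3 (by omega), Nat.one_le_pow 1 q (by omega), Nat.one_le_pow 2 q (by omega)]
    at this q2
  have : (0 : ℤ) < q ^ 4 * (q - 1) ^ 2 := by
    have : (0 : ℤ) < q - 1 := by linarith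
    positivity
  nlinarith

theorem nx_eq (x0 : x ≠ 0) (a : y ∉ F ∙ x) : Nl W Γ p ℓ[x, y] = Nx W Γ p x ℓ[x, y] := by
  have : Finite V := Module.finite_of_finite F
  have : Finite W := Module.finite_of_finite F
  refine le_antisymm (fun v hv => h.mem_of_pp fun w hw => by_contra fun n => ?_)
    (span_mono fun v k => ⟨x, l1 _ _, x0, k⟩)
  have le : ∀ t ∈ ℓ[x, y], t ≠ 0 → pp B (Nx W Γ p t ℓ[x, y]) ≤ pp B ℓ[x, y] := fun t c d w k =>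
    mem_pp.2 fun s m => by
      obtain ⟨z, a, e⟩ := lnx (fr2 x0 a) c d
      rw [← e] at m k
      obtain ⟨φ, j⟩ := h.exph p d a
      exact mem_pp.1 k s (h.unx u d j (ln_le.2 ⟨h.ul_self d j.1 (h.po1 j), subset_span j⟩ m))
  obtain ⟨w', i, j⟩ : ∃ w' ∈ pp B ℓ[x, y], ∀ t ∈ ℓ[x, y], t ≠ 0 → w' ∉ pp B (Nx W Γ p t ℓ[x, y]) := by
    by_contra! hh
    have := dc (pp B ℓ[x, y] : Set W) (ℓ[x, y] \ {0} : Set V) (fun w t => w ∈ pp B (Nx W Γ p t ℓ[x, y]))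
      (m := q ^ 1 - 1) (n := q ^ (finrank F V - 4)) (fun w hw => by
        obtain ⟨t, c, d, k⟩ := hh w hw
        rw [show q ^ 1 - 1 = _ from fr1 (F := F) d ▸ (ncard_nz (F ∙ t)).symm]
        refine Set.ncard_le_ncard fun s hs => ⟨⟨le1.2 c hs.1, hs.2⟩, ?_⟩
        simpa only [Nx, ln_sp hs.1 hs.2] using k)
      fun t ht => by
        obtain ⟨z, a, e⟩ := lnx (fr2 x0 a) ht.1 ht.2
        have c1 := h.nx4 u u' ht.2 a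
        have c2 := h.fr_pp (Nx W Γ p t ℓ[t, z])
        rw [show finrank F V - 4 = finrank F (pp B (Nx W Γ p t ℓ[t, z])) by omega, ← ncard_sub, ← e]
        exact Set.ncard_le_ncard fun s hs => hs.2
    have c1 := h.fr_pp ℓ[x, y]
    have c2 := finrank_le (Nx W Γ p x ℓ[x, y])
    rw [h.nx4 u u' x0 a] at c2
    rw [fr2 x0 a] at c1
    rw [ncard_sub, ncard_nz, fr2 x0 a, show finrank F (pp B ℓ[x, y]) = finrank F V - 4 + 2 by omega, pow_add,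
      mul_assoc, mul_comm _ (q ^ (finrank F V - 4))] at this
    have q2 : 2 ≤ q := Fintype.one_lt_card
    replace this := Nat.le_of_mul_le_mul_left this (by positivity)
    zify [Nat.one_le_pow 1 q (by omega), Nat.one_le_pow 2 q (by omega)] at this q2
    have : (0 : ℤ) < (q - 1) * (q ^ 2 - q - 1) := mul_pos (by linarith) (by nlinarith)
    nlinarith
  obtain ⟨g, hg, rfl⟩ := ov (B := B.flip) (h.sc2 ℓ[x, y] ℓ[x, y]).flip (pp B ℓ[x, y])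
    {v | ∃ t ∈ ℓ[x, y], t ≠ 0 ∧ ∃ φ : W, Ph Γ p ℓ[x, y] φ ∧ Ph Γ p ℓ[t, v] φ}
    (fun t ⟨s, s1, s0, φ, k1, k2⟩ ψ i ψ' j c d => by
      obtain ⟨z, a, e⟩ := lnx (fr2 x0 a) s1 s0
      rw [← e] at k1 i j ⊢
      obtain ⟨g, hg, e⟩ := h.trA u s0 a k1 i j (subset_span k2) c d
      exact ⟨g, ⟨hg.2, hg.2⟩, e⟩) (le x (l1 _ _) x0 hw) i
    (npp (I := {v | ∃ t ∈ ℓ[x, y], t ≠ 0 ∧ ∃ φ : W, Ph Γ p ℓ[x, y] φ ∧ Ph Γ p ℓ[t, v] φ})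
      fun e => n (mem_pp.1 e v hv))
    (npp fun e => j x (l1 _ _) x0 (mem_pp.2 fun s m => mem_pp.1 e s
      (span_mono (fun v k => by exact ⟨x, l1 _ _, x0, k⟩) m)))
  refine j (g • x) (hg.1 _ (l1 _ _)) (ne0 x0 g) (by_contra fun e => ?_)
  obtain ⟨t, ⟨φ, k1, k2⟩, m⟩ := npp e
  refine m ?_
  rw [LinearMap.flip_apply, h.inv'']
  exact mem_pp.1 hw _ (subset_span ⟨g⁻¹ • φ, mp_st (inv_mem hg.1) ▸ k1.mp g⁻¹, by
    simpa [mp_pair] using k2.mp g⁻¹⟩)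

end

end Cf

end Cfsg.Agent.H2.CK
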