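import Cfsg.Agent.H2.CK11

/-! The case of planes, II. -/

set_option autoImplicit false
set_option linter.unusedSimpArgs false
set_option linter.unusedSectionVars false
set_option linter.unusedVariables false

namespace Cfsg.Agent.H2.CK

open Module Submodule

variable {F V W : Type*} [Field F] [Fintype F] [AddCommGroup V] [Module F V] [FiniteDimensional F V]
  [AddCommGroup W] [Module F W] [FiniteDimensional F W] {Γ : Type*} [Group Γ] [Finite Γ]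
  [DistribMulAction Γ V] [SMulCommClass Γ F V] [DistribMulAction Γ W] [SMulCommClass Γ F W]
  {B : V →ₗ[F] W →ₗ[F] F} {S T : Submodule F V} {x y z v x' y' v' : V} {φ ψ χ w φ' ψ' : W} {g : Γ}
  {p : ℕ} [Fact p.Prime] [CharP F p] {Q : Sylow p Γ}

local notation "q" => Fintype.card F
local notation "ℓ[" x ", " y "]" => span F {x, y}

variable (p Γ V W F) in
/-- the degenerate case -/
def Al : Prop := ∃ x y z : V, x ≠ 0 ∧ y ∉ F ∙ x ∧ z ∉ ℓ[x, y] ∧ z ∈ Nl W Γ p ℓ[x, y] ∧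
  Nl W Γ p ℓ[x, z] = Nl W Γ p ℓ[x, y]

theorem unl (x0 : x ≠ 0) (k : Ph Γ p ℓ[x, y] φ) : Ul Γ p x φ ≤ Nl W Γ p ℓ[x, y] :=
  span_mono fun v m => ⟨x, l1 _ _, x0, φ, k, m⟩

theorem meet {U : Submodule F V} (a : S ≤ U) (b : T ≤ U) (c : finrank F S = 2) (d : finrank F T = 2)
    (e : finrank F U = 3) : ∃ r ∈ S, r ∈ T ∧ r ≠ 0 := by
  have c2 := finrank_sup_add_finrank_inf_eq S T
  have c3 := finrank_mono (sup_le a b)
  obtain ⟨r, a1, a2⟩ := exists_mem_ne_zero_of_ne_bot (p := S ⊓ T) fun e => by rw [e, finrank_bot] at c2; omega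
  exact ⟨r, a1.1, a1.2, a2⟩

theorem alnum {n k r N : ℕ} (q2 : 2 ≤ k) (h8 : 8 ≤ n) (h11 : n ≤ 11) (e1 : (k ^ n - k ^ 1) * 1 = r * (k ^ 4 - k ^ 1))
    (e2 : (k ^ n - 1) * r = N * (k ^ 4 - 1)) : False := by
  have p1 : ∀ i j, i ≤ j → k ^ i ≤ k ^ j := fun i j e => Nat.pow_le_pow_right (by omega) e
  zify [p1 1 n (by omega), p1 1 4 (by omega), Nat.one_le_pow n k (by omega), Nat.one_le_pow 4 k (by omega)]
    at e1 e2 q2
  have k0 : (k : ℤ) ≠ 0 := by omega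
  have k3 : (k : ℤ) ^ 2 < k ^ 3 - 1 := by nlinarith
  have k1 : (k : ℤ) ≤ k ^ 2 := by nlinarith
  have nd : ∀ s t : ℤ, 0 < s → s ≤ k ^ 2 → s ≠ t * (k ^ 3 - 1) := fun s t a b c => by
    have := Int.le_of_dvd a ⟨t, by rw [c, mul_comm]⟩
    omega
  interval_cases n
  · exact nd (k - 1) (r - (k ^ 4 + k)) (by omega) (by omega) (mul_left_cancel₀ k0 (by linear_combination e1))
  · exact nd (k ^ 2 - 1) (r - (k ^ 5 + k ^ 2)) (by omega) (by omega)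
      (mul_left_cancel₀ k0 (by linear_combination e1))
  · have : (r : ℤ) = k ^ 6 + k ^ 3 + 1 := mul_left_cancel₀ (mul_ne_zero k0 (show (k : ℤ) ^ 3 - 1 ≠ 0 by nlinarith))
      (by linear_combination -e1)
    rw [this] at e2
    have e3 : (k : ℤ) = (k ^ 2 + 1) * (k ^ 12 + k ^ 9 + k ^ 8 + k ^ 6 + k ^ 5 + k ^ 4 + k + 1 - N) :=
      mul_left_cancel₀ (show (k : ℤ) ^ 2 - 1 ≠ 0 by nlinarith) (by linear_combination -e2)
    have := Int.le_of_dvd (by omega) ⟨_, e3⟩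
    omega
  · exact nd (k - 1) (r - (k ^ 7 + k ^ 4 + k)) (by omega) (by omega)
      (mul_left_cancel₀ k0 (by linear_combination e1))

namespace Cf

variable (h : Cf Γ B)
include h

section

variable (u : ∀ (x : V) (φ : W), x ≠ 0 → φ ≠ 0 → B x φ = 0 → finrank F (Ul Γ p x φ : Submodule F V) = 3)
  (u' : ∀ (φ : W) (x : V), φ ≠ 0 → x ≠ 0 → B.flip φ x = 0 → finrank F (Ul Γ p φ x : Submodule F W) = 3)
include u u'

theorem nl4 (x0 : x ≠ 0) (a : y ∉ F ∙ x) : finrank F (Nl W Γ p ℓ[x, y]) = 4 := by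
  rw [h.nx_eq u u' x0 a, h.nx4 u u' x0 a]

theorem mem_nl (x0 : x ≠ 0) (a : y ∉ F ∙ x) (c : v ∈ Nl W Γ p ℓ[x, y]) :
    ∃ φ : W, Ph Γ p ℓ[x, y] φ ∧ v ∈ (Ul Γ p x φ : Submodule F V) := h.mem_nx u x0 a (h.nx_eq u u' x0 a ▸ c)

theorem lnl (x0 : x ≠ 0) (a : y ∉ F ∙ x) : ℓ[x, y] ≤ Nl W Γ p ℓ[x, y] := by
  obtain ⟨φ, k⟩ := h.exph p x0 a
  exact (ln_le.2 ⟨h.ul_self x0 k.1 (h.po1 k), subset_span k⟩).trans (unl x0 k)

theorem alall (k : Al F V W Γ p) (x0 : x ≠ 0) (a : y ∉ F ∙ x) (b : z ∉ F ∙ x) (c : z ∈ Nl W Γ p ℓ[x, y]) :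
    Nl W Γ p ℓ[x, z] = Nl W Γ p ℓ[x, y] := by
  by_cases m : z ∈ ℓ[x, y]
  · rw [ln_eq x0 b (l1 _ _) m]
  obtain ⟨x', y', z', k1, k2, k3, k4, k5⟩ := k
  obtain ⟨g, g1, g2⟩ := h.trl (p := p) k1 k2 x0 a
  obtain ⟨l, hl, rfl⟩ := h.orbN u x0 a (v := g • z') (by rwa [← g2, smul_mp]) m
    (by rwa [← h.nx_eq u u' x0 a, ← g2, nl_mp, smul_mp]) (h.nx_eq u u' x0 a ▸ c)
  rw [← ln_sp (hl.1 _ g1) (ne0 (ne0 k1 g) l), ← mp_pair, ← mp_pair, nl_mp, nl_mp, k5, ← nl_mp, g2, ← nl_mp,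
    mp_st hl.2]

theorem nal (h8 : 8 ≤ finrank F V) (h11 : finrank F V ≤ 11) : ¬ Al F V W Γ p := fun k => by
  have : Finite V := Module.finite_of_finite F
  have : Finite (Submodule F V) := Finite.of_injective _ SetLike.coe_injective
  let D : Set (Submodule F V) := {S | ∃ s t, s ≠ 0 ∧ t ∉ F ∙ s ∧ S = Nl W Γ p ℓ[s, t]}
  have blk : ∀ S ∈ D, ∀ s ∈ S, s ≠ 0 → ∀ t ∈ S, t ∉ F ∙ s → Nl W Γ p ℓ[s, t] = S := by
    rintro _ ⟨x, y, x0, a, rfl⟩ s s1 s0 t t1 t0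
    by_cases m : s ∈ F ∙ x
    · rw [ln_sp m s0]; exact h.alall u u' k x0 a (by rwa [← sp_eq m s0]) t1
    · have e := h.alall u u' k x0 a m s1
      rw [← e, ln_comm x s] at t1 ⊢
      exact h.alall u u' k s0 (ind_symm x0 m) t0 t1
  have d4 : ∀ S ∈ D, finrank F S = 4 := by rintro _ ⟨x, y, x0, a, rfl⟩; exact h.nl4 u u' x0 a
  have c1 : ∀ s : V, s ≠ 0 → (q ^ finrank F V - q ^ 1) * 1 = {S ∈ D | s ∈ S}.ncard * (q ^ 4 - q ^ 1) :=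
    fun s s0 => by
      have := dce (F ∙ s : Set V)ᶜ {S ∈ D | s ∈ S} (fun t S => t ∈ S) (m := 1) (n := q ^ 4 - q ^ 1)
        (fun t ht => by
          rw [← Set.ncard_singleton (Nl W Γ p ℓ[s, t])]
          congr 1; ext S
          exact ⟨fun k => (blk S k.1.1 s k.1.2 s0 t k.2 ht).symm, by
            rintro rfl
            exact ⟨⟨⟨s, t, s0, ht, rfl⟩, h.lnl u u' s0 ht (l1 _ _)⟩, h.lnl u u' s0 ht (l2 _ _)⟩⟩)
        fun S hS => by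
          rw [← d4 S hS.1, ← fr1 (F := F) s0, ← ncard_diff (le1.2 hS.2)]
          congr 1; ext t; exact and_comm
      rwa [ncard_compl, fr1 s0] at this
  obtain ⟨x, x0⟩ := h.exn1 0
  replace x0 := nz x0
  have q2 : 2 ≤ q := Fintype.one_lt_card
  have c2 := dce (((⊤ : Submodule F V) : Set V) \ {0}) D (fun s S => s ∈ S) (m := {S ∈ D | x ∈ S}.ncard)
    (n := q ^ 4 - 1) (fun s hs => Nat.eq_of_mul_eq_mul_right
      (Nat.sub_pos_of_lt (Nat.pow_lt_pow_right q2 (by omega))) ((c1 s hs.2).symm.trans (c1 x x0)))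
    fun S hS => by
      rw [← d4 S hS, ← ncard_nz]
      congr 1; ext t; simp [and_comm]
  rw [ncard_nz, finrank_top] at c2
  exact alnum q2 h8 h11 (c1 x x0) c2

theorem a2a' (hS : finrank F S = 2) (a : x ∈ S) (x0 : x ≠ 0) (b : ψ ∉ F ∙ φ) (k1 : Ph Γ p S φ)
    (k2 : Ph Γ p S ψ) : Ph Γ p ℓ[φ, ψ] x := by
  obtain ⟨y, a', rfl⟩ := lnx hS a x0
  exact h.a2a u x0 a' b k1 k2

theorem typeI (x0 : x ≠ 0) (φ0 : φ ≠ 0) (e : B x φ = 0) (a : y ∉ F ∙ x) (b : y ∈ (Ul Γ p x φ : Submodule F V))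
    (c : (Ul Γ p y φ : Submodule F V) = Ul Γ p x φ) : Al F W V Γ p := by
  have all : ∀ t ∈ (Ul Γ p x φ : Submodule F V), t ≠ 0 → (Ul Γ p t φ : Submodule F V) = Ul Γ p x φ :=
    fun t m t0 => by
      by_cases n : t ∈ F ∙ x
      · exact ul_congr n t0 (sp1 _) φ0
      · obtain ⟨g, hg, rfl⟩ := h.cos' x0 φ0 e a b n m
        rw [h.ust φ0 hg.2, c, mp_st (st_ul hg.1 hg.2 x0 φ0)]
  have le : ℓ[x, y] ≤ Ul Γ p x φ := ln_le.2 ⟨h.ul_self x0 φ0 e, b⟩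
  obtain ⟨z, m, n⟩ := SetLike.exists_of_lt (lt_of_le_of_ne le fun k => by
    have := u x φ x0 φ0 e; rw [← k, fr2 x0 a] at this; omega)
  have n' : z ∉ F ∙ x := fun k => n (l3 k)
  have k1 := (h.mem_ul x0 φ0 e).1 b
  have k2 := (h.mem_ul x0 φ0 e).1 m
  obtain ⟨ψ, i1, e1⟩ := lnx (h.fa u x0 a) (h.ph_pp k1) φ0
  obtain ⟨χ, i2, e2⟩ := lnx (h.fa u x0 n') (h.ph_pp k2) φ0
  have j1 := h.ta x0 a (nz i1) (e1 ▸ l2 _ _)
  have j2 := h.ta x0 n' (nz i2) (e2 ▸ l2 _ _)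
  refine ⟨φ, ψ, χ, φ0, i1, fun k => n (h.a2b u u' x0 a i2 k1 (h.ta x0 a (nz i2) (e1 ▸ k)) m (subset_span j2)),
    subset_span ⟨φ, l1 _ _, φ0, x, h.a2a u x0 a i1 k1 j1, h.a2a u x0 n' i2 k2 j2⟩,
    eq_of_le_of_finrank_eq (fun w hw => ?_) ((h.flip.nl4 u' u φ0 i2).trans (h.flip.nl4 u' u φ0 i1).symm)⟩
  by_cases o : w ∈ F ∙ φ
  · exact h.flip.lnl u' u φ0 i1 (l3 o)
  obtain ⟨t, t1, t2⟩ := h.flip.mem_nl u' u φ0 i2 hw
  have t3 : t ∈ (Ul Γ p x φ : Submodule F V) :=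
    ln_le.2 ⟨h.ul_self x0 φ0 e, m⟩ (h.bl u u' x0 n' i2 k2 j2 t1)
  obtain ⟨s, s1, s2, s3⟩ := h.back u φ0 ((h.flip.mem_ul φ0 t1.1 (h.ul_orth t3)).1 t2) (nz o)
  obtain ⟨r, r1, r2, r0⟩ := meet (S := ℓ[t, s]) (ln_le.2 ⟨t3, all t t3 t1.1 ▸ subset_span s2⟩) le
    (fr2 t1.1 s1) (fr2 x0 a) (u x φ x0 φ0 e)
  exact subset_span ⟨φ, l1 _ _, φ0, r, h.a2a' u u' (fr2 x0 a) r2 r0 i1 k1 j1,
    h.a2a' u u' (fr2 t1.1 s1) r1 r0 o s2 s3⟩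

theorem far {Y : Set V} {k : ℕ} (x0 : x ≠ 0) (φ0 : φ ≠ 0) (e : B x φ = 0)
    (hY : ∀ g ∈ st Γ (F ∙ x) ⊓ st Γ (F ∙ φ), ∀ y ∈ Y, g • y ∈ Y) (Y0 : ∀ y ∈ Y, y ≠ 0)
    (hs : ∀ y ∈ Y, ∀ t ∈ F ∙ y, t ≠ 0 → t ∈ Y)
    (hk : ∀ y ∈ Y, ((Ul Γ p y φ : Submodule F V) \ pp B.flip (Ul Γ p φ x) : Set V).ncard ≤ k) (a : y ∈ Y)
    (b : z ∈ (Ul Γ p y φ : Submodule F V)) (n : z ∉ pp B.flip (Ul Γ p φ x)) :
    q ^ (finrank F V - 3) * (q ^ 2 - 1) * (q - 1) ≤ Y.ncard * k := by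
  have : Finite V := Module.finite_of_finite F
  have := dc (pp B.flip (F ∙ φ) \ pp B.flip (Ul Γ p φ x) : Set V) Y
    (fun v t => v ∈ (Ul Γ p t φ : Submodule F V)) (m := q ^ 1 - 1) (n := k) (fun v hv => by
      obtain ⟨g, hg, rfl⟩ := h.flip.tb' φ0 (h.ul_orth b) (pp1.1 hv.1) n hv.2
      have y0 := ne0 (Y0 y a) g
      rw [show q ^ 1 - 1 = _ from fr1 (F := F) y0 ▸ (ncard_nz (F ∙ g • y)).symm]
      refine Set.ncard_le_ncard fun t ht => ⟨hs _ (hY g ⟨hg.2, hg.1⟩ y a) t ht.1 ht.2, ?_⟩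
      rwa [ul_congr ht.1 ht.2 (sp1 _) φ0, h.ust φ0 hg.1, smul_mp])
    fun t ht => le_trans (Set.ncard_le_ncard fun z hz => by exact ⟨hz.2, hz.1.2⟩) (hk t ht)
  have c1 := h.flip.fr_pp (F ∙ φ)
  have c2 := h.flip.fr_pp (Ul Γ p φ x)
  rw [fr1 φ0, h.fr] at c1
  rw [u' φ x φ0 x0 e, h.fr] at c2
  rwa [ncard_diff (h.th x0 φ0 e), show finrank F (pp B.flip (F ∙ φ)) = finrank F V - 3 + 2 by omega,
    show finrank F (pp B.flip (Ul Γ p φ x)) = finrank F V - 3 by omega, pow_add, ← Nat.mul_sub_one,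
    pow_one] at this

theorem d2 (h8 : 8 ≤ finrank F V) (x0 : x ≠ 0) (φ0 : φ ≠ 0) (e : B x φ = 0)
    (a : y ∈ (Ul Γ p x φ : Submodule F V)) (y0 : y ≠ 0) (b : z ∈ (Ul Γ p y φ : Submodule F V)) :
    z ∈ pp B.flip (Ul Γ p φ x) := by
  by_contra n
  have : Finite V := Module.finite_of_finite F
  have := h.far u u' (Y := (Ul Γ p x φ : Submodule F V) \ {0}) (k := q ^ 3) x0 φ0 e
    (fun g hg y k => ⟨st_ul hg.1 hg.2 x0 φ0 _ k.1, ne0 k.2 g⟩) (fun y k => k.2)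
    (fun y k t m t0 => ⟨le1.2 k.1 m, t0⟩) (fun y k => by
      rw [← u y φ k.2 φ0 (h.ul_orth k.1), ← ncard_sub]
      exact Set.ncard_le_ncard Set.diff_subset) ⟨a, y0⟩ b n
  rw [ncard_nz, u x φ x0 φ0 e] at this
  have q2 : 2 ≤ q := Fintype.one_lt_card
  replace this := (Nat.mul_le_mul_right _ (Nat.mul_le_mul_right _
    (Nat.pow_le_pow_right (by omega) (show 5 ≤ _ by omega)))).trans this
  zify [Nat.one_le_pow 2 q (by omega), Nat.one_le_pow 3 q (by omega), show 1 ≤ q by omega] at this q2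
  have : (0 : ℤ) < q ^ 3 * (q - 1) * (q ^ 4 - 2 * q ^ 2 - q - 1) := by
    have : (0 : ℤ) < q - 1 := by linarith
    have : (0 : ℤ) < q ^ 4 - 2 * q ^ 2 - q - 1 := by nlinarith [mul_self_nonneg ((q : ℤ) ^ 2 - 2)]
    positivity
  nlinarith

theorem d3 (h9 : 9 ≤ finrank F V) (x0 : x ≠ 0) (φ0 : φ ≠ 0) (e : B x φ = 0)
    (a : y ∈ (Ul Γ p x φ : Submodule F V)) (y0 : y ≠ 0) (b : z ∈ (Ul Γ p y φ : Submodule F V)) (z0 : z ≠ 0)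
    (c : v ∈ (Ul Γ p z φ : Submodule F V)) : v ∈ pp B.flip (Ul Γ p φ x) := by
  by_cases m : z ∈ (Ul Γ p x φ : Submodule F V)
  · exact h.d2 u u' (by omega) x0 φ0 e m z0 c
  by_contra n
  have : Finite V := Module.finite_of_finite F
  let Y : Set V := {z | z ∉ (Ul Γ p x φ : Submodule F V) ∧ ∃ y ∈ (Ul Γ p x φ : Submodule F V), y ≠ 0 ∧
    z ∈ (Ul Γ p y φ : Submodule F V)}
  have c1 := h.far u u' (Y := Y) (k := q ^ 3 - q ^ 2) x0 φ0 e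
    (fun g hg y ⟨k, t, k1, k2, k3⟩ => ⟨nm_st (st_ul hg.1 hg.2 x0 φ0) k, g • t, st_ul hg.1 hg.2 x0 φ0 _ k1,
      ne0 k2 g, by rwa [h.ust φ0 hg.2, smul_mp]⟩) (fun y k => nz k.1)
    (fun y ⟨k, t, k1, k2, k3⟩ s m s0 => ⟨fun o => k (le1.2 o (mem_sp1 m s0)), t, k1, k2, le1.2 k3 m⟩)
    (fun y ⟨k, t, k1, k2, k3⟩ => by
      have i : t ∉ F ∙ y := fun o => k (le1.2 k1 (mem_sp1 o k2))
      have o := h.ul_orth k3
      rw [← u y φ (nz k) φ0 o, ← fr2 (nz k) i, ← ncard_diff (ln_le.2 ⟨h.ul_self (nz k) φ0 o,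
        h.ul_symm k2 φ0 (h.ul_orth k1) k3⟩)]
      exact Set.ncard_le_ncard fun s hs => ⟨hs.1, fun j => hs.2 (ln_le.2
        ⟨h.d2 u u' (by omega) x0 φ0 e k1 k2 k3, h.d2 u u' (by omega) x0 φ0 e (h.ul_self x0 φ0 e) x0 k1⟩ j)⟩)
    ⟨m, y, a, y0, b⟩ c n
  have c2 := dc Y ((Ul Γ p x φ : Submodule F V) \ (F ∙ x) : Set V)
    (fun z y => z ∈ (Ul Γ p y φ : Submodule F V)) (m := q ^ 1 - 1) (n := q ^ 3 - q ^ 2)
    (fun y ⟨k, t, k1, k2, k3⟩ => by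
      rw [show q ^ 1 - 1 = _ from fr1 (F := F) k2 ▸ (ncard_nz (F ∙ t)).symm]
      refine Set.ncard_le_ncard fun s hs => ?_
      have j : y ∈ (Ul Γ p s φ : Submodule F V) := by rwa [ul_congr hs.1 hs.2 (sp1 _) φ0]
      exact ⟨⟨le1.2 k1 hs.1, fun o => k (by rwa [ul_congr o hs.2 (sp1 _) φ0] at j)⟩, j⟩)
    fun t ht => by
      have o := h.ul_orth ht.1
      rw [← u t φ (nz ht.2) φ0 o, ← fr2 x0 ht.2, ← ncard_diff (ln_le.2 ⟨h.ul_symm x0 φ0 e ht.1,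
        h.ul_self (nz ht.2) φ0 o⟩)]
      exact Set.ncard_le_ncard fun s hs => ⟨hs.2, fun j => hs.1.1 (ln_le.2 ⟨h.ul_self x0 φ0 e, ht.1⟩ j)⟩
  rw [ncard_diff (le1.2 (h.ul_self x0 φ0 e)), u x φ x0 φ0 e, fr1 x0] at c2
  have q2 : 2 ≤ q := Fintype.one_lt_card
  replace c1 := (Nat.mul_le_mul_right _ (Nat.mul_le_mul_right _
    (Nat.pow_le_pow_right (by omega) (show 6 ≤ _ by omega)))).trans c1
  have c3 := ((Nat.mul_le_mul_right (q ^ 1 - 1) c1).trans_eq (mul_right_comm _ _ _)).trans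
    (Nat.mul_le_mul_right _ c2)
  have p1 : ∀ i j, i ≤ j → q ^ i ≤ q ^ j := fun i j e => Nat.pow_le_pow_right (by omega) e
  zify [Nat.one_le_pow 2 q (by omega), Nat.one_le_pow 1 q (by omega), show 1 ≤ q by omega, p1 1 3 (by omega),
    p1 2 3 (by omega)] at c3 q2
  have : (0 : ℤ) < q ^ 5 * (q - 1) ^ 3 * (q ^ 2 - 1) := by
    have : (0 : ℤ) < q - 1 := by linarith
    have : (0 : ℤ) < q ^ 2 - 1 := by nlinarith
    positivity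
  nlinarith

end

end Cf

end Cfsg.Agent.H2.CK
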