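import Cfsg.Agent.H2.CK12

/-! The case of planes, III. -/

set_option autoImplicit false
set_option linter.unusedSimpArgs false
set_option linter.unusedSectionVars false
set_option linter.unusedVariables false

namespace Cfsg.Agent.H2.CK

open Module Submodule

variable {F V W : Type*} [Field F] [Fintype F] [AddCommGroup V] [Module F V] [FiniteDimensional F V]
  [AddCommGroup W] [Module F W] [FiniteDimensional F W] {Γ : Type*} [Group Γ] [Finite Γ]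
  [DistribMulAction Γ V] [SMulCommClass Γ F V] [DistribMulAction Γ W] [SMulCommClass Γ F W]
  {B : V →ₗ[F] W →ₗ[F] F} {S T : Submodule F V} {x y z v x' y' v' : V} {φ ψ χ w φ' ψ' : W} {g : Γ}
  {p : ℕ} [Fact p.Prime] [CharP F p] {Q : Sylow p Γ}

local notation "q" => Fintype.card F
local notation "ℓ[" x ", " y "]" => span F {x, y}

namespace Cf

variable (h : Cf Γ B)
include h

section

variable (u : ∀ (x : V) (φ : W), x ≠ 0 → φ ≠ 0 → B x φ = 0 → finrank F (Ul Γ p x φ : Submodule F V) = 3)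
  (u' : ∀ (φ : W) (x : V), φ ≠ 0 → x ≠ 0 → B.flip φ x = 0 → finrank F (Ul Γ p φ x : Submodule F W) = 3)
include u u'

theorem spc (x0 : x ≠ 0) (φ0 : φ ≠ 0) (e : B x φ = 0) (a : y ∈ (Ul Γ p x φ : Submodule F V)) (b : y ∉ F ∙ x) :
    ∃ χ : W, Ph Γ p ℓ[y, x] χ ∧ (Ul Γ p y χ : Submodule F V) = Ul Γ p x φ := by
  have le : ℓ[x, y] ≤ Ul Γ p x φ := ln_le.2 ⟨h.ul_self x0 φ0 e, a⟩
  obtain ⟨z, m, n⟩ := SetLike.exists_of_lt (lt_of_le_of_ne le fun k => by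
    have := u x φ x0 φ0 e; rw [← k, fr2 x0 b] at this; omega)
  have k := (h.mem_ul x0 φ0 e).1 a
  obtain ⟨χ, k1, k2⟩ := h.mem_nl u u' (nz b) (ind_symm x0 b) (ln_comm (F := F) x y ▸ unl x0 k m)
  exact ⟨χ, k1, by rw [← h.u3 u (nz b) (ind_symm x0 b) k1 (ln_comm (F := F) x y ▸ n) k2, ← h.u3 u x0 b k n m,
    ln_comm]⟩

theorem spc' (x0 : x ≠ 0) (φ0 : φ ≠ 0) (e : B x φ = 0) (a : y ∈ (Ul Γ p x φ : Submodule F V)) (y0 : y ≠ 0) :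
    ∃ χ : W, χ ≠ 0 ∧ B y χ = 0 ∧ (Ul Γ p y χ : Submodule F V) = Ul Γ p x φ := by
  by_cases b : y ∈ F ∙ x
  · exact ⟨φ, φ0, h.ul_orth a, ul_congr b y0 (sp1 _) φ0⟩
  · obtain ⟨χ, k, e⟩ := h.spc u u' x0 φ0 e a b
    exact ⟨χ, k.1, h.po1 k, e⟩

theorem pil (x0 : x ≠ 0) (φ0 : φ ≠ 0) (e : B x φ = 0) (a : S ≤ Ul Γ p x φ) (b : finrank F S = 2) :
    Ul Γ p x φ ≤ Nl W Γ p S := by
  obtain ⟨r, r1, -, r0⟩ := meet a a b b (u x φ x0 φ0 e)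
  obtain ⟨χ, k1, k2, k3⟩ := h.spc' u u' x0 φ0 e (a r1) r0
  obtain ⟨t, t1, rfl⟩ := lnx b r1 r0
  rw [← k3] at a ⊢
  exact unl r0 ((h.mem_ul r0 k1 k2).1 (a (l2 _ _)))

theorem dis (n : ¬ Al F V W Γ p) (x0 : x ≠ 0) (φ0 : φ ≠ 0) (e : B x φ = 0) (a : S ≤ Ul Γ p x φ)
    (b : finrank F S = 2) (a' : T ≤ Ul Γ p x φ) (b' : finrank F T = 2) (c : v ∉ (Ul Γ p x φ : Submodule F V))
    (d : v ∈ Nl W Γ p S) (d' : v ∈ Nl W Γ p T) : S = T := by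
  obtain ⟨r, r1, r2, r0⟩ := meet a a' b b' (u x φ x0 φ0 e)
  have k : ∀ S : Submodule F V, S ≤ Ul Γ p x φ → finrank F S = 2 → r ∈ S → v ∈ Nl W Γ p S →
      Ul Γ p x φ ⊔ F ∙ v = Nl W Γ p S := fun S a b r1 d =>
    eq_of_le_of_finrank_eq (sup_le (h.pil u u' x0 φ0 e a b) (le1.2 d)) (by
      obtain ⟨t, t1, rfl⟩ := lnx b r1 r0
      rw [finrank_sup_span_singleton c, u x φ x0 φ0 e, h.nl4 u u' r0 t1])
  have k1 := (k S a b r1 d).symm.trans (k T a' b' r2 d')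
  have k2 := h.pil u u' x0 φ0 e a b
  obtain ⟨s, s1, rfl⟩ := lnx b r1 r0
  obtain ⟨t, t1, rfl⟩ := lnx b' r2 r0
  by_contra m
  exact n ⟨r, s, t, r0, s1, fun o => m (ln_eq r0 t1 (l1 _ _) o).symm, k2 (a' (l2 _ _)), k1.symm⟩

theorem dim6 (n : ¬ Al F V W Γ p) (x0 : x ≠ 0) (φ0 : φ ≠ 0) (e : B x φ = 0) (a : S ≤ Ul Γ p x φ)
    (b : finrank F S = 2) (c : x ∉ S) {Z : Submodule F V} (k1 : Nl W Γ p S ≤ Z)
    (k2 : ∀ y ∈ (Ul Γ p x φ : Submodule F V), y ∉ F ∙ x → Nl W Γ p ℓ[x, y] ≤ Z) : 6 ≤ finrank F Z := by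
  have : Finite V := Module.finite_of_finite F
  have le : ∀ y ∈ (Ul Γ p x φ : Submodule F V), ℓ[x, y] ≤ Ul Γ p x φ := fun y k =>
    ln_le.2 ⟨h.ul_self x0 φ0 e, k⟩
  have := dc ((Ul Γ p x φ : Submodule F V) \ (F ∙ x) : Set V) (Z \ Nl W Γ p S : Set V)
    (fun y v => v ∈ Nl W Γ p ℓ[x, y]) (m := q ^ 4 - q ^ 3) (n := q ^ 2 - q ^ 1) (fun y hy => by
      rw [← h.nl4 u u' x0 hy.2, ← u x φ x0 φ0 e, ← ncard_diff (h.pil u u' x0 φ0 e (le y hy.1) (fr2 x0 hy.2))]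
      exact Set.ncard_le_ncard fun v hv => ⟨⟨k2 y hy.1 hy.2 hv.1, fun o => c
        (h.dis u u' n x0 φ0 e (le y hy.1) (fr2 x0 hy.2) a b hv.2 hv.1 o ▸ l1 _ _)⟩, hv.1⟩)
    fun v hv => by
      by_cases hh : ∃ y ∈ ((Ul Γ p x φ : Submodule F V) \ (F ∙ x) : Set V), v ∈ Nl W Γ p ℓ[x, y]
      · obtain ⟨y, hy, m⟩ := hh
        rw [← fr2 x0 hy.2, ← fr1 (F := F) x0, ← ncard_diff (le1.2 (l1 _ _))]
        exact Set.ncard_le_ncard fun t ht => ⟨h.dis u u' n x0 φ0 e (le t ht.1.1) (fr2 x0 ht.1.2) (le y hy.1)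
          (fr2 x0 hy.2) (fun o => hv.2 (h.pil u u' x0 φ0 e a b o)) ht.2 m ▸ l2 _ _, ht.1.2⟩
      · rw [Set.eq_empty_of_forall_notMem (s := {a ∈ _ | _}) fun y k => hh ⟨y, k.1, k.2⟩]
        simp
  obtain ⟨r, r1, -, r0⟩ := meet a a b b (u x φ x0 φ0 e)
  obtain ⟨t, t1, rfl⟩ := lnx b r1 r0
  rw [ncard_diff (le1.2 (h.ul_self x0 φ0 e)), ncard_diff k1, u x φ x0 φ0 e, fr1 x0, h.nl4 u u' r0 t1] at this
  by_contra! m
  have q2 : 2 ≤ q := Fintype.one_lt_card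
  have p1 : ∀ i j, i ≤ j → q ^ i ≤ q ^ j := fun i j e => Nat.pow_le_pow_right (by omega) e
  replace this := this.trans (Nat.mul_le_mul_right _ (Nat.sub_le_sub_right (p1 _ 5 (by omega)) _))
  zify [p1 1 3 (by omega), p1 3 4 (by omega), p1 4 5 (by omega), p1 1 2 (by omega)] at this q2
  have : (0 : ℤ) < q ^ 4 * (q - 1) ^ 2 := by
    have : (0 : ℤ) < q - 1 := by linarith
    positivity
  nlinarith

variable (n' : ¬ Al F W V Γ p)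
include n'

theorem inf2 (x0 : x ≠ 0) (φ0 : φ ≠ 0) (e : B x φ = 0) (a : y ∉ F ∙ x) (b : y ∈ (Ul Γ p x φ : Submodule F V))
    (c : z ∈ (Ul Γ p x φ : Submodule F V)) (d : z ∈ (Ul Γ p y φ : Submodule F V)) : z ∈ ℓ[x, y] := by
  by_contra m
  have k := (h.mem_ul x0 φ0 e).1 b
  exact n' (h.typeI u u' x0 φ0 e a b (by
    rw [← h.u3 u x0 a k m c, ← h.u3 u (nz a) (ind_symm x0 a) (ln_comm (F := F) x y ▸ k)
      (ln_comm (F := F) x y ▸ m) d, ln_comm]))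

theorem nl_le (x0 : x ≠ 0) (φ0 : φ ≠ 0) (e : B x φ = 0) (a : y ∉ F ∙ x) (b : y ∈ (Ul Γ p x φ : Submodule F V)) :
    Ul Γ p x φ ⊔ Ul Γ p y φ = Nl W Γ p ℓ[x, y] := by
  have k := (h.mem_ul x0 φ0 e).1 b
  have c1 := finrank_sup_add_finrank_inf_eq (Ul Γ p x φ : Submodule F V) (Ul Γ p y φ)
  have c2 := finrank_mono (show (Ul Γ p x φ ⊓ Ul Γ p y φ : Submodule F V) ≤ ℓ[x, y] from
    fun z hz => h.inf2 u u' n' x0 φ0 e a b hz.1 hz.2)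
  rw [u x φ x0 φ0 e, u y φ (nz a) φ0 (h.ul_orth b)] at c1
  rw [fr2 x0 a] at c2
  exact eq_of_le_of_finrank_le (sup_le (unl x0 k) (by
    rw [ln_comm] at k ⊢; exact unl (nz a) k)) (by rw [h.nl4 u u' x0 a]; omega)

theorem o2 (h8 : 8 ≤ finrank F V) (x0 : x ≠ 0) (φ0 : φ ≠ 0) (e : B x φ = 0) (a : y ∉ F ∙ x)
    (b : y ∈ (Ul Γ p x φ : Submodule F V)) : Nl W Γ p ℓ[x, y] ≤ pp B.flip (Ul Γ p φ x) := by
  rw [← h.nl_le u u' n' x0 φ0 e a b]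
  exact sup_le (fun z k => h.d2 u u' h8 x0 φ0 e (h.ul_self x0 φ0 e) x0 k)
    fun z k => h.d2 u u' h8 x0 φ0 e b (nz a) k

theorem o4 (h9 : 9 ≤ finrank F V) (x0 : x ≠ 0) (φ0 : φ ≠ 0) (e : B x φ = 0) (a : S ≤ Ul Γ p x φ)
    (b : finrank F S = 2) (a' : T ≤ Ul Γ p x φ) (b' : finrank F T = 2) (c : v ∈ Nl W Γ p S)
    (d : w ∈ Nl V Γ p (pp B (Wl Γ B p T))) : B v w = 0 := by
  obtain ⟨r, r1, r2, r0⟩ := meet a a' b b' (u x φ x0 φ0 e)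
  obtain ⟨χ, k1, k2, k3⟩ := h.spc' u u' x0 φ0 e (a r1) r0
  obtain ⟨t, t1, rfl⟩ := lnx b r1 r0
  obtain ⟨y, y1, rfl⟩ := lnx b' r2 r0
  rw [← k3] at a a'
  have j := (h.mem_ul r0 k1 k2).1 (a' (l2 _ _))
  obtain ⟨ψ, i, e1⟩ := lnx (h.fa u r0 y1) (h.ph_pp j) k1
  rw [← e1] at d
  obtain ⟨s, s1, s2⟩ := h.flip.mem_nl u' u k1 i d
  have s3 := a' (h.bl u u' r0 y1 i j (h.ta r0 y1 (nz i) (e1 ▸ l2 _ _)) s1)
  have s4 := h.ul_symm r0 k1 k2 s3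
  have o := h.ul_orth s3
  rw [← h.nl_le u u' n' r0 k1 k2 t1 (a (l2 _ _))] at c
  exact mem_pp.1 (sup_le (c := pp B.flip (Ul Γ p χ s)) (fun z k => h.d2 u u' (by omega) s1.1 k1 o s4 r0 k)
    (fun z k => h.d3 u u' h9 s1.1 k1 o s4 r0 (a (l2 _ _)) (nz t1) k) c) w s2

theorem nb (h8 : 8 ≤ finrank F V) (h11 : finrank F V ≤ 11) (n : ¬ Al F V W Γ p) : False := by
  obtain ⟨x, x0⟩ := h.exn1 0
  replace x0 := nz x0
  obtain ⟨s, a⟩ := h.exn1 x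
  obtain ⟨φ, k⟩ := h.exph p x0 a
  have φ0 := k.1
  have e := h.po1 k
  have s1 : s ∈ (Ul Γ p x φ : Submodule F V) := subset_span k
  have le : ℓ[x, s] ≤ Ul Γ p x φ := ln_le.2 ⟨h.ul_self x0 φ0 e, s1⟩
  obtain ⟨t, t1, b⟩ := SetLike.exists_of_lt (lt_of_le_of_ne le fun k => by
    have := u x φ x0 φ0 e; rw [← k, fr2 x0 a] at this; omega)
  have b1 : t ∉ F ∙ x := fun o => b (l3 o)
  have b2 : t ∉ F ∙ s := fun o => b (le1.2 (l2 _ _) o)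
  have s0 := nz a
  have b3 : x ∉ ℓ[s, t] := fun o => b (by
    rw [ln_eq x0 a o (l1 _ _)]; exact l2 _ _)
  have L1 : ℓ[s, t] ≤ Ul Γ p x φ := ln_le.2 ⟨s1, t1⟩
  obtain ⟨χ, i1, i2⟩ := h.spc u u' x0 φ0 e s1 a
  obtain ⟨ψ, j1, j2⟩ := h.spc u u' x0 φ0 e t1 b1
  have i3 : Ph Γ p ℓ[s, t] χ := (h.mem_ul s0 i1.1 (h.po1 i1)).1 (i2 ▸ t1)
  have j3 : Ph Γ p ℓ[s, t] ψ := ln_comm (F := F) t s ▸ (h.mem_ul (nz b) j1.1 (h.po1 j1)).1 (j2 ▸ s1)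
  have c : ψ ∉ F ∙ χ := fun o => n' (h.typeI u u' s0 i1.1 (h.po1 i1) b2 (i2 ▸ t1) (by
    rw [i2, ← j2, ul_congr (sp1 _) (nz b) o j1.1]))
  have e1 := h.al u s0 b2 c i3 j3
  have c1 : φ ∉ ℓ[χ, ψ] := fun o => b (h.inf2 u u' n' x0 φ0 e a s1 t1
    (subset_span (h.ta s0 b2 φ0 (e1 ▸ o))))
  have c2 : χ ∉ F ∙ φ := fun o => c1 (l3 (mem_sp1 o i1.1))
  have c3 : ψ ∉ F ∙ φ := fun o => c1 (le1.2 (l2 _ _) (mem_sp1 o j1.1))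
  have L2 : ℓ[χ, ψ] ≤ Ul Γ p φ x := ln_le.2 ⟨subset_span (h.a2a u x0 a c2 k (ln_comm (F := F) s x ▸ i1)),
    subset_span (h.a2a u x0 b1 c3 ((h.mem_ul x0 φ0 e).1 t1) (ln_comm (F := F) t x ▸ j1))⟩
  by_cases h9 : 9 ≤ finrank F V
  · obtain ⟨Z, z1, z2⟩ : ∃ Z : Submodule F V, (∀ L : Submodule F V, L ≤ Ul Γ p x φ → finrank F L = 2 →
        Nl W Γ p L ≤ Z) ∧ ∀ L : Submodule F V, L ≤ Ul Γ p x φ → finrank F L = 2 →
        Nl V Γ p (pp B (Wl Γ B p L)) ≤ pp B Z :=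
      ⟨span F {v | ∃ L : Submodule F V, L ≤ Ul Γ p x φ ∧ finrank F L = 2 ∧ v ∈ Nl W Γ p L},
        fun L a b v hv => subset_span ⟨L, a, b, hv⟩, fun L a b w hw => by_contra fun o => by
          obtain ⟨v, ⟨L', a', b', hv⟩, m⟩ := npp o
          exact m (h.o4 u u' n' h9 x0 φ0 e a' b' a b hv hw)⟩
    have d1 := h.dim6 u u' n x0 φ0 e L1 (fr2 s0 b2) b3 (z1 _ L1 (fr2 s0 b2)) fun y m o =>
      z1 _ (ln_le.2 ⟨h.ul_self x0 φ0 e, m⟩) (fr2 x0 o)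
    have d2 := h.flip.dim6 u' u n' φ0 x0 e L2 (fr2 i1.1 c) c1 (Z := pp B Z) (by rw [e1]; exact z2 _ L1 (fr2 s0 b2)) fun w m o => by
      obtain ⟨y, y1, y2, y3⟩ := h.back u φ0 ((h.flip.mem_ul φ0 x0 e).1 m) (nz o)
      rw [h.al u x0 y1 o y2 y3]
      exact z2 _ (ln_le.2 ⟨h.ul_self x0 φ0 e, subset_span y2⟩) (fr2 x0 y1)
    have := h.fr_pp Z
    omega
  · have d1 := h.dim6 u u' n x0 φ0 e L1 (fr2 s0 b2) b3 (Z := pp B.flip (Ul Γ p φ x)) (fun v hv => by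
      have := h.o2 u u' n' h8 s0 i1.1 (h.po1 i1) b2 (i2 ▸ t1) hv
      rw [← eq_of_le_of_finrank_eq (le3 (L2 (l1 _ _)) (L2 (l2 _ _)) (h.flip.ul_self φ0 x0 e))
        ((fr3 i1.1 c c1).trans (u' φ x φ0 x0 e).symm)]
      exact mem_pp.2 fun w hw => mem_pp.1 this w (le3 (h.flip.ul_self i1.1 s0 (h.po1 i1))
        (subset_span (h.a2a u s0 b2 c i3 j3)) (subset_span (h.a2a u s0 (ind_symm x0 a) (fun o => c1 (l3 o)) i1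
          (ln_comm (F := F) x s ▸ k))) hw)) fun y m o => h.o2 u u' n' h8 x0 φ0 e o m
    have := h.flip.fr_pp (Ul Γ p φ x)
    rw [u' φ x φ0 x0 e, h.fr] at this
    omega

end

theorem cA2 (h8 : 8 ≤ finrank F V) (h11 : finrank F V ≤ 11)
    (u : ∀ (x : V) (φ : W), x ≠ 0 → φ ≠ 0 → B x φ = 0 → finrank F (Ul Γ p x φ : Submodule F V) = 3)
    (u' : ∀ (φ : W) (x : V), φ ≠ 0 → x ≠ 0 → B.flip φ x = 0 → finrank F (Ul Γ p φ x : Submodule F W) = 3) :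
    False :=
  h.nb u u' (h.flip.nal u' u (h.fr ▸ h8) (h.fr ▸ h11)) h8 h11 (h.nal u u' h8 h11)

end Cf

end Cfsg.Agent.H2.CK
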