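import Cfsg.Agent.H2.CK13
import Cfsg.Agent.H6.CKA
import Cfsg.Agent.H6.CKC
import Cfsg.Agent.H4.CKA

/-! Doubly transitive linear groups in dimensions eight to eleven. -/

set_option autoImplicit false
set_option linter.unusedSimpArgs false
set_option linter.unusedSectionVars false
set_option linter.unusedVariables false

namespace Cfsg.Agent.H2.CK

open Module Submodule

variable {F V W : Type*} [Field F] [Fintype F] [AddCommGroup V] [Module F V] [FiniteDimensional F V]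
  [AddCommGroup W] [Module F W] [FiniteDimensional F W] {Γ : Type*} [Group Γ] [Finite Γ]
  [DistribMulAction Γ V] [SMulCommClass Γ F V] [DistribMulAction Γ W] [SMulCommClass Γ F W]
  {B : V →ₗ[F] W →ₗ[F] F} {S T : Submodule F V} {x y z v x' y' v' : V} {φ ψ χ w φ' ψ' : W} {g : Γ}
  {p : ℕ} [Fact p.Prime] [CharP F p] {Q : Sylow p Γ}

local notation "q" => Fintype.card F
local notation "ℓ[" x ", " y "]" => span F {x, y}

theorem Cf.wtwo (h : Cf Γ B) (h8 : 8 ≤ finrank F V) (h11 : finrank F V ≤ 11) (x0 : x ≠ 0) (a : y ∉ F ∙ x)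
    (φ0 : φ ≠ 0) (b : ψ ∉ F ∙ φ) :
    finrank F (Wl Γ B p ℓ[x, y]) = 2 ∨ finrank F (Wl Γ B.flip p ℓ[φ, ψ]) = 2 := by
  by_contra! hh
  have hW := h.fr
  have k1 := h.wl_lt (p := p) x0 a
  have k2 := finrank_mono (h.le_wl (p := p) x y)
  have j1 := h.flip.wl_lt (p := p) φ0 b
  have j2 := finrank_mono (h.flip.le_wl (p := p) φ ψ)
  rw [fr2 x0 a] at k2
  rw [fr2 φ0 b] at j2
  obtain ⟨i, hi⟩ : ∃ i, i + finrank F (Wl Γ B p ℓ[x, y]) = finrank F V := ⟨_, Nat.sub_add_cancel k1.le⟩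
  obtain ⟨j, hj⟩ : ∃ j, j + finrank F (Wl Γ B.flip p ℓ[φ, ψ]) = finrank F W := ⟨_, Nat.sub_add_cancel j1.le⟩
  have u : ∀ (x : V) (φ : W), x ≠ 0 → φ ≠ 0 → B x φ = 0 → finrank F (Ul Γ p x φ : Submodule F V) = i + 1 :=
    fun v χ c d e => by have := h.fr_ul (p := p) c d e x0 a; omega
  have u' : ∀ (φ : W) (x : V), φ ≠ 0 → x ≠ 0 → B.flip φ x = 0 →
      finrank F (Ul Γ p φ x : Submodule F W) = j + 1 :=
    fun χ v c d e => by have := h.flip.fr_ul (p := p) c d e φ0 b; omega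
  obtain ⟨χ, k⟩ := h.exph p x0 a
  have e := h.po1 k
  have c1 := finrank_mono (h.ut (p := p) x0 k.1 (by rw [u' χ x k.1 x0 e]; omega))
  have c2 := h.flip.fr_pp (Ul Γ p χ x)
  rw [u x χ x0 k.1 e] at c1
  rw [u' χ x k.1 x0 e] at c2
  by_cases i1 : i = 1
  · exact h.cA1 (by omega) (by subst i1; exact u)
  by_cases j1 : j = 1
  · exact h.flip.cA1 (by omega) (by subst j1; exact u')
  by_cases i2 : i = 2
  · subst i2
    have := h.b2 u x0 k.1 e
    rw [u' χ x k.1 x0 e] at this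
    obtain rfl : j = 2 := by omega
    exact h.cA2 h8 h11 u u'
  by_cases j2 : j = 2
  · subst j2
    have := h.flip.b2 u' k.1 x0 e
    rw [u x χ x0 k.1 e] at this
    omega
  exact h.a45 h8 h11 (by omega) (by omega) (by omega) u u'
    (fun x φ y a b c d e => h.a23 h11 (by omega) (by omega) b (fun x a c => u x φ a b c) a c d e)
    fun φ x ψ a b c d e => h.flip.a23 (by omega) (by omega) (by omega) b (fun φ a c => u' φ x a b c) a c d e

open H6 H6.S5 in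
theorem sl_step {n : ℕ} (h7 : 7 ≤ n) (h10 : n ≤ 10)
    (ih : ∀ (x : V) (M : Subgroup ((V ⧸ F ∙ x) ≃ₗ[F] (V ⧸ F ∙ x))), TT M → finrank F (V ⧸ F ∙ x) = n → SLV F _ ≤ M)
    (ih' : ∀ (x : Dual F V) (M : Subgroup ((Dual F V ⧸ F ∙ x) ≃ₗ[F] (Dual F V ⧸ F ∙ x))), TT M →
      finrank F (Dual F V ⧸ F ∙ x) = n → SLV F _ ≤ M)
    {M : Subgroup (V ≃ₗ[F] V)} (h : TT M) (hV : finrank F V = n + 1) : SLV F V ≤ M := by
  obtain ⟨p, hp⟩ := CharP.exists F
  have := Fact.mk (CharP.char_is_prime F p)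
  have c := cf_of h (by omega)
  have hW := c.fr.trans hV
  obtain ⟨x, x0⟩ := c.exn1 0
  obtain ⟨φ, φ0⟩ := c.flip.exn1 0
  replace x0 := nz x0
  replace φ0 := nz φ0
  obtain ⟨y, a⟩ := c.exn1 x
  obtain ⟨ψ, b⟩ := c.flip.exn1 φ
  rcases c.wtwo (p := p) (by omega) (by omega) x0 a φ0 b with e | e
  · exact sl_of c (c.case2 (p := p) (n := n) hV (by omega) x0 a e (ih x))
  · exact sl_of c (c.ht_flip (c.flip.case2 (p := p) (n := n) hW (by omega) φ0 b e (ih' φ)))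

open H6 H6.S5 in
theorem sl8 {M : Subgroup (V ≃ₗ[F] V)} (h : TT M) (hV : finrank F V = 8) : SLV F V ≤ M :=
  sl_step (n := 7) (by omega) (by omega) (fun _ _ k e => sl7 k e) (fun _ _ k e => sl7 k e) h hV

open H6 H6.S5 in
theorem sl9 {M : Subgroup (V ≃ₗ[F] V)} (h : TT M) (hV : finrank F V = 9) : SLV F V ≤ M :=
  sl_step (n := 8) (by omega) (by omega) (fun _ _ k e => sl8 k e) (fun _ _ k e => sl8 k e) h hV

open H6 H6.S5 in
theorem sl10 {M : Subgroup (V ≃ₗ[F] V)} (h : TT M) (hV : finrank F V = 10) : SLV F V ≤ M :=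
  sl_step (n := 9) (by omega) (by omega) (fun _ _ k e => sl9 k e) (fun _ _ k e => sl9 k e) h hV

open H6 H6.S5 in
theorem sl11 {M : Subgroup (V ≃ₗ[F] V)} (h : TT M) (hV : finrank F V = 11) : SLV F V ≤ M :=
  sl_step (n := 10) (by omega) (by omega) (fun _ _ k e => sl10 k e) (fun _ _ k e => sl10 k e) h hV

end Cfsg.Agent.H2.CK
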