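import Cfsg.Agent.H2.CK1

/-! Flag and antiflag transitive groups: Sylow subgroups. -/

set_option autoImplicit false
set_option linter.unusedSimpArgs false
set_option linter.unusedSectionVars false
set_option linter.unusedVariables false

namespace Cfsg.Agent.H2.CK

open Module Submodule

variable {F V W : Type*} [Field F] [Fintype F] [AddCommGroup V] [Module F V] [FiniteDimensional F V]
  [AddCommGroup W] [Module F W] [FiniteDimensional F W] {Γ : Type*} [Group Γ] [Finite Γ]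
  [DistribMulAction Γ V] [SMulCommClass Γ F V] [DistribMulAction Γ W] [SMulCommClass Γ F W]
  {B : V →ₗ[F] W →ₗ[F] F} {S T : Submodule F V} {x y z v x' y' v' : V} {φ ψ χ w φ' ψ' : W} {g : Γ}
  {p : ℕ} [Fact p.Prime] [CharP F p] {Q : Sylow p Γ}

local notation "q" => Fintype.card F

theorem ncard_sub (S : Submodule F V) : (S : Set V).ncard = q ^ finrank F S := H6.S5.card_sub S

theorem ncard_diff (h : T ≤ S) : ((S : Set V) \ T).ncard = q ^ finrank F S - q ^ finrank F T := by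
  have : Finite V := Module.finite_of_finite F
  rw [Set.ncard_diff h, ncard_sub, ncard_sub]

theorem ncard_aff {Ω : Set V} (h : ∀ y, y ∈ Ω ↔ y - v ∈ S) : Ω.ncard = q ^ finrank F S := by
  rw [← ncard_sub, ← Set.ncard_image_of_injective (S : Set V) (add_left_injective v)]
  congr 1
  ext y
  rw [h]
  exact ⟨fun k => ⟨_, k, by simp⟩, by rintro ⟨a, b, rfl⟩; simpa using b⟩

theorem dc {A C : Type*} [Finite A] [Finite C] (s : Set A) (t : Set C) (r : A → C → Prop) {m n : ℕ}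
    (hm : ∀ a ∈ s, m ≤ {b ∈ t | r a b}.ncard) (hn : ∀ b ∈ t, {a ∈ s | r a b}.ncard ≤ n) :
    s.ncard * m ≤ t.ncard * n := by
  classical
  have := Fintype.ofFinite A
  have := Fintype.ofFinite C
  rw [Set.ncard_eq_toFinset_card', Set.ncard_eq_toFinset_card']
  refine Finset.card_mul_le_card_mul r (fun a ha => (hm a (by simpa using ha)).trans_eq ?_)
    fun b hb => le_of_eq_of_le ?_ (hn b (by simpa using hb))
  · rw [← Set.ncard_coe_finset]; congr 1; ext; simp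
  · rw [← Set.ncard_coe_finset]; congr 1; ext; simp

theorem syl_tr {X : Type*} [Finite X] [MulAction Γ X] (Q : Sylow p Γ) {Ω : Set X} {k : ℕ}
    (hc : Ω.ncard = q ^ k) (hQ : ∀ g ∈ Q, ∀ a ∈ Ω, g • a ∈ Ω)
    (ht : ∀ a ∈ Ω, ∀ b ∈ Ω, ∃ g : Γ, g • a = b ∧ ∀ c ∈ Ω, g • c ∈ Ω) {a b : X} (ha : a ∈ Ω)
    (hb : b ∈ Ω) : ∃ g ∈ Q, g • a = b := by
  let Y : Subgroup Γ :=
    { carrier := {g | ∀ v ∈ Ω, g • v ∈ Ω}
      mul_mem' := fun a b v hv => by rw [mul_smul]; exact a _ (b _ hv)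
      one_mem' := fun v hv => by rwa [one_smul]
      inv_mem' := fun {g} a v hv => by
        have : ∀ n : ℕ, g ^ n • v ∈ Ω := fun n => by
          induction n with
          | zero => simpa using hv
          | succ n ih => rw [pow_succ', mul_smul]; exact a _ ih
        have e : g⁻¹ = g ^ (orderOf g - 1) := by
          rw [inv_eq_iff_mul_eq_one, ← pow_succ', Nat.sub_add_cancel (orderOf_pos g), pow_orderOf_eq_one]
        exact e ▸ this _ }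
  have le : Q.1 ≤ Y := hQ
  have rel : ∀ K : Subgroup Γ, (MulAction.stabilizer Γ a).relIndex K = (MulAction.orbit K a).ncard :=
    fun K => MulAction.index_stabilizer K a
  have o1 : MulAction.orbit Y a = Ω := Set.ext fun c => ⟨by rintro ⟨g, rfl⟩; exact g.2 a ha, fun hc => by
    obtain ⟨g, e, k⟩ := ht a ha c hc
    exact ⟨⟨g, k⟩, e⟩⟩
  have i1 := Subgroup.relIndex_mul_relIndex (MulAction.stabilizer Γ a ⊓ Q.1) Q.1 Y inf_le_right le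
  have i2 := Subgroup.relIndex_mul_relIndex (MulAction.stabilizer Γ a ⊓ Q.1)
    (MulAction.stabilizer Γ a ⊓ Y) Y (inf_le_inf_left _ le) inf_le_right
  rw [Subgroup.inf_relIndex_right, rel] at i1 i2
  obtain ⟨n, -, hn⟩ := FiniteField.card F p
  rw [o1, hc, ← i1, hn, ← pow_mul] at i2
  have c1 : Nat.Coprime p (Q.1.relIndex Y) := (Nat.Prime.coprime_iff_not_dvd Fact.out).2 fun e =>
    Q.not_dvd_index (e.trans (Dvd.intro _ (Subgroup.relIndex_mul_index le)))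
  have := (c1.pow_left _).dvd_of_dvd_mul_right (Dvd.intro_left _ i2)
  have o2 := Set.eq_of_subset_of_ncard_le (s := MulAction.orbit Q.1 a) (t := Ω)
    (by rintro _ ⟨g, rfl⟩; exact hQ g g.2 a ha) (by
      rw [hc, hn, ← pow_mul]
      exact Nat.le_of_dvd ((Set.ncard_pos (Set.toFinite _)).2 ⟨a, MulAction.mem_orbit_self _⟩) this)
  obtain ⟨g, e⟩ : b ∈ MulAction.orbit Q.1 a := o2 ▸ hb
  exact ⟨g, g.2, e⟩

theorem cj (Q : Sylow p Γ) (g : Γ) : ∃ Q' : Sylow p Γ, ∀ k ∈ Q', ∃ l ∈ Q, k = g * l * g⁻¹ :=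
  ⟨g • Q, fun k ⟨l, a, b⟩ => ⟨l, a, b.symm⟩⟩

/-- fixed by a Sylow subgroup -/
def Fx {X : Type*} [MulAction Γ X] (Q : Sylow p Γ) (x : X) : Prop := ∀ g ∈ Q, g • x = x

theorem Fx.smul (h : Fx Q x) (c : F) : Fx Q (c • x) := fun g hg => by rw [smul_comm, h g hg]

theorem Fx.of (h : Fx Q x) (k : y ∈ F ∙ x) : Fx Q y := by
  obtain ⟨c, rfl⟩ := mem_span_singleton.1 k
  exact h.smul c

theorem Fx.st (h : Fx Q x) : Q.1 ≤ st Γ (F ∙ x) := fun g hg =>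
  mem_st1.2 ((h g hg).symm ▸ mem_span_singleton_self x)

theorem step (h1 : Q.1 ≤ st Γ S) (h2 : Q.1 ≤ st Γ T) (hv : v ∈ T) (hv' : v ∉ S) :
    ∃ x ∈ T, x ∉ S ∧ ∀ g ∈ Q, g • x - x ∈ S := by
  obtain ⟨_, ⟨x, m, rfl⟩, x0, hx⟩ := H1.exists_fixed_of_isPGroup Q.isPGroup'
    ((Representation.ofDistribMulAction F Q.1 V).quotient S fun u w hw => h1 u.2 w hw) (T.map S.mkQ)
    (by rintro u _ ⟨w, hw, rfl⟩; exact ⟨_, h2 u.2 w hw, rfl⟩)
    fun e => hv' ((Quotient.mk_eq_zero S).1 (e.le ⟨v, hv, rfl⟩))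
  exact ⟨x, m, fun e => x0 ((Quotient.mk_eq_zero S).2 e), fun u hu =>
    (Submodule.Quotient.eq S).1 (hx ⟨u, hu⟩)⟩

theorem uni (hg : g ∈ Q) (h1 : g ∈ st Γ S) (hv : v ∉ S) {c : F} (e : g • v - c • v ∈ S) : c = 1 := by
  have k : ∀ n : ℕ, g ^ n • v - c ^ n • v ∈ S := fun n => by
    induction n with
    | zero => simp
    | succ n ih =>
      convert add_mem (h1 _ ih) (smul_mem _ (c ^ n) e) using 1
      rw [pow_succ', mul_smul, smul_sub, smul_sub, smul_comm g (c ^ n), pow_succ c, mul_smul]; abel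
  obtain ⟨n, hn⟩ := Q.isPGroup' ⟨g, hg⟩
  have := k (p ^ n)
  rw [show g ^ p ^ n = 1 from congrArg Subtype.val hn, one_smul] at this
  by_contra ne
  have c1 : 1 - c ^ p ^ n ≠ 0 := by
    rw [← one_pow (p ^ n), ← sub_pow_char_pow]; exact pow_ne_zero _ (sub_ne_zero.2 (Ne.symm ne))
  exact hv ((smul_mem_iff _ c1).1 (by rwa [sub_smul, one_smul]))

theorem ne0 (h : x ≠ 0) (g : Γ) : g • x ≠ 0 := (smul_ne_zero_iff_ne g).2 h

theorem mem_sp1 (h : y ∈ F ∙ x) (y0 : y ≠ 0) : x ∈ F ∙ y := by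
  obtain ⟨c, rfl⟩ := mem_span_singleton.1 h
  exact mem_span_singleton.2 ⟨c⁻¹, by rw [smul_smul, inv_mul_cancel₀ (left_ne_zero_of_smul y0), one_smul]⟩

theorem sp1 (x : V) : x ∈ F ∙ x := mem_span_singleton_self x

theorem fr2 (x0 : x ≠ 0) (a : y ∉ F ∙ x) : finrank F (span F {x, y}) = 2 := by
  rw [span_insert, finrank_sup_span_singleton a, finrank_span_singleton x0]

theorem pp1 : φ ∈ pp B (F ∙ x) ↔ B x φ = 0 :=
  mem_pp.trans ⟨fun h => h x (sp1 x), fun h v hv => by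
    obtain ⟨c, rfl⟩ := mem_span_singleton.1 hv; simp [h]⟩

theorem pp2 : φ ∈ pp B (span F {x, y}) ↔ B x φ = 0 ∧ B y φ = 0 :=
  mem_pp.trans ⟨fun h => ⟨h x (subset_span (by simp)), h y (subset_span (by simp))⟩, fun h v hv => by
    obtain ⟨c, d, rfl⟩ := mem_span_pair.1 hv; simp [h]⟩

variable (F V W) in
/-- contains the scalars -/
def Sc (Y : Subgroup Γ) : Prop :=
  ∀ c : F, c ≠ 0 → ∃ z ∈ Y, (∀ v : V, z • v = c • v) ∧ ∀ w : W, z • w = c⁻¹ • w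

theorem Sc.flip {Y : Subgroup Γ} (h : Sc F V W Y) : Sc F W V Y := fun c hc => by
  obtain ⟨z, m, a, b⟩ := h c⁻¹ (inv_ne_zero hc)
  exact ⟨z, m, by simpa using b, a⟩

theorem Pr.sc2 (h : Pr Γ B) (S T : Submodule F V) : Sc F V W (st Γ S ⊓ st Γ T) := fun c hc =>
  let ⟨z, a, b⟩ := h.sc c hc; ⟨z, ⟨sc_st a, sc_st a⟩, a, b⟩

theorem Pr.sc2' (h : Pr Γ B) (S : Submodule F V) (T : Submodule F W) :
    Sc F V W (st Γ S ⊓ st Γ T) := fun c hc =>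
  let ⟨z, a, b⟩ := h.sc c hc; ⟨z, ⟨sc_st a, sc_st b⟩, a, b⟩

theorem ov {Y : Subgroup Γ} (hY : Sc F V W Y) (T : Submodule F V) (I : Set W)
    (hI : ∀ φ ∈ I, ∀ v ∈ T, ∀ v' ∈ T, B v φ = 1 → B v' φ = 1 → ∃ g ∈ Y, g • v = v')
    (hv : v ∈ T) (hv' : v' ∈ T) (h1 : ∃ φ ∈ I, B v φ ≠ 0) (h2 : ∃ φ ∈ I, B v' φ ≠ 0) :
    ∃ g ∈ Y, g • v = v' := by
  have k : ∀ φ ∈ I, ∀ v ∈ T, ∀ v' ∈ T, B v φ ≠ 0 → B v' φ ≠ 0 → ∃ g ∈ Y, g • v = v' :=
    fun φ hφ v hv v' hv' a b => by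
      obtain ⟨g, hg, e⟩ := hI φ hφ _ (smul_mem T (B v φ)⁻¹ hv) _ (smul_mem T (B v' φ)⁻¹ hv')
        (by simp [a]) (by simp [b])
      obtain ⟨z, hz, e1, -⟩ := hY _ (inv_ne_zero a)
      obtain ⟨z', hz', e2, -⟩ := hY _ b
      exact ⟨z' * g * z, mul_mem (mul_mem hz' hg) hz, by simp [mul_smul, e1, e, e2, b]⟩
  obtain ⟨φ, hφ, a⟩ := h1
  obtain ⟨ψ, hψ, b⟩ := h2
  by_cases c : B v' φ ≠ 0
  · exact k φ hφ v hv v' hv' a c
  by_cases d : B v ψ ≠ 0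
  · exact k ψ hψ v hv v' hv' d b
  push Not at c d
  obtain ⟨g, hg, e⟩ := k φ hφ v hv _ (add_mem hv hv') a (by simpa [c])
  obtain ⟨g', hg', e'⟩ := k ψ hψ _ (add_mem hv hv') v' hv' (by simpa [d]) b
  exact ⟨g' * g, mul_mem hg' hg, by rw [mul_smul, e, e']⟩

variable (Γ) in
/-- flag and antiflag transitive -/
structure Cf (B : V →ₗ[F] W →ₗ[F] F) : Prop extends Pr Γ B where
  af : ∀ x φ x' φ', B x φ = 1 → B x' φ' = 1 → ∃ g : Γ, g • x = x' ∧ g • φ = φ'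
  fl : ∀ x φ x' φ', x ≠ 0 → φ ≠ 0 → B x φ = 0 → x' ≠ 0 → φ' ≠ 0 → B x' φ' = 0 →
    ∃ g : Γ, g • x ∈ F ∙ x' ∧ g • φ ∈ F ∙ φ'
  three : 3 ≤ finrank F V

theorem Pr.cf (h : Pr Γ B) (h3 : 3 ≤ finrank F V) (h1 : ∀ x x' : V, x ≠ 0 → x' ≠ 0 → ∃ g : Γ, g • x = x')
    (h2 : ∀ x y y' : V, x ≠ 0 → y ∉ F ∙ x → y' ∉ F ∙ x → ∃ g ∈ st Γ (F ∙ x), g • y = y') : Cf Γ B := by
  have k : ∀ x ψ ψ', x ≠ 0 → ψ ≠ 0 → ψ' ≠ 0 → B x ψ' = B x ψ → ∃ g ∈ st Γ (F ∙ x), g • ψ = ψ' :=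
    fun x ψ ψ' x0 a b e => h.flip.ft' _ (pp B (F ∙ x))
      (fun v v' c d => h2 x v v' x0 (by rwa [h.pp_pp] at c) (by rwa [h.pp_pp] at d)) a
      (pp1.2 (by simp [e])) b
  refine ⟨h, fun x φ x' φ' a b => ?_, fun x φ x' φ' a b c d e f => ?_, h3⟩
  · have x0 : x' ≠ 0 := by rintro rfl; simp at b
    obtain ⟨g, rfl⟩ := h1 x x' (by rintro rfl; simp at a) x0
    obtain ⟨k, hk, e⟩ := k (g • x) (g • φ) φ' x0 (ne0 (by rintro rfl; simp at a) g)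
      (by rintro rfl; simp at b) (by rw [h.inv, a, b])
    obtain ⟨c, hc⟩ := mem_span_singleton.1 (mem_st1.1 hk)
    have := h.inv k (g • x) (g • φ)
    rw [← hc, e, h.inv, a, map_smul, LinearMap.smul_apply, b, smul_eq_mul, mul_one] at this
    exact ⟨k * g, by rw [mul_smul, ← hc, this, one_smul], by rw [mul_smul, e]⟩
  · obtain ⟨g, rfl⟩ := h1 x x' a d
    obtain ⟨k, hk, e⟩ := k (g • x) (g • φ) φ' d (ne0 b g) e (by rw [h.inv, c, f])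
    exact ⟨k * g, by rw [mul_smul]; exact mem_st1.1 hk, by rw [mul_smul, e]; exact sp1 _⟩

namespace Cf

variable (h : Cf Γ B)
include h

theorem flip : Cf Γ B.flip :=
  ⟨h.toPr.flip, fun φ x φ' x' a b => (h.af x φ x' φ' a b).imp fun _ => And.symm,
    fun φ x φ' x' a b c d e f => (h.fl x φ x' φ' b a c e d f).imp fun _ => And.symm, h.fr ▸ h.three⟩

theorem exn (S : Submodule F V) (hS : finrank F S < finrank F V) : ∃ y, y ∉ S := H6.S5.exists_nmem hS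

theorem exn1 (x : V) : ∃ y, y ∉ F ∙ x :=
  h.exn _ ((finrank_span_le_card _).trans_lt (by have := h.three; simp; omega))

theorem exn2 (x0 : x ≠ 0) (a : y ∉ F ∙ x) : ∃ z, z ∉ span F {x, y} :=
  h.exn _ (by rw [fr2 x0 a]; exact h.three)

theorem s1 (hx : Fx Q x) (a : B x ψ = 1) (b : B x ψ' = 1) : ∃ g ∈ Q, g • ψ = ψ' := by
  have : Finite W := Module.finite_of_finite F
  refine syl_tr Q (Ω := {ψ | B x ψ = 1}) (ncard_aff (v := ψ) (S := pp B (F ∙ x)) fun y => ?_)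
    (fun g hg c hc => ?_) (fun c hc d hd => ?_) a b
  · simp [pp1, a, sub_eq_zero]
  · rw [Set.mem_setOf, h.inv'', hx _ (inv_mem hg)]; exact hc
  · obtain ⟨g, e1, e2⟩ := h.af x c x d hc hd
    exact ⟨g, e2, fun c hc => by rw [Set.mem_setOf, ← e1, h.inv]; exact hc⟩

theorem orth (hx : Fx Q x) (hφ : Fx Q φ) : B x φ = 0 := by
  by_contra n
  obtain ⟨y, hy⟩ := h.exn1 x
  obtain ⟨χ, a, b⟩ := h.ex2 hy
  obtain ⟨g, hg, e⟩ := h.s1 hx (ψ := (B x φ)⁻¹ • φ) (ψ' := (B x φ)⁻¹ • φ + χ) (by simp [n]) (by simp [n, a])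
  rw [hφ.smul _ g hg, left_eq_add] at e
  simp [e] at b

theorem uq (hx : Fx Q x) (hy : Fx Q y) (x0 : x ≠ 0) : y ∈ F ∙ x := by
  by_contra n
  obtain ⟨χ, a, b⟩ := h.ex2 n
  obtain ⟨ψ, c⟩ := h.ex1 x0
  obtain ⟨g, hg, e⟩ := h.s1 hx c (ψ' := ψ + χ) (by simp [a, c])
  have := h.inv g y ψ
  rw [hy g hg, e] at this
  simp [b] at this

theorem exf (Q : Sylow p Γ) : ∃ x : V, x ≠ 0 ∧ Fx Q x := by
  obtain ⟨y, hy⟩ := h.exn1 0
  obtain ⟨x, -, a, b⟩ := step (Q := Q) (S := (⊥ : Submodule F V)) (T := ⊤) (v := y)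
    (fun g _ v hv => by simp_all) (fun _ _ _ _ => trivial) trivial (by simpa using hy)
  exact ⟨x, by simpa using a, fun g hg => by simpa [sub_eq_zero] using b g hg⟩

variable (p) in
theorem s0 (x0 : x ≠ 0) (φ0 : φ ≠ 0) (e : B x φ = 0) : ∃ Q : Sylow p Γ, Fx Q x ∧ Fx Q φ := by
  obtain ⟨Q⟩ : Nonempty (Sylow p Γ) := inferInstance
  obtain ⟨y, y0, hy⟩ := h.exf Q
  obtain ⟨ψ, ψ0, hψ⟩ := h.flip.exf Q
  obtain ⟨g, a, b⟩ := h.fl y ψ x φ y0 ψ0 (h.orth hy hψ) x0 φ0 e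
  obtain ⟨Q', k⟩ := cj Q g
  refine ⟨Q', Fx.of (fun l hl => ?_) (mem_sp1 a (ne0 y0 g)), Fx.of (fun l hl => ?_) (mem_sp1 b (ne0 ψ0 g))⟩
  · obtain ⟨l, m, rfl⟩ := k l hl; simp [mul_smul, hy l m]
  · obtain ⟨l, m, rfl⟩ := k l hl; simp [mul_smul, hψ l m]

variable (p) in
theorem tt' {Y : Subgroup Γ} (hY : Sc F V W Y) (x0 : x ≠ 0) (hQ : ∀ Q : Sylow p Γ, Fx Q x → Q.1 ≤ Y)
    (a : y ∉ F ∙ x) (b : y' ∉ F ∙ x) : ∃ g ∈ Y, g • y = y' := by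
  refine ov (B := B) hY ⊤ {φ | B x φ = 0} (fun φ hφ v _ v' _ c d => ?_) trivial trivial
    ((h.ex2 a).imp fun _ k => ⟨k.1, by simp [k.2]⟩) ((h.ex2 b).imp fun _ k => ⟨k.1, by simp [k.2]⟩)
  obtain ⟨Q, e1, e2⟩ := h.s0 p x0 (by rintro rfl; simp at c) hφ
  obtain ⟨g, hg, e⟩ := h.flip.s1 e2 c d
  exact ⟨g, hQ Q e1 hg, e⟩

include p in
theorem tt (x0 : x ≠ 0) (a : y ∉ F ∙ x) (b : y' ∉ F ∙ x) : ∃ g ∈ st Γ (F ∙ x), g • y = y' := by
  simpa using h.tt' p (h.sc2 (F ∙ x) (F ∙ x)) x0 (fun Q k => by simpa using k.st) a b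

theorem tr (x0 : x ≠ 0) (a : x' ≠ 0) : ∃ g : Γ, g • x = x' :=
  let ⟨φ, c⟩ := h.ex1 x0; let ⟨ψ, d⟩ := h.ex1 a; (h.af _ _ _ _ c d).imp fun _ k => k.1

include p in
theorem t2 (x0 : x ≠ 0) (φ0 : φ ≠ 0) (e : B x φ = 0) (v0 : v ≠ 0) (v1 : v' ≠ 0) (a : v' - v ∈ F ∙ x) :
    ∃ g ∈ st Γ (F ∙ x) ⊓ st Γ (F ∙ φ), g • v = v' := by
  obtain ⟨Q, e1, e2⟩ := h.s0 p x0 φ0 e
  refine h.ft' _ _ (fun w w' c d => ?_) v0 a v1
  rw [pp1] at c d
  refine ov (B := B.flip) (h.sc2' _ _).flip ⊤ {x} ?_ trivial trivial ⟨x, rfl, c⟩ ⟨x, rfl, d⟩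
  rintro _ rfl ψ - ψ' - c d
  obtain ⟨g, hg, e⟩ := h.s1 e1 c d
  exact ⟨g, ⟨e1.st hg, e2.st hg⟩, e⟩

end Cf

end Cfsg.Agent.H2.CK
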