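import Cfsg.Agent.H2.CK2

/-! The subspaces attached to lines and flags. -/

set_option autoImplicit false
set_option linter.unusedSimpArgs false
set_option linter.unusedSectionVars false
set_option linter.unusedVariables false

namespace Cfsg.Agent.H2.CK

open Module Submodule

variable {F V W : Type*} [Field F] [Fintype F] [AddCommGroup V] [Module F V] [FiniteDimensional F V]
  [AddCommGroup W] [Module F W] [FiniteDimensional F W] {Γ : Type*} [Group Γ] [Finite Γ]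
  [DistribMulAction Γ V] [SMulCommClass Γ F V] [DistribMulAction Γ W] [SMulCommClass Γ F W]
  {B : V →ₗ[F] W →ₗ[F] F} {S T : Submodule F V} {x y z v x' y' v' : V} {φ ψ χ w φ' ψ' : W} {g : Γ}
  {p : ℕ} [Fact p.Prime] [CharP F p] {Q : Sylow p Γ}

local notation "q" => Fintype.card F
local notation "ℓ[" x ", " y "]" => span F {x, y}

/-- image of a subspace -/
def mp (g : Γ) (S : Submodule F V) : Submodule F V := S.map (DistribMulAction.toLinearEquiv F V g).toLinearMap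

theorem mem_mp : v ∈ mp g S ↔ g⁻¹ • v ∈ S :=
  ⟨by rintro ⟨a, b, rfl⟩; simpa using b, fun h => ⟨_, h, by simp⟩⟩

theorem smul_mp : g • v ∈ mp g S ↔ v ∈ S := by simp [mem_mp]

theorem mp_pair (g : Γ) (x y : V) : mp g ℓ[x, y] = ℓ[g • x, g • y] := by
  simp [mp, map_span, Set.image_pair]

theorem mp_st (h : g ∈ st Γ S) : mp g S = S :=
  Submodule.ext fun v => mem_mp.trans ⟨fun k => by simpa using h _ k, fun k => inv_mem h _ k⟩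

theorem fr_mp (g : Γ) (S : Submodule F V) : finrank F (mp g S) = finrank F S :=
  LinearEquiv.finrank_map_eq _ _

theorem mp_inv (g : Γ) (S : Submodule F V) : mp g⁻¹ (mp g S) = S := by ext; simp [mem_mp]

theorem l1 (x y : V) : x ∈ ℓ[x, y] := subset_span (by simp)

theorem l2 (x y : V) : y ∈ ℓ[x, y] := subset_span (by simp)

theorem l3 (h : v ∈ F ∙ x) : v ∈ ℓ[x, y] := span_mono (by simp) h

theorem ln_le : ℓ[x, y] ≤ S ↔ x ∈ S ∧ y ∈ S := by simp [span_le, Set.pair_subset_iff]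

theorem ln_comm (x y : V) : ℓ[x, y] = ℓ[y, x] := by rw [Set.pair_comm]

theorem fr2' (x y : V) : finrank F ℓ[x, y] ≤ 2 := by
  have : ∀ x : V, finrank F (F ∙ x) ≤ 1 := fun x => (finrank_span_le_card _).trans (by simp)
  rw [span_insert]
  exact (finrank_add_le_finrank_add_finrank _ _).trans (add_le_add (this x) (this y))

theorem ln_eq' (h : finrank F S ≤ 2) (x0 : x ≠ 0) (a : y ∉ F ∙ x) (b : x ∈ S) (c : y ∈ S) : ℓ[x, y] = S :=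
  eq_of_le_of_finrank_le (ln_le.2 ⟨b, c⟩) (by rwa [fr2 x0 a])

theorem ln_eq (x0 : x ≠ 0) (a : y ∉ F ∙ x) (b : x ∈ ℓ[x', y']) (c : y ∈ ℓ[x', y']) : ℓ[x, y] = ℓ[x', y'] :=
  ln_eq' (fr2' _ _) x0 a b c

theorem nz (a : y ∉ S) : y ≠ 0 := by rintro rfl; simp at a

theorem ind_symm (x0 : x ≠ 0) (a : y ∉ F ∙ x) : x ∉ F ∙ y := fun e => a (mem_sp1 e x0)

theorem sp_eq (a : y ∈ F ∙ x) (y0 : y ≠ 0) : F ∙ y = F ∙ x :=
  le_antisymm ((span_singleton_le_iff_mem _ _).2 a) ((span_singleton_le_iff_mem _ _).2 (mem_sp1 a y0))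

theorem nm_st (hg : g ∈ st Γ S) (a : y ∉ S) : g • y ∉ S := fun e => a (by simpa using inv_mem hg _ e)

theorem fxl (h1 : Q.1 ≤ st Γ ℓ[x, y]) (h2 : Fx Q x) (a : y ∉ F ∙ x) (hg : g ∈ Q) (hv : v ∈ ℓ[x, y]) :
    g • v - v ∈ F ∙ x := by
  obtain ⟨c, d, e⟩ := mem_span_pair.1 (h1 hg y (l2 x y))
  have k : g • y - d • y ∈ F ∙ x := by rw [← e, add_sub_cancel_right]; exact smul_mem _ _ (sp1 x)
  rw [uni hg (h2.st hg) a k, one_smul] at k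
  obtain ⟨s, t, rfl⟩ := mem_span_pair.1 hv
  convert smul_mem _ t k using 1
  rw [smul_add, smul_comm, smul_comm g, h2 g hg, smul_sub]; abel

theorem Fx.cj {X : Type*} [MulAction Γ X] {Q' : Sylow p Γ} (k : ∀ k ∈ Q', ∃ l ∈ Q, k = g * l * g⁻¹)
    {x : X} (h : Fx Q x) : Fx Q' (g • x) := fun l hl => by
  obtain ⟨l, m, rfl⟩ := k l hl; simp [mul_smul, h l m]

theorem st_cj {Q' : Sylow p Γ} (k : ∀ k ∈ Q', ∃ l ∈ Q, k = g * l * g⁻¹) (h : Q.1 ≤ st Γ S) :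
    Q'.1 ≤ st Γ (mp g S) := fun l hl v hv => by
  obtain ⟨l, m, rfl⟩ := k l hl
  simpa [mem_mp, mul_smul] using h m _ (mem_mp.1 hv)

variable (p Γ) in
/-- a line and a hyperplane fixed by a Sylow subgroup -/
def Ph (S : Submodule F V) (φ : W) : Prop := φ ≠ 0 ∧ ∃ Q : Sylow p Γ, Q.1 ≤ st Γ S ∧ Fx Q φ

variable (p Γ B) in
/-- the subspace attached to a line -/
def Wl (S : Submodule F V) : Submodule F V := pp B.flip (span F {φ | Ph Γ p S φ})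

theorem mem_Wl : v ∈ Wl Γ B p S ↔ ∀ φ, Ph Γ p S φ → B v φ = 0 :=
  mem_pp.trans ⟨fun h φ k => h φ (subset_span k), fun h φ k =>
    (span_le (p := LinearMap.ker (B v))).2 h k⟩

theorem Ph.mp (h : Ph Γ p S φ) (g : Γ) : Ph Γ p (mp g S) (g • φ) :=
  let ⟨a, Q, b, c⟩ := h; let ⟨Q', k⟩ := cj Q g; ⟨ne0 a g, Q', st_cj k b, c.cj k⟩

theorem Ph.of (h : Ph Γ p S φ) (k : ψ ∈ F ∙ φ) (ψ0 : ψ ≠ 0) : Ph Γ p S ψ :=
  let ⟨a, Q, b, c⟩ := h; ⟨ψ0, Q, b, c.of k⟩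

namespace Cf

variable (h : Cf Γ B)
include h

theorem wl_mp (g : Γ) (S : Submodule F V) : Wl Γ B p (mp g S) = mp g (Wl Γ B p S) := by
  ext v
  rw [mem_mp, mem_Wl, mem_Wl]
  exact ⟨fun k φ a => by rw [← h.inv'']; exact k _ (a.mp g), fun k φ a => by
    rw [← h.inv g⁻¹]; exact k _ (mp_inv g S ▸ a.mp g⁻¹)⟩

theorem st_wl (hg : g ∈ st Γ S) : g ∈ st Γ (Wl Γ B p S) := fun v hv => by
  rw [← mp_st hg, h.wl_mp, smul_mp]; exact hv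

theorem le_wl (x y : V) : ℓ[x, y] ≤ Wl Γ B p ℓ[x, y] := fun v hv => mem_Wl.2 fun φ ⟨a, Q, b, c⟩ => by
  by_contra n
  obtain ⟨z, hz⟩ := h.exn ℓ[x, y] ((fr2' x y).trans_lt h.three)
  obtain ⟨g, hg, e⟩ := h.flip.s1 c (ψ := (B v φ)⁻¹ • v) (ψ' := z + ((1 - B z φ) / B v φ) • v)
    (by simp [n]) (by simp [n])
  exact hz ((Submodule.add_mem_iff_left _ (smul_mem _ _ hv)).1 (e ▸ b hg _ (smul_mem _ _ hv)))

theorem po1 (k : Ph Γ p ℓ[x, y] φ) : B x φ = 0 := mem_Wl.1 (h.le_wl x y (l1 x y)) _ k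

theorem po2 (k : Ph Γ p ℓ[x, y] φ) : B y φ = 0 := mem_Wl.1 (h.le_wl x y (l2 x y)) _ k

theorem pr (x0 : x ≠ 0) (k : Ph Γ p ℓ[x, y] φ) : ∃ Q : Sylow p Γ, Q.1 ≤ st Γ ℓ[x, y] ∧ Fx Q φ ∧ Fx Q x := by
  obtain ⟨a, Q, b, c⟩ := id k
  obtain ⟨z, m, z0, e⟩ := step (Q := Q) (S := ⊥) (fun g _ v hv => by simp_all) b (l1 x y) (by simpa)
  replace e : Fx Q z := fun g hg => by simpa [sub_eq_zero] using e g hg
  replace z0 : z ≠ 0 := by simpa using z0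
  by_cases n : x ∈ F ∙ z
  · exact ⟨Q, b, c, e.of n⟩
  obtain ⟨g, ⟨g1, g2⟩, e1⟩ := h.t2 (p := p) (x := x - z) (φ := φ)
    (sub_ne_zero.2 (by rintro rfl; exact n (sp1 _))) a
    (mem_Wl.1 (h.le_wl x y (sub_mem (l1 x y) m)) _ k) z0 x0 (sp1 _)
  obtain ⟨Q', k⟩ := cj Q g
  have e2 := ln_eq z0 n m (l1 x y)
  refine ⟨Q', (st_cj k b).trans_eq (congrArg _ (mp_st ?_)),
    (c.cj k).of (mem_sp1 (mem_st1.1 g2) (ne0 a g)), e1 ▸ e.cj k⟩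
  rw [← e2, mem_st2, e1]
  refine ⟨l2 _ _, ?_⟩
  have := add_mem ((span_singleton_le_iff_mem _ _).2 (sub_mem (l2 z x) (l1 z x)) (mem_st1.1 g1)) (l2 z x)
  rwa [smul_sub, e1, sub_add_cancel] at this

include p in
theorem trl (x0 : x ≠ 0) (a : y ∉ F ∙ x) (x1 : x' ≠ 0) (b : y' ∉ F ∙ x') :
    ∃ g : Γ, g • x ∈ F ∙ x' ∧ mp g ℓ[x, y] = ℓ[x', y'] := by
  obtain ⟨g, rfl⟩ := h.tr x0 x1
  obtain ⟨k, hk, rfl⟩ := h.tt (p := p) x1 (y := g • y) (fun e => a (by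
    obtain ⟨c, e⟩ := mem_span_singleton.1 e
    exact mem_span_singleton.2 ⟨c, by rw [← smul_comm, smul_left_cancel_iff] at e; exact e⟩)) b
  have m := mem_st1.1 hk
  refine ⟨k * g, by rwa [mul_smul], ?_⟩
  rw [mp_pair, mul_smul, mul_smul]
  exact ln_eq (ne0 x1 k) (by rwa [sp_eq m (ne0 x1 k)]) (l3 m) (l2 _ _)

variable (p) in
theorem exph (x0 : x ≠ 0) (a : y ∉ F ∙ x) : ∃ φ : W, Ph Γ p ℓ[x, y] φ := by
  obtain ⟨Q⟩ : Nonempty (Sylow p Γ) := inferInstance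
  obtain ⟨z, z0, hz⟩ := h.exf Q
  obtain ⟨ψ, ψ0, hψ⟩ := h.flip.exf Q
  obtain ⟨v, hv⟩ := h.exn1 z
  obtain ⟨u, -, u1, u2⟩ := step hz.st (T := ⊤) (fun _ _ _ _ => trivial) trivial hv
  obtain ⟨g, -, e⟩ := h.trl (p := p) z0 u1 x0 a
  refine ⟨_, e ▸ Ph.mp ⟨ψ0, Q, fun g hg => mem_st2.2 ⟨by rw [hz g hg]; exact l1 _ _, ?_⟩, hψ⟩ g⟩
  simpa using add_mem (l3 (u2 g hg)) (l2 z u)

theorem fr_wl (x0 : x ≠ 0) (a : y ∉ F ∙ x) (x1 : x' ≠ 0) (b : y' ∉ F ∙ x') :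
    finrank F (Wl Γ B p ℓ[x, y]) = finrank F (Wl Γ B p ℓ[x', y']) := by
  obtain ⟨g, -, e⟩ := h.trl (p := p) x0 a x1 b
  rw [← e, h.wl_mp, fr_mp]

theorem wl_lt (x0 : x ≠ 0) (a : y ∉ F ∙ x) : finrank F (Wl Γ B p ℓ[x, y]) < finrank F V := by
  obtain ⟨φ, k⟩ := h.exph p x0 a
  obtain ⟨v, hv⟩ := h.flip.ex1 k.1
  exact finrank_lt fun e => by simpa [mem_Wl.1 (e.ge (mem_top (x := v))) _ k] using hv

theorem tb (x0 : x ≠ 0) (a : v ∉ Wl Γ B p ℓ[x, y]) (b : v' ∉ Wl Γ B p ℓ[x, y]) :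
    ∃ g ∈ st Γ (F ∙ x) ⊓ st Γ ℓ[x, y], g • v = v' := by
  rw [mem_Wl] at a b
  push Not at a b
  refine ov (h.sc2 _ _) ⊤ {φ | Ph Γ p ℓ[x, y] φ} (fun φ k v _ v' _ c d => ?_) trivial trivial a b
  obtain ⟨Q, k1, k2, k3⟩ := h.pr x0 k
  obtain ⟨g, hg, e⟩ := h.flip.s1 k2 c d
  exact ⟨g, ⟨k3.st hg, k1 hg⟩, e⟩

theorem ph_pp (k : Ph Γ p S φ) : φ ∈ pp B (Wl Γ B p S) := mem_pp.2 fun v hv => mem_Wl.1 hv _ k

theorem ta (x0 : x ≠ 0) (a : y ∉ F ∙ x) (φ0 : φ ≠ 0) (b : φ ∈ pp B (Wl Γ B p ℓ[x, y])) :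
    Ph Γ p ℓ[x, y] φ := by
  obtain ⟨ψ, k⟩ := h.exph p x0 a
  obtain ⟨g, hg, rfl⟩ := h.flip.ft' (st Γ (F ∙ x) ⊓ st Γ ℓ[x, y]) (pp B (Wl Γ B p ℓ[x, y]))
    (fun v v' c d => h.tb x0 (by rwa [h.pp_pp] at c) (by rwa [h.pp_pp] at d)) k.1
    (sub_mem b (h.ph_pp k)) φ0
  exact mp_st hg.2 ▸ k.mp g

theorem s3 (h1 : Q.1 ≤ st Γ ℓ[x, y]) (h2 : Fx Q x) (x0 : x ≠ 0) (a : y ∉ F ∙ x) (b : B x ψ = 0)
    (c : B y ψ = 1) (b' : B x ψ' = 0) (c' : B y ψ' = 1) : ∃ g ∈ Q, g • ψ = ψ' := by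
  have : Finite W := Module.finite_of_finite F
  have inv : ∀ g ∈ st Γ (F ∙ x), g • y - y ∈ F ∙ x → ∀ χ, B x χ = 0 ∧ B y χ = 1 →
      B x (g⁻¹ • χ) = 0 ∧ B y (g⁻¹ • χ) = 1 := fun g g1 g2 χ k => by
    have := mem_pp.1 (pp1.2 k.1)
    rw [← h.inv', ← h.inv', ← sub_add_cancel (g • y) y, map_add, LinearMap.add_apply, this _ g2,
      this _ (mem_st1.1 g1), k.2]
    simp
  refine syl_tr Q (Ω := {ψ | B x ψ = 0 ∧ B y ψ = 1}) (ncard_aff (v := ψ) (S := pp B ℓ[x, y]) fun y => ?_)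
    (fun g hg c hc => ?_) (fun c hc d hd => ?_) ⟨b, c⟩ ⟨b', c'⟩
  · simp [pp2, b, c, sub_eq_zero]
  · simpa using inv _ (h2.st (inv_mem hg)) (fxl h1 h2 a (inv_mem hg) (l2 _ _)) c hc
  · have c0 : c ≠ 0 := by rintro rfl; simpa using hc.2
    have d0 : d ≠ 0 := by rintro rfl; simpa using hd.2
    obtain ⟨g, g1, g2⟩ := h.fl x d x c x0 d0 hd.1 x0 c0 hc.1
    obtain ⟨t, e⟩ := mem_span_singleton.1 g2
    have t0 : t ≠ 0 := by rintro rfl; exact ne0 d0 g (by simpa using e.symm)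
    obtain ⟨z, z1, z2⟩ := h.sc t t0
    obtain ⟨Q, k1, k2⟩ := h.s0 p x0 c0 hc.1
    have e1 : (z * g) • d = c := by rw [mul_smul, ← e, z2, smul_smul, inv_mul_cancel₀ t0, one_smul]
    obtain ⟨k, hk, e2⟩ := h.flip.s1 k2 (ψ := (z * g) • y) (ψ' := y)
      (by rw [LinearMap.flip_apply, ← e1, h.inv, hd.2]) hc.2
    refine ⟨(k * (z * g))⁻¹, by rw [inv_smul_eq_iff, mul_smul, e1, k2 k hk], inv _
      (mul_mem (k1.st hk) (mul_mem (sc_st z1) (mem_st1.2 g1))) (by simp [mul_smul k, e2])⟩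

theorem uql (h1 : Q.1 ≤ st Γ ℓ[x, y]) (h1' : Q.1 ≤ st Γ ℓ[x, z]) (h2 : Fx Q x) (x0 : x ≠ 0)
    (a : y ∉ F ∙ x) : z ∈ ℓ[x, y] := by
  by_contra n
  obtain ⟨χ, b, c, d⟩ := h.ex3 n
  obtain ⟨ψ, e, f⟩ := h.ex2 a
  obtain ⟨g, hg, k⟩ := h.s3 h1 h2 x0 a e f (ψ' := ψ + χ) (by simp [b, e]) (by simp [c, f])
  have := h.inv g z ψ
  rw [k, ← sub_add_cancel (g • z) z, map_add B, LinearMap.add_apply, mem_pp.1 (pp1.2 (by simp [b, e])) _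
    (fxl h1' h2 (fun e => n (l3 e)) hg (l2 _ _))] at this
  simp [d] at this

theorem sym (x0 : x ≠ 0) (a : y ∉ F ∙ x) (b : z ∉ F ∙ x) (k : z ∈ Wl Γ B p ℓ[x, y]) :
    y ∈ Wl Γ B p ℓ[x, z] := by
  by_contra n
  have : Finite V := Module.finite_of_finite F
  have key : ∀ y' z', y' ∉ F ∙ x → y' ∉ F ∙ x → z' ∉ Wl Γ B p ℓ[x, y'] → y' ∈ Wl Γ B p ℓ[x, z'] :=
    fun y' z' c _ d => by
      obtain ⟨g, hg, rfl⟩ := h.tt (p := p) x0 b c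
      have e : ∀ k ∈ st Γ (F ∙ x), ∀ v, v ∉ F ∙ x → mp k ℓ[x, v] = ℓ[x, k • v] := fun k hk v hv => by
        have m := mem_st1.1 hk
        rw [mp_pair]
        exact ln_eq (ne0 x0 k) (by rw [sp_eq m (ne0 x0 k)]; exact nm_st hk hv) (l3 m) (l2 _ _)
      obtain ⟨l, hl, rfl⟩ := h.tb (p := p) x0 (v := g • y) (by rwa [← e g hg z b, h.wl_mp, smul_mp]) d
      have m : l • g • z ∈ Wl Γ B p ℓ[x, l • g • y] := by
        rwa [← e l hl.1 _ (nm_st hg a), h.wl_mp, smul_mp, ← e g hg y a, h.wl_mp, smul_mp]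
      have e2 := ln_eq x0 (nm_st hl.1 c) (l1 _ _) (hl.2 _ (l2 x (g • z)))
      have : ℓ[x, g • z] ≤ Wl Γ B p ℓ[x, l • g • y] := e2 ▸ ln_le.2 ⟨h.le_wl _ _ (l1 _ _), m⟩
      exact this (l2 _ _)
  have lt := h.wl_lt (p := p) x0 a
  have := dc (F ∙ x : Set V)ᶜ (F ∙ x : Set V)ᶜ (fun y' z' => z' ∉ Wl Γ B p ℓ[x, y'])
    (m := q ^ finrank F V - q ^ finrank F (Wl Γ B p ℓ[x, y])) (n := q ^ finrank F (Wl Γ B p ℓ[x, y]) - 1)
    (fun y' hy => by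
      rw [h.fr_wl x0 a x0 hy, ← finrank_top F V, ← ncard_diff le_top]
      exact Set.ncard_le_ncard fun v hv => ⟨fun e => hv.2 (h.le_wl _ _ (l3 e)), hv.2⟩)
    fun z' hz => by
      rw [h.fr_wl x0 a x0 hz, ← pow_zero q, ← finrank_bot F V, ← ncard_diff bot_le]
      exact Set.ncard_le_ncard fun v hv => ⟨key v z' hv.1 hv.1 hv.2, nz hv.1⟩
  have := Nat.le_of_mul_le_mul_left this ((Set.ncard_pos (Set.toFinite _)).2 ⟨y, a⟩)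
  have q2 : 2 ≤ q := Fintype.one_lt_card
  have k1 := Nat.pow_le_pow_right (n := q) (by omega) lt
  have k2 := Nat.one_le_pow (finrank F (Wl Γ B p ℓ[x, y])) q (by omega)
  rw [pow_succ] at k1
  have := Nat.mul_le_mul_left (q ^ finrank F (Wl Γ B p ℓ[x, y])) q2
  omega

end Cf

end Cfsg.Agent.H2.CK
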