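import Cfsg.Agent.H2.CK3

/-! The subspace attached to a flag; transvections. -/

set_option autoImplicit false
set_option linter.unusedSimpArgs false
set_option linter.unusedSectionVars false
set_option linter.unusedVariables false

namespace Cfsg.Agent.H2.CK

open Module Submodule

variable {F V W : Type*} [Field F] [Fintype F] [AddCommGroup V] [Module F V] [FiniteDimensional F V]
  [AddCommGroup W] [Module F W] [FiniteDimensional F W] {Γ : Type*} [Group Γ] [Finite Γ]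
  [DistribMulAction Γ V] [SMulCommClass Γ F V] [DistribMulAction Γ W] [SMulCommClass Γ F W]
  {B : V →ₗ[F] W →ₗ[F] F} {S T : Submodule F V} {x y z v x' y' v' : V} {φ ψ χ w φ' ψ' : W} {g : Γ}
  {p : ℕ} [Fact p.Prime] [CharP F p] {Q : Sylow p Γ}

local notation "q" => Fintype.card F
local notation "ℓ[" x ", " y "]" => span F {x, y}

variable (p Γ) in
/-- the subspace attached to a flag -/
def Ul (x : V) (φ : W) : Submodule F V := span F {y | Ph Γ p ℓ[x, y] φ}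

theorem ln_sp (a : x' ∈ F ∙ x) (x0 : x' ≠ 0) (y : V) : ℓ[x', y] = ℓ[x, y] := by
  rw [span_insert, span_insert, sp_eq a x0]

theorem ul_congr (a : x' ∈ F ∙ x) (x0 : x' ≠ 0) (b : φ' ∈ F ∙ φ) (φ0 : φ' ≠ 0) :
    (Ul Γ p x' φ' : Submodule F V) = Ul Γ p x φ := by
  have : φ ≠ 0 := by rintro rfl; simp_all
  simp only [Ul, ln_sp a x0]
  congr; ext y
  exact ⟨fun k => k.of (mem_sp1 b φ0) this, fun k => k.of b φ0⟩

theorem ul_mp (g : Γ) (x : V) (φ : W) : (Ul Γ p (g • x) (g • φ) : Submodule F V) = mp g (Ul Γ p x φ) := by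
  rw [mp, Ul, Ul, map_span]
  congr; ext y
  refine ⟨fun k => ⟨g⁻¹ • y, ?_, by simp⟩, ?_⟩
  · simpa [mp_pair] using k.mp g⁻¹
  · rintro ⟨y, k, rfl⟩; simpa [mp_pair] using Ph.mp k g

theorem st_ul (h1 : g ∈ st Γ (F ∙ x)) (h2 : g ∈ st Γ (F ∙ φ)) (x0 : x ≠ 0) (φ0 : φ ≠ 0) :
    g ∈ st Γ (Ul Γ p x φ : Submodule F V) := fun v hv => by
  rw [← ul_congr (mem_st1.1 h1) (ne0 x0 g) (mem_st1.1 h2) (ne0 φ0 g), ul_mp, smul_mp]; exact hv

variable (Γ B) in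
/-- a transvection -/
def Tv (x : V) (φ : W) : Prop := ∃ g : Γ, ∀ v, g • v = v + B v φ • x

variable (Γ B) in
/-- there is a transvection -/
def HT : Prop := ∃ x φ, x ≠ 0 ∧ φ ≠ 0 ∧ B x φ = 0 ∧ Tv Γ B x φ

theorem dce {A C : Type*} [Finite A] [Finite C] (s : Set A) (t : Set C) (r : A → C → Prop) {m n : ℕ}
    (hm : ∀ a ∈ s, {b ∈ t | r a b}.ncard = m) (hn : ∀ b ∈ t, {a ∈ s | r a b}.ncard = n) :
    s.ncard * m = t.ncard * n :=
  (dc s t r (fun a b => (hm a b).ge) fun a b => (hn a b).le).antisymm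
    (dc t s (fun a b => r b a) (fun a b => (hn a b).ge) fun a b => (hm a b).le)

theorem ncard_compl (S : Submodule F V) : (S : Set V)ᶜ.ncard = q ^ finrank F V - q ^ finrank F S := by
  rw [← finrank_top F V, ← ncard_diff le_top, top_coe, Set.compl_eq_univ_diff]

theorem ncard_nz (S : Submodule F V) : ((S : Set V) \ {0}).ncard = q ^ finrank F S - 1 := by
  rw [← pow_zero q, ← finrank_bot F V, ← ncard_diff bot_le, bot_coe]

theorem fr1 (x0 : x ≠ 0) : finrank F (F ∙ x) = 1 := finrank_span_singleton x0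

theorem fr1' (x : V) : finrank F (F ∙ x) ≤ 1 := (finrank_span_le_card _).trans (by simp)

namespace Cf

variable (h : Cf Γ B)
include h

theorem ph1 (x0 : x ≠ 0) (φ0 : φ ≠ 0) (e : B x φ = 0) (a : y ∈ F ∙ x) : Ph Γ p ℓ[x, y] φ := by
  obtain ⟨Q, k1, k2⟩ := h.s0 p x0 φ0 e
  exact ⟨φ0, Q, fun g hg => mem_st2.2 ⟨by rw [k1 g hg]; exact l1 _ _, by rw [k1.of a g hg]; exact l2 _ _⟩, k2⟩

theorem tb' (x0 : x ≠ 0) (a : B x ψ = 0) (b : B x ψ' = 0) (c : ψ ∉ pp B (Ul Γ p x φ))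
    (d : ψ' ∉ pp B (Ul Γ p x φ)) : ∃ g ∈ st Γ (F ∙ x) ⊓ st Γ (F ∙ φ), g • ψ = ψ' := by
  have k : ∀ ψ, ψ ∉ pp B (Ul Γ p x φ) → ∃ y ∈ {y | Ph Γ p ℓ[x, y] φ}, B.flip ψ y ≠ 0 := fun ψ c => by
    by_contra! hh
    exact c (mem_pp.2 fun v hv => (span_le (p := LinearMap.ker (B.flip ψ))).2 hh hv)
  refine ov (B := B.flip) (h.sc2' _ _).flip (pp B (F ∙ x)) _ (fun y hy ψ a ψ' b c d => ?_) (pp1.2 a)
    (pp1.2 b) (k ψ c) (k ψ' d)
  obtain ⟨Q, k1, k2, k3⟩ := h.pr x0 hy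
  obtain ⟨g, hg, e⟩ := h.s3 k1 k3 x0 (fun e => by simpa [mem_pp.1 a y e] using c) (pp1.1 a) c (pp1.1 b) d
  exact ⟨g, ⟨k3.st hg, k2.st hg⟩, e⟩

theorem mem_ul (x0 : x ≠ 0) (φ0 : φ ≠ 0) (e : B x φ = 0) : y ∈ (Ul Γ p x φ : Submodule F V) ↔ Ph Γ p ℓ[x, y] φ := by
  refine ⟨fun k => ?_, fun k => subset_span k⟩
  by_cases a : y ∈ F ∙ x
  · exact h.ph1 x0 φ0 e a
  obtain ⟨z, hz, b⟩ : ∃ z, Ph Γ p ℓ[x, z] φ ∧ z ∉ F ∙ x := by
    by_contra! hh; exact a (span_le.2 hh k)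
  have st : ∀ g ∈ st Γ (F ∙ x) ⊓ st Γ (F ∙ φ), ∀ v, Ph Γ p ℓ[x, v] φ → Ph Γ p ℓ[x, g • v] φ :=
    fun g hg v k => by
      have := (k.mp g).of (mem_sp1 (mem_st1.1 hg.2) (ne0 φ0 g)) φ0
      rwa [mp_pair, ln_sp (mem_st1.1 hg.1) (ne0 x0 g)] at this
  simpa using h.ft {y | Ph Γ p ℓ[x, y] φ} (F ∙ x) (Ul Γ p x φ) (fun v hv a ha => by
      rwa [Set.mem_setOf, show ℓ[x, v + a] = ℓ[x, v] from le_antisymm
        (ln_le.2 ⟨l1 _ _, add_mem (l2 _ _) (l3 ha)⟩)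
        (ln_le.2 ⟨l1 _ _, by simpa using sub_mem (l2 x (v + a)) (l3 ha)⟩)])
    (fun w a w' b c d => by
      obtain ⟨g, hg, e⟩ := h.tb' x0 (pp1.1 a) (pp1.1 b) c d
      exact ⟨g, e, fun v => ⟨fun k => by simpa using st _ (inv_mem hg) _ k, st g hg v⟩⟩)
    hz b (sub_mem k (subset_span hz)) (by simpa)

theorem ul_self (x0 : x ≠ 0) (φ0 : φ ≠ 0) (e : B x φ = 0) : x ∈ (Ul Γ p x φ : Submodule F V) :=
  subset_span (h.ph1 x0 φ0 e (sp1 x))

theorem ul_orth (k : y ∈ (Ul Γ p x φ : Submodule F V)) : B y φ = 0 :=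
  (span_le (p := LinearMap.ker (B.flip φ))).2 (fun y k => h.po2 k) k

theorem ul_symm (x0 : x ≠ 0) (φ0 : φ ≠ 0) (e : B x φ = 0) (k : y ∈ (Ul Γ p x φ : Submodule F V)) :
    x ∈ (Ul Γ p y φ : Submodule F V) := subset_span (by rw [Set.mem_setOf, ln_comm]; exact (h.mem_ul x0 φ0 e).1 k)

theorem fr_ul (x0 : x ≠ 0) (φ0 : φ ≠ 0) (e : B x φ = 0) (x1 : x' ≠ 0) (a : y' ∉ F ∙ x') :
    finrank F (Ul Γ p x φ : Submodule F V) + finrank F (Wl Γ B p ℓ[x', y']) = finrank F V + 1 := by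
  have : Finite V := Module.finite_of_finite F
  have : Finite W := Module.finite_of_finite F
  have c1 := h.fr_pp (F ∙ x)
  have c2 := h.fr_pp (Wl Γ B p ℓ[x', y'])
  have := dce (F ∙ x : Set V)ᶜ (pp B (F ∙ x) \ {0} : Set W) (fun y φ => Ph Γ p ℓ[x, y] φ)
    (m := q ^ finrank F (pp B (Wl Γ B p ℓ[x', y'])) - 1)
    (n := q ^ finrank F (Ul Γ p x φ : Submodule F V) - q ^ finrank F (F ∙ x))
    (fun y hy => by
      have c3 := h.fr_pp (Wl Γ B p ℓ[x, y])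
      rw [h.fr_wl x0 hy x1 a, ← c2, Nat.add_left_cancel_iff] at c3
      rw [← c3, ← ncard_nz]
      congr 1; ext ψ
      exact ⟨fun k => ⟨h.ph_pp k.2, k.1.2⟩, fun k =>
        have := h.ta x0 hy k.2 k.1; ⟨⟨pp1.2 (h.po1 this), k.2⟩, this⟩⟩)
    fun ψ hψ => by
      have e' := pp1.1 hψ.1
      obtain ⟨g, a, b⟩ := h.fl x φ x ψ x0 φ0 e x0 hψ.2 e'
      rw [← fr_mp g (Ul Γ p x φ), ← ul_mp, ul_congr a (ne0 x0 g) b (ne0 φ0 g),
        ← ncard_diff ((span_singleton_le_iff_mem _ _).2 (h.ul_self x0 hψ.2 e'))]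
      congr 1; ext y
      exact ⟨fun k => ⟨subset_span k.2, k.1⟩, fun k => ⟨k.2, (h.mem_ul x0 hψ.2 e').1 k.1⟩⟩
  have c4 := finrank_mono ((span_singleton_le_iff_mem _ _).2 (h.ul_self (p := p) x0 φ0 e))
  have c5 := h.three
  rw [ncard_compl, ncard_nz, fr1 x0, ← c1] at this
  rw [fr1 x0] at c1 c4
  have q2 : 2 ≤ q := Fintype.one_lt_card
  generalize finrank F (pp B (F ∙ x)) = m at *
  generalize finrank F (pp B (Wl Γ B p ℓ[x', y'])) = c at *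
  obtain ⟨u, hu⟩ := Nat.exists_eq_add_of_le c4
  rw [hu, fr1 x0, pow_add, pow_add, pow_one, ← Nat.mul_sub_one, ← Nat.mul_sub_one, mul_assoc,
    mul_left_comm] at this
  have k1 := Nat.one_lt_pow (n := m) (by omega) q2
  have := Nat.eq_of_mul_eq_mul_left (by omega) (Nat.eq_of_mul_eq_mul_left (by omega) this)
  have k2 := Nat.one_le_pow c q (by omega)
  have k3 := Nat.one_le_pow u q (by omega)
  have := Nat.pow_right_injective q2 (show q ^ c = q ^ u by omega)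
  omega

theorem ht_flip (k : HT Γ B.flip) : HT Γ B := by
  obtain ⟨φ, x, a, b, c, g, e⟩ := k
  refine ⟨x, φ, b, a, c, g⁻¹, fun v => sub_eq_zero.1 (h.l _ fun w => ?_)⟩
  simp [h.inv', e, mul_comm]

theorem triv (n : ¬ HT Γ B) (x0 : x ≠ 0) (a : g • x = x) (b : ∀ v, g • v - v ∈ F ∙ x) (v : V) : g • v = v := by
  obtain ⟨ψ, e⟩ := h.ex1 x0
  have k : ∀ v, g • v = v + B v (g⁻¹ • ψ - ψ) • x := fun v => by
    obtain ⟨c, hc⟩ := mem_span_singleton.1 (b v)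
    rw [map_sub, ← h.inv', ← LinearMap.sub_apply, ← map_sub, ← hc, map_smul, LinearMap.smul_apply, e,
      smul_eq_mul, mul_one, hc, add_sub_cancel]
  by_contra ne
  exact n ⟨x, _, x0, fun e => ne (by simpa [e] using k v), by rw [map_sub, ← h.inv', a, sub_self], g, k⟩

theorem r1 (h5 : 5 ≤ finrank F V) (x0 : x ≠ 0)
    (lift : ∀ w χ, B x χ = 0 → B w χ = 0 → ∃ g : Γ, g • x = x ∧ ∀ v, g • v - v - B v χ • w ∈ F ∙ x) :
    HT Γ B := by
  by_contra n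
  obtain ⟨ψ, e⟩ := h.ex1 x0
  have lift' : ∀ w χ, B x χ = 0 → B w χ = 0 → ∃ g : Γ, ∃ α, B x α = 0 ∧
      ∀ v, g • v = v + B v χ • w + B v α • x := fun w χ a b => by
    obtain ⟨g, g1, g2⟩ := lift w χ a b
    refine ⟨g, g⁻¹ • ψ - ψ - B w ψ • χ, by simp [← h.inv', g1, a], fun v => ?_⟩
    obtain ⟨c, hc⟩ := mem_span_singleton.1 (g2 v)
    have := congrArg (B · ψ) hc
    simp only [map_sub, map_smul, LinearMap.sub_apply, LinearMap.smul_apply, e, smul_eq_mul, mul_one] at this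
    simp only [map_sub, map_smul, ← h.inv', smul_eq_mul, mul_comm (B w ψ), ← this, hc]
    abel
  obtain ⟨w, hw⟩ := h.exn1 x
  obtain ⟨z, hz⟩ := h.exn2 x0 hw
  obtain ⟨φ, f1, f2, f3⟩ := h.ex3 hz
  obtain ⟨g, α, a1, a2⟩ := lift' w φ f1 f2
  have : α ∈ F ∙ φ := h.flip.mem_of_pp fun u hu => by
    rw [pp1] at hu
    replace hu : B u φ = 0 := hu
    have c1 := h.fr_pp (ℓ[x, w] ⊔ F ∙ u)
    have c2 := finrank_add_le_finrank_add_finrank ℓ[x, w] (F ∙ u)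
    have c3 := fr2' (F := F) x w
    obtain ⟨χ, m, nm⟩ : ∃ χ ∈ pp B (ℓ[x, w] ⊔ F ∙ u), χ ∉ F ∙ φ := by
      by_contra! hh
      have := finrank_mono (show _ ≤ F ∙ φ from hh)
      have := fr1' (F := F) u; have := fr1' (F := F) φ; omega
    have m1 := mem_pp.1 m x (mem_sup_left (l1 _ _))
    have m2 := mem_pp.1 m w (mem_sup_left (l2 _ _))
    have m3 := mem_pp.1 m u (mem_sup_right (sp1 _))
    obtain ⟨t, t1, t2⟩ := h.flip.ex2 nm
    replace t1 : B t φ = 0 := t1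
    replace t2 : B t χ = 1 := t2
    obtain ⟨k, β, b1, b2⟩ := lift' u χ m1 m3
    have gx : g • x = x := by simp [a2, f1, a1]
    have kx : k • x = x := by simp [b2, m1, b1]
    have := h.triv n x0 (g := (g * k)⁻¹ * (k * g)) (by simp [mul_smul, gx, kx, inv_smul_eq_iff]) (fun v => by
      have : (g * k)⁻¹ ∈ st Γ (F ∙ x) := inv_mem (mem_st1.2 (by simp [mul_smul, gx, kx]))
      convert this ((k * g) • v - (g * k) • v) (mem_span_singleton.2
        ⟨B v α + B (g • v) β - B v β - B (k • v) α, ?_⟩) using 1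
      · simp [smul_sub, mul_smul]
      · rw [mul_smul, mul_smul, b2 (g • v), a2 (k • v)]
        have e1 : B (g • v) χ = B v χ := by simp [a2, m1, m2]
        have e2 : B (k • v) φ = B v φ := by simp [b2, hu, f1]
        rw [e1, e2]
        generalize B (g • v) β = s
        generalize B (k • v) α = s'
        rw [a2, b2]; module) t
    rw [mul_smul, inv_smul_eq_iff, mul_smul, mul_smul] at this
    have := congrArg (B · ψ) this
    simp [a2, b2, t1, t2, m1, m2, m3, hu, a1, b1, f1, e] at this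
    show B u α = 0
    linear_combination -this
  obtain ⟨c, rfl⟩ := mem_span_singleton.1 this
  refine n ⟨w + c • x, φ, fun e => hw (mem_span_singleton.2 ⟨-c, by
    rw [eq_neg_of_add_eq_zero_left e, neg_smul]⟩), by rintro rfl; simp at f3, by simp [f1, f2], g, fun v => ?_⟩
  rw [a2, map_smul, smul_eq_mul]; module

include p in
theorem full (k : HT Γ B) (x : V) (φ : W) (e : B x φ = 0) : Tv Γ B x φ := by
  obtain ⟨y, ψ, y0, ψ0, e', k⟩ := k
  have cj : ∀ {x φ} (g : Γ), Tv Γ B x φ → Tv Γ B (g • x) (g • φ) := fun g ⟨k, e⟩ =>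
    ⟨g * k * g⁻¹, fun v => by simp [mul_smul, e, h.inv'', smul_comm g]⟩
  have sub : ∀ {x φ ψ}, B x ψ = 0 → Tv Γ B x φ → Tv Γ B x ψ → Tv Γ B x (φ - ψ) :=
    fun {x φ ψ} a ⟨k, e⟩ ⟨l, f⟩ => ⟨l⁻¹ * k, fun v => by
      rw [mul_smul, inv_smul_eq_iff, e, f]; simp [a, sub_smul, add_assoc]⟩
  by_cases x0 : x = 0
  · exact ⟨1, by simp [x0]⟩
  obtain ⟨g, rfl⟩ := h.tr y0 x0
  replace k := cj g k
  rw [← h.inv g] at e'
  replace ψ0 := ne0 ψ0 g
  generalize g • ψ = ψ, g • y = x at *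
  have key : ∀ χ, B x χ = 0 → χ ∉ F ∙ ψ → Tv Γ B x χ := fun χ a b => by
    obtain ⟨y, c, d⟩ := h.flip.ex2 (ind_symm ψ0 b)
    replace c : B y χ = 0 := c
    replace d : B y ψ = 1 := d
    have n : y ∉ F ∙ x := fun f => by simp [mem_pp.1 (pp1.2 e') y f] at d
    obtain ⟨_, k1⟩ := h.exph p x0 n
    obtain ⟨Q, k1, -, k2⟩ := h.pr x0 k1
    obtain ⟨g, hg, f⟩ := h.s3 k1 k2 x0 n e' d (ψ' := χ + ψ) (by simp [a, e']) (by simp [c, d])
    have := cj g k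
    rw [f, k2 g hg] at this
    simpa using sub e' this k
  by_cases m : φ ∈ F ∙ ψ
  swap
  · exact key φ e m
  obtain ⟨χ, a, b⟩ : ∃ χ ∈ pp B (F ∙ x), χ ∉ F ∙ ψ := by
    by_contra! hh
    have := finrank_mono (show _ ≤ F ∙ ψ from hh)
    have := h.fr_pp (F ∙ x)
    have := h.three
    rw [fr1 x0] at *
    rw [fr1 ψ0] at *
    omega
  rw [pp1] at a
  simpa using sub a (key (φ + χ) (by simp [e, a]) fun f => b (by simpa using sub_mem f m)) (key χ a b)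

end Cf

end Cfsg.Agent.H2.CK
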