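import Cfsg.Agent.H2.CK4

/-! Passing between linear groups and the abstract setting; the induction step. -/

set_option autoImplicit false
set_option linter.unusedSimpArgs false
set_option linter.unusedSectionVars false
set_option linter.unusedVariables false

namespace Cfsg.Agent.H2.CK

open Module Submodule

variable {F V W : Type*} [Field F] [Fintype F] [AddCommGroup V] [Module F V] [FiniteDimensional F V]
  [AddCommGroup W] [Module F W] [FiniteDimensional F W] {Γ : Type*} [Group Γ] [Finite Γ]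
  [DistribMulAction Γ V] [SMulCommClass Γ F V] [DistribMulAction Γ W] [SMulCommClass Γ F W]
  {B : V →ₗ[F] W →ₗ[F] F} {S T : Submodule F V} {x y z v x' y' v' : V} {φ ψ χ w φ' ψ' : W} {g : Γ}
  {p : ℕ} [Fact p.Prime] [CharP F p] {Q : Sylow p Γ}

local notation "q" => Fintype.card F
local notation "ℓ[" x ", " y "]" => span F {x, y}

open H6 H6.S5

theorem Cf.tt2 (h : Cf Γ B) {Y : Subgroup Γ} (hY : Sc F V W Y) (hQ : ∀ Q : Sylow p Γ, Q.1 ≤ Y) (x0 : x ≠ 0)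
    (a : y ∉ F ∙ x) (x1 : x' ≠ 0) (b : y' ∉ F ∙ x') : ∃ g ∈ Y, g • x ∈ F ∙ x' ∧ g • y = y' := by
  obtain ⟨z, hz⟩ := h.exn ℓ[x, x'] ((fr2' _ _).trans_lt h.three)
  obtain ⟨g, hg, rfl⟩ := h.tt' p hY (nz hz) (fun Q _ => hQ Q) (ind_symm x0 fun e => hz (l3 e))
    (ind_symm x1 fun e => hz (ln_comm (F := F) x x' ▸ l3 e))
  obtain ⟨k, hk, rfl⟩ := h.tt' p (Y := Y ⊓ st Γ (F ∙ g • x)) (fun c hc =>
    let ⟨z, m, a, b⟩ := hY c hc; ⟨z, ⟨m, sc_st a⟩, a, b⟩) x1 (fun Q k => le_inf (hQ Q) k.st) (y := g • y)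
    (fun e => a (by
      obtain ⟨c, e⟩ := mem_span_singleton.1 e
      exact mem_span_singleton.2 ⟨c, by rw [← smul_comm, smul_left_cancel_iff] at e; exact e⟩)) b
  exact ⟨k * g, mul_mem hk.1 hg, by rw [mul_smul]; exact mem_st1.1 hk.2, mul_smul _ _ _⟩

theorem qcast : ((q - 1 : ℕ) : F) = -1 := by
  rw [Nat.cast_pred Fintype.card_pos, FiniteField.cast_card_eq_zero, zero_sub]

theorem Cf.lift (h : Cf Γ B) (x0 : x ≠ 0) (hw : ∀ y, y ∉ F ∙ x → Wl Γ B p ℓ[x, y] = ℓ[x, y])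
    (ih : ∀ M : Subgroup ((V ⧸ F ∙ x) ≃ₗ[F] (V ⧸ F ∙ x)), TT M → SLV F _ ≤ M) (w : V) (χ : W)
    (a : B x χ = 0) (b : B w χ = 0) : ∃ g : Γ, g • x = x ∧ ∀ v, g • v - v - B v χ • w ∈ F ∙ x := by
  let M : Subgroup ((V ⧸ F ∙ x) ≃ₗ[F] (V ⧸ F ∙ x)) :=
    { carrier := {k | ∃ g ∈ st Γ (F ∙ x), ∀ v, k (Submodule.Quotient.mk v) = Submodule.Quotient.mk (g • v)}
      mul_mem' := fun ⟨g, a, b⟩ ⟨g', a', b'⟩ => ⟨g * g', mul_mem a a', fun v => by simp [b, b', mul_smul]⟩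
      one_mem' := ⟨1, one_mem _, by simp⟩
      inv_mem' := fun {k} ⟨g, a, b⟩ => ⟨g⁻¹, inv_mem a, fun v => k.injective (by simp [b])⟩ }
  have ex : ∀ g ∈ st Γ (F ∙ x), ∃ k ∈ M, ∀ v, k (Submodule.Quotient.mk v) = Submodule.Quotient.mk (g • v) := fun g hg =>
    ⟨Submodule.Quotient.equiv _ _ (DistribMulAction.toLinearEquiv F V g) (mp_st hg), ⟨g, hg, fun _ => rfl⟩,
      fun _ => rfl⟩
  have tt : TT M := fun a b a' b' h1 h2 h3 h4 => by
    obtain ⟨a, rfl⟩ := Submodule.Quotient.mk_surjective _ a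
    obtain ⟨b, rfl⟩ := Submodule.Quotient.mk_surjective _ b
    obtain ⟨a', rfl⟩ := Submodule.Quotient.mk_surjective _ a'
    obtain ⟨b', rfl⟩ := Submodule.Quotient.mk_surjective _ b'
    have k : ∀ a b : V, (∀ c : F, (Submodule.Quotient.mk b : V ⧸ F ∙ x) ≠ c • Submodule.Quotient.mk a) → b ∉ ℓ[x, a] :=
      fun a b k e => by
        obtain ⟨s, t, rfl⟩ := mem_span_pair.1 e
        exact k t ((Submodule.Quotient.eq _).2 (by simpa using smul_mem _ _ (sp1 x)))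
    rw [Ne, Submodule.Quotient.mk_eq_zero] at h1 h3
    obtain ⟨g, hg, rfl⟩ := h.tt (p := p) x0 h1 h3
    obtain ⟨g', hg', rfl⟩ := h.tb (p := p) x0 (y := g • a) (v := g • b) (v' := b')
      (by rw [hw _ h3, ← ln_sp (mem_st1.1 hg) (ne0 x0 g), ← mp_pair, smul_mp]; exact k _ _ h2)
      (by rw [hw _ h3]; exact k _ _ h4)
    obtain ⟨l, hl, e⟩ := ex _ (mul_mem hg'.1 hg)
    obtain ⟨s, t, f⟩ := mem_span_pair.1 (hg'.2 _ (l2 x (g • a)))
    have t0 : t ≠ 0 := by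
      rintro rfl
      exact nm_st hg'.1 h3 (by rw [← f]; simpa using smul_mem _ _ (sp1 x))
    refine ⟨l, hl, Units.mk0 t t0, 1, ?_, by simp [e, mul_smul]⟩
    rw [e, mul_smul, ← f]
    exact (Submodule.Quotient.eq _).2 (by simpa using smul_mem _ _ (sp1 x))
  let χ' : Dual F (V ⧸ F ∙ x) := liftQ _ (B.flip χ) fun v hv => mem_pp.1 (pp1.2 a) v hv
  have cq : ∀ v, χ' (Submodule.Quotient.mk v) = B v χ := fun _ => rfl
  obtain ⟨g, hg, e⟩ := ih M tt (tv_mem_SLV (Submodule.Quotient.mk (-w)) χ' (by simp [cq, b]))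
  have e' : ∀ v, g • v - v + B v χ • w ∈ F ∙ x := fun v => by
    have := (Submodule.Quotient.eq _).1 ((e v).symm.trans
      (show _ = Submodule.Quotient.mk (v - B v χ • w) by simp [cq, sub_eq_add_neg]))
    rwa [← sub_add] at this
  obtain ⟨c, hc⟩ := mem_span_singleton.1 (mem_st1.1 hg)
  have c0 : c ≠ 0 := by rintro rfl; exact ne0 x0 g (by simpa using hc.symm)
  have k1 : ∀ n : ℕ, g ^ n • x = c ^ n • x := fun n => by
    induction n with
    | zero => simp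
    | succ n ih => rw [pow_succ', mul_smul, ih, smul_comm, ← hc, smul_smul, pow_succ]
  have k2 : ∀ (n : ℕ) v, g ^ n • v - v + ((n : F) * B v χ) • w ∈ F ∙ x := fun n v => by
    induction n with
    | zero => simp
    | succ n ih =>
      have := smul_mem _ (-(n : F) * B v χ) (e' w)
      rw [b, zero_smul, add_zero] at this
      convert add_mem (add_mem (hg _ ih) (e' v)) this using 1
      rw [pow_succ', mul_smul, smul_add, smul_sub, smul_comm g (_ * B v χ), ← mul_smul]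
      generalize (g * g ^ n) • v = a, g • v = b, g • w = c
      push_cast; module
  refine ⟨g ^ (q - 1), by rw [k1, FiniteField.pow_card_sub_one_eq_one c c0, one_smul], fun v => ?_⟩
  simpa [qcast, sub_eq_add_neg] using k2 (q - 1) v

/-- a linear group together with the scalars -/
def Gm (M : Subgroup (V ≃ₗ[F] V)) := M × Fˣ

variable {M : Subgroup (V ≃ₗ[F] V)}

instance Gm.grp : Group (Gm M) := inferInstanceAs (Group (M × Fˣ))

instance Gm.fin : Finite (Gm M) :=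
  have : Finite V := Module.finite_of_finite F
  have : Finite (V ≃ₗ[F] V) := Finite.of_injective _ DFunLike.coe_injective
  inferInstanceAs (Finite (M × Fˣ))

instance Gm.a1 : DistribMulAction (Gm M) V where
  smul γ v := (γ.2 : F) • γ.1.1 v
  one_smul v := one_smul F v
  mul_smul a b v := show ((a.2 * b.2 : Fˣ) : F) • a.1.1 (b.1.1 v) = (a.2 : F) • a.1.1 ((b.2 : F) • _) by
    simp [mul_smul]
  smul_zero a := show (a.2 : F) • a.1.1 0 = 0 by simp
  smul_add a v w := show (a.2 : F) • a.1.1 _ = (a.2 : F) • a.1.1 _ + (a.2 : F) • a.1.1 _ by simp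

theorem Gm.s1 (γ : Gm M) (v : V) : γ • v = (γ.2 : F) • γ.1.1 v := rfl

instance Gm.a2 : DistribMulAction (Gm M) (Dual F V) where
  smul γ φ := (γ.2 : F)⁻¹ • dconj γ.1.1 φ
  one_smul v := show ((1 : Fˣ) : F)⁻¹ • dconj 1 v = v by ext; simp
  mul_smul a b v := show ((a.2 * b.2 : Fˣ) : F)⁻¹ • dconj (a.1.1 * b.1.1) v =
      (a.2 : F)⁻¹ • dconj a.1.1 ((b.2 : F)⁻¹ • dconj b.1.1 v) by
    ext; simp [mul_left_comm, mul_assoc]
  smul_zero a := show (a.2 : F)⁻¹ • dconj a.1.1 0 = 0 by ext; simp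
  smul_add a v w := show (a.2 : F)⁻¹ • dconj a.1.1 _ = (a.2 : F)⁻¹ • dconj a.1.1 _ +
    (a.2 : F)⁻¹ • dconj a.1.1 _ by ext; simp [mul_add]

theorem Gm.s2 (γ : Gm M) (φ : Dual F V) : γ • φ = (γ.2 : F)⁻¹ • dconj γ.1.1 φ := rfl

instance Gm.c1 : SMulCommClass (Gm M) F V := ⟨fun γ c v => by simp [Gm.s1, smul_smul, mul_comm]⟩

instance Gm.c2 : SMulCommClass (Gm M) F (Dual F V) := ⟨fun γ c v => by ext; simp [Gm.s2, mul_left_comm]⟩

/-- constructor -/
def Gm.mk (g : M) (c : Fˣ) : Gm M := (g, c)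

theorem Gm.s3 (g : M) (c : Fˣ) (v : V) : Gm.mk g c • v = (c : F) • g.1 v := rfl

theorem Gm.sc (c : F) (hc : c ≠ 0) : (∀ v : V, Gm.mk (1 : M) (Units.mk0 c hc) • v = c • v) ∧
    ∀ w : Dual F V, Gm.mk (1 : M) (Units.mk0 c hc) • w = c⁻¹ • w :=
  ⟨fun v => rfl, fun w => rfl⟩

theorem ind_of (h : y ∉ F ∙ x) (c : F) : y ≠ c • x := fun e => h (e ▸ smul_mem _ _ (sp1 x))

theorem cf_of (h : TT M) (h3 : 3 ≤ finrank F V) : Cf (Gm M) (Dual.eval F V) := by
  have k : ∀ x y x' y' : V, x ≠ 0 → y ∉ F ∙ x → x' ≠ 0 → y' ∉ F ∙ x' →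
      ∃ g : Gm M, g • x ∈ F ∙ x' ∧ g • y = y' := fun x y x' y' a b c d => by
    obtain ⟨g, hg, s, t, e, f⟩ := h x y x' y' a (ind_of b) c (ind_of d)
    exact ⟨Gm.mk ⟨g, hg⟩ t⁻¹, by rw [Gm.s3, e]; exact smul_mem _ _ (smul_mem _ s.1 (sp1 _)),
      by simp [Gm.s3, f, Units.smul_def]⟩
  refine Pr.cf ⟨fun v => eq_zero_of_forall_dual, fun w h => LinearMap.ext h, fun g v w => by
    simp [Gm.s1, Gm.s2], fun c hc => ⟨_, Gm.sc c hc⟩⟩ h3 (fun x x' a b => ?_) fun x y y' a b c =>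
      (k x y x y' a b a c).imp fun g k => ⟨mem_st1.2 k.1, k.2⟩
  obtain ⟨z, hz⟩ := exists_nmem (W := ℓ[x, x']) ((fr2' _ _).trans_lt h3)
  exact (k z x z x' (nz hz) (ind_symm a fun e => hz (l3 e)) (nz hz)
    (ind_symm b fun e => hz (ln_comm (F := F) x x' ▸ l3 e))).imp fun _ => And.right

theorem sl_of (h : Cf (Gm M) (Dual.eval F V)) (k : HT (Gm M) (Dual.eval F V)) : SLV F V ≤ M := by
  obtain ⟨p, hp⟩ := CharP.exists F
  have := Fact.mk (CharP.char_is_prime F p)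
  refine SLV_le_of_forall_hasT fun v φ e => ?_
  obtain ⟨g, hg⟩ := h.full (p := p) k v (-φ) (by simp [e])
  have k2 : ∀ (n : ℕ) u, g ^ n • u = u - ((n : F) * φ u) • v := fun n u => by
    induction n with
    | zero => simp
    | succ n ih => rw [pow_succ', mul_smul, ih, hg]; simp [e]; module
  refine ⟨_, (g ^ (q - 1)).1.2, fun u => ?_⟩
  have := k2 (q - 1) u
  rw [Gm.s1, show ((g ^ (q - 1)).2 : F) = (g.2 : F) ^ (q - 1) from Units.val_pow_eq_pow_val _ _,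
    FiniteField.pow_card_sub_one_eq_one _ g.2.ne_zero, one_smul, qcast] at this
  simpa using this

theorem sl5 (h : TT M) (hV : finrank F V = 5) : SLV F V ≤ M := by
  obtain ⟨p, hp⟩ := CharP.exists F
  have := Fact.mk (CharP.char_is_prime F p)
  refine (TT.sl (M := M ⊓ SLV F V) (fun x y x' y' a b c d => ?_) hV inf_le_right).trans inf_le_left
  let f : Gm M →* (V ≃ₗ[F] V) := M.subtype.comp (MonoidHom.fst M Fˣ)
  obtain ⟨g, hg, e1, e2⟩ := (cf_of h (by omega)).tt2 (p := p) (Y := (SLV F V).comap f)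
    (fun c hc => ⟨Gm.mk 1 _, (SLV F V).one_mem, Gm.sc c hc⟩) (fun Q g hg => by
      obtain ⟨n, hn⟩ := Q.isPGroup' ⟨g, hg⟩
      have := congrArg (fun g => ((LinearEquiv.det (f g) : Fˣ) : F)) (show g ^ p ^ n = 1 from congrArg Subtype.val hn)
      simp only [map_pow, map_one, Units.val_pow_eq_pow_val, Units.val_one] at this
      refine mem_SLV.2 (Units.ext (sub_eq_zero.1 (pow_eq_zero_iff (n := p ^ n) ?_ |>.1 ?_)))
      · exact pow_ne_zero _ (Fact.out : p.Prime).ne_zero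
      · rw [sub_pow_char_pow, this]; simp) a
    (fun e => (mem_span_singleton.1 e).elim fun s e => b s e.symm) c
    (fun e => (mem_span_singleton.1 e).elim fun s e => d s e.symm)
  obtain ⟨s, e⟩ := mem_span_singleton.1 e1
  have s0 : s ≠ 0 := by rintro rfl; exact ne0 a g (by simpa using e.symm)
  refine ⟨g.1.1, ⟨g.1.2, hg⟩, g.2⁻¹ * Units.mk0 s s0, g.2⁻¹, ?_, ?_⟩
  · rw [mul_smul, eq_inv_smul_iff]; exact e.symm
  · rw [eq_inv_smul_iff]; exact e2

theorem Cf.case2 (h : Cf Γ B) {n : ℕ} (hn : finrank F V = n + 1) (h4 : 4 ≤ n) (x0 : x ≠ 0) (a : y ∉ F ∙ x)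
    (hw : finrank F (Wl Γ B p ℓ[x, y]) = 2)
    (ih : ∀ M : Subgroup ((V ⧸ F ∙ x) ≃ₗ[F] (V ⧸ F ∙ x)), TT M → finrank F (V ⧸ F ∙ x) = n → SLV F _ ≤ M) :
    HT Γ B :=
  h.r1 (by omega) x0 (h.lift (p := p) x0 (fun z hz => (ln_eq' ((h.fr_wl x0 hz x0 a).trans hw).le x0 hz
    (h.le_wl _ _ (l1 _ _)) (h.le_wl _ _ (l2 _ _))).symm) fun M k => ih M k (by
      have := finrank_quotient_add_finrank (F ∙ x)
      rw [fr1 x0] at this; omega))

end Cfsg.Agent.H2.CK
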