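import Cfsg.Agent.H2.CK5

/-! The cases in dimension six. -/

set_option autoImplicit false
set_option linter.unusedSimpArgs false
set_option linter.unusedSectionVars false
set_option linter.unusedVariables false

namespace Cfsg.Agent.H2.CK

open Module Submodule

variable {F V W : Type*} [Field F] [Fintype F] [AddCommGroup V] [Module F V] [FiniteDimensional F V]
  [AddCommGroup W] [Module F W] [FiniteDimensional F W] {Γ : Type*} [Group Γ] [Finite Γ]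
  [DistribMulAction Γ V] [SMulCommClass Γ F V] [DistribMulAction Γ W] [SMulCommClass Γ F W]
  {B : V →ₗ[F] W →ₗ[F] F} {S T : Submodule F V} {x y z v x' y' v' : V} {φ ψ χ w φ' ψ' : W} {g : Γ}
  {p : ℕ} [Fact p.Prime] [CharP F p] {Q : Sylow p Γ}

local notation "q" => Fintype.card F
local notation "ℓ[" x ", " y "]" => span F {x, y}

theorem part {s : Set V} (f : V → Submodule F V) {m : ℕ} (h1 : ∀ v ∈ s, v ∈ f v)
    (h2 : ∀ v ∈ s, ∀ w ∈ s, w ∈ f v → f w = f v) (h3 : ∀ v ∈ s, {w ∈ s | w ∈ f v}.ncard = m) :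
    m ∣ s.ncard := by
  have : Finite V := Module.finite_of_finite F
  have : Finite (Submodule F V) := Finite.of_injective _ SetLike.coe_injective
  have := dce s (f '' s) (fun v S => v ∈ S) (m := 1) (n := m) (fun v hv => by
    rw [← Set.ncard_singleton (f v)]
    congr 1; ext S
    exact ⟨by rintro ⟨⟨w, a, rfl⟩, b⟩; exact (h2 w a v hv b).symm, by
      rintro rfl; exact ⟨⟨v, hv, rfl⟩, h1 v hv⟩⟩) (by rintro _ ⟨v, hv, rfl⟩; exact h3 v hv)
  exact Dvd.intro_left _ (by rw [← this, mul_one])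

theorem nd {n : ℕ} (h : 2 ≤ n) : ¬ n ^ 2 - 1 ∣ n ^ 5 - 1 := fun e => by
  have k1 : 1 ≤ n ^ 2 := Nat.one_le_pow _ _ (by omega)
  have k2 : 1 ≤ n ^ 5 := Nat.one_le_pow _ _ (by omega)
  zify [k1, k2] at e h
  rw [show (n : ℤ) ^ 5 - 1 = (n ^ 2 - 1) * (n ^ 3 + n) + (n - 1) by ring, dvd_add_right (by simp)] at e
  have := Int.le_of_dvd (by omega) e
  nlinarith

theorem pent {ι : Type*} [Fintype ι] [DecidableEq ι] (X : Matrix ι ι ℝ) {c t1 t2 : ℤ} (c0 : c ≠ 0)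
    (h : X * X * X = (c : ℝ) • (X * X) + ((c : ℝ) ^ 2) • X) (h1 : X.trace = t1) (h2 : (X * X).trace = t2) :
    t2 = 3 * c * t1 := by
  have r2 : √5 * √5 = 5 := Real.mul_self_sqrt (by norm_num)
  have ir : Irrational √5 := by simpa using Nat.prime_five.irrational_sqrt
  have r0 : 0 < √5 := by positivity
  generalize √5 = r at *
  have c1 : (c : ℝ) ≠ 0 := by exact_mod_cast c0
  have d0 : (c : ℝ) ^ 2 * (5 + r) ≠ 0 := by positivity
  have h4 : X * X * (X * X) = (2 * (c : ℝ) ^ 2) • (X * X) + ((c : ℝ) ^ 3) • X := by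
    rw [← mul_assoc, h, add_mul, smul_mul_assoc, smul_mul_assoc, h]; module
  let Y := (2 : ℝ) • (X * X) - (c * (1 - r)) • X
  have e : Y * Y = ((c : ℝ) ^ 2 * (5 + r)) • Y := by
    simp only [Y, sub_mul, mul_sub, smul_mul_assoc, mul_smul_comm, h4, h, ← mul_assoc X X X]
    match_scalars
    · linear_combination (c : ℝ) ^ 2 * r2
    · linear_combination (-(c : ℝ) ^ 3) * r2
  have i : IsIdempotentElem (Matrix.toLin' (((c : ℝ) ^ 2 * (5 + r))⁻¹ • Y)) := by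
    rw [IsIdempotentElem, Module.End.mul_eq_comp, ← Matrix.toLin'_mul, smul_mul_assoc, mul_smul_comm, e,
      smul_smul _ _ Y, inv_mul_cancel₀ d0, one_smul]
  obtain ⟨m, t⟩ : ∃ m : ℕ, _ = (m : ℝ) := ⟨_, (LinearMap.IsIdempotentElem.isProj_range _ i).trace⟩
  rw [Matrix.trace_toLin'_eq, Matrix.trace_smul, Matrix.trace_sub, Matrix.trace_smul, Matrix.trace_smul,
    h1, h2, smul_eq_mul, inv_mul_eq_iff_eq_mul₀ d0] at t
  simp only [smul_eq_mul] at t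
  have k : c * t1 - c ^ 2 * m = 0 := by
    by_contra n
    exact (ir.mul_intCast n).ne_int (5 * c ^ 2 * m - 2 * t2 + c * t1) (by push_cast; linear_combination t)
  have k' : (c : ℝ) * t1 - c ^ 2 * m = 0 := by exact_mod_cast k
  have : (2 : ℝ) * t2 = 6 * c * t1 := by linear_combination t - (r + 5) * k'
  have : 2 * t2 = 6 * c * t1 := by exact_mod_cast this
  linarith

theorem pp1' (h : v ∈ pp B.flip (F ∙ φ)) : B v φ = 0 := (pp1 (B := B.flip)).1 h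

theorem mp_inf (g : Γ) (S T : Submodule F V) : mp g (S ⊓ T) = mp g S ⊓ mp g T := by ext; simp [mem_mp]

theorem fr3 (x0 : x ≠ 0) (a : y ∉ F ∙ x) (b : z ∉ ℓ[x, y]) : finrank F ↥(ℓ[x, y] ⊔ F ∙ z) = 3 := by
  rw [finrank_sup_span_singleton b, fr2 x0 a]

theorem le3 (a : x ∈ S) (b : y ∈ S) (c : z ∈ S) : ℓ[x, y] ⊔ F ∙ z ≤ S :=
  sup_le (ln_le.2 ⟨a, b⟩) ((span_singleton_le_iff_mem _ _).2 c)

theorem le1 : F ∙ x ≤ S ↔ x ∈ S := span_singleton_le_iff_mem _ _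

namespace Cf

variable (h : Cf Γ B)
include h

theorem wst (x0 : x ≠ 0) (hg : g ∈ st Γ (F ∙ x)) (v : V) :
    Wl Γ B p ℓ[x, g • v] = mp g (Wl Γ B p ℓ[x, v]) := by
  rw [← h.wl_mp, mp_pair, ln_sp (mem_st1.1 hg) (ne0 x0 g)]

theorem w1 (x y : V) : x ∈ Wl Γ B p ℓ[x, y] := h.le_wl _ _ (l1 _ _)

theorem w2 (x y : V) : y ∈ Wl Γ B p ℓ[x, y] := h.le_wl _ _ (l2 _ _)

theorem six5 (hn : finrank F V = 6) (x0 : x ≠ 0) (a : y ∉ F ∙ x) : finrank F (Wl Γ B p ℓ[x, y]) ≠ 5 := by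
  intro hw
  obtain ⟨φ, -, k⟩ := h.ex2 a
  have φ0 : φ ≠ 0 := by rintro rfl; simp at k
  have u : ∀ v, v ≠ 0 → B v φ = 0 → finrank F (Ul Γ p v φ : Submodule F V) = 2 := fun v b c => by
    have := h.fr_ul (p := p) b φ0 c x0 a; omega
  have c := h.flip.fr_pp (F ∙ φ)
  have := part (s := (pp B.flip (F ∙ φ) : Set V) \ {0}) (fun v => (Ul Γ p v φ : Submodule F V)) (m := q ^ 2 - 1)
    (fun v hv => h.ul_self hv.2 φ0 (pp1' hv.1)) (fun v hv w hw k => by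
      by_cases e : w ∈ F ∙ v
      · exact ul_congr e hw.2 (sp1 _) φ0
      · exact (ln_eq' (u w hw.2 (pp1' hw.1)).le hv.2 e (h.ul_symm hv.2 φ0 (pp1' hv.1) k)
          (h.ul_self hw.2 φ0 (pp1' hw.1))).symm.trans (ln_eq' (u v hv.2 (pp1' hv.1)).le hv.2 e
          (h.ul_self hv.2 φ0 (pp1' hv.1)) k))
    fun v hv => by
      rw [← u v hv.2 (pp1' hv.1), ← ncard_nz]
      congr 1; ext w
      exact ⟨fun k => ⟨k.2, k.1.2⟩, fun k => ⟨⟨pp1.2 (h.ul_orth k.1), k.2⟩, k.1⟩⟩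
  rw [ncard_nz, show finrank F (pp B.flip (F ∙ φ)) = 5 by rw [fr1 φ0, h.fr] at c; omega] at this
  exact nd Fintype.one_lt_card this

theorem six3 (hn : finrank F V = 6) (x0 : x ≠ 0) (a : y ∉ F ∙ x) : finrank F (Wl Γ B p ℓ[x, y]) ≠ 3 := by
  intro hw
  have u : ∀ v, v ∉ F ∙ x → finrank F (Wl Γ B p ℓ[x, v]) = 3 := fun v b => (h.fr_wl x0 b x0 a).trans hw
  have := part (s := (F ∙ x : Set V)ᶜ) (fun v => Wl Γ B p ℓ[x, v]) (m := q ^ 3 - q ^ 1)
    (fun v hv => h.w2 _ _) (fun v hv w hw k => by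
      by_cases e : w ∈ ℓ[x, v]
      · rw [ln_eq x0 hw (l1 _ _) e]
      · exact (eq_of_le_of_finrank_eq (le3 (h.w1 _ _) (h.sym x0 hv hw k) (h.w2 _ _))
          ((fr3 x0 hv e).trans (u w hw).symm)).symm.trans
          (eq_of_le_of_finrank_eq (le3 (h.w1 _ _) (h.w2 _ _) k) ((fr3 x0 hv e).trans (u v hv).symm)))
    fun v hv => by
      rw [← u v hv, ← fr1 (F := F) x0, ← ncard_diff (le1.2 (h.w1 _ _))]
      congr 1; ext w
      exact and_comm
  rw [ncard_compl, hn, fr1 x0, pow_succ' _ 2, pow_succ' _ 5, pow_one, ← Nat.mul_sub_one, ← Nat.mul_sub_one]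
    at this
  exact nd Fintype.one_lt_card (Nat.dvd_of_mul_dvd_mul_left Fintype.card_pos this)

open Classical in
theorem six4a (hn : finrank F V = 6) (x0 : x ≠ 0) (u : ∀ v, v ∉ F ∙ x → finrank F (Wl Γ B p ℓ[x, v]) = 4)
    (a : y ∉ F ∙ x) (b : z ∉ F ∙ x) : finrank F ↥(Wl Γ B p ℓ[x, y] ⊓ Wl Γ B p ℓ[x, z]) =
      if z ∈ ℓ[x, y] then 4 else if z ∈ Wl Γ B p ℓ[x, y] then 3 else 2 := by
  classical
  have : Finite V := Module.finite_of_finite F
  have q2 : 2 ≤ q := Fintype.one_lt_card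
  have le : ∀ t, t ∉ ℓ[x, y] → t ∈ Wl Γ B p ℓ[x, y] →
      3 ≤ finrank F ↥(Wl Γ B p ℓ[x, y] ⊓ Wl Γ B p ℓ[x, t]) := fun t c d =>
    fr3 x0 a c ▸ finrank_mono (le3 ⟨h.w1 _ _, h.w1 _ _⟩ ⟨h.w2 _ _, h.sym x0 a (fun e => c (l3 e)) d⟩
      ⟨d, h.w2 _ _⟩)
  have key : ∀ d (T : Set V), (∀ z, z ∉ Wl Γ B p ℓ[x, y] →
      d ≤ finrank F ↥(Wl Γ B p ℓ[x, y] ⊓ Wl Γ B p ℓ[x, z])) → T ⊆ Wl Γ B p ℓ[x, y] \ ℓ[x, y] →
      (∀ t ∈ (Wl Γ B p ℓ[x, y] \ ℓ[x, y] : Set V), ¬ Wl Γ B p ℓ[x, t] ≤ Wl Γ B p ℓ[x, y] → t ∈ T) →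
      (q ^ 6 - q ^ 4) * (q ^ d - q ^ 1) ≤ T.ncard * (q ^ 4 - q ^ 3) := fun d T k1 k2 k3 => by
    have := dc (Wl Γ B p ℓ[x, y] : Set V)ᶜ T (fun z t => z ∈ Wl Γ B p ℓ[x, t]) (m := q ^ d - q ^ 1)
      (n := q ^ 4 - q ^ 3) (fun z hz => by
        refine (Nat.sub_le_sub_right (Nat.pow_le_pow_right (by omega) (k1 z hz)) _).trans ?_
        rw [← fr1 (F := F) x0, ← ncard_diff (le1.2 (mem_inf.2 ⟨h.w1 _ _, h.w1 _ _⟩))]
        refine Set.ncard_le_ncard fun t ht => ?_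
        have m := h.sym x0 (fun e => hz (h.le_wl _ _ (l3 e))) ht.2 ht.1.2
        exact ⟨k3 t ⟨ht.1.1, fun e => hz (by rwa [ln_eq x0 ht.2 (l1 _ _) e] at m)⟩ fun e => hz (e m), m⟩)
      fun t ht => by
        refine le_trans ?_ (Nat.sub_le_sub_left (Nat.pow_le_pow_right (by omega)
          (le t (k2 ht).2 (k2 ht).1)) _)
        rw [← u t fun e => (k2 ht).2 (l3 e), ← ncard_diff inf_le_right]
        exact Set.ncard_le_ncard fun z hz => ⟨hz.2, fun e => hz.1 e.1⟩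
    rwa [ncard_compl, hn, u y a] at this
  have c0 : (Wl Γ B p ℓ[x, y] \ ℓ[x, y] : Set V).ncard = q ^ 4 - q ^ 2 := by
    rw [ncard_diff (h.le_wl _ _), u y a, fr2 x0 a]
  have le2 : ∀ z, z ∉ Wl Γ B p ℓ[x, y] → 2 ≤ finrank F ↥(Wl Γ B p ℓ[x, y] ⊓ Wl Γ B p ℓ[x, z]) := fun z c => by
    have := finrank_sup_add_finrank_inf_eq (Wl Γ B p ℓ[x, y]) (Wl Γ B p ℓ[x, z])
    have := finrank_le (Wl Γ B p ℓ[x, y] ⊔ Wl Γ B p ℓ[x, z])
    have := u z fun e => c (h.le_wl _ _ (l3 e))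
    have := u y a
    omega
  have p1 : ∀ i j, i ≤ j → q ^ i ≤ q ^ j := fun i j e => Nat.pow_le_pow_right (by omega) e
  split_ifs with c d
  · rw [ln_eq x0 b (l1 _ _) c, inf_idem, u y a]
  · refine le_antisymm (Nat.le_of_lt_succ (lt_of_le_of_ne ((finrank_mono inf_le_right).trans (u z b).le)
      fun e => ?_)) (le z c d)
    have := key 2 ((Wl Γ B p ℓ[x, y] \ ℓ[x, y] : Set V) \ {z}) le2 Set.diff_subset fun t k1 k2 =>
      ⟨k1, by
        rintro rfl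
        exact k2 (inf_eq_right.1 (eq_of_le_of_finrank_eq inf_le_right (e.trans (u _ b).symm)))⟩
    have k := Set.ncard_diff_singleton_add_one (s := (Wl Γ B p ℓ[x, y] \ ℓ[x, y] : Set V)) (a := z) ⟨d, c⟩
    rw [c0] at k
    generalize Set.ncard _ = m at k this
    zify [p1 4 6 (by omega), p1 1 2 (by omega), p1 3 4 (by omega), p1 2 4 (by omega)] at k this q2
    rw [show (m : ℤ) = q ^ 4 - q ^ 2 - 1 by linarith] at this
    have : (0 : ℤ) < q ^ 3 * (q - 1) := by have : (0 : ℤ) < q - 1 := by linarith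
                                           positivity
    nlinarith
  · refine le_antisymm ?_ (le2 z d)
    by_contra! e
    have := key 3 _ (fun z' c' => by
      obtain ⟨g, hg, rfl⟩ := h.tb x0 d c'
      rw [h.wst x0 hg.1, ← mp_st (h.st_wl hg.2), ← mp_inf, fr_mp]
      exact e) subset_rfl fun _ k _ => k
    rw [c0] at this
    zify [p1 4 6 (by omega), p1 1 3 (by omega), p1 3 4 (by omega), p1 2 4 (by omega)] at this q2
    have : (0 : ℤ) < q ^ 6 * (q - 1) * (q ^ 2 - 1) := by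
      have : (0 : ℤ) < q - 1 := by linarith
      have : (0 : ℤ) < q ^ 2 - 1 := by nlinarith
      positivity
    nlinarith

theorem six4 (hn : finrank F V = 6) (x0 : x ≠ 0) (a : y ∉ F ∙ x) : finrank F (Wl Γ B p ℓ[x, y]) ≠ 4 := by
  classical
  intro hw
  have u : ∀ v, v ∉ F ∙ x → finrank F (Wl Γ B p ℓ[x, v]) = 4 := fun v b => (h.fr_wl x0 b x0 a).trans hw
  have : Finite V := Module.finite_of_finite F
  let ι := {v // v ∉ F ∙ x}
  have := Fintype.ofFinite ι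
  have q2 : 2 ≤ q := Fintype.one_lt_card
  have cnt : ∀ (S : Submodule F V) (P : ι → Prop) [DecidablePred P], x ∈ S → (∀ t, P t ↔ t.1 ∈ S) →
      ∑ t : ι, (if P t then (1 : ℝ) else 0) = q ^ finrank F S - q := fun S P _ k1 k2 => by
    have := ncard_diff (le1.2 k1)
    rw [fr1 x0, pow_one] at this
    rw [Finset.sum_boole, ← Nat.cast_pow, ← Nat.cast_sub (Nat.le_self_pow (by
      have := finrank_mono (le1.2 k1); rw [fr1 x0] at this; omega) _), ← this, ← Set.ncard_coe_finset,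
      ← Set.ncard_image_of_injective _ Subtype.val_injective]
    congr 2; ext v
    simp [k2, ι, and_comm]
  let A : Matrix ι ι ℝ := Matrix.of fun y z => if z.1 ∈ Wl Γ B p ℓ[x, y.1] then 1 else 0
  let E : Matrix ι ι ℝ := Matrix.of fun y z => if z.1 ∈ ℓ[x, y.1] then 1 else 0
  let J : Matrix ι ι ℝ := Matrix.of fun _ _ => 1
  have sy : ∀ y z : ι, z.1 ∈ Wl Γ B p ℓ[x, y.1] ↔ y.1 ∈ Wl Γ B p ℓ[x, z.1] := fun y z =>
    ⟨h.sym x0 y.2 z.2, h.sym x0 z.2 y.2⟩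
  have e1 : A * A = ((q : ℝ) ^ 2 - q) • J + ((q : ℝ) ^ 3 - q ^ 2) • A + ((q : ℝ) ^ 4 - q ^ 3) • E := by
    ext y z
    simp only [A, E, J, Matrix.mul_apply, Matrix.of_apply, ite_zero_mul_ite_zero, mul_one, Matrix.add_apply,
      Matrix.smul_apply, smul_eq_mul]
    rw [cnt (Wl Γ B p ℓ[x, y.1] ⊓ Wl Γ B p ℓ[x, z.1]) _ ⟨h.w1 _ _, h.w1 _ _⟩ fun t => by rw [sy t z, mem_inf],
      h.six4a hn x0 u y.2 z.2]
    by_cases c : z.1 ∈ ℓ[x, y.1]
    · simp only [c, h.le_wl _ _ c, if_true]; ring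
    simp only [c, if_false]
    split_ifs
    · ring
    · ring
  have e2 : A * E = ((q : ℝ) ^ 2 - q) • A := by
    ext y z
    simp only [A, E, Matrix.mul_apply, Matrix.of_apply, ite_zero_mul_ite_zero, mul_one,
      Matrix.smul_apply, smul_eq_mul]
    split_ifs with c
    · rw [cnt ℓ[x, z.1] (fun t => t.1 ∈ Wl Γ B p ℓ[x, y.1] ∧ z.1 ∈ ℓ[x, t.1]) (l1 _ _) fun t =>
        ⟨fun k => by rw [ln_eq x0 z.2 (l1 _ _) k.2]; exact l2 _ _, fun k => ⟨ln_le.2 ⟨h.w1 _ _, c⟩ k, by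
          rw [ln_eq x0 t.2 (l1 _ _) k]; exact l2 _ _⟩⟩, fr2 x0 z.2, mul_one]
    · rw [mul_zero]
      exact Finset.sum_eq_zero fun t _ => if_neg fun k => c (ln_le.2 ⟨h.w1 _ _, k.1⟩ k.2)
  have e3 : A * J = ((q : ℝ) ^ 4 - q) • J := by
    ext y z
    simp only [A, J, Matrix.mul_apply, Matrix.of_apply, mul_one, Matrix.smul_apply, smul_eq_mul]
    rw [cnt _ _ (h.w1 _ _) fun t => Iff.rfl, u _ y.2]
  have e4 : J * A = ((q : ℝ) ^ 4 - q) • J := by
    ext y z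
    simp only [A, J, Matrix.mul_apply, Matrix.of_apply, mul_one, one_mul, Matrix.smul_apply, smul_eq_mul]
    rw [cnt _ _ (h.w1 _ _) fun t => sy t z, u _ z.2]
  have e0 : ∑ t : ι, (1 : ℝ) = q ^ 6 - q := by simpa [hn] using cnt ⊤ (fun _ => True) trivial (by simp)
  have e5 : J * J = ((q : ℝ) ^ 6 - q) • J := by
    ext y z
    simp only [J, Matrix.mul_apply, Matrix.of_apply, mul_one, Matrix.smul_apply, smul_eq_mul, e0]
  have t1 : A.trace = q ^ 6 - q := by simp only [A, Matrix.trace, Matrix.diag, Matrix.of_apply, h.w2, if_true, e0]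
  have t2 : E.trace = q ^ 6 - q := by simp only [E, Matrix.trace, Matrix.diag, Matrix.of_apply, l2, if_true, e0]
  have t3 : J.trace = q ^ 6 - q := by simp only [J, Matrix.trace, Matrix.diag, Matrix.of_apply, e0]
  have q3 : (2 : ℝ) ≤ q := by exact_mod_cast q2
  have v0 : (q : ℝ) ^ 6 - q ≠ 0 := by
    have : (q : ℝ) ^ 1 < q ^ 6 := pow_lt_pow_right₀ (by linarith) (by norm_num)
    rw [pow_one] at this; linarith
  obtain ⟨r, hr⟩ : ∃ r : ℝ, r * (q ^ 6 - q) = q ^ 4 - q := ⟨_, div_mul_cancel₀ _ v0⟩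
  have e6 : (A - r • J) * (A - r • J) = A * A - (r * (q ^ 4 - q)) • J := by
    simp only [sub_mul, mul_sub, smul_mul_assoc, mul_smul_comm, e3, e4, e5]
    match_scalars <;> [ring; linear_combination r * hr]
  have e7 : A * (A * A) = ((q ^ 2 - q) * (q ^ 4 - q) : ℝ) • J + ((q : ℝ) ^ 3 - q ^ 2) • (A * A) +
      ((q ^ 4 - q ^ 3) * (q ^ 2 - q) : ℝ) • A := by
    conv_lhs => rw [e1]
    simp only [mul_add, mul_smul_comm, e2, e3, smul_smul]
  have := pent (A - r • J) (c := q ^ 3 - q ^ 2) (t1 := q ^ 6 - q ^ 4) (t2 := (q ^ 4 - q) * (q ^ 6 - q ^ 4))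
    (by
      have : q ^ 2 < q ^ 3 := Nat.pow_lt_pow_right q2 (by norm_num)
      zify at this; omega) (by
      rw [e6, sub_mul, mul_sub, mul_sub, mul_assoc A A A, e7, mul_smul_comm, mul_assoc A A J, e3]
      simp only [smul_mul_assoc, mul_smul_comm, e3, e4, e5]
      generalize A * A = C
      match_scalars
      · linear_combination (r * (q ^ 4 - q) - (q ^ 2 - q) : ℝ) * hr
      · ring
      · ring) (by
      rw [Matrix.trace_sub, Matrix.trace_smul, t1, t3, smul_eq_mul, hr]; push_cast; ring) (by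
      rw [e6, e1]
      simp only [Matrix.trace_sub, Matrix.trace_add, Matrix.trace_smul, t1, t2, t3, smul_eq_mul]
      push_cast; linear_combination (-(q ^ 4 - q) : ℝ) * hr)
  zify at q2
  have k : (q : ℤ) ^ 5 * (q ^ 2 - 1) * (q - 1) ^ 3 ≠ 0 := by
    have : (0 : ℤ) < q - 1 := by linarith
    have : (0 : ℤ) < q ^ 2 - 1 := by nlinarith
    positivity
  exact k (by linear_combination this)

end Cf

end Cfsg.Agent.H2.CK
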