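import Cfsg.Agent.H2.CK6

/-! Dimension six, and three of the cases in dimension seven. -/

set_option autoImplicit false
set_option linter.unusedSimpArgs false
set_option linter.unusedSectionVars false
set_option linter.unusedVariables false

namespace Cfsg.Agent.H2.CK

open Module Submodule

variable {F V W : Type*} [Field F] [Fintype F] [AddCommGroup V] [Module F V] [FiniteDimensional F V]
  [AddCommGroup W] [Module F W] [FiniteDimensional F W] {Γ : Type*} [Group Γ] [Finite Γ]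
  [DistribMulAction Γ V] [SMulCommClass Γ F V] [DistribMulAction Γ W] [SMulCommClass Γ F W]
  {B : V →ₗ[F] W →ₗ[F] F} {S T : Submodule F V} {x y z v x' y' v' : V} {φ ψ χ w φ' ψ' : W} {g : Γ}
  {p : ℕ} [Fact p.Prime] [CharP F p] {Q : Sylow p Γ}

local notation "q" => Fintype.card F
local notation "ℓ[" x ", " y "]" => span F {x, y}

open H6 H6.S5 in
theorem sl6 {M : Subgroup (V ≃ₗ[F] V)} (h : TT M) (hV : finrank F V = 6) : SLV F V ≤ M := by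
  obtain ⟨p, hp⟩ := CharP.exists F
  have := Fact.mk (CharP.char_is_prime F p)
  have c := cf_of h (by omega)
  obtain ⟨x, x0⟩ := c.exn1 0
  replace x0 := nz x0
  obtain ⟨y, a⟩ := c.exn1 x
  have k1 := c.wl_lt (p := p) x0 a
  have k2 := finrank_mono (c.le_wl (p := p) x y)
  have k3 := c.six3 (p := p) hV x0 a
  have k4 := c.six4 (p := p) hV x0 a
  have k5 := c.six5 (p := p) hV x0 a
  rw [fr2 x0 a] at k2
  exact sl_of c (c.case2 (p := p) (n := 5) hV (by omega) x0 a (by omega) fun M k e => sl5 k e)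

namespace Cf

variable (h : Cf Γ B)
include h

theorem seven4a (hn : finrank F V = 7) (x0 : x ≠ 0) (a : y ∉ F ∙ x) (hw : finrank F (Wl Γ B p ℓ[x, y]) = 4)
    (b : z ∉ F ∙ x) (c : z ∈ Wl Γ B p ℓ[x, y]) : Wl Γ B p ℓ[x, z] = Wl Γ B p ℓ[x, y] := by
  have : Finite V := Module.finite_of_finite F
  have u : ∀ v, v ∉ F ∙ x → finrank F (Wl Γ B p ℓ[x, v]) = 4 := fun v b => (h.fr_wl x0 b x0 a).trans hw
  refine eq_of_le_of_finrank_eq (fun v hv => by_contra fun n => ?_) ((u z b).trans hw.symm)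
  have := dc (Wl Γ B p ℓ[x, y] : Set V)ᶜ (Wl Γ B p ℓ[x, y] \ ℓ[x, y] : Set V)
    (fun z t => z ∈ Wl Γ B p ℓ[x, t]) (m := q ^ 2 - q ^ 1) (n := q ^ 4) (fun v' hv' => by
      obtain ⟨g, hg, rfl⟩ := h.tb x0 n hv'
      have k1 : g • v ∈ Wl Γ B p ℓ[x, g • z] := by rwa [h.wst x0 hg.1, smul_mp]
      rw [← fr2 x0 (nm_st hg.1 b), ← fr1 (F := F) x0, ← ncard_diff (le1.2 (l1 _ _))]
      refine Set.ncard_le_ncard fun t ht => ?_
      have e := ln_eq x0 ht.2 (l1 _ _) ht.1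
      exact ⟨⟨ln_le.2 ⟨h.w1 _ _, h.st_wl hg.2 _ c⟩ ht.1, fun k => hv' (by
        rwa [← e, ln_eq x0 ht.2 (l1 _ _) k] at k1)⟩, e ▸ k1⟩)
    fun t ht => by
      rw [← u t fun e => ht.2 (l3 e), ← ncard_sub]
      exact Set.ncard_le_ncard fun z hz => hz.2
  rw [ncard_compl, ncard_diff (h.le_wl _ _), hn, hw, fr2 x0 a] at this
  have q2 : 2 ≤ q := Fintype.one_lt_card
  have p1 : ∀ i j, i ≤ j → q ^ i ≤ q ^ j := fun i j e => Nat.pow_le_pow_right (by omega) e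
  zify [p1 4 7 (by omega), p1 1 2 (by omega), p1 2 4 (by omega)] at this q2
  have : (0 : ℤ) < q ^ 5 * (q - 1) * (q ^ 3 - q ^ 2 - q - 1) := by
    have : (0 : ℤ) < q - 1 := by linarith
    have : (0 : ℤ) < q ^ 3 - q ^ 2 - q - 1 := by nlinarith
    positivity
  nlinarith

theorem seven4 (hn : finrank F V = 7) (x0 : x ≠ 0) (a : y ∉ F ∙ x) : finrank F (Wl Γ B p ℓ[x, y]) ≠ 4 := by
  intro hw
  have key : ∀ x' y' a b : V, x' ≠ 0 → y' ∉ F ∙ x' → a ≠ 0 → b ∉ F ∙ a → a ∈ Wl Γ B p ℓ[x', y'] →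
      b ∈ Wl Γ B p ℓ[x', y'] → Wl Γ B p ℓ[a, b] = Wl Γ B p ℓ[x', y'] := fun x' y' a' b c d e f k l => by
    have u := (h.fr_wl c d x0 a).trans hw
    by_cases m : a' ∈ F ∙ x'
    · rw [ln_sp m e]; exact h.seven4a hn c d u (by rwa [← sp_eq m e]) l
    · have e1 := h.seven4a hn c d u m k
      rw [ln_comm x' a'] at e1
      rw [← e1] at l ⊢
      exact h.seven4a hn e (ind_symm c m) ((h.fr_wl e (ind_symm c m) x0 a).trans hw) f l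
  obtain ⟨φ, k⟩ := h.exph p x0 a
  have le : ∀ x' y' : V, Ph Γ p ℓ[x', y'] φ → Wl Γ B p ℓ[x', y'] ≤ pp B.flip (F ∙ φ) := fun x' y' k v hv =>
    pp1.2 (mem_Wl.1 hv _ k)
  have c := h.flip.fr_pp (F ∙ φ)
  rw [fr1 k.1, h.fr] at c
  obtain ⟨x', m, n⟩ := SetLike.exists_of_lt (lt_of_le_of_ne (le x y k) fun e => by rw [e] at hw; omega)
  have c1 := h.fr_ul (p := p) (nz n) k.1 (pp1' m) x0 a
  obtain ⟨y', m', n'⟩ := SetLike.exists_of_lt (lt_of_le_of_ne (le1.2 (h.ul_self (p := p) (nz n) k.1 (pp1' m)))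
    fun e => by rw [← e, fr1 (nz n)] at c1; omega)
  have c2 := finrank_sup_add_finrank_inf_eq (Wl Γ B p ℓ[x, y]) (Wl Γ B p ℓ[x', y'])
  have c3 := finrank_mono (sup_le (le x y k) (le x' y' ((h.mem_ul (nz n) k.1 (pp1' m)).1 m')))
  have c4 := h.fr_wl (p := p) x0 a (nz n) n'
  obtain ⟨a', a1, a2⟩ := exists_mem_ne_zero_of_ne_bot (p := Wl Γ B p ℓ[x, y] ⊓ Wl Γ B p ℓ[x', y'])
    fun e => by rw [e, finrank_bot] at c2; omega
  obtain ⟨b, b1, b2⟩ := SetLike.exists_of_lt (lt_of_le_of_ne (le1.2 a1) fun e => by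
    rw [← e, fr1 a2] at c2; omega)
  exact n ((key x y a' b x0 a a2 b2 a1.1 b1.1).symm.trans (key x' y' a' b (nz n) n' a2 b2 a1.2 b1.2) ▸ h.w1 _ _)

theorem seven3 (hn : finrank F V = 7) (x0 : x ≠ 0) (a : y ∉ F ∙ x) (hw : finrank F (Wl Γ B p ℓ[x, y]) = 3)
    (φ0 : φ ≠ 0) (b : ψ ∉ F ∙ φ) : finrank F (Wl Γ B.flip p ℓ[φ, ψ]) = 6 := by
  obtain ⟨v, e, f⟩ := h.flip.ex2 b
  have v0 : v ≠ 0 := by rintro rfl; simp at f
  have c1 := h.fr_ul (p := p) v0 φ0 e x0 a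
  have c2 := h.fr_pp (Ul Γ p v φ)
  have c3 := h.flip.fr_ul (p := p) φ0 v0 e φ0 b
  have c4 := h.flip.wl_lt (p := p) φ0 b
  have m : φ ∈ pp B (Ul Γ p v φ) := mem_pp.2 fun _ k => h.ul_orth k
  obtain ⟨χ, m1, m2⟩ := SetLike.exists_of_lt (lt_of_le_of_ne (le1.2 m) fun e => by
    rw [← e, fr1 φ0] at c2; omega)
  have e1 := ln_eq' (by omega) φ0 m2 m m1
  have := finrank_mono (show (Ul Γ p φ v : Submodule F W) ≤ pp B (Ul Γ p v φ) from fun w k => by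
    obtain ⟨Q, k1, k2, k3⟩ := h.flip.pr φ0 ((h.flip.mem_ul φ0 v0 e).1 k)
    exact e1 ▸ h.flip.uql (fun g hg => e1 ▸ h.st_pp (st_ul (k2.st hg) (k3.st hg) v0 φ0)) k1 k3 φ0 m2)
  rw [h.fr] at c3 c4
  omega

theorem c2a (hn : finrank F V = 7) (x0 : x ≠ 0) (hw : finrank F (Wl Γ B p ℓ[x, y]) = 5) (b : ψ ∉ F ∙ φ)
    (k1 : Ph Γ p ℓ[x, y] φ) (k2 : Ph Γ p ℓ[x, y] ψ) : Ph Γ p ℓ[φ, ψ] x := by
  obtain ⟨Q, a1, a2, a3⟩ := h.pr x0 k1
  have c := h.fr_pp (Wl Γ B p ℓ[x, y])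
  exact ⟨x0, Q, fun g hg => ln_eq' (by omega) k1.1 b (h.ph_pp k1) (h.ph_pp k2) ▸ h.st_pp (h.st_wl (a1 hg)), a3⟩

theorem c2b (hn : finrank F V = 7) (x0 : x ≠ 0) (a : y ∉ F ∙ x) (hw : finrank F (Wl Γ B p ℓ[x, y]) = 5)
    (b : ψ ∉ F ∙ φ) (hw' : finrank F (Wl Γ B.flip p ℓ[φ, ψ]) = 5) (k1 : Ph Γ p ℓ[x, y] φ)
    (k2 : Ph Γ p ℓ[x, y] ψ) : (Ul Γ p x φ ⊓ Ul Γ p x ψ : Submodule F V) ≤ ℓ[x, y] := fun z hz => by
  by_cases m : z ∈ F ∙ x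
  · exact l3 m
  have c := h.flip.fr_pp (Wl Γ B.flip p ℓ[φ, ψ])
  rw [h.fr] at c
  have key : ∀ z, z ∉ F ∙ x → Ph Γ p ℓ[x, z] φ → Ph Γ p ℓ[x, z] ψ → z ∈ pp B.flip (Wl Γ B.flip p ℓ[φ, ψ]) :=
    fun z m k1 k2 => by
      have := (h.fr_wl x0 m x0 a).trans hw
      rw [ln_comm] at k1 k2 this
      exact h.flip.ph_pp (h.c2a hn (nz m) this b k1 k2)
  rw [ln_eq' (by omega) x0 a (h.flip.ph_pp (h.c2a hn x0 hw b k1 k2)) (key y a k1 k2)]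
  exact key z m ((h.mem_ul x0 k1.1 (h.po1 k1)).1 hz.1) ((h.mem_ul x0 k2.1 (h.po1 k2)).1 hz.2)

theorem c2c (hn : finrank F V = 7)
    (u : ∀ (x : V) (φ : W), x ≠ 0 → φ ≠ 0 → B x φ = 0 → finrank F (Ul Γ p x φ : Submodule F V) = 3 ∧
      finrank F (Ul Γ p φ x : Submodule F W) = 3) (x0 : x ≠ 0) (φ0 : φ ≠ 0) (e : B x φ = 0)
    (a : y ∈ (Ul Γ p x φ : Submodule F V)) (y0 : y ≠ 0) (b : z ∈ (Ul Γ p y φ : Submodule F V)) :
    z ∈ pp B.flip (Ul Γ p φ x) := by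
  by_contra n
  have : Finite V := Module.finite_of_finite F
  have le : pp B.flip (Ul Γ p φ x) ≤ pp B.flip (F ∙ φ) := fun v hv =>
    pp1.2 (mem_pp.1 hv _ (h.flip.ul_self φ0 x0 e))
  have := dc (pp B.flip (F ∙ φ) \ pp B.flip (Ul Γ p φ x) : Set V) ((Ul Γ p x φ : Submodule F V) \ {0} : Set V)
    (fun v t => v ∈ (Ul Γ p t φ : Submodule F V)) (m := q ^ 1 - 1) (n := q ^ 3 - q ^ 1) (fun v hv => by
      obtain ⟨g, hg, rfl⟩ := h.flip.tb' φ0 (h.ul_orth b) (pp1.1 hv.1) n hv.2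
      rw [show q ^ 1 - 1 = _ from fr1 (F := F) (ne0 y0 g) ▸ (ncard_nz (F ∙ g • y)).symm]
      refine Set.ncard_le_ncard fun t ht => ⟨⟨le1.2 (st_ul hg.2 hg.1 x0 φ0 _ a) ht.1, ht.2⟩, ?_⟩
      rwa [ul_congr ht.1 ht.2 (mem_sp1 (mem_st1.1 hg.1) (ne0 φ0 g)) φ0, ul_mp, smul_mp])
    fun t ht => by
      rw [← (u t φ ht.2 φ0 (h.ul_orth ht.1)).1, ← fr1 (F := F) x0,
        ← ncard_diff (le1.2 (h.ul_symm x0 φ0 e ht.1))]
      exact Set.ncard_le_ncard fun z hz => ⟨hz.2, fun k => hz.1.2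
        (le1.2 (mem_pp.2 fun w k => h.flip.ul_orth k) k)⟩
  have c1 := h.flip.fr_pp (F ∙ φ)
  have c2 := h.flip.fr_pp (Ul Γ p φ x)
  rw [fr1 φ0, h.fr] at c1
  rw [(u x φ x0 φ0 e).2, h.fr] at c2
  rw [ncard_diff le, ncard_nz, (u x φ x0 φ0 e).1, show finrank F (pp B.flip (F ∙ φ)) = 6 by omega,
    show finrank F (pp B.flip (Ul Γ p φ x)) = 4 by omega] at this
  have q2 : 2 ≤ q := Fintype.one_lt_card
  have p1 : ∀ i j, i ≤ j → q ^ i ≤ q ^ j := fun i j e => Nat.pow_le_pow_right (by omega) e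
  zify [p1 4 6 (by omega), p1 1 3 (by omega), Nat.one_le_pow 1 q (by omega), Nat.one_le_pow 3 q (by omega)]
    at this q2
  have : (0 : ℤ) < q * (q ^ 2 - 1) * (q ^ 3 * (q - 2) + 1) := by
    have : (0 : ℤ) ≤ q - 2 := by linarith
    have : (0 : ℤ) < q ^ 2 - 1 := by nlinarith
    positivity
  nlinarith

theorem seven5 (hn : finrank F V = 7) (x0 : x ≠ 0) (a : y ∉ F ∙ x) (hw : finrank F (Wl Γ B p ℓ[x, y]) = 5)
    (φ0 : φ' ≠ 0) (b : ψ' ∉ F ∙ φ') : finrank F (Wl Γ B.flip p ℓ[φ', ψ']) ≠ 5 := by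
  intro hw'
  have u : ∀ (x : V) (φ : W), x ≠ 0 → φ ≠ 0 → B x φ = 0 → finrank F (Ul Γ p x φ : Submodule F V) = 3 ∧
      finrank F (Ul Γ p φ x : Submodule F W) = 3 := fun v φ c d e => by
    have := h.fr_ul (p := p) c d e x0 a
    have := h.flip.fr_ul (p := p) d c e φ0 b
    have := h.fr
    omega
  have hn' : finrank F W = 7 := h.fr.trans hn
  have key : ∀ (x' y' : V) (φ ψ : W), x' ≠ 0 → y' ∉ F ∙ x' → ψ ∉ F ∙ φ → Ph Γ p ℓ[x', y'] φ → Ph Γ p ℓ[x', y'] ψ →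
      Ul Γ p x' φ = pp B.flip (Ul Γ p φ x' ⊔ Ul Γ p φ y') := fun x' y' φ ψ c d e k1 k2 => by
    have w1 := (h.fr_wl c d x0 a).trans hw
    have w2 := (h.flip.fr_wl k1.1 e φ0 b).trans hw'
    have j1 := h.c2a hn c w1 e k1 k2
    have o1 := h.po1 k1
    have o2 := h.po2 k1
    have m := h.ul_symm c k1.1 o1 (subset_span k1)
    rw [ln_comm] at k1 k2 w1
    have j2 := h.c2a hn (nz d) w1 e k1 k2
    rw [ln_comm] at w1
    have c1 := finrank_mono (h.flip.c2b hn' k1.1 e w2 d w1 j1 j2)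
    have c2 := finrank_sup_add_finrank_inf_eq (Ul Γ p φ x' : Submodule F W) (Ul Γ p φ y')
    have c3 := h.flip.fr_pp (Ul Γ p φ x' ⊔ Ul Γ p φ y')
    have c4 := u x' φ c k1.1 o1
    have c5 := u y' φ (nz d) k1.1 o2
    rw [fr2 k1.1 e] at c1
    refine eq_of_le_of_finrank_le (fun z hz => mem_pp.2 fun w hw => ?_) (by omega)
    obtain ⟨s, hs, t, ht, rfl⟩ := mem_sup.1 hw
    rw [map_add, LinearMap.add_apply, mem_pp.1 (h.c2c hn u c k1.1 o1 (h.ul_self c k1.1 o1) c hz) s hs,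
      mem_pp.1 (h.c2c hn u (nz d) k1.1 o2 m c hz) t ht, add_zero]
  obtain ⟨φ, k1⟩ := h.exph p x0 a
  have c := h.fr_pp (Wl Γ B p ℓ[x, y])
  obtain ⟨ψ, m, e⟩ := SetLike.exists_of_lt (lt_of_le_of_ne (le1.2 (h.ph_pp k1)) fun e => by
    rw [← e, fr1 k1.1] at c; omega)
  have k2 := h.ta x0 a (nz e) m
  have e' := ind_symm k1.1 e
  have a' := ind_symm x0 a
  have w2 := (h.flip.fr_wl k1.1 e φ0 b).trans hw'
  have c1 := finrank_mono (show (Ul Γ p x ψ : Submodule F V) ≤ ℓ[x, y] from fun z hz =>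
    h.c2b hn x0 a hw e w2 k1 k2 ⟨?_, hz⟩)
  · rw [fr2 x0 a, (u x ψ x0 k2.1 (h.po1 k2)).1] at c1; omega
  have u' : ∀ (φ : W) (x : V), φ ≠ 0 → x ≠ 0 → B.flip φ x = 0 → finrank F (Ul Γ p φ x : Submodule F W) = 3 ∧
      finrank F (Ul Γ p x φ : Submodule F V) = 3 := fun φ x a b c => (u x φ b a c).symm
  rw [key x y φ ψ x0 a e k1 k2]
  refine mem_pp.2 fun w hw1 => ?_
  obtain ⟨s, hs, t, ht, rfl⟩ := mem_sup.1 hw1
  have hz' : z ∈ (Ul Γ p y ψ : Submodule F V) := by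
    rw [key y x ψ φ (nz a) a' e' (ln_comm (F := F) x y ▸ k2) (ln_comm (F := F) x y ▸ k1), sup_comm,
      ← key x y ψ φ x0 a e' k2 k1]
    exact hz
  have j1 := h.c2a hn x0 hw e' k2 k1
  rw [ln_comm] at k1 k2 hw
  have j2 := h.c2a hn (nz a) hw e' k2 k1
  have f1 := mem_pp.1 (h.flip.c2c hn' u' k2.1 x0 (h.po2 k2) (subset_span j1) k1.1 hs) z hz
  have f2 := mem_pp.1 (h.flip.c2c hn' u' k2.1 (nz a) (h.po1 k2) (subset_span j2) k1.1 ht) z hz'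
  simp only [LinearMap.flip_apply] at f1 f2
  simp [f1, f2]

end Cf

end Cfsg.Agent.H2.CK
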