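import Cfsg.Agent.H2.CK7

/-! Normal line spreads. -/

set_option autoImplicit false
set_option linter.unusedSimpArgs false
set_option linter.unusedSectionVars false
set_option linter.unusedVariables false

namespace Cfsg.Agent.H2.CK

open Module Submodule

variable {F V W : Type*} [Field F] [Fintype F] [AddCommGroup V] [Module F V] [FiniteDimensional F V]
  [AddCommGroup W] [Module F W] [FiniteDimensional F W] {Γ : Type*} [Group Γ] [Finite Γ]
  [DistribMulAction Γ V] [SMulCommClass Γ F V] [DistribMulAction Γ W] [SMulCommClass Γ F W]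
  {B : V →ₗ[F] W →ₗ[F] F} {S T : Submodule F V} {x y z v x' y' v' : V} {φ ψ χ w φ' ψ' : W} {g : Γ}
  {p : ℕ} [Fact p.Prime] [CharP F p] {Q : Sylow p Γ}

local notation "q" => Fintype.card F
local notation "ℓ[" x ", " y "]" => span F {x, y}

/-- a normal line spread -/
structure Spr (H : Submodule F V) (s : V → Submodule F V) : Prop where
  mem : ∀ v ∈ H, v ≠ 0 → v ∈ s v
  le : ∀ v ∈ H, v ≠ 0 → s v ≤ H
  eq : ∀ v ∈ H, v ≠ 0 → ∀ w ∈ s v, w ≠ 0 → s w = s v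
  fr : ∀ v ∈ H, v ≠ 0 → finrank F (s v) = 2
  cl : ∀ a ∈ H, a ≠ 0 → ∀ b ∈ H, b ≠ 0 → ∀ v ∈ s a ⊔ s b, v ≠ 0 → s v ≤ s a ⊔ s b

namespace Spr

variable {H : Submodule F V} {s : V → Submodule F V} (h : Spr H s) {a b c t u : V}
include h

theorem dj0 (v1 : v ∈ H) (v0 : v ≠ 0) (c1 : c ∈ H) (c0 : c ≠ 0) (n : v ∉ s c) (t1 : t ∈ s v) (t2 : t ∈ s c) :
    t = 0 := by
  by_contra t0
  exact n (h.eq c c1 c0 t t2 t0 ▸ h.eq v v1 v0 t t1 t0 ▸ h.mem v v1 v0)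

theorem dj1 (v1 : v ∈ H) (v0 : v ≠ 0) (a1 : a ∈ H) (a0 : a ≠ 0) (b1 : b ∈ H) (b0 : b ≠ 0) (n : v ∉ s a ⊔ s b)
    (t1 : t ∈ s v) (t2 : t ∈ s a ⊔ s b) : t = 0 := by
  by_contra t0
  exact n (h.cl a a1 a0 b b1 b0 t t2 t0 (h.eq v v1 v0 t t1 t0 ▸ h.mem v v1 v0))

theorem sy (a1 : a ∈ H) (a0 : a ≠ 0) (c1 : c ∈ H) (c0 : c ≠ 0) (n : c ∉ s a) : a ∉ s c := fun e =>
  n (h.eq c c1 c0 a e a0 ▸ h.mem c c1 c0)

theorem ex (a1 : a ∈ H) (a0 : a ≠ 0) (c1 : c ∈ H) (c0 : c ≠ 0) (n : c ∉ s a) (t1 : t ∈ s a) (v1 : v ∈ s c) :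
    ∃ v' ∈ s c, t + v' ∈ s (a + v) := by
  have n' := h.sy a1 a0 c1 c0 n
  have k : a + v ∉ s c := fun e => n' (by simpa using sub_mem e v1)
  have k1 := add_mem a1 (h.le c c1 c0 v1)
  have c2 := finrank_sup_add_finrank_inf_eq (s (a + v)) (s c)
  have c3 := finrank_add_le_finrank_add_finrank (s a) (s c)
  rw [show s (a + v) ⊓ s c = ⊥ from eq_bot_iff.2 fun t ht => h.dj0 k1 (nz k) c1 c0 k ht.1 ht.2,
    finrank_bot, h.fr _ k1 (nz k), h.fr c c1 c0] at c2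
  rw [h.fr a a1 a0, h.fr c c1 c0] at c3
  have := eq_of_le_of_finrank_le (sup_le (h.cl a a1 a0 c c1 c0 _ (add_mem_sup (h.mem a a1 a0) v1) (nz k))
    le_sup_right) (by omega)
  obtain ⟨y, hy, z, hz, rfl⟩ := mem_sup.1 (this.ge (mem_sup_left t1))
  exact ⟨-z, neg_mem hz, by simpa⟩

theorem uq (a1 : a ∈ H) (a0 : a ≠ 0) (c1 : c ∈ H) (c0 : c ≠ 0) (n : c ∉ s a) (v1 : v ∈ s c) (y1 : y ∈ s c)
    (z1 : z ∈ s c) (k1 : t + y ∈ s (a + v)) (k2 : t + z ∈ s (a + v)) : y = z := by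
  have k : a + v ∉ s c := fun e => h.sy a1 a0 c1 c0 n (by simpa using sub_mem e v1)
  exact sub_eq_zero.1 (h.dj0 (add_mem a1 (h.le c c1 c0 v1)) (nz k) c1 c0 k (by simpa using sub_mem k1 k2)
    (sub_mem y1 z1))

theorem sub (hH : 4 < finrank F H) (a1 : a ∈ H) (a0 : a ≠ 0) (u1 : u ∈ s a) (u0 : u ∉ F ∙ a) (b1 : b ∈ H)
    (b0 : b ≠ 0) (n : b ∉ s a) (v1 : v ∈ s b) (v2 : v' ∈ s b) (y1 : y ∈ s b) (y2 : y' ∈ s b)
    (k1 : u + v' ∈ s (a + v)) (k2 : u + y' ∈ s (a + y)) : u + (v' - y') ∈ s (a + (v - y)) := by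
  have c3 := finrank_add_le_finrank_add_finrank (s a) (s b)
  rw [h.fr a a1 a0, h.fr b b1 b0] at c3
  obtain ⟨c, c1, nc⟩ := SetLike.exists_of_lt (lt_of_le_of_ne (sup_le (h.le a a1 a0) (h.le b b1 b0))
    fun e => by rw [e] at c3; omega)
  have c0 := nz nc
  have ma := h.mem a a1 a0
  have mb := h.mem b b1 b0
  have mc := h.mem c c1 c0
  have I : ∀ i ∈ s a, ∀ j ∈ s b, ∀ k ∈ s c, i + j + k = 0 → i = 0 ∧ j = 0 ∧ k = 0 := fun i hi j hj k hk e => by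
    obtain rfl := h.dj1 c1 c0 a1 a0 b1 b0 nc hk (eq_neg_of_add_eq_zero_right e ▸ neg_mem (add_mem_sup hi hj))
    rw [add_zero] at e
    obtain rfl := h.dj0 b1 b0 a1 a0 n hj (eq_neg_of_add_eq_zero_right e ▸ neg_mem hi)
    simpa using e
  have I1 : ∀ i ∈ s a, i ∈ s b ⊔ s c → i = 0 := fun i hi k => by
    obtain ⟨j, hj, k, hk, e⟩ := mem_sup.1 k
    exact (I i hi _ (neg_mem hj) _ (neg_mem hk) (by rw [← e]; abel)).1
  have hb := h.le b b1 b0
  obtain ⟨c', m, e⟩ := h.ex a1 a0 c1 c0 (fun e => nc (mem_sup_left e)) u1 mc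
  have n1 : ∀ w ∈ s b, a + w + c ∉ s b ⊔ s c := fun w hw e => a0 (I1 a ma (by
    simpa [add_assoc] using sub_mem e (add_mem_sup hw mc)))
  have s1 : ∀ w ∈ s b, ∀ w' ∈ s b, u + w' ∈ s (a + w) → u + w' + c' ∈ s (a + w + c) := fun w hw w' hw' k => by
    have z1 : a + w ≠ 0 := fun e => a0 (I a ma w hw 0 (zero_mem _) (by simpa)).1
    have z2 : a + c ≠ 0 := fun e => a0 (I a ma 0 (zero_mem _) c mc (by simpa)).1
    obtain ⟨i, i1, i2⟩ := h.ex (add_mem a1 (hb hw)) z1 c1 c0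
      (fun e => nc (h.cl a a1 a0 b b1 b0 _ (add_mem_sup ma hw) z1 e)) k mc
    obtain ⟨j, j1, j2⟩ := h.ex (add_mem a1 c1) z2 b1 b0 (h.sy b1 b0 (add_mem a1 c1) z2 fun e => a0
      (I a ma _ (neg_mem e) c mc (by abel)).1) e hw
    rw [add_right_comm a] at j2
    have := h.dj1 (add_mem (add_mem a1 (hb hw)) c1) (nz (n1 w hw)) b1 b0 c1 c0 (n1 w hw) (sub_mem i2 j2)
      (by convert add_mem_sup (sub_mem hw' j1) (sub_mem i1 m) using 1; abel)
    rwa [sub_eq_zero.1 (I 0 (zero_mem _) _ (sub_mem hw' j1) _ (sub_mem i1 m) (by rw [zero_add, ← this]; abel)).2.2] at i2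
  have z3 : y + c ≠ 0 := fun e => c0 (I 0 (zero_mem _) y y1 c mc (by simpa)).2.2
  have m3 := add_mem (hb y1) c1
  have l3 := h.cl b b1 b0 c c1 c0 _ (add_mem_sup y1 mc) z3
  have s2 : y' + c' ∈ s (y + c) := by
    obtain ⟨i, i1, i2⟩ := h.ex (add_mem (add_mem a1 (hb y1)) c1) (nz (n1 y y1)) a1 a0
      (h.sy a1 a0 (add_mem (add_mem a1 (hb y1)) c1) (nz (n1 y y1)) fun e => c0
        (I _ (sub_mem ma e) y y1 c mc (by abel)).2.2) (s1 y y1 y' y2 k2) (neg_mem ma)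
    rw [show a + y + c + -a = y + c by abel] at i2
    have := I1 _ (add_mem u1 i1) (by convert sub_mem (l3 i2) (add_mem_sup y2 m) using 1; abel)
    convert i2 using 1
    rw [← add_zero (y' + c'), ← this]; abel
  have ind : ∀ i j : F, i • c + j • c' = 0 → i = 0 ∧ j = 0 := fun i j k => by
    have z2 : a + c ∉ s a := fun e => nc (mem_sup_left (by simpa using sub_mem e ma))
    have := h.dj0 (add_mem a1 c1) (nz z2) a1 a0 z2
      (add_mem (smul_mem _ i (h.mem _ (add_mem a1 c1) (nz z2))) (smul_mem _ j e))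
      (by convert add_mem (smul_mem _ i ma) (smul_mem _ j u1) using 1; linear_combination (norm := module) k)
    have j0 : j = 0 := by
      by_contra j0
      exact u0 ((smul_mem_iff _ j0).1 (mem_span_singleton.2 ⟨-i, by linear_combination (norm := module) k - this⟩))
    exact ⟨by simpa [j0, c0] using k, j0⟩
  obtain ⟨i, i1, i2⟩ := h.ex (add_mem (add_mem a1 (hb v1)) c1) (nz (n1 v v1)) m3 z3
    (h.sy m3 z3 (add_mem (add_mem a1 (hb v1)) c1) (nz (n1 v v1)) fun e => n1 v v1 (l3 e))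
    (s1 v v1 v' v2 k1) (neg_mem (h.mem _ m3 z3))
  rw [show a + v + c + -(y + c) = a + (v - y) by abel] at i2
  rw [← ln_eq' (h.fr _ m3 z3).le z3 (fun e => by
    obtain ⟨r, e⟩ := mem_span_singleton.1 e
    simpa using (ind r (-1) (I 0 (zero_mem _) _ (sub_mem (smul_mem _ r y1) y2) _
      (add_mem (smul_mem _ _ mc) (smul_mem _ _ m)) (by linear_combination (norm := module) e)).2.2).2)
    (h.mem _ m3 z3) s2] at i1
  obtain ⟨r, r', rfl⟩ := mem_span_pair.1 i1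
  have z1 : a + (v - y) ≠ 0 := fun e => a0 (I a ma _ (sub_mem v1 y1) 0 (zero_mem _) (by simpa)).1
  obtain ⟨rfl, e2⟩ := ind r (1 + r') (h.dj1 c1 c0 a1 a0 b1 b0 nc (add_mem (smul_mem _ _ mc) (smul_mem _ _ m)) (by
    convert sub_mem (h.cl a a1 a0 b b1 b0 _ (add_mem_sup ma (sub_mem v1 y1)) z1 i2)
      (add_mem_sup u1 (add_mem v2 (add_mem (smul_mem _ r y1) (smul_mem _ r' y2)))) using 1
    module))
  obtain rfl : r' = -1 := by linear_combination e2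
  convert i2 using 1
  module

theorem two (hH : 4 < finrank F H) (a1 : a ∈ H) (a0 : a ≠ 0) (u1 : u ∈ s a) (u0 : u ∉ F ∙ a) (b1 : b ∈ H)
    (b0 : b ≠ 0) (n : b ∉ s a) (hg : ∀ t : F, ∃ g : Γ, g • u = u + t • a ∧ g • a = a ∧ g • b = b ∧
      g ∈ st Γ (s b) ∧ ∀ v ∈ H, v ≠ 0 → s (g • v) = mp g (s v)) (l : F) : l = 0 ∨ l = 1 := by
  have mb := h.mem b b1 b0
  have ma := h.mem a a1 a0
  have hb := h.le b b1 b0
  have eqv : ∀ (t : F) (g : Γ), g • u = u + t • a → g • a = a → g ∈ st Γ (s b) →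
      (∀ v ∈ H, v ≠ 0 → s (g • v) = mp g (s v)) → ∀ w ∈ s b, ∀ w', u + w' ∈ s (a + w) →
      u + (g • w' - t • g • w) ∈ s (a + g • w) := fun t g g1 g2 g3 g4 w hw w' k => by
    have z : ∀ w ∈ s b, a + w ≠ 0 := fun w hw e =>
      h.sy a1 a0 b1 b0 n (eq_neg_of_add_eq_zero_left e ▸ neg_mem hw)
    have := g4 _ (add_mem a1 (hb hw)) (z w hw)
    rw [smul_add, g2] at this
    convert sub_mem (this ▸ smul_mp.2 k : g • (u + w') ∈ s (a + g • w))
      (smul_mem _ t (h.mem _ (add_mem a1 (hb (g3 w hw))) (z _ (g3 w hw)))) using 1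
    rw [smul_add, g1]
    generalize g • w = i, g • w' = j
    module
  obtain ⟨y, y1, y2⟩ := h.ex a1 a0 b1 b0 n u1 mb
  have ny : y ∉ F ∙ b := fun e => by
    obtain ⟨r, rfl⟩ := mem_span_singleton.1 e
    have z : a + b ∉ s a := fun e => n (by simpa using sub_mem e ma)
    have := h.dj0 (add_mem a1 b1) (nz z) a1 a0 z (sub_mem y2 (smul_mem _ r (h.mem _ (add_mem a1 b1) (nz z))))
      (by convert sub_mem u1 (smul_mem _ r ma) using 1; module)
    exact u0 (mem_span_singleton.2 ⟨r, by linear_combination (norm := module) -this⟩)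
  have key : ∀ l : F, ∃ d : F, ∀ t : F, u + ((d * t - l * t ^ 2) • b - (l * t) • y) ∈ s (a + (l * t) • b) :=
    fun l => by
      obtain ⟨w, w1, w2⟩ := h.ex a1 a0 b1 b0 n u1 (smul_mem _ l y1)
      obtain ⟨c, d, rfl⟩ := mem_span_pair.1 ((ln_eq' (h.fr b b1 b0).le b0 ny mb y1).ge w1)
      refine ⟨d, fun t => ?_⟩
      obtain ⟨g, g1, g2, g3, g4, g5⟩ := hg t
      have k := eqv t g g1 g2 g4 g5 b mb y y2
      rw [g3] at k
      have gy : g • y = y + t • b :=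
        sub_eq_iff_eq_add.1 (h.uq a1 a0 b1 b0 n mb (sub_mem (g4 y y1) (smul_mem _ t mb)) y1 k y2)
      have k2 := h.sub hH a1 a0 u1 u0 b1 b0 n (g4 _ (smul_mem _ l y1)) (sub_mem (g4 _ w1)
        (smul_mem _ t (g4 _ (smul_mem _ l y1)))) (smul_mem _ l y1) w1
        (eqv t g g1 g2 g4 g5 _ (smul_mem _ l y1) _ w2) w2
      simp only [smul_add, smul_comm g, gy, g3] at k2
      convert k2 using 2 <;> module
  obtain ⟨d, hd⟩ := key l
  obtain ⟨d', hd'⟩ := key 1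
  have k : ∀ t, d * t - l * t ^ 2 = d' * (l * t) - (l * t) ^ 2 := fun t => by
    have m : ∀ i j : F, i • b - j • y ∈ s b := fun i j => sub_mem (smul_mem _ _ mb) (smul_mem _ _ y1)
    have := hd' (l * t)
    simp only [one_mul] at this
    exact smul_left_injective F b0 (sub_left_inj.1 (h.uq a1 a0 b1 b0 n (smul_mem _ _ mb) (m _ _) (m _ _) (hd t) this))
  have : l ^ 2 * (l - 1) ^ 2 = 0 := by linear_combination k l - l * k 1
  simpa [sub_eq_zero] using this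

end Spr

end Cfsg.Agent.H2.CK
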