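import Cfsg.Agent.H2.CK8

/-! Doubly transitive linear groups in dimension seven. -/

set_option autoImplicit false
set_option linter.unusedSimpArgs false
set_option linter.unusedSectionVars false
set_option linter.unusedVariables false

namespace Cfsg.Agent.H2.CK

open Module Submodule

variable {F V W : Type*} [Field F] [Fintype F] [AddCommGroup V] [Module F V] [FiniteDimensional F V]
  [AddCommGroup W] [Module F W] [FiniteDimensional F W] {Γ : Type*} [Group Γ] [Finite Γ]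
  [DistribMulAction Γ V] [SMulCommClass Γ F V] [DistribMulAction Γ W] [SMulCommClass Γ F W]
  {B : V →ₗ[F] W →ₗ[F] F} {S T : Submodule F V} {x y z v x' y' v' : V} {φ ψ χ w φ' ψ' : W} {g : Γ}
  {p : ℕ} [Fact p.Prime] [CharP F p] {Q : Sylow p Γ}

local notation "q" => Fintype.card F
local notation "ℓ[" x ", " y "]" => span F {x, y}

theorem pp2' : v ∈ pp B.flip ℓ[φ, ψ] ↔ B v φ = 0 ∧ B v ψ = 0 := pp2 (B := B.flip)

namespace Cf

variable (h : Cf Γ B)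
include h

section

variable (hn : finrank F V = 7)
  (u : ∀ (x : V) (φ : W), x ≠ 0 → φ ≠ 0 → B x φ = 0 → finrank F (Ul Γ p x φ : Submodule F V) = 2) (φ0 : φ ≠ 0)
include hn u φ0

theorem sq (v0 : v ≠ 0) (e : B v φ = 0) (k : y ∈ (Ul Γ p v φ : Submodule F V)) (y0 : y ≠ 0) :
    (Ul Γ p y φ : Submodule F V) = Ul Γ p v φ := by
  by_cases m : y ∈ F ∙ v
  · exact ul_congr m y0 (sp1 _) φ0
  · exact (ln_eq' (u y φ y0 φ0 (h.ul_orth k)).le v0 m (h.ul_symm v0 φ0 e k)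
      (h.ul_self y0 φ0 (h.ul_orth k))).symm.trans (ln_eq' (u v φ v0 φ0 e).le v0 m (h.ul_self v0 φ0 e) k)

theorem one (b : ψ ∉ F ∙ φ) (e : B v φ = 0) (f : B v ψ = 1) :
    finrank F ↥(Ul Γ p v φ ⊓ pp B.flip ℓ[φ, ψ]) = 1 := by
  have v0 : v ≠ 0 := by rintro rfl; simp at f
  have c1 := h.flip.fr_pp ℓ[φ, ψ]
  have c2 := h.flip.fr_pp (F ∙ φ)
  have c3 := finrank_sup_add_finrank_inf_eq (Ul Γ p v φ) (pp B.flip ℓ[φ, ψ])
  have c4 := finrank_mono (show Ul Γ p v φ ⊔ pp B.flip ℓ[φ, ψ] ≤ pp B.flip (F ∙ φ) from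
    sup_le (fun w k => pp1.2 (h.ul_orth k)) fun w k => pp1.2 (pp2'.1 k).1)
  have c5 := finrank_lt_finrank_of_lt (show Ul Γ p v φ ⊓ pp B.flip ℓ[φ, ψ] < Ul Γ p v φ from
    inf_lt_left.2 fun k => by simp [(pp2'.1 (k (h.ul_self v0 φ0 e))).2] at f)
  rw [fr2 φ0 b, h.fr] at c1
  rw [fr1 φ0, h.fr] at c2
  rw [u v φ v0 φ0 e] at c3 c5
  omega

theorem nrm (b : ψ ∉ F ∙ φ) : ∃ A : Submodule F V, finrank F A = 4 ∧ A ≤ pp B.flip ℓ[φ, ψ] ∧
    ∀ v ∈ pp B.flip ℓ[φ, ψ], v ≠ 0 → (Ul Γ p v φ ≤ pp B.flip ℓ[φ, ψ] ↔ v ∈ A) := by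
  have : Finite V := Module.finite_of_finite F
  obtain ⟨_, k⟩ := h.flip.exph p φ0 b
  obtain ⟨Q, k1, -, k2⟩ := h.flip.pr φ0 k
  obtain ⟨χ, c0⟩ := h.flip.exn2 φ0 b
  obtain ⟨χ, -, c1, c2⟩ := step k1 (T := ⊤) (fun _ _ _ _ => trivial) trivial c0
  have d1 := h.flip.fr_pp ℓ[φ, ψ]
  have d2 := h.flip.fr_pp (ℓ[φ, ψ] ⊔ F ∙ χ)
  rw [fr2 φ0 b, h.fr] at d1
  rw [fr3 φ0 b c1, h.fr] at d2
  have mA : ∀ v, v ∈ pp B.flip (ℓ[φ, ψ] ⊔ F ∙ χ) ↔ v ∈ pp B.flip ℓ[φ, ψ] ∧ B v χ = 0 := fun v =>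
    ⟨fun k => ⟨mem_pp.2 fun w m => mem_pp.1 k w (mem_sup_left m), mem_pp.1 k χ (mem_sup_right (sp1 _))⟩,
      fun k => mem_pp.2 fun w m => (le3 (S := LinearMap.ker (B v)) (pp2'.1 k.1).1 (pp2'.1 k.1).2 k.2) m⟩
  generalize pp B.flip (ℓ[φ, ψ] ⊔ F ∙ χ) = A at *
  have le : A ≤ pp B.flip ℓ[φ, ψ] := fun v k => ((mA v).1 k).1
  let O : Set V := {v | v ∈ pp B.flip ℓ[φ, ψ] ∧ v ≠ 0 ∧ ¬ Ul Γ p v φ ≤ pp B.flip ℓ[φ, ψ]}
  have ex : ∀ v ∈ O, ∃ t ∈ (Ul Γ p v φ : Submodule F V), B t φ = 0 ∧ B t ψ = 1 := fun v hv => by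
    obtain ⟨t, t1, t2⟩ := SetLike.not_le_iff_exists.1 hv.2.2
    have : B t ψ ≠ 0 := fun e => t2 (pp2'.2 ⟨h.ul_orth t1, e⟩)
    exact ⟨(B t ψ)⁻¹ • t, smul_mem _ _ t1, by simp [h.ul_orth t1], by simp [this]⟩
  have nz1 : ∀ t, B t ψ = 1 → t ≠ 0 := by rintro _ k rfl; simp at k
  have cs : ∀ v ∈ O, ∀ v' ∈ O, B v χ = 0 → B v' χ = 0 := fun v hv v' hv' e => by
    obtain ⟨t, t1, t2, t3⟩ := ex v hv
    obtain ⟨t', s1, s2, s3⟩ := ex v' hv'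
    obtain ⟨g, hg, rfl⟩ := h.flip.s3 k1 k2 φ0 b t2 t3 s2 s3
    have m : g • v ∈ Ul Γ p (g • t) φ ⊓ pp B.flip ℓ[φ, ψ] := ⟨by
      rw [← k2 g hg, ul_mp, SetLike.mem_coe, smul_mp]; exact h.ul_symm hv.2.1 φ0 (pp2'.1 hv.1).1 t1,
      h.flip.st_pp (k1 hg) _ hv.1⟩
    obtain ⟨c, rfl⟩ := mem_span_singleton.1 ((eq_of_le_of_finrank_eq (le1.2 m) ((fr1 (ne0 hv.2.1 g)).trans
      (h.one hn u φ0 b s2 s3).symm)).ge ⟨h.ul_symm hv'.2.1 φ0 (pp2'.1 hv'.1).1 s1, hv'.1⟩)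
    have := mem_pp.1 hv.1 _ (c2 _ (inv_mem hg))
    simp only [map_sub, LinearMap.sub_apply, LinearMap.flip_apply, e, sub_zero] at this
    simp [h.inv', this]
  obtain ⟨t, t1, t2⟩ := h.flip.ex2 b
  have cnt := dce {t | B t φ = 0 ∧ B t ψ = 1} O (fun t v => v ∈ (Ul Γ p t φ : Submodule F V)) (m := q ^ 1 - 1)
    (n := q ^ 1) (fun t ht => by
      rw [show q ^ 1 - 1 = _ from h.one hn u φ0 b ht.1 ht.2 ▸ (ncard_nz (Ul Γ p t φ ⊓ pp B.flip ℓ[φ, ψ])).symm]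
      congr 1; ext v
      exact ⟨fun k => ⟨⟨k.2, k.1.1⟩, k.1.2.1⟩, fun k => ⟨⟨k.1.2, k.2, fun e => by
        simpa [ht.2] using (pp2'.1 (e (h.ul_symm (nz1 t ht.2) φ0 ht.1 k.1.1))).2⟩, k.1.1⟩⟩)
    fun v hv => by
      obtain ⟨t, t1, t2, t3⟩ := ex v hv
      have e := h.sq hn u φ0 hv.2.1 (pp2'.1 hv.1).1 t1 (nz1 t t3)
      rw [← h.one hn u φ0 b t2 t3]
      refine ncard_aff (v := t) fun y => ⟨fun k => ⟨e ▸ sub_mem (h.ul_symm (nz1 y k.1.2) φ0 k.1.1 k.2) t1,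
        pp2'.2 (by simp [k.1.1, k.1.2, t2, t3])⟩, fun k => ?_⟩
      have k1 : y ∈ (Ul Γ p v φ : Submodule F V) := by
        have := add_mem (show y - t ∈ (Ul Γ p v φ : Submodule F V) from e.le k.1) t1
        rwa [sub_add_cancel] at this
      have k2 : B y ψ = 1 := by simpa [t3, sub_eq_zero] using (pp2'.1 k.2).2
      exact ⟨⟨h.ul_orth k1, k2⟩, h.ul_symm hv.2.1 φ0 (pp2'.1 hv.1).1 k1⟩
  rw [ncard_aff (v := t) (S := pp B.flip ℓ[φ, ψ]) fun y => by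
    simp [pp2', show B t φ = 0 from t1, show B t ψ = 1 from t2, sub_eq_zero],
    show finrank F (pp B.flip ℓ[φ, ψ]) = 5 by omega, pow_one, pow_succ, mul_right_comm] at cnt
  replace cnt := Nat.eq_of_mul_eq_mul_right Fintype.card_pos cnt
  have q2 : 2 ≤ q := Fintype.one_lt_card
  obtain ⟨v, hv, n⟩ : ∃ v ∈ O, B v χ ≠ 0 := by
    by_contra! hh
    have := Set.ncard_le_ncard (show O ⊆ (A : Set V) \ {0} from fun v k => ⟨(mA v).2 ⟨k.1, hh v k⟩, k.2.1⟩)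
    rw [ncard_nz, ← cnt, show finrank F A = 4 by omega] at this
    have := Nat.one_le_pow 4 q (by omega)
    have := Nat.mul_le_mul_left (q ^ 4) (show 1 ≤ q - 1 by omega)
    omega
  have e := Set.eq_of_subset_of_ncard_le (show O ⊆ (pp B.flip ℓ[φ, ψ] : Set V) \ A from fun w k =>
    ⟨k.1, fun m => n (cs w k v hv ((mA w).1 m).2)⟩) (by
      rw [ncard_diff le, ← cnt, show finrank F A = 4 by omega,
        show finrank F (pp B.flip ℓ[φ, ψ]) = 5 by omega, Nat.mul_sub_one, pow_succ _ 4])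
  refine ⟨A, by omega, le, fun v a b => ⟨fun k => by_contra fun m => (e.ge ⟨a, m⟩).2.2 k,
    fun k => by_contra fun m => (e.le ⟨a, b, m⟩).2 k⟩⟩

theorem spr : Spr (pp B.flip (F ∙ φ)) fun v => Ul Γ p v φ := by
  refine ⟨fun v a b => h.ul_self b φ0 (pp1' a), fun v a b w k => pp1.2 (h.ul_orth k),
    fun v a b w k l => h.sq hn u φ0 b (pp1' a) k l, fun v a b => u v φ b φ0 (pp1' a),
    fun a a1 a0 b b1 b0 v hv v0 => ?_⟩
  by_cases m : b ∈ (Ul Γ p a φ : Submodule F V)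
  · simp only [h.sq hn u φ0 a0 (pp1' a1) m b0, sup_idem] at hv ⊢
    exact (h.sq hn u φ0 a0 (pp1' a1) hv v0).le
  have c1 := finrank_sup_add_finrank_inf_eq (Ul Γ p a φ : Submodule F V) (Ul Γ p b φ)
  rw [show (Ul Γ p a φ ⊓ Ul Γ p b φ : Submodule F V) = ⊥ from eq_bot_iff.2 fun t ht => by_contra fun t0 =>
    m (h.sq hn u φ0 a0 (pp1' a1) ht.1 t0 ▸ h.sq hn u φ0 b0 (pp1' b1) ht.2 t0 ▸ h.ul_self b0 φ0 (pp1' b1)),
    finrank_bot, u a φ a0 φ0 (pp1' a1), u b φ b0 φ0 (pp1' b1)] at c1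
  have c2 := h.fr_pp (Ul Γ p a φ ⊔ Ul Γ p b φ)
  have o : Ul Γ p a φ ⊔ Ul Γ p b φ ≤ pp B.flip (F ∙ φ) :=
    sup_le (fun w k => pp1.2 (h.ul_orth k)) fun w k => pp1.2 (h.ul_orth k)
  obtain ⟨ψ, m1, m2⟩ := SetLike.exists_of_lt (lt_of_le_of_ne (le1.2 (mem_pp.2 fun w k => pp1' (o k) :
    φ ∈ pp B (Ul Γ p a φ ⊔ Ul Γ p b φ))) fun e => by rw [← e, fr1 φ0] at c2; omega)
  obtain ⟨A, k1, k2, k3⟩ := h.nrm hn u φ0 m2
  have o' : Ul Γ p a φ ⊔ Ul Γ p b φ ≤ pp B.flip ℓ[φ, ψ] := fun w k => pp2'.2 ⟨pp1' (o k), mem_pp.1 m1 w k⟩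
  have key : ∀ c, c ≠ 0 → B c φ = 0 → Ul Γ p c φ ≤ pp B.flip ℓ[φ, ψ] → Ul Γ p c φ ≤ A := fun c c0 e k w hw => by
    by_cases w0 : w = 0
    · exact w0 ▸ zero_mem _
    · exact (k3 w (k hw) w0).1 (h.sq hn u φ0 c0 e hw w0 ▸ k)
  have e := eq_of_le_of_finrank_eq (sup_le (key a a0 (pp1' a1) (le_sup_left.trans o'))
    (key b b0 (pp1' b1) (le_sup_right.trans o'))) (by omega)
  simp only [e] at hv ⊢
  exact key v v0 (pp2'.1 (k2 hv)).1 ((k3 v (k2 hv) v0).2 hv)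

theorem f2 (l : F) : l = 0 ∨ l = 1 := by
  obtain ⟨ψ, b⟩ := h.flip.exn1 φ
  obtain ⟨_, k⟩ := h.flip.exph p φ0 b
  obtain ⟨Q, k1, -, k2⟩ := h.flip.pr φ0 k
  have d1 := h.flip.fr_pp ℓ[φ, ψ]
  have d2 := h.flip.fr_pp (F ∙ φ)
  rw [fr2 φ0 b, h.fr] at d1
  rw [fr1 φ0, h.fr] at d2
  obtain ⟨t, t1, t2⟩ := h.flip.ex2 b
  replace t1 : B t φ = 0 := t1
  replace t2 : B t ψ = 1 := t2
  have t0 : t ≠ 0 := by rintro rfl; simp at t2
  have c1 := h.one hn u φ0 b t1 t2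
  obtain ⟨a, a1, a0⟩ := exists_mem_ne_zero_of_ne_bot (p := Ul Γ p t φ ⊓ pp B.flip ℓ[φ, ψ]) fun e => by
    rw [e, finrank_bot] at c1; omega
  obtain ⟨c, m, c0, hc⟩ := step (Q := Q) (S := ⊥) (fun g _ v hv => by simp_all)
    (fun g hg => h.flip.st_pp (k1 hg)) a1.2 (by simpa)
  replace hc : Fx Q c := fun g hg => by simpa [sub_eq_zero] using hc g hg
  replace c0 : c ≠ 0 := by simpa using c0
  have e := h.sq hn u φ0 t0 t1 a1.1 a0
  have a2 := pp2'.1 a1.2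
  have eq : ∀ g ∈ Q, ∀ v, (Ul Γ p (g • v) φ : Submodule F V) = mp g (Ul Γ p v φ) := fun g hg v => by
    rw [← ul_mp, k2 g hg]
  refine (h.spr hn u φ0).two (Γ := Γ) (by omega) (pp1.2 a2.1) a0 (u := t) (e ▸ h.ul_self t0 φ0 t1)
    (fun e => by simp [mem_pp.1 (pp1.2 a2.2) t e] at t2) (pp1.2 (pp2'.1 m).1) c0 (fun n => ?_) (fun s => ?_) l
  · obtain ⟨w, w1, w2⟩ : ∃ w ∈ pp B.flip ℓ[φ, ψ], w ∉ (Ul Γ p t φ : Submodule F V) := by
      by_contra! hh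
      have := finrank_mono (show _ ≤ (Ul Γ p t φ : Submodule F V) from hh)
      rw [u t φ t0 φ0 t1] at this; omega
    obtain ⟨g, hg, k⟩ := h.flip.s3 k1 k2 φ0 b t1 t2 (ψ' := t + w) (by simp [t1, (pp2'.1 w1).1])
      (by simp [t2, (pp2'.1 w1).2])
    have e' := (h.sq hn u φ0 a0 a2.1 n c0).trans e
    have := st_ul (hc.st hg) (k2.st hg) c0 φ0 t (e' ▸ h.ul_self t0 φ0 t1)
    rw [k, e'] at this
    exact w2 (by simpa using sub_mem this (h.ul_self t0 φ0 t1))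
  · obtain ⟨g, hg, k⟩ := h.flip.s3 k1 k2 φ0 b t1 t2 (ψ' := t + s • a) (by simp [t1, a2.1]) (by simp [t2, a2.2])
    refine ⟨g, k, ?_, hc g hg, st_ul (hc.st hg) (k2.st hg) c0 φ0, fun v _ _ => eq g hg v⟩
    have m : g • a ∈ Ul Γ p t φ ⊓ pp B.flip ℓ[φ, ψ] := ⟨by
      rw [← h.sq hn u φ0 t0 t1 (add_mem (h.ul_self t0 φ0 t1) (smul_mem _ s a1.1)) (k ▸ ne0 t0 g), ← k, eq g hg]
      exact smul_mp.2 a1.1, h.flip.st_pp (k1 hg) _ a1.2⟩
    obtain ⟨r, e⟩ := mem_span_singleton.1 ((eq_of_le_of_finrank_eq (le1.2 a1) ((fr1 a0).trans c1.symm)).ge m)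
    rw [← e, uni (S := ⊥) hg (fun v hv => by simp_all) (by simpa using a0) (c := r) (by simp [e]), one_smul]

end

theorem seven6 (hn : finrank F V = 7) (x0 : x ≠ 0) (a : y ∉ F ∙ x) : finrank F (Wl Γ B p ℓ[x, y]) ≠ 6 := by
  intro hw
  have u : ∀ (x : V) (φ : W), x ≠ 0 → φ ≠ 0 → B x φ = 0 → finrank F (Ul Γ p x φ : Submodule F V) = 2 :=
    fun v φ c d e => by have := h.fr_ul (p := p) c d e x0 a; omega
  obtain ⟨φ, k⟩ := h.exph p x0 a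
  have φ0 := k.1
  have f2 := h.f2 hn u φ0
  have s := h.spr hn u φ0
  have c2 : (1 : F) + 1 = 0 := (f2 _).resolve_right (by simp)
  have ext : ∀ c d : F, (c = 0 ↔ d = 0) → c = d := fun c d k => by
    rcases f2 c with rfl | rfl <;> rcases f2 d with rfl | rfl <;> simp_all
  have ker : ∀ (x' y' : V) (φ : W), x' ≠ 0 → y' ∉ F ∙ x' → Ph Γ p ℓ[x', y'] φ →
      ∀ z, B z φ = 0 ↔ z ∈ Wl Γ B p ℓ[x', y'] := fun x' y' φ c d k z => by
    have c1 := h.flip.fr_pp (F ∙ φ)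
    have c2 := h.fr_wl (p := p) c d x0 a
    rw [fr1 k.1, h.fr] at c1
    rw [eq_of_le_of_finrank_eq (show Wl Γ B p ℓ[x', y'] ≤ pp B.flip (F ∙ φ) from fun v hv =>
      pp1.2 (mem_Wl.1 hv _ k)) (by omega)]
    exact (pp1 (B := B.flip)).symm
  obtain ⟨T, hT⟩ : ∃ T : V → V → W, ∀ x y z, B z (T x y) = 0 ↔ (x = 0 ∨ y ∈ F ∙ x ∨ z ∈ Wl Γ B p ℓ[x, y]) := by
    suffices ∀ x y : V, ∃ t : W, ∀ z, B z t = 0 ↔ (x = 0 ∨ y ∈ F ∙ x ∨ z ∈ Wl Γ B p ℓ[x, y]) by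
      choose T hT using this; exact ⟨T, hT⟩
    intro x y
    by_cases c : x = 0 ∨ y ∈ F ∙ x
    · exact ⟨0, fun z => by simp only [map_zero, true_iff, ← or_assoc]; exact Or.inl c⟩
    · push Not at c
      obtain ⟨t, k⟩ := h.exph p c.1 c.2
      exact ⟨t, fun z => by simp [ker x y t c.1 c.2 k, c]⟩
  have T1 : ∀ x y z, B z (T x y) = B y (T x z) := fun x y z => by
    have : ∀ y z, B z (T x y) = 0 → B y (T x z) = 0 := fun y z k => by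
      rw [hT] at k ⊢
      by_cases x0 : x = 0
      · exact Or.inl x0
      by_cases z0 : z ∈ F ∙ x
      · exact Or.inr (Or.inl z0)
      by_cases y0 : y ∈ F ∙ x
      · exact Or.inr (Or.inr (h.le_wl _ _ (l3 y0)))
      exact Or.inr (Or.inr (h.sym x0 y0 z0 ((k.resolve_left x0).resolve_left y0)))
    exact ext _ _ ⟨this y z, this z y⟩
  have we : ∀ w w' : W, (∀ z, B z w = B z w') → w = w' := fun w w' k =>
    sub_eq_zero.1 (h.r _ fun z => by simp [k z])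
  have T2 : ∀ x y, T x y = T y x := fun x y => we _ _ fun z => by
    have : ∀ x y, B z (T x y) = 0 → B z (T y x) = 0 := fun x y k => by
      rw [hT] at k ⊢
      rcases k with rfl | k | k
      · simp
      · by_cases y0 : y = 0
        · exact Or.inl y0
        · exact Or.inr (Or.inl (mem_sp1 k y0))
      · exact Or.inr (Or.inr (by rwa [ln_comm]))
    exact ext _ _ ⟨this x y, this y x⟩
  have T3 : ∀ x y y', T x (y + y') = T x y + T x y' := fun x y y' => we _ _ fun z => by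
    simp [T1 x _ z]
  have T4 : ∀ x x' y, T (x + x') y = T x y + T x' y := fun x x' y => by simp only [T2 _ y, T3]
  have T5 : ∀ x y, x ≠ 0 → y ∉ F ∙ x → T x y ≠ 0 := fun x y c d e =>
    (h.wl_lt (p := p) c d).ne (by
      rw [eq_top_iff'.2 fun z => (((hT x y z).1 (by simp [e])).resolve_left c).resolve_left d, finrank_top])
  have T6 : ∀ x y, x ≠ 0 → y ∉ F ∙ x → Ph Γ p ℓ[x, y] φ → T x y = φ := fun x y c d k => we _ _ fun z =>
    ext _ _ (by simp [hT, ker x y φ c d k, c, d])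
  have c := h.flip.fr_pp (F ∙ φ)
  rw [fr1 φ0, h.fr] at c
  have mx : x ∈ pp B.flip (F ∙ φ) := pp1.2 (h.po1 k)
  obtain ⟨b, b1, n⟩ := SetLike.exists_of_lt (lt_of_le_of_ne (s.le x mx x0) fun e => by
    have := s.fr x mx x0; rw [e] at this; omega)
  have b0 := nz n
  have my : y ∈ (Ul Γ p x φ : Submodule F V) := subset_span k
  have e0 := ln_eq' (s.fr x mx x0).le x0 a (s.mem x mx x0) my
  have T7 : ∀ v ∈ (Ul Γ p b φ : Submodule F V), ∀ v' ∈ (Ul Γ p b φ : Submodule F V), ∀ z, B z φ = 0 →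
      B z (T v v') = 0 := fun v m v' m' z e => by
    by_cases c : v = 0 ∨ v' ∈ F ∙ v
    · rw [hT, ← or_assoc]; exact Or.inl c
    · push Not at c
      rwa [T6 v v' c.1 c.2 ((h.mem_ul c.1 φ0 (h.ul_orth m)).1 (s.eq b b1 b0 v m c.1 ▸ m'))]
  have I : ∀ i ∈ (Ul Γ p x φ : Submodule F V), ∀ v ∈ (Ul Γ p b φ : Submodule F V), i + v = 0 → i = 0 :=
    fun i hi v hv e => s.dj0 b1 b0 mx x0 n (eq_neg_of_add_eq_zero_left e ▸ neg_mem hv) hi
  have : Finite W := Module.finite_of_finite F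
  have : Finite V := Module.finite_of_finite F
  have c3 := finrank_sup_add_finrank_inf_eq (Ul Γ p x φ : Submodule F V) (Ul Γ p b φ)
  rw [show (Ul Γ p x φ ⊓ Ul Γ p b φ : Submodule F V) = ⊥ from eq_bot_iff.2 fun t ht =>
    s.dj0 b1 b0 mx x0 n ht.2 ht.1, finrank_bot, s.fr x mx x0, s.fr b b1 b0] at c3
  have c4 := h.fr_pp (Ul Γ p x φ ⊔ Ul Γ p b φ)
  have o : ∀ i ∈ ℓ[x, y], ∀ v ∈ (Ul Γ p b φ : Submodule F V), T i v ∈ pp B (Ul Γ p x φ ⊔ Ul Γ p b φ) :=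
    fun i hi v hv => mem_pp.2 fun z hz => by
      obtain ⟨z, h1, z', h2, rfl⟩ := mem_sup.1 hz
      rw [map_add, LinearMap.add_apply, T1 i v z, T2 i v, T1 v i z', T7 v hv z' h2 i (h.ul_orth (e0 ▸ hi :)),
        add_zero]
      by_cases c : i = 0 ∨ z ∈ F ∙ i
      · rw [hT, ← or_assoc]; exact Or.inl c
      · push Not at c
        rw [T6 i z c.1 c.2 (ln_eq c.1 c.2 hi (e0.ge h1) ▸ k)]; exact h.ul_orth hv
  have aa : ∀ a : V, a + a = 0 := fun a => by rw [← one_smul F a, ← add_smul, c2, zero_smul]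
  have ab : ∀ a : W, a + a = 0 := fun a => by rw [← one_smul F a, ← add_smul, c2, zero_smul]
  have T0 : ∀ x, T x 0 = 0 := fun x => by rw [← add_zero (0 : V), T3, ab]
  obtain ⟨v, m1, w, m2, e, ne⟩ : ∃ v ∈ (Ul Γ p b φ : Submodule F V), ∃ w ∈ (Ul Γ p b φ : Submodule F V),
      T x v + T y w = 0 ∧ ¬ (v = 0 ∧ w = 0) := by
    by_contra! hh
    have := Nat.card_le_card_of_injective (fun v : ↥(Ul Γ p b φ : Submodule F V) × ↥(Ul Γ p b φ : Submodule F V) =>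
        (⟨_, add_mem (o x (l1 _ _) _ v.1.2) (o y (l2 _ _) _ v.2.2)⟩ : pp B (Ul Γ p x φ ⊔ Ul Γ p b φ)))
      fun v w e => by
        have := hh _ (add_mem v.1.2 w.1.2) _ (add_mem v.2.2 w.2.2) (by
          rw [T3, T3, add_add_add_comm, Subtype.mk.inj e, ab])
        have k : ∀ a b : V, a + b = 0 → a = b := fun a b e => by rw [← zero_add b, ← aa a, add_assoc, e, add_zero]
        exact Prod.ext (Subtype.ext (k _ _ this.1)) (Subtype.ext (k _ _ this.2))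
    rw [Nat.card_prod, H6.S5.card_sub, H6.S5.card_sub, s.fr b b1 b0, ← pow_add] at this
    have := (Nat.pow_le_pow_iff_right Fintype.one_lt_card).1 this
    omega
  have J : ∀ i ∈ ℓ[x, y], i ≠ 0 → ∀ v ∈ (Ul Γ p b φ : Submodule F V), v ≠ 0 → T i v ≠ 0 :=
    fun i hi i0 v hv v0 => T5 i v i0 fun k => v0 (s.dj0 b1 b0 mx x0 n hv (le1.2 (e0.le hi) k))
  have xy : x + y ≠ 0 := fun k => a (eq_neg_of_add_eq_zero_right k ▸ neg_mem (sp1 x))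
  by_cases v0 : v = 0
  · exact J y (l2 _ _) (nz a) w m2 (fun k => ne ⟨v0, k⟩) (by rwa [v0, T0, zero_add] at e)
  by_cases w0 : w = 0
  · exact J x (l1 _ _) x0 v m1 v0 (by rwa [w0, T0, add_zero] at e)
  by_cases vw : v = w
  · exact J _ (add_mem (l1 _ _) (l2 _ _)) xy v m1 v0 (by rw [T4, ← e, vw])
  have sp : ∀ c d : V, c ∈ F ∙ d → c = 0 ∨ c = d := fun c d k => by
    obtain ⟨l, rfl⟩ := mem_span_singleton.1 k
    rcases f2 l with rfl | rfl <;> simp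
  have i1 : v ∉ F ∙ w := fun k => (sp _ _ k).elim v0 vw
  refine T5 (x + w) (y + v) (fun k => x0 (I x (e0.le (l1 _ _)) w m2 k)) (fun k => (sp _ _ k).elim
    (fun k => nz a (I y my v m1 k)) fun k => xy (I _ (e0.le (add_mem (l1 _ _) (l2 _ _))) _ (add_mem m2 m1) (by
      rw [add_add_add_comm, k, aa]))) ?_
  rw [T4, T3, T3, T6 x y x0 a k, T6 w v w0 i1 ((h.mem_ul w0 φ0 (h.ul_orth m2)).1 (s.eq b b1 b0 w m2 w0 ▸ m1)),
    T2 w y, add_assoc, ← add_assoc (T x v), e, zero_add, ab]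

end Cf

open H6 H6.S5 in
theorem sl7 {M : Subgroup (V ≃ₗ[F] V)} (h : TT M) (hV : finrank F V = 7) : SLV F V ≤ M := by
  obtain ⟨p, hp⟩ := CharP.exists F
  have := Fact.mk (CharP.char_is_prime F p)
  have c := cf_of h (by omega)
  have hW := c.fr.trans hV
  obtain ⟨x, x0⟩ := c.exn1 0
  obtain ⟨φ, φ0⟩ := c.flip.exn1 0
  replace x0 := nz x0
  replace φ0 := nz φ0
  obtain ⟨y, a⟩ := c.exn1 x
  obtain ⟨ψ, b⟩ := c.flip.exn1 φ
  have k1 := c.wl_lt (p := p) x0 a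
  have k2 := finrank_mono (c.le_wl (p := p) x y)
  have k3 := c.seven4 (p := p) hV x0 a
  have k4 := c.seven6 (p := p) hV x0 a
  have k5 := fun e => c.seven3 (p := p) hV x0 a e φ0 b
  have k6 := fun e => c.seven5 (p := p) hV x0 a e φ0 b
  have j1 := c.flip.wl_lt (p := p) φ0 b
  have j2 := finrank_mono (c.flip.le_wl (p := p) φ ψ)
  have j3 := c.flip.seven4 (p := p) hW φ0 b
  have j4 := c.flip.seven6 (p := p) hW φ0 b
  have j5 : _ → finrank F (Wl _ (Dual.eval F V) p ℓ[x, y]) = 6 := fun e => c.flip.seven3 (p := p) hW φ0 b e x0 a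
  rw [fr2 x0 a] at k2
  rw [fr2 φ0 b] at j2
  by_cases e : finrank F (Wl (Gm M) (Dual.eval F V) p ℓ[x, y]) = 2
  · exact sl_of c (c.case2 (p := p) (n := 6) hV (by omega) x0 a e fun M k e => sl6 k e)
  · exact sl_of c (c.ht_flip (c.flip.case2 (p := p) (n := 6) hW (by omega) φ0 b (by omega) fun M k e => sl6 k e))

end Cfsg.Agent.H2.CK
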