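import Cfsg.Agent.H2.SP13

/-! The generic case for subgroups of `Sp_4`: centralisers of elements of odd order. -/

set_option autoImplicit false
set_option linter.unusedSimpArgs false
set_option linter.unusedSectionVars false
set_option linter.unusedVariables false

namespace Cfsg.Agent.H2.SP

open Module Cfsg.Agent.H6.S4 Subgroup
open Cfsg.Agent.H8.M3 hiding Un M2
open Cfsg.Agent.H9.Sp hiding T T_neg

universe u

variable {k V W : Type*} [Field k] [AddCommGroup V] [Module k V] [FiniteDimensional k V]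
  [AddCommGroup W] [Module k W] [FiniteDimensional k W]
  {B : V →ₗ[k] V →ₗ[k] k} {Q : QuadraticForm k W} {ι : W →ₗ[k] End k V}
  {G : Type u} [Group G] {P : Subgroup (End k V)ˣ} {π : P →* G} {p n : ℕ}
  {d g x y z : (End k V)ˣ} {e f a b m u : W} {U : Submodule k V} {θ s t r : k}
  {N X Y : End k V} {e1 e2 e3 e4 v : V}

/-- a Jordan basis -/
structure Fl (N : End k V) (e1 e2 e3 e4 : V) : Prop where
  h1 : N e1 = 0
  h2 : N e2 = e1
  h3 : N e3 = e2
  h4 : N e4 = e3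
  ne : e1 ≠ 0
  span : ∀ z, ∃ a b c d : k, z = a • e1 + b • e2 + c • e3 + d • e4

theorem indep4 (h1 : N e1 = 0) (h2 : N e2 = e1) (h3 : N e3 = e2) (h4 : N e4 = e3) (ne : e1 ≠ 0)
    {a b c d : k} (e : a • e1 + b • e2 + c • e3 + d • e4 = 0) : a = 0 ∧ b = 0 ∧ c = 0 ∧ d = 0 := by
  have a1 := congrArg N e
  have a2 := congrArg N a1
  have a3 := congrArg N a2
  simp only [map_add, map_smul, h1, h2, h3, h4, map_zero, smul_zero, zero_add] at a1 a2 a3
  obtain rfl : d = 0 := by simpa [ne] using a3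
  obtain rfl : c = 0 := by simpa [ne] using a2
  obtain rfl : b = 0 := by simpa [ne] using a1
  simpa [ne] using e

theorem exists_fl (hd : finrank k V = 4) (h4 : N ^ 4 = 0) (h3 : N ^ 3 ≠ 0) :
    ∃ e1 e2 e3 e4, Fl N e1 e2 e3 e4 := by
  obtain ⟨v, hv⟩ := DFunLike.ne_iff.1 h3
  have a1 : N (N (N (N v))) = 0 := by simpa [pow_succ] using LinearMap.congr_fun h4 v
  have a2 : N (N (N v)) ≠ 0 := by simpa [pow_succ] using hv
  refine ⟨_, _, _, v, a1, rfl, rfl, rfl, a2, fun z => ?_⟩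
  have li : LinearIndependent k ![N (N (N v)), N (N v), N v, v] :=
    Fintype.linearIndependent_iff.2 fun g hg i => by
      obtain ⟨b1, b2, b3, b4⟩ := indep4 a1 rfl rfl rfl a2 (by simpa [Fin.sum_univ_four] using hg)
      fin_cases i <;> assumption
  obtain ⟨c, hc⟩ := (Submodule.mem_span_range_iff_exists_fun k).1
    (li.span_eq_top_of_card_eq_finrank (by simp [hd]) ▸ Submodule.mem_top (x := z))
  exact ⟨c 0, c 1, c 2, c 3, by simp [← hc, Fin.sum_univ_four]⟩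

theorem Fl.ext (h : Fl N e1 e2 e3 e4) (a1 : X e1 = Y e1) (a2 : X e2 = Y e2) (a3 : X e3 = Y e3)
    (a4 : X e4 = Y e4) : X = Y := LinearMap.ext fun z => by
  obtain ⟨a, b, c, d, rfl⟩ := h.span z
  simp only [map_add, map_smul, a1, a2, a3, a4]

theorem Fl.poly (h : Fl N e1 e2 e3 e4) (e : X * N = N * X) :
    ∃ a b c d : k, X = a • 1 + b • N + c • (N * N) + d • (N * (N * N)) := by
  obtain ⟨a, b, c, d, a4⟩ := h.span (X e4)
  have cm : ∀ v, X (N v) = N (X v) := LinearMap.congr_fun e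
  have a3 := cm e4
  have a2 := cm e3
  have a1 := cm e2
  simp only [h.h4, a4, map_add, map_smul, h.h1, h.h2, h.h3] at a3
  simp only [h.h3, a3, map_add, map_smul, h.h1, h.h2, map_zero] at a2
  simp only [h.h2, a2, map_add, map_smul, h.h1, map_zero] at a1
  refine ⟨d, c, b, a, h.ext ?_ ?_ ?_ ?_⟩ <;>
    simp only [a1, a2, a3, a4, LinearMap.add_apply, LinearMap.smul_apply, End.one_apply, End.mul_apply,
      h.h1, h.h2, h.h3, h.h4, map_zero] <;> module

theorem Fl.comm (h : Fl N e1 e2 e3 e4) (e : X * N = N * X) (e' : Y * N = N * Y) : X * Y = Y * X := by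
  obtain ⟨a, b, c, d, rfl⟩ := h.poly e
  obtain ⟨a', b', c', d', rfl⟩ := h.poly e'
  simp only [nc k V]; module

theorem comm_sub (e : y * x = x * y) : y.1 * (x.1 - 1) = (x.1 - 1) * y.1 := by
  rw [mul_sub, sub_mul, ← Units.val_mul, e]; simp

/-- acts trivially -/
def Fx (U : Submodule k V) (g : (End k V)ˣ) : Prop := ∀ v ∈ U, g.1 v = v

theorem Fx.inv (h : Fx U g) : Fx U g⁻¹ := fun v hv => u_inj g (by rw [iu, h v hv])

theorem Fx.mul (h : Fx U g) (h' : Fx U x) : Fx U (g * x) := fun v hv => by rw [um, h' v hv, h v hv]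

theorem Fx.conj (h : Fx U x) (hg : g ∈ sU U) : Fx U (g * x * g⁻¹) := fun v hv => by
  rw [um, um, h _ (hg v hv).2, iu]

theorem Fx.tr (h : Fx U g) : Tr U g 2 := fun v hv => by simp [T, h v hv, h.inv v hv, two_smul]

theorem Fx.tr_mul (h : Fx U g) (hx : x ∈ sU U) (ht : Tr U x t) : Tr U (g * x) t ∧ Tr U (x * g) t := by
  constructor <;> intro v hv <;> rw [← ht v hv] <;>
    simp only [T, LinearMap.add_apply, mul_inv_rev, um, h v hv, h.inv v hv, h _ (hx v hv).1,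
      h.inv _ (hx v hv).2]

theorem fx_of_tr (hg : g ∈ sU U) (h : Tr U g 2) (e : g ^ n = 1) (hn : (n : k) ≠ 0) : Fx U g := fun v hv => by
  have h1 := congrArg g.1 (h v hv)
  simp only [T, LinearMap.add_apply, map_add, iu, map_smul] at h1
  have := tv_pow (g := g) (v := g.1 v - v) (z := v) (c := 1) (by
    rw [map_sub]; linear_combination (norm := module) h1) (by simp) n
  simpa [e, hn, sub_eq_zero] using this

theorem zz (e : x * y = y * x) (hx : Tr U x t) (hy : Tr U y t) (hv : v ∈ U) :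
    (y * x⁻¹).1 ((y * x).1 v - v) = (y * x).1 v - v := by
  have h1 := congrArg y.1 (hx v hv)
  have h2 := congrArg y.1 (hy v hv)
  have h3 : x⁻¹.1 (y.1 (x.1 v)) = y.1 v := by rw [← um y, ← e, um, ui]
  simp only [T, LinearMap.add_apply, map_add, iu, map_smul] at h1 h2
  simp only [um, map_sub, h3]
  linear_combination (norm := module) h2 - h1

theorem zz' (e : x * y = y * x) (sx : x ∈ sU U) (sy : y ∈ sU U) (hx : Tr U x t) (hy : Tr U y t)
    (hz : Tr U (y * x⁻¹) s) : s = 2 ∨ Fx U (y * x) := by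
  by_contra! hh
  obtain ⟨v, hv⟩ := not_forall.1 hh.2
  obtain ⟨hv, hv'⟩ := Classical.not_imp.1 hv
  have w0 := sub_ne_zero.2 hv'
  have := T_eig (g := y * x⁻¹) w0 (c := (1 : k)) (by rw [one_smul]; exact zz e hx hy hv)
  rw [hz _ (U.sub_mem (((sU U).mul_mem sy sx) v hv).1 hv)] at this
  exact hh.1 (by rw [smul_left_injective k w0 this]; norm_num)

theorem lin2 (hd : finrank k U = 2) (hX : ∀ v ∈ U, X v ∈ U) (ns : ∃ v ∈ U, ∀ c : k, X v ≠ c • v)
    (hY : ∀ v ∈ U, Y v ∈ U) (e : ∀ v ∈ U, Y (X v) = X (Y v)) :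
    ∃ α β : k, ∀ v ∈ U, Y v = α • v + β • X v := by
  obtain ⟨v, hv, h⟩ := ns
  have v0 : v ≠ 0 := fun e => h 0 (by simp [e])
  obtain ⟨α, β, h1⟩ := span2 hd hv (hX v hv) v0 h (hY v hv)
  refine ⟨α, β, fun w hw => ?_⟩
  obtain ⟨c, d, rfl⟩ := span2 hd hv (hX v hv) v0 h hw
  simp only [map_add, map_smul, e v hv, h1]; module

theorem scal2 (hd : finrank k U = 2) (h : ¬ ∃ v ∈ U, ∀ c : k, X v ≠ c • v) :
    ∃ c : k, ∀ v ∈ U, X v = c • v := by
  push Not at h
  obtain ⟨v, hv, v0⟩ := ne2 hd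
  obtain ⟨w, hw, hvw⟩ := basis2 hd v0
  obtain ⟨c, hc⟩ := h v hv
  obtain ⟨c', hc'⟩ := h w hw
  obtain ⟨c'', hc''⟩ := h _ (U.add_mem hv hw)
  rw [map_add, hc, hc', smul_add] at hc''
  obtain ⟨rfl, rfl⟩ := indep2 v0 hvw hc''
  refine ⟨c', fun z hz => ?_⟩
  obtain ⟨a, b, rfl⟩ := span2 hd hv hw v0 hvw hz
  simp only [map_add, map_smul, hc, hc']; module

/-- eigenspace of a unit vector -/
def E (ι : W →ₗ[k] End k V) (u : W) : Submodule k V := LinearMap.ker (ι u - 1)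

theorem mem_E : v ∈ E ι u ↔ ι u v = v := by simp [E, sub_eq_zero]

theorem Tr_E (e : T g = s • 1 + r • ι u) : Tr (E ι u) g (s + r) ∧ Tr (E ι (-u)) g (s - r) := by
  constructor <;> intro v hv <;> rw [mem_E] at hv
  · simp [e, hv, add_smul]
  · have : ι u v = -v := by simpa [neg_eq_iff_eq_neg] using hv
    simp [e, this, sub_smul, sub_eq_add_neg, add_smul]

section Cl

variable (c : Cl B Q ι)
include c

theorem sU_E (sg : IsSp B g) (e : wa ι g u = u) : g ∈ sU (E ι u) := fun v hv => by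
  simp only [mem_E] at hv ⊢
  refine ⟨by rw [← e, ← app_ι c sg, hv], ?_⟩
  have : wa ι g⁻¹ u = u := by nth_rw 1 [← e]; rw [wa_ui c sg]
  rw [← this, ← app_ι c ((SpU B).inv_mem sg), hv]

theorem sU_E' (sg : IsSp B g) (e : wa ι g u = u) : g ∈ sU (E ι (-u)) := sU_E c sg (by simp [e])

theorem dec_E (hu : Q u = 1) (v : V) : ∃ v1 ∈ E ι u, ∃ v2 ∈ E ι (-u), v = v1 + v2 := by
  have := c.two
  refine ⟨(2 : k)⁻¹ • (v + ι u v), ?_, (2 : k)⁻¹ • (v - ι u v), ?_, ?_⟩
  · simp [mem_E, c.sq, hu, add_comm]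
  · simp only [mem_E, map_neg, map_smul, map_sub, LinearMap.neg_apply, c.sq, hu]; module
  · rw [← smul_add, eq_inv_smul_iff₀ this]; module

theorem ext_E (hu : Q u = 1) (h1 : ∀ v ∈ E ι u, X v = Y v) (h2 : ∀ v ∈ E ι (-u), X v = Y v) : X = Y :=
  LinearMap.ext fun v => by
    obtain ⟨v1, a, v2, b, rfl⟩ := dec_E c hu v
    rw [map_add, map_add, h1 _ a, h2 _ b]

theorem T_of_E (hu : Q u = 1) (h1 : Tr (E ι u) g t) (h2 : Tr (E ι (-u)) g t) : T g = t • 1 :=
  ext_E c hu h1 h2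

theorem one_of_E (hu : Q u = 1) (h1 : Fx (E ι u) g) (h2 : Fx (E ι (-u)) g) : g = 1 :=
  Units.ext (ext_E c hu h1 h2)

theorem perp_E {w : V} (hv : v ∈ E ι u) (hw : w ∈ E ι (-u)) : B v w = 0 := by
  rw [mem_E] at hv hw
  have := c.adj u v w
  rw [hv, show ι u w = -w by simpa [neg_eq_iff_eq_neg] using hw, map_neg] at this
  exact (mul_eq_zero.1 (show 2 * B v w = 0 by linear_combination this)).resolve_left c.two

theorem pair_E (hu : Q u = 1) (hv : v ∈ E ι u) (v0 : v ≠ 0) : ∃ w ∈ E ι u, B v w = 1 := by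
  obtain ⟨w, hw⟩ := c.symp.exists_one v0
  obtain ⟨w1, a, w2, b, rfl⟩ := dec_E c hu w
  exact ⟨w1, a, by simpa [perp_E c hv b] using hw⟩

theorem scal_E (hu : Q u = 1) (sg : IsSp B g) (hn : n % 2 = 1) (e : g ^ n = 1)
    (h : ∀ v ∈ E ι u, g.1 v = r • v) : Fx (E ι u) g := fun v hv => by
  by_cases v0 : v = 0
  · simp [v0]
  obtain ⟨w, hw, b⟩ := pair_E c hu hv v0
  have h1 := sg v w
  have h2 := eig_pow (h v hv) n
  simp only [h v hv, h w hw, map_smul, LinearMap.smul_apply, b, smul_eq_mul, mul_one] at h1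
  have h3 : (1 : k) = r ^ n := smul_left_injective k v0 (by simpa [e] using h2)
  rcases mul_self_eq_one_iff.1 h1 with rfl | rfl
  · simpa using h v hv
  · exact absurd (by rw [(Nat.odd_iff.2 hn).neg_one_pow] at h3; linear_combination h3) c.two

theorem unit_dir [IsAlgClosed k] (hm : Q m ≠ 0) : ∃ (u : W) (r : k), Q u = 1 ∧ r ≠ 0 ∧ m = r • u :=
  let ⟨r, r0, hr⟩ := unit_vec c hm
  ⟨r • m, r⁻¹, hr, inv_ne_zero r0, by simp [smul_smul, r0]⟩

theorem wa_of_comm (sx : IsSp B x) (r0 : r ≠ 0) (e : T x = s • 1 + r • ι u) (hc : x * y = y * x)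
    (sy : IsSp B y) : wa ι y u = u := by
  have := fix_of_comm c sy (m := r • u) (by rw [map_smul, ← e]) (T_comm_of (congrArg Units.val hc).symm).symm
  rw [map_smul] at this
  exact smul_right_injective W r0 this

end Cl

namespace S3

variable [Fact p.Prime] [CharP k p] (h : S3 p B Q ι P π)
include h

theorem reg (hg : g ∈ P) (hu : Un g) (h1 : g ≠ 1) :
    5 ≤ p ∧ ∃ e1 e2 e3 e4, Fl (g.1 - 1) e1 e2 e3 e4 :=
  ⟨(h.un.resolve_right fun e => h1 (h.T2 hg (h.u3 e.1 hg hu).2)).1,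
    exists_fl h.cl.dimV (hu.four h.cl (h.sp g hg)) fun e => h1 (h.T2 hg (T2_of_cube h.cl (h.sp g hg) e))⟩

theorem types [IsAlgClosed k] (hg : g ∈ P) (hn : n % 2 = 1) (e : g ^ n = 1) (h1 : g ≠ 1) :
    g ^ p = 1 ∨ ∃ (u : W) (s r : k), Q u = 1 ∧ r ≠ 0 ∧ T g = s • 1 + r • ι u := by
  have c := h.cl
  obtain ⟨s, m, hT⟩ := exists_T c (h.sp g hg)
  by_cases qm : Q m = 0
  · refine Or.inl (h.odd_T (θ := s ^ p) (P.pow_mem hg p) hn (by rw [← pow_mul, mul_comm, pow_mul, e, one_pow]) ?_)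
    have := nontriv c
    have := charE (p := p) c
    rw [T_pow_char, hT, add_pow_char_of_commute _ ((Commute.one_left _).smul_left _), smul_pow, one_pow,
      pow_eq_zero_of_le (Fact.out : p.Prime).two_le (show ι m ^ 2 = 0 by rw [sq, sq' c, qm, zero_smul]), add_zero]
  · obtain ⟨u, r, a1, a2, rfl⟩ := unit_dir c qm
    exact Or.inr ⟨u, s, r, a1, a2, by simpa using hT⟩

theorem tv3' (hg : g ∈ P) (hd : finrank k U = 2) (h1 : Fx U g) (hv : v ∉ U) (e : g.1 v = v) : g = 1 :=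
  h.tv3 h.tv hg (K := U ⊔ k ∙ v) (by
    have := Submodule.finrank_lt_finrank_of_lt (show U < U ⊔ k ∙ v from left_lt_sup.2 (by simpa using hv))
    omega) fun w hw => by
    obtain ⟨a, ha, b, hb, rfl⟩ := Submodule.mem_sup.1 hw
    obtain ⟨t, rfl⟩ := Submodule.mem_span_singleton.1 hb
    simp [h1 a ha, e]

theorem odd_fx (hu : Q u = 1) (hg : g ∈ P) (h1 : Fx (E ι u) g) : orderOf g % 2 = 1 := by
  have := h.fin
  by_contra e
  obtain ⟨j, hj⟩ : ∃ j, orderOf g = j + j := ⟨orderOf g / 2, by omega⟩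
  have := (finOrd hg).orderOf_pos
  obtain ⟨v, hv, v0⟩ := ne2 (finrank_eig h.cl hu)
  rcases h.i1 _ (P.pow_mem hg j) (by rw [← pow_add, ← hj, pow_orderOf_eq_one]) with e | e
  · have := orderOf_le_of_pow_eq_one (by omega) e; omega
  · have := eig_pow (c := 1) (by simpa using h1 v hv : g.1 v = (1 : k) • v) j
    simp only [e, one_pow, one_smul, Units.val_neg, Units.val_one, LinearMap.neg_apply, End.one_apply] at this
    exact v0 (smul_right_injective V h.cl.two (by linear_combination (norm := module) -this))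

theorem K_comm [IsAlgClosed k] (hu : Q u = 1) (hx : x ∈ P) (hy : y ∈ P) (wx : wa ι x u = u)
    (wy : wa ι y u = u) (fx : Fx (E ι (-u)) x) (fy : Fx (E ι (-u)) y) : x * y = y * x := by
  have c := h.cl
  have := h.fin
  have hu' : Q (-u) = 1 := by simpa using hu
  have d2 := finrank_eig c hu
  obtain ⟨v, hv, v0⟩ := ne2 d2
  obtain ⟨w, hw, b⟩ := pair_E c hu hv v0
  have vw : ∀ t : k, w ≠ t • v := fun t e => by simp [e, c.symp.alt] at b
  let K := finSub P (fun g => wa ι g u = u ∧ Fx (E ι (-u)) g) ⟨wa_one c u, fun _ _ => rfl⟩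
    fun a ha b hb h1 h2 => ⟨by rw [wa_mul c (h.sp a ha) (h.sp b hb), h2.1, h1.1], h1.2.mul h2.2⟩
  have : Finite K := fin_finSub _ _ _ _
  obtain ⟨φ, h1, h3⟩ := exists_phi ((Units.coeHom _).comp K.subtype) v0 vw fun d => by
    have s := sU_E c (h.sp _ d.2.1) d.2.2.1
    obtain ⟨a1, a2, e1⟩ := span2 d2 hv hw v0 vw (s v hv).1
    obtain ⟨a3, a4, e2⟩ := span2 d2 hv hw v0 vw (s w hw).1
    refine act_of e1 e2 ?_
    have := h.sp _ d.2.1 v w
    simp only [e1, e2, map_add, map_smul, LinearMap.add_apply, LinearMap.smul_apply, c.symp.alt, b,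
      c.symp.skew w v, smul_eq_mul] at this
    linear_combination this
  have od : ∀ d : K, orderOf d.1 % 2 = 1 := fun d => h.odd_fx hu' d.2.1 d.2.2.2
  have nd : ∀ r : ℕ, r.Prime → r ∣ Nat.card K → r ≠ 2 ∧ r ≠ p := fun r hr e => by
    have := Fact.mk hr
    obtain ⟨d, hd⟩ := exists_prime_orderOf_dvd_card' r e
    rw [← orderOf_coe] at hd
    refine ⟨fun e => by have := od d; omega, ?_⟩
    rintro rfl
    obtain ⟨s, t, e1⟩ := T_of_comm c (h.sp _ d.2.1) (fun e => by simp [e] at hu) d.2.2.1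
    obtain ⟨rfl, e2⟩ := un_T c (un_of_pow (p := r) (a := 1) c (by rw [pow_one, ← hd, pow_orderOf_eq_one]))
      (m := t • u) (by rw [e1, map_smul])
    have t0 : t = 0 := by simpa [Orth.Q_smul, hu] using e2
    rw [h.T2 d.2.1 (by simpa [t0] using e1), orderOf_one] at hd
    exact hr.one_lt.ne hd
  obtain ⟨z, z0, hz⟩ : ∃ z : Fin 2 → k, z ≠ 0 ∧ ∀ d : K, ∃ t : k, d.1.1 (co v w z) = t • co v w z := by
    rcases dickM p c.two φ h1 with ⟨z, z0, e⟩ | ⟨z, z', z0, -, e⟩ | ⟨e, -⟩ | ⟨k0, R, N, N', e⟩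
    · exact ⟨z, z0, fun d => (e d).imp fun t ht => (h3 d z).trans (by rw [ht, map_smul])⟩
    · refine ⟨z, z0, fun d => ?_⟩
      rcases e d with ⟨⟨t, ht⟩, -⟩ | ⟨⟨t, ht⟩, ⟨t', ht'⟩⟩
      · exact ⟨t, (h3 d z).trans (by rw [ht, map_smul])⟩
      · have e1 : d.1.1 (co v w z) = t • co v w z' := (h3 d z).trans (by rw [ht, map_smul])
        have e2 : d.1.1 (co v w z') = t' • co v w z := (h3 d z').trans (by rw [ht', map_smul])
        obtain ⟨j, hj⟩ : ∃ j, 2 * j = orderOf d.1 + 1 := ⟨(orderOf d.1 + 1) / 2, by have := od d; omega⟩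
        have := eig_pow (g := d.1 ^ 2) (v := co v w z) (c := t * t') (by
          rw [sq, um, e1, map_smul, e2, smul_smul]) j
        rw [← pow_mul, hj, pow_succ, pow_orderOf_eq_one, one_mul] at this
        exact ⟨_, this⟩
    · exact absurd rfl (nd 2 Nat.prime_two e).1
    · have := e.fin
      have := Fintype.ofFinite k0
      obtain ⟨j, -, hj⟩ := FiniteField.card k0 p
      exact absurd rfl (nd p Fact.out ((dvd_pow_self p j.ne_zero).trans
        (by rw [← hj, ← Nat.card_eq_fintype_card]; exact e.dvd))).2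
  have z1 : co v w z ∈ E ι u := Submodule.add_mem _ (Submodule.smul_mem _ _ hv) (Submodule.smul_mem _ _ hw)
  have z2 : co v w z ≠ 0 := fun e => z0 (co_inj v0 vw (by rw [e, map_zero]))
  obtain ⟨s, hs⟩ := hz ⟨x, hx, wx, fx⟩
  obtain ⟨t, ht⟩ := hz ⟨y, hy, wy, fy⟩
  refine (inv_mul_eq_one.1 (h.tv3' (P.mul_mem (P.inv_mem (P.mul_mem hy hx)) (P.mul_mem hx hy))
    (finrank_eig c hu') ((fy.mul fx).inv.mul (fx.mul fy)) (v := co v w z) (fun e => z2 ?_) ?_)).symm
  · obtain ⟨w', a, b⟩ := pair_E c hu z1 z2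
    rw [c.symp.comm.1 (perp_E c a e)] at b
    simp at b
  · apply u_inj (y * x)
    rw [um _ (x * y), iu]
    simp only at hs ht
    simp only [um, hs, ht, map_smul, smul_smul, mul_comm]

theorem K_norm [IsAlgClosed k] (hu : Q u = 1) (hx : x ∈ P) (hd : d ∈ P) (wx : wa ι x u = u)
    (wd : wa ι d u = u) (fx : Fx (E ι (-u)) x) : d * x * d⁻¹ = x ∨ d * x * d⁻¹ = x⁻¹ := by
  have c := h.cl
  have u0 : u ≠ 0 := fun e => by simp [e] at hu
  have sx := h.sp x hx
  have sd := h.sp d hd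
  have hy := P.mul_mem (P.mul_mem hd hx) (P.inv_mem hd)
  have wi : ∀ g ∈ P, wa ι g u = u → wa ι g⁻¹ u = u := fun g hg e => by
    nth_rw 1 [← e]; rw [wa_ui c (h.sp g hg)]
  have wy : wa ι (d * x * d⁻¹) u = u := by
    rw [wa_mul c (h.sp _ (P.mul_mem hd hx)) (h.sp _ (P.inv_mem hd)), wa_mul c sd sx, wi d hd wd, wx, wd]
  have fy := fx.conj (sU_E' c sd wd)
  obtain ⟨s, t, e⟩ := T_of_comm c sx u0 wx
  have ty := (Tr_E e).1.conj (sU_E c sd wd)
  generalize d * x * d⁻¹ = y at *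
  have hz := P.mul_mem hy (P.inv_mem hx)
  obtain ⟨s', t', e'⟩ := T_of_comm c (h.sp _ hz) u0 (by
    rw [wa_mul c (h.sp _ hy) (h.sp _ (P.inv_mem hx)), wi x hx wx, wy])
  rcases zz' (h.K_comm hu hx hy wx wy fx fy) (sU_E c sx wx) (sU_E c (h.sp _ hy) wy) (Tr_E e).1 ty
    (Tr_E e').1 with a | a
  · exact Or.inl (mul_inv_eq_one.1 (h.T2 hz (T_of_E c hu (a ▸ (Tr_E e').1) (fy.mul fx.inv).tr)))
  · exact Or.inr (eq_inv_of_mul_eq_one_left (one_of_E c hu a (fy.mul fx)))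

end S3

end Cfsg.Agent.H2.SP
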