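import Cfsg.Agent.H2.L4d
import Cfsg.Agent.H9.C2.A
import Cfsg.Agent.H6.S4.G3

/-! The generic case in `SL_4`: quadratic elements, odd lifts, unipotent elements. -/

set_option autoImplicit false
set_option linter.unusedSectionVars false
set_option linter.unusedVariables false
set_option linter.unusedSimpArgs false

namespace Cfsg.Agent.H2.LF

open Module Cfsg.Agent.H6.L4 Cfsg.Agent.H8.M3
open Cfsg.Agent.H6.S4 (nc T T_two_iff T_of_sq sq_of_T finOrd um ui iu span2 basis2 ne2 indep2)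
open Cfsg.Agent.H9.C2 (mx mx_det)

universe u

variable {k V : Type*} [Field k] [AddCommGroup V] [Module k V] [FiniteDimensional k V]
  {G : Type u} [Group G] {P : Subgroup (End k V)ˣ} {π : P →* G} {p n : ℕ}
  {g x y u : (End k V)ˣ} {a b c d : V} {X N : End k V}

/-- four independent vectors -/
def I4 (k : Type*) {V : Type*} [Field k] [AddCommGroup V] [Module k V] (a b c d : V) : Prop :=
  ∀ s t u r : k, s • a + t • b + u • c + r • d = 0 → s = 0 ∧ t = 0 ∧ u = 0 ∧ r = 0

theorem I4.li (h : I4 k a b c d) : LinearIndependent k ![a, b, c, d] :=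
  Fintype.linearIndependent_iff.2 fun g e i => by
    have := h (g 0) (g 1) (g 2) (g 3) (by simpa [Fin.sum_univ_four] using e)
    fin_cases i <;> simp [this]

theorem I4.eq (h : I4 k a b c d) {s t u r s' t' u' r' : k}
    (e : s • a + t • b + u • c + r • d = s' • a + t' • b + u' • c + r' • d) :
    s = s' ∧ t = t' ∧ u = u' ∧ r = r' := by
  simpa [sub_eq_zero] using h (s - s') (t - t') (u - u') (r - r') (by linear_combination (norm := module) e)

theorem I4.span (hd : finrank k V = 4) (h : I4 k a b c d) (z : V) :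
    ∃ s t u r : k, z = s • a + t • b + u • c + r • d := by
  have := (basisOfLinearIndependentOfCardEqFinrank h.li (by simp [hd])).sum_repr z
  simp only [Fin.sum_univ_four, coe_basisOfLinearIndependentOfCardEqFinrank] at this
  exact ⟨_, _, _, _, this.symm⟩

theorem I4.ext (hd : finrank k V = 4) (h : I4 k a b c d) {X Y : End k V} (ha : X a = Y a)
    (hb : X b = Y b) (hc : X c = Y c) (hd' : X d = Y d) : X = Y := LinearMap.ext fun z => by
  obtain ⟨s, t, u, r, rfl⟩ := h.span hd z
  simp only [map_add, map_smul, ha, hb, hc, hd']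

theorem I4.det (hd : finrank k V = 4) (h : I4 k a b c d)
    {a0 a1 a2 a3 b0 b1 b2 b3 c0 c1 c2 c3 d0 d1 d2 d3 : k}
    (ha : X a = a0 • a + b0 • b + c0 • c + d0 • d) (hb : X b = a1 • a + b1 • b + c1 • c + d1 • d)
    (hc : X c = a2 • a + b2 • b + c2 • c + d2 • d) (hd' : X d = a3 • a + b3 • b + c3 • c + d3 • d) :
    LinearMap.det X = (a0 * b1 - a1 * b0) * (c2 * d3 - c3 * d2) - (a0 * b2 - a2 * b0) * (c1 * d3 - c3 * d1) +
    (a0 * b3 - a3 * b0) * (c1 * d2 - c2 * d1) + (a1 * b2 - a2 * b1) * (c0 * d3 - c3 * d0) -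
    (a1 * b3 - a3 * b1) * (c0 * d2 - c2 * d0) + (a2 * b3 - a3 * b2) * (c0 * d1 - c1 * d0) := by
  let B := basisOfLinearIndependentOfCardEqFinrank h.li (by simp [hd])
  have hB : ⇑B = ![a, b, c, d] := coe_basisOfLinearIndependentOfCardEqFinrank _ _
  rw [← mx_det, ← LinearMap.det_toLin B]
  congr 1
  refine B.ext fun i => ?_
  rw [Matrix.toLin_self, Fin.sum_univ_four, hB]
  fin_cases i <;> simpa [mx]

theorem ext4 (hd : finrank k V = 4) (h : ∀ s t u : k, s • a + t • b + u • c = 0 → s = 0 ∧ t = 0 ∧ u = 0) :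
    ∃ d, I4 k a b c d := by
  obtain ⟨d, -, hd'⟩ := Orth.exists_mem_notMem_of_finrank_lt (H := ⊤)
    (X := Submodule.span k (Set.range ![a, b, c])) (by
      have := finrank_range_le_card (R := k) ![a, b, c]
      simp only [Set.finrank, Fintype.card_fin] at this
      rw [finrank_top]; omega)
  refine ⟨d, fun s t u r e => ?_⟩
  obtain rfl : r = 0 := by
    by_contra r0
    refine hd' ((Submodule.mem_span_range_iff_exists_fun k).2 ⟨![-s / r, -t / r, -u / r], ?_⟩)
    refine smul_right_injective V r0 ?_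
    simp only [Fin.sum_univ_three, Matrix.cons_val, smul_add, smul_smul, mul_div_cancel₀ _ r0]
    linear_combination (norm := module) -e
  simpa using h s t u (by simpa using e)

theorem rk1 (e : finrank k (LinearMap.range X) ≤ 1) : ∃ v, ∀ x, ∃ d : k, X x = d • v := by
  obtain ⟨v, hv⟩ := finrank_le_one_iff.1 e
  exact ⟨v, fun x => (hv ⟨_, x, rfl⟩).imp fun d e => (congrArg Subtype.val e).symm⟩

theorem rk2 (h : Beta P π) (hg : g ∈ P) (ns : ¬ Sc g) (c : k) :
    2 ≤ finrank k (LinearMap.range (g.1 - c • 1)) := by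
  by_contra! e
  obtain ⟨v, hv⟩ := rk1 (Nat.lt_succ_iff.1 e)
  exact ns (h.hm g hg c v (by simpa using hv))

theorem det2 (hd : finrank k V = 4) {U : Submodule k V} (hU : finrank k U = 2) {α β : k}
    (h1 : ∀ v ∈ U, X v = α • v) (h2 : ∀ v, X v - β • v ∈ U) : LinearMap.det X = (α * β) ^ 2 := by
  have he : U ≤ U.comap X := fun v hv => by simpa [h1 v hv] using U.smul_mem α hv
  have e1 : X.restrict he = α • 1 := LinearMap.ext fun v => Subtype.ext (h1 v v.2)
  have e2 : U.mapQ U X he = β • 1 := Submodule.linearMap_qext _ (LinearMap.ext fun v => by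
    simpa [← Submodule.Quotient.mk_smul, Submodule.Quotient.eq] using h2 v)
  have := U.finrank_quotient_add_finrank
  rw [LinearMap.det_eq_det_mul_det U X he, e1, e2, LinearMap.det_smul, LinearMap.det_smul, hU,
    show finrank k (V ⧸ U) = 2 by omega]
  simp [mul_pow]

theorem Sc.sq (h : Sc g) : Sc (g * g) := h.mul h

variable [IsAlgClosed k]

theorem quad (h : Beta P π) (hg : g ∈ P) {α β : k} (e : (g.1 - α • 1) * (g.1 - β • 1) = 0) :
    Sc (g * g) := by
  by_cases ns : Sc g
  · exact ns.mul ns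
  have r1 := rk2 h hg ns α
  have r2 := rk2 h hg ns β
  have le : LinearMap.range (g.1 - β • 1) ≤ LinearMap.ker (g.1 - α • 1) := by
    rintro _ ⟨z, rfl⟩; exact LinearMap.congr_fun e z
  have r3 := Submodule.finrank_mono le
  have r4 := (g.1 - α • 1).finrank_range_add_finrank_ker
  rw [h.dim] at r4
  have dt := det2 (X := g.1) (α := α) (β := β) h.dim (U := LinearMap.ker (g.1 - α • 1)) (by omega)
    (fun v hv => by simpa [sub_eq_zero] using hv) fun v => le ⟨v, by simp⟩
  rw [h.det g hg] at dt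
  obtain ⟨c, hc⟩ := IsAlgClosed.exists_eq_mul_self (α * β)
  have c4 : c⁻¹ ^ 4 = 1 := by rw [inv_pow, inv_eq_one]; rw [hc] at dt; linear_combination -dt
  have c0 : c⁻¹ ≠ 0 := by rintro e; simp [e] at c4
  have c1 : c ≠ 0 := by simpa using c0
  have e2 : g.1 * g.1 = (α + β) • g.1 - (c * c) • 1 := by
    simp only [nc k V] at e; rw [← hc]; linear_combination (norm := module) e
  rcases h.ns _ (P.mul_mem (h.sc_mem c0 c4) hg) (c⁻¹ * (α + β)) (T_of_sq (by
    simp only [nc k V, sc_val, e2, smul_sub, smul_smul]; field_simp; simp)) with f | f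
  · exact absurd (by simpa using (h.Sc_inv ⟨_, sc_val _ c0⟩).mul f) ns
  · rw [(mul_eq_zero.1 f).resolve_left c0] at e2
    exact ⟨-(c * c), by simp [e2]⟩

theorem sc_odd (h : St P π) (hg : g ∈ P) (hn : Odd n) (e : g ^ n = 1) (s : Sc (g * g)) : g = 1 := by
  obtain ⟨c, hc⟩ := s
  have c4 := h.four (P.mul_mem hg hg) hc
  have e8 : g ^ 8 = 1 := Units.ext (by
    rw [show g ^ 8 = (g * g) ^ 4 by rw [← sq, ← pow_mul], Units.val_pow_eq_pow_val, hc, smul_pow, c4]; simp)
  exact orderOf_eq_one_iff.1 (Nat.dvd_one.1 (by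
    have := Nat.dvd_gcd (orderOf_dvd_of_pow_eq_one e) (orderOf_dvd_of_pow_eq_one e8)
    rwa [show n.gcd 8 = 1 from (Nat.coprime_two_right.2 hn).pow_right 3] at this))

theorem quad1 (h : Beta P π) (hg : g ∈ P) (hn : Odd n) (e : g ^ n = 1) {α β : k}
    (q : (g.1 - α • 1) * (g.1 - β • 1) = 0) : g = 1 := sc_odd h.toSt hg hn e (quad h hg q)

theorem sc4 (h : St P π) (hg : g ∈ P) (s : Sc g) : g ^ 4 = 1 :=
  let ⟨c, hc⟩ := s
  Units.ext (by rw [Units.val_pow_eq_pow_val, hc, smul_pow, h.four hg hc]; simp)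

theorem lift (h : St P π) {y : G} (hn : Odd n) (e : y ^ n = 1) : ∃ g : P, π g = y ∧ g.1 ^ n = 1 := by
  obtain ⟨g, rfl⟩ := h.surj y
  obtain ⟨j, hj⟩ : 4 ∣ 1 + n * (3 * n) := by obtain ⟨j, rfl⟩ := hn; exact ⟨3 * j * j + 3 * j + 1, by ring⟩
  refine ⟨g ^ (1 + n * (3 * n)), by rw [map_pow, pow_add, pow_mul, e]; simp, ?_⟩
  have := sc4 h (g ^ n).2 ((h.ker _).1 (by rw [map_pow, e]))
  rw [Subgroup.coe_pow, ← pow_mul, mul_comm, pow_mul, hj, pow_mul, ← Subgroup.coe_pow, this, one_pow]

theorem uniq (h : St P π) {a b : P} {m : ℕ} (e : π a = π b) (hn : Odd n) (hm : Odd m) (ha : a.1 ^ n = 1)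
    (hb : b.1 ^ m = 1) : a = b := by
  have s : Sc (a.1 * b.1⁻¹) := (h.ker (a * b⁻¹)).1 (by simp [e])
  have c : Commute (a.1 * b.1⁻¹) b.1 := s.comm _
  refine Subtype.ext (mul_inv_eq_one.1 (sc_odd h (a * b⁻¹).2 (hn.mul hm) ?_ (s.mul s)))
  have := c.mul_pow (n * m)
  rw [inv_mul_cancel_right, pow_mul, ha, mul_comm n m, pow_mul b.1, hb] at this
  simpa [mul_comm] using this.symm

theorem cpow {M : Type*} [Group M] {a : M} (e : a ^ n = 1) (g : M) : (g * a * g⁻¹) ^ n = 1 := by
  rw [conj_pow, e, mul_one, mul_inv_cancel]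

theorem conj_eq (h : St P π) {a b x : P} {m : ℕ} (hn : Odd n) (hm : Odd m) (ha : a.1 ^ n = 1)
    (hb : b.1 ^ m = 1) (e : π x * π a * (π x)⁻¹ = π b) : x.1 * a.1 * x.1⁻¹ = b.1 :=
  congrArg Subtype.val (uniq h (a := x * a * x⁻¹) (by simpa using e) hn hm (cpow ha _) hb)

theorem comm (h : St P π) {a x : P} (hn : Odd n) (ha : a.1 ^ n = 1) (e : π x ∈ Cen (π a)) :
    x.1 * a.1 = a.1 * x.1 :=
  mul_inv_eq_iff_eq_mul.1 (conj_eq h hn hn ha ha (by rw [← mem_Cen.1 e, mul_inv_cancel_right]))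

theorem mem_cen {a x : P} (e : x.1 * a.1 = a.1 * x.1) : π x ∈ Cen (π a) :=
  mem_Cen.2 (by rw [← map_mul, ← map_mul]; exact congrArg π (Subtype.ext e.symm))

theorem ne1 (h : St P π) {a : P} (hn : Odd n) (ha : a.1 ^ n = 1) (a1 : a.1 ≠ 1) : π a * π a ≠ 1 :=
  fun e => a1 (sc_odd h a.2 hn ha ((h.ker (a * a)).1 (by rw [map_mul, e])))

variable [hp : Fact p.Prime] [CharP k p]

theorem podd (h : St P π) : Odd p :=
  hp.out.odd_of_ne_two (by rintro rfl; exact h.two (CharP.cast_eq_zero k 2))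

theorem frob (h : St P π) (X : End k V) (α : k) : (X - α • 1) ^ p = X ^ p - α ^ p • 1 := by
  have := h.nontriv
  have : CharP (End k V) p := charP_of_injective_algebraMap (algebraMap k (End k V)).injective p
  rw [sub_pow_char_of_commute _ ((Commute.one_right _).smul_right α), smul_pow, one_pow]

theorem ucen (h : Beta P π) (hu : u ∈ P) (up : u ^ p = 1) (u1 : u ≠ 1) :
    (∀ y ∈ P, y * u = u * y → ∃ α : k, (y.1 - α • 1) ^ p = 0) ∧
    ∀ x ∈ P, ∀ y ∈ P, x * u = u * x → y * u = u * y → x * y = y * x := by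
  have po := podd (p := p) h.toSt
  have p3 : 3 ≤ p := by have := hp.out.two_le; obtain ⟨j, rfl⟩ := po; omega
  obtain ⟨N, hN⟩ : ∃ N, N = u.1 - (1 : k) • 1 := ⟨_, rfl⟩
  have Np : N ^ p = 0 := by rw [hN, frob h.toSt, ← Units.val_pow_eq_pow_val, up]; simp
  have N4 : N ^ 4 = 0 := by
    have := (LinearMap.isNilpotent_iff_charpoly N).1 ⟨p, Np⟩
    have e := N.aeval_self_charpoly
    rwa [this, h.dim, map_pow, Polynomial.aeval_X] at e
  have N2 : N * N ≠ 0 := fun e => u1 (quad1 h hu po up (hN ▸ e))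
  have cN : ∀ y : (End k V)ˣ, y * u = u * y → ∀ v, y.1 (N v) = N (y.1 v) := fun y e v => by
    have := LinearMap.congr_fun (congrArg Units.val e) v
    simpa [hN] using this
  have n4 : ∀ v, N (N (N (N v))) = 0 := fun v => by simpa [pow_succ] using LinearMap.congr_fun N4 v
  by_cases N3 : N ^ 3 = 0
  · have n3 : ∀ v, N (N (N v)) = 0 := fun v => by simpa [pow_succ] using LinearMap.congr_fun N3 v
    obtain ⟨x, hx⟩ : ∃ x, N (N x) ≠ 0 := by
      by_contra! e; exact N2 (LinearMap.ext e)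
    have i3 : ∀ s t r : k, s • x + t • N x + r • N (N x) = 0 → s = 0 ∧ t = 0 ∧ r = 0 := fun s t r e => by
      obtain rfl : s = 0 := by simpa [n3, hx] using congrArg (fun v => N (N v)) e
      obtain rfl : t = 0 := by simpa [n3, hx] using congrArg N e
      simpa [hx] using e
    obtain ⟨z, hz⟩ := ext4 h.dim i3
    obtain ⟨s, t, r, c, e⟩ := hz.span h.dim (N z)
    obtain rfl : c = 0 := by
      have := n3 z
      simp only [e, map_add, map_smul, n3, map_zero] at this
      exact pow_eq_zero_iff three_ne_zero |>.1 (hz (c * c * s) (c * c * t + c * s) (c * c * r + c * t + s)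
        (c ^ 3) (by linear_combination (norm := module) this)).2.2.2
    obtain rfl : s = 0 := by
      have := n3 z
      rw [e] at this
      simpa [n3, hx] using this
    obtain ⟨f, Nf, hf⟩ : ∃ f, N f = 0 ∧ I4 k x (N x) (N (N x)) f :=
      ⟨z - t • x - r • N x, by simp [e], fun a b c d e => by
        obtain ⟨e1, e2, e3, rfl⟩ := hz (a - d * t) (b - d * r) c d (by linear_combination (norm := module) e)
        simpa using And.intro e1 (And.intro e2 e3)⟩
    have st : ∀ y ∈ P, y * u = u * y → ∃ α a b c d : k, y.1 x = α • x + a • N x + b • N (N x) + c • f ∧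
        y.1 (N x) = α • N x + a • N (N x) ∧ y.1 (N (N x)) = α • N (N x) ∧ y.1 f = d • N (N x) + α • f ∧
        (y.1 - α • 1) ^ p = 0 := fun y hy cy => by
      obtain ⟨α, a, b, c, e1⟩ := hf.span h.dim (y.1 x)
      obtain ⟨s, t, d, β, e2⟩ := hf.span h.dim (y.1 f)
      have e3 : y.1 (N x) = α • N x + a • N (N x) := by simp [cN y cy, e1, n3, Nf]
      have e4 : y.1 (N (N x)) = α • N (N x) := by rw [cN y cy, e3]; simp [n3]
      obtain ⟨-, rfl, rfl⟩ := i3 0 s t (by simpa [e2, n3, Nf] using (cN y cy f).symm)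
      obtain ⟨M, hM⟩ : ∃ M, M = y.1 - α • 1 := ⟨_, rfl⟩
      have m1 : M x = a • N x + b • N (N x) + c • f := by simp [hM, e1]; module
      have m2 : M (N x) = a • N (N x) := by simp [hM, e3]
      have m3 : M (N (N x)) = 0 := by simp [hM, e4]
      have m4 : M f = d • N (N x) + (β - α) • f := by simp [hM, e2]; module
      have m5 : ∀ j : ℕ, (M ^ j) (M f) = (β - α) ^ j • M f := fun j => by
        induction j with
        | zero => simp
        | succ j ih => rw [pow_succ', End.mul_apply, ih, map_smul, m4, map_add, map_smul, map_smul, m3, m4]; module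
      obtain ⟨j, hj⟩ := Nat.exists_eq_add_of_le' p3
      have m6 : ∀ v, ∃ e : k, (M ^ p) v = e • M f := fun v => by
        obtain ⟨s, t, r, q, rfl⟩ := hf.span h.dim v
        refine ⟨(β - α) ^ j * (s * c * (β - α) + q * (β - α) ^ 2), ?_⟩
        rw [hj, pow_add, End.mul_apply, mul_smul, smul_comm, ← m5, ← map_smul]
        congr 1
        simp only [pow_succ, pow_zero, End.mul_apply, one_mul, map_add, map_smul, m1, m2, m3, m4, map_zero]
        module
      obtain ⟨γ, hγ⟩ := h.hm _ (P.pow_mem hy p) (α ^ p) (M f) fun v => by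
        simpa [hM, frob h.toSt] using m6 v
      have m7 : M ^ p = (γ - α ^ p) • 1 := by
        rw [hM, frob h.toSt, ← Units.val_pow_eq_pow_val, hγ, sub_smul]
      have m8 : M ^ p = 0 := by
        have := LinearMap.congr_fun m7 (N (N x))
        rw [hj, pow_succ, End.mul_apply, m3, map_zero, ← hj] at this
        rw [m7, show γ - α ^ p = 0 by simpa [hx] using this.symm, zero_smul]
      obtain rfl : β = α := by
        have := m5 p
        rw [m8, m4] at this
        rcases smul_eq_zero.1 this.symm with e | e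
        · exact sub_eq_zero.1 (pow_eq_zero_iff (by omega) |>.1 e)
        · exact sub_eq_zero.1 (hf 0 0 d (β - α) (by simpa using e)).2.2.2
      exact ⟨β, a, b, c, d, e1, e3, e4, by simpa using e2, hM ▸ m8⟩
    refine ⟨fun y hy cy => let ⟨α, _, _, _, _, e⟩ := st y hy cy; ⟨α, e.2.2.2.2⟩, fun y hy z hz cy cz => ?_⟩
    obtain ⟨α, a, b, c, d, e1, e2, e3, e4, -⟩ := st y hy cy
    obtain ⟨α', a', b', c', d', f1, f2, f3, f4, -⟩ := st z hz cz
    refine mul_inv_eq_one.1 (h.tv _ (P.mul_mem (P.mul_mem hy hz) (P.inv_mem (P.mul_mem hz hy)))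
      (N (N x)) fun v => ?_)
    obtain ⟨s, t, r, q, e⟩ := hf.span h.dim ((z * y)⁻¹.1 v)
    refine ⟨s * (c' * d - c * d'), ?_⟩
    nth_rw 2 [← iu (z * y) v]
    rw [um, e]
    simp only [um, map_add, map_smul, e1, e2, e3, e4, f1, f2, f3, f4]
    module
  obtain ⟨x, hx⟩ : ∃ x, N (N (N x)) ≠ 0 := by
    by_contra! e; exact N3 (LinearMap.ext fun v => by simpa [pow_succ] using e v)
  have i4 : I4 k x (N x) (N (N x)) (N (N (N x))) := fun s t r q e => by
    obtain rfl : s = 0 := by simpa [n4, hx] using congrArg (fun v => N (N (N v))) e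
    obtain rfl : t = 0 := by simpa [n4, hx] using congrArg (fun v => N (N v)) e
    obtain rfl : r = 0 := by simpa [n4, hx] using congrArg N e
    simpa [hx] using e
  have st : ∀ y : (End k V)ˣ, y * u = u * y → ∃ α a b c : k,
      y.1 = α • 1 + N * (a • 1 + b • N + c • (N * N)) := fun y cy => by
    obtain ⟨α, a, b, c, e⟩ := i4.span h.dim (y.1 x)
    exact ⟨α, a, b, c, i4.ext h.dim (by simp [e, add_assoc]) (by simp [cN y cy, e, add_assoc])
      (by simp [cN y cy, e, add_assoc]) (by simp [cN y cy, e, add_assoc])⟩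
  refine ⟨fun y hy cy => ?_, fun y hy z hz cy cz => ?_⟩
  · obtain ⟨α, a, b, c, e⟩ := st y cy
    refine ⟨α, ?_⟩
    rw [e, add_sub_cancel_left, Commute.mul_pow (by simp only [Commute, SemiconjBy, nc k V]), Np, zero_mul]
  · obtain ⟨α, a, b, c, e⟩ := st y cy
    obtain ⟨α', a', b', c', e'⟩ := st z cz
    refine Units.ext ?_
    simp only [e, e', nc k V]
    module

end Cfsg.Agent.H2.LF
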