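import Cfsg.Agent.H2.L4F1

/-! The generic case in `SL_4`: centralisers of elements of odd order. -/

set_option autoImplicit false
set_option linter.unusedSectionVars false
set_option linter.unusedVariables false
set_option linter.unusedSimpArgs false

namespace Cfsg.Agent.H2.LF

open Module Cfsg.Agent.H6.L4 Cfsg.Agent.H8.M3 Subgroup
open Cfsg.Agent.H6.S4 (nc T finOrd um ui iu u_ne span2 basis2 ne2 indep2 DD OddAb comm2 inverts_pow
  eig_pow finSub)

universe u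

variable {k V : Type*} [Field k] [AddCommGroup V] [Module k V] [FiniteDimensional k V]
  {G : Type u} [Group G] {P : Subgroup (End k V)ˣ} {π : P →* G} {p n r : ℕ}
  {g x y a d κ : (End k V)ˣ} {v w : V} {X : End k V} {E F U : Submodule k V} {l : k}

section grp

variable [Finite G] {t m : G} {q : ℕ}

theorem ca_ab (ho : Odd (Nat.card G)) (ab : ∀ x : G, x ≠ 1 → ∀ y ∈ Cen x, ∀ z ∈ Cen x, y * z = z * y)
    (pm : ∀ x n : G, n * x * n⁻¹ ∈ Cen x → n * x * n⁻¹ = x ∨ n * x * n⁻¹ = x⁻¹) (x y : G) :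
    x * y = y * x := by
  classical
  have cc : ∀ x : G, x ≠ 1 → CC x := fun x x1 => ⟨x1, fun y hy y1 =>
    le_antisymm (fun z hz => mem_Cen.2 (ab y y1 _ (mem_Cen_comm.1 hy) _ hz))
      fun z hz => mem_Cen.2 (ab x x1 _ hy _ hz)⟩
  have od : ∀ x : G, Odd (orderOf x) := fun x => ho.of_dvd_nat (orderOf_dvd_natCard x)
  have n1 : ∀ x : G, x ≠ 1 → nu x = 1 := fun x x1 => relIndex_eq_one.2 fun n hn => by
    rcases pm x n ((mem_normalizer_iff.1 hn x).1 (self_mem_Cen x)) with e | e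
    · exact mem_Cen.2 (mul_inv_eq_iff_eq_mul.1 e).symm
    · have := (inverts_pow e _).2 (od n)
      rw [pow_orderOf_eq_one, one_mul, inv_one, mul_one, ← mul_eq_one_iff_eq_inv, ← sq] at this
      have := Nat.Coprime.eq_one_of_dvd (Nat.coprime_two_right.2 (od x)) (orderOf_dvd_of_pow_eq_one this)
      exact absurd (orderOf_eq_one_iff.1 this) x1
  obtain ⟨R, h1, h2, -, h4⟩ := cc_count {x : G | x ≠ 1} cc (fun x hx g => conj_ne_one hx) fun _ _ y _ y1 => y1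
  have e : {x : G | x ≠ 1} = ((⊤ : Subgroup G) : Set G) \ {1} := Set.ext fun x => by simp
  rw [e, ncard_diff_one, card_top, Nat.cast_sub Nat.card_pos] at h4
  have g0 : (0 : ℚ) < Nat.card G := by exact_mod_cast Nat.card_pos
  have tm : ∀ ρ ∈ R, term ρ = 1 - 1 / Nat.card (Cen ρ) ∧ 2 / 3 ≤ term ρ := fun ρ hρ => by
    have c0 : (0 : ℚ) < Nat.card (Cen ρ) := by exact_mod_cast Nat.card_pos
    have e : term ρ = 1 - 1 / Nat.card (Cen ρ) := by rw [term, n1 ρ (h1 ρ hρ)]; field_simp; simp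
    have : Nontrivial (Cen ρ) := ⟨⟨⟨ρ, self_mem_Cen ρ⟩, 1, fun e => h1 ρ hρ (congrArg Subtype.val e)⟩⟩
    have a := Finite.one_lt_card (α := Cen ρ)
    have b := Nat.odd_iff.1 (ho.of_dvd_nat (card_subgroup_dvd_card (Cen ρ)))
    have := inv_le_of (a := Nat.card (Cen ρ)) three_pos (by omega)
    exact ⟨e, by rw [e]; push_cast at this; linarith⟩
  by_cases x1 : x = 1
  · simp [x1]
  obtain ⟨ρ, hρ, -⟩ := h2 x x1
  have eR : R = {ρ} := Finset.eq_singleton_iff_unique_mem.2 ⟨hρ, fun σ hσ => by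
    by_contra ne
    have s := Finset.sum_le_sum_of_subset_of_nonneg (s := {σ, ρ}) (t := R) (f := term)
      (by simp [Finset.insert_subset_iff, hρ, hσ]) fun j hj _ => by linarith [(tm j hj).2]
    rw [Finset.sum_pair ne] at s
    have := mul_le_mul_of_nonneg_left (show 4 / 3 ≤ ∑ ρ ∈ R, term ρ by linarith [(tm σ hσ).2, (tm ρ hρ).2]) g0.le
    push_cast at h4; linarith⟩
  rw [eR, Finset.sum_singleton, (tm ρ hρ).1] at h4
  have c0 : (0 : ℚ) < Nat.card (Cen ρ) := by exact_mod_cast Nat.card_pos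
  have : Cen ρ = ⊤ := eq_top_of_card_eq _ (by
    field_simp at h4
    exact_mod_cast (show (Nat.card (Cen ρ) : ℚ) = Nat.card G by push_cast at h4; linarith))
  exact ab ρ (h1 ρ hρ) x (this ▸ mem_top x) y (this ▸ mem_top y)

theorem cj_zp {g x : G} : x ∈ zpowers (g * m * g⁻¹) ↔ g⁻¹ * x * g ∈ zpowers m := by
  simp only [mem_zpowers_iff, conj_zpow]
  exact exists_congr fun i => ⟨by rintro rfl; group, fun e => by rw [e]; group⟩

theorem ddcj (h : DD t m q) (g : G) : DD (g * t * g⁻¹) (g * m * g⁻¹) q :=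
  ⟨h.inv.conj g, by
    have a := (Cen t).card_mul_index
    rw [← (Cen (g * t * g⁻¹)).card_mul_index, card_Cen_conj, Nat.mul_right_inj Nat.card_pos.ne'] at a
    rw [← a, h.odd], by rw [← MulAut.conj_apply, MulEquiv.orderOf_eq, h.ord], h.pos,
    (conj_mem_Cen g).2 h.mem, cj_zp.2 (by simpa [mul_assoc] using h.tmem), by rw [card_Cen_conj, h.card],
    fun y hy e => by
      have := h.out _ ((mem_Cen_conj g).1 hy) (cj_zp.not.1 e)
      rwa [← inv_inv g, inv_inv g⁻¹, conj_mul, conj_eq_one_iff] at this⟩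

/-- all involutions are conjugate and have dihedral centralisers -/
def AD (G : Type u) [Group G] (q : ℕ) : Prop :=
  ∀ t : G, IsInv t → (∃ m, DD t m q) ∧ ∀ r, IsInv r → ∃ g, g * r * g⁻¹ = t

theorem ad_of (hG : SN G) (h : DD t m q) : AD G q := fun s hs => by
  obtain ⟨g, rfl⟩ := h.conj hG s hs
  refine ⟨⟨_, ddcj h g⟩, fun r hr => ?_⟩
  obtain ⟨g', rfl⟩ := h.conj hG r hr
  exact ⟨g * g'⁻¹, by group⟩

theorem ddcen {x y : G} (h : DD t m q) (hx : x ∈ zpowers m) (x2 : x * x ≠ 1) (hy : y ∈ Cen t)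
    (e : y ∈ Cen x) : y ∈ zpowers m := by
  by_contra n
  have := h.inverts hy n hx
  rw [← mem_Cen.1 e, mul_inv_cancel_right] at this
  exact x2 (mul_eq_one_iff_eq_inv.2 this)

theorem AD.inverter (hD : AD G q) {d κ : G} (e : d * κ * d⁻¹ = κ⁻¹) (k2 : κ * κ ≠ 1) :
    ∃ j : ℕ, IsInv (d ^ j) ∧ d ^ j * κ * (d ^ j)⁻¹ = κ⁻¹ := by
  have ne : κ ≠ κ⁻¹ := fun f => k2 (by nth_rw 1 [f]; simp)
  obtain ⟨j, hj⟩ : Even (orderOf d) := by
    by_contra o
    exact ne (by simpa using (inverts_pow e _).2 (Nat.not_even_iff_odd.1 o))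
  have pos := orderOf_pos d
  have i : IsInv (d ^ j) := ⟨by rw [← pow_add, ← hj, pow_orderOf_eq_one],
    pow_ne_one_of_lt_orderOf (by omega) (by omega)⟩
  refine ⟨j, i, (inverts_pow e j).2 (Nat.not_even_iff_odd.1 fun o => ?_)⟩
  obtain ⟨⟨m, h⟩, -⟩ := hD _ i
  have a1 := h.mem_of_sq (mem_Cen.2 (mul_inv_eq_iff_eq_mul.1 ((inverts_pow e j).1 o))) k2
  have a2 := h.mem_of_sq (mem_Cen.2 (Commute.self_pow d j).symm) fun f => by
    have := orderOf_le_of_pow_eq_one two_pos ((pow_two d).trans f)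
    obtain ⟨i, rfl⟩ := o
    omega
  exact ne (by rw [← e, zpowers_comm a2 a1, mul_inv_cancel_right])

end grp

/-- a decomposition into two planes -/
structure Dc (E F : Submodule k V) : Prop where
  d1 : finrank k E = 2
  d2 : finrank k F = 2
  dec : ∀ v, ∃ e ∈ E, ∃ f ∈ F, v = e + f

theorem Dc.symm (c : Dc E F) : Dc F E :=
  ⟨c.d2, c.d1, fun v => let ⟨e, a, f, b, h⟩ := c.dec v; ⟨f, b, e, a, h.trans (add_comm _ _)⟩⟩

theorem Dc.ext (c : Dc E F) {X Y : End k V} (h1 : ∀ v ∈ E, X v = Y v) (h2 : ∀ v ∈ F, X v = Y v) :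
    X = Y := LinearMap.ext fun v => by
  obtain ⟨e, a, f, b, rfl⟩ := c.dec v
  rw [map_add, map_add, h1 e a, h2 f b]

theorem Dc.dis (hd : finrank k V = 4) (c : Dc E F) (h1 : v ∈ E) (h2 : v ∈ F) : v = 0 := by
  have a := Submodule.finrank_sup_add_finrank_inf_eq E F
  rw [show E ⊔ F = ⊤ from eq_top_iff.2 fun v _ => let ⟨e, a, f, b, h⟩ := c.dec v
    h ▸ Submodule.add_mem_sup a b, finrank_top, c.d1, c.d2, hd] at a
  have : E ⊓ F = ⊥ := Submodule.finrank_eq_zero.1 (by omega)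
  exact (Submodule.mem_bot k).1 (this ▸ ⟨h1, h2⟩)

/-- stabilises a subspace -/
def Sb (g : (End k V)ˣ) (U : Submodule k V) : Prop := ∀ v ∈ U, g.1 v ∈ U

theorem Sb.inv (h : Sb g U) : Sb g⁻¹ U := fun v hv => by
  obtain ⟨w, e⟩ := (LinearMap.injective_iff_surjective (f := g.1.restrict h)).1 (fun a b e =>
    Subtype.ext (H6.S4.u_inj g (congrArg Subtype.val e))) ⟨v, hv⟩
  rw [← show g.1 w = v from congrArg Subtype.val e, ui]; exact w.2

theorem Sb.mul (h : Sb g U) (h' : Sb x U) : Sb (g * x) U := fun v hv => h _ (h' v hv)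

theorem sb_ker (e : x * a = a * x) (α : k) : Sb x (LinearMap.ker (a.1 - α • 1)) := fun v hv => by
  have := LinearMap.congr_fun (congrArg Units.val e) v
  simp only [LinearMap.mem_ker, LinearMap.sub_apply, LinearMap.smul_apply, End.one_apply, sub_eq_zero,
    Units.val_mul, End.mul_apply] at hv this ⊢
  rw [← this, hv, map_smul]

theorem sb_range (e : x * a = a * x) (α : k) : Sb x (LinearMap.range (a.1 - α • 1)) := by
  rintro _ ⟨z, rfl⟩
  have := LinearMap.congr_fun (congrArg Units.val e) z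
  exact ⟨x.1 z, by simpa using this.symm⟩

/-- acts on the first plane only -/
def Kk (P : Subgroup (End k V)ˣ) (E F : Submodule k V) (g : (End k V)ˣ) : Prop :=
  g ∈ P ∧ Sb g E ∧ ∀ v ∈ F, g.1 v = v

/-- the group acting on the first plane only -/
def KS (P : Subgroup (End k V)ˣ) (E F : Submodule k V) : Subgroup (End k V)ˣ where
  carrier := {g | Kk P E F g}
  one_mem' := ⟨P.one_mem, fun _ h => h, fun _ _ => rfl⟩
  mul_mem' a b := ⟨P.mul_mem a.1 b.1, a.2.1.mul b.2.1, fun v hv => by rw [um, b.2.2 v hv, a.2.2 v hv]⟩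
  inv_mem' {a} h := ⟨P.inv_mem h.1, h.2.1.inv, fun v hv => by nth_rw 1 [← h.2.2 v hv]; rw [ui]⟩

theorem K_conj (h : κ ∈ KS P E F) (hd : d ∈ P) (h1 : Sb d E) (h2 : Sb d F) : d * κ * d⁻¹ ∈ KS P E F :=
  ⟨P.mul_mem (P.mul_mem hd h.1) (P.inv_mem hd), (h1.mul h.2.1).mul h1.inv, fun v hv => by
    rw [um, um, h.2.2 _ (h2.inv v hv), iu]⟩

theorem K_fix (h : St P π) (c : Dc E F) (hκ : κ ∈ KS P E F) (hv : v ∈ E) (v0 : v ≠ 0) (e : κ.1 v = v) :
    κ = 1 := by
  obtain ⟨w, hw, n⟩ := basis2 c.d1 v0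
  refine h.tv κ hκ.1 (κ.1 w - w) fun z => ?_
  obtain ⟨z, a, f, b, rfl⟩ := c.dec z
  obtain ⟨s, t, rfl⟩ := span2 c.d1 hv hw v0 n a
  exact ⟨t, by simp only [map_add, map_smul, e, hκ.2.2 f b]; module⟩

theorem K_eig (h : St P π) (c : Dc E F) (hκ : κ ∈ KS P E F) (hv : v ∈ E) (v0 : v ≠ 0)
    (e : κ.1 v = l • v) : l ≠ 0 ∧ ∀ z ∈ E, κ.1 (κ.1 z) = (l + l⁻¹) • κ.1 z - z := by
  have l0 : l ≠ 0 := by rintro rfl; exact u_ne κ v0 (by simpa using e)
  obtain ⟨w, hw, n⟩ := basis2 c.d1 v0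
  obtain ⟨f, hf, f0⟩ := ne2 c.d2
  obtain ⟨f', hf', n'⟩ := basis2 c.d2 f0
  obtain ⟨s, μ, e2⟩ := span2 c.d1 hv hw v0 n (hκ.2.1 w hw)
  have i : I4 k v w f f' := fun a b a' b' e => by
    have z : a • v + b • w = 0 := c.dis h.dim (E.add_mem (E.smul_mem _ hv) (E.smul_mem _ hw)) (by
      rw [show a • v + b • w = -(a' • f + b' • f') by linear_combination (norm := module) e]
      exact F.neg_mem (F.add_mem (F.smul_mem _ hf) (F.smul_mem _ hf')))
    have z1 := indep2 v0 n (c' := 0) (d' := 0) (by simpa using z)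
    have z2 := indep2 f0 n' (c := a') (d := b') (c' := 0) (d' := 0) (by
      rw [z, zero_add] at e; simpa using e)
    exact ⟨z1.1, z1.2, z2⟩
  have dt := i.det (X := κ.1) h.dim (a0 := l) (b0 := 0) (c0 := 0) (d0 := 0) (a1 := s) (b1 := μ) (c1 := 0)
    (d1 := 0) (a2 := 0) (b2 := 0) (c2 := 1) (d2 := 0) (a3 := 0) (b3 := 0) (c3 := 0) (d3 := 1)
    (by simp [e]) (by simp [e2]) (by simp [hκ.2.2 f hf]) (by simp [hκ.2.2 f' hf'])
  rw [h.det κ hκ.1] at dt
  obtain rfl : μ = l⁻¹ := eq_inv_of_mul_eq_one_right (by linear_combination -dt)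
  refine ⟨l0, fun z hz => ?_⟩
  obtain ⟨a, b, rfl⟩ := span2 c.d1 hv hw v0 n hz
  simp only [map_add, map_smul, e, e2]
  linear_combination (norm := module) -(mul_inv_cancel₀ l0) • (a • v + b • w)

theorem one_of {l : k} (hn : Odd n) (e : l ^ n = 1) (e2 : l * l = 1) : l = 1 := by
  obtain ⟨j, rfl⟩ := hn
  rwa [pow_succ, pow_mul, sq, e2, one_pow, one_mul] at e

theorem eig1 (e : g ^ n = 1) (v0 : v ≠ 0) (h : g.1 v = l • v) : l ^ n = 1 :=
  smul_left_injective k v0 (by simp only; rw [← eig_pow h, e]; simp)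

variable [IsAlgClosed k]

theorem eigv (h0 : ∃ v ∈ U, v ≠ 0) (h : ∀ v ∈ U, X v ∈ U) : ∃ (l : k) (v : V), v ∈ U ∧ v ≠ 0 ∧ X v = l • v := by
  obtain ⟨v, hv, v0⟩ := h0
  have : Nontrivial U := ⟨⟨⟨v, hv⟩, 0, fun e => v0 (congrArg Subtype.val e)⟩⟩
  obtain ⟨l, hl⟩ := End.exists_eigenvalue (X.restrict h)
  obtain ⟨w, hw⟩ := hl.exists_hasEigenvector
  exact ⟨l, w, w.2, fun e => hw.2 (Subtype.ext e), congrArg Subtype.val hw.apply_eq_smul⟩

theorem K_ns (h : Beta P π) (c : Dc E F) (hκ : κ ∈ KS P E F) (hn : Odd n) (e : κ ^ n = 1) (κ1 : κ ≠ 1) :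
    ¬ ∃ l : k, ∀ v ∈ E, κ.1 v = l • v := fun ⟨l, hl⟩ =>
  κ1 (quad1 h hκ.1 hn e (α := l) (β := 1) (c.ext (fun v hv => by simp [hl v hv]; module)
    fun v hv => by simp [hκ.2.2 v hv]))

theorem K_pm (h : Beta P π) (c : Dc E F) (hκ : κ ∈ KS P E F) (hn : Odd n) (e : κ ^ n = 1)
    (hd : d ∈ P) (h1 : Sb d E) (h2 : Sb d F) (cm : d * κ * d⁻¹ * κ = κ * (d * κ * d⁻¹)) :
    d * κ * d⁻¹ = κ ∨ d * κ * d⁻¹ = κ⁻¹ := by
  by_cases κ1 : κ = 1
  · simp [κ1]
  obtain ⟨l, v, hv, v0, ev⟩ := eigv (ne2 c.d1) hκ.2.1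
  obtain ⟨l0, q⟩ := K_eig h.toSt c hκ hv v0 ev
  have hy := K_conj hκ hd h1 h2
  have q' : (d * κ * d⁻¹).1 ((d * κ * d⁻¹).1 v) = (l + l⁻¹) • (d * κ * d⁻¹).1 v - v := by
    simp only [um, ui, q _ (h1.inv v hv), map_sub, map_smul, iu]
  generalize d * κ * d⁻¹ = y at *
  obtain ⟨μ, hμ⟩ : ∃ μ : k, y.1 v = μ • v := by
    by_contra! n
    refine K_ns h c hκ hn e κ1 ⟨l, fun z hz => ?_⟩
    obtain ⟨s, t, rfl⟩ := span2 c.d1 hv (hy.2.1 v hv) v0 n hz
    rw [map_add, map_smul, map_smul, ← um, ← cm, um, ev, map_smul]; module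
  rw [hμ, map_smul, hμ] at q'
  have q2 : (μ - l) * (μ - l⁻¹) = 0 := smul_left_injective k v0 (by
    simp only; linear_combination (norm := module) q' + (mul_inv_cancel₀ l0) • v)
  rcases mul_eq_zero.1 q2 with f | f <;> rw [sub_eq_zero] at f <;> subst f
  · exact Or.inl (inv_mul_eq_one.1 (K_fix h.toSt c (mul_mem (inv_mem hκ) hy) hv v0 (by
      rw [um, hμ, ← ev, ui]))).symm
  · exact Or.inr (eq_inv_of_mul_eq_one_right (K_fix h.toSt c (mul_mem hκ hy) hv v0 (by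
      rw [um, hμ, map_smul, ev, smul_smul, inv_mul_cancel₀ l0, one_smul])))

theorem K_ab (h : Beta P π) (c : Dc E F) (no : ∀ τ ∈ KS P E F, τ * τ = 1 → τ = 1) :
    (∀ x ∈ KS P E F, Odd (orderOf x)) ∧ ∀ x ∈ KS P E F, ∀ y ∈ KS P E F, x * y = y * x := by
  have := h.fin
  have : Finite (KS P E F) := Finite.of_injective _ (inclusion_injective (show KS P E F ≤ P from fun _ h => h.1))
  have ho : Odd (Nat.card (KS P E F)) := by
    by_contra e
    obtain ⟨τ, e⟩ := exists_prime_orderOf_dvd_card' (G := KS P E F) 2 (Nat.not_odd_iff_even.1 e).two_dvd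
    have := no τ τ.2 (congrArg Subtype.val (show τ * τ = 1 by rw [← sq, ← e, pow_orderOf_eq_one]))
    rw [show τ = 1 from Subtype.ext this] at e; simp at e
  have od : ∀ x ∈ KS P E F, Odd (orderOf x) := fun x hx => ho.of_dvd_nat ((KS P E F).orderOf_dvd_natCard hx)
  refine ⟨od, fun x hx y hy => congrArg Subtype.val (ca_ab ho (fun x x1 y hy z hz => ?_) (fun x n e => ?_)
    ⟨x, hx⟩ ⟨y, hy⟩)⟩
  · refine Subtype.ext (Units.ext (c.ext (comm2 c.d1 x.2.2.1 y.2.2.1 z.2.2.1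
      (congrArg (·.1.1) (mem_Cen.1 hy)).symm (congrArg (·.1.1) (mem_Cen.1 hz)).symm
      (K_ns h c x.2 (od x x.2) (pow_orderOf_eq_one _) fun e => x1 (Subtype.ext e))) fun v hv => ?_))
    rw [(y * z).2.2.2 v hv, (z * y).2.2.2 v hv]
  · exact (K_pm h c x.2 (od x x.2) (pow_orderOf_eq_one _) n.2.1 n.2.2.1
      (fun v hv => by rwa [n.2.2.2 v hv]) (congrArg Subtype.val (mem_Cen.1 e)).symm).imp Subtype.ext Subtype.ext

theorem noYY (h : Beta P π) (c : Dc E F) (hκ : κ ∈ KS P E F) (hy : y ∈ KS P F E) (hr : r.Prime)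
    (ho : Odd r) (κr : κ ^ r = 1) (yr : y ^ r = 1) (κ1 : κ ≠ 1) (y1 : y ≠ 1) : False := by
  obtain ⟨l, v, hv, v0, e1⟩ := eigv (ne2 c.d1) hκ.2.1
  obtain ⟨μ, w, hw, w0, e2⟩ := eigv (ne2 c.d2) hy.2.1
  have μ1 : μ ≠ 1 := by rintro rfl; exact y1 (K_fix h.toSt c.symm hy hw w0 (by simpa using e2))
  have := Fact.mk hr
  have : NeZero r := ⟨hr.ne_zero⟩
  have pr : IsPrimitiveRoot μ r := orderOf_eq_prime (eig1 yr w0 e2) μ1 ▸ IsPrimitiveRoot.orderOf μ
  obtain ⟨j, -, rfl⟩ := pr.eq_pow_of_pow_eq_one (eig1 κr v0 e1)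
  have hz := pow_mem hy j
  obtain ⟨l0, q1⟩ := K_eig h.toSt c hκ hv v0 e1
  obtain ⟨-, q2⟩ := K_eig h.toSt c.symm hz hw w0 (eig_pow e2 j)
  have zr : (y ^ j) ^ r = 1 := by rw [← pow_mul, mul_comm, pow_mul, yr, one_pow]
  generalize y ^ j = z at *
  generalize μ ^ j = l at *
  have a1 : ∀ v ∈ E, (κ * z).1 v = κ.1 v := fun v hv => by rw [um, hz.2.2 v hv]
  have a2 : ∀ v ∈ F, (κ * z).1 v = z.1 v := fun v hv => by rw [um, hκ.2.2 _ (hz.2.1 v hv)]
  have cm : Commute κ z := Units.ext (c.ext (fun v hv => by rw [a1 v hv, um, hz.2.2 _ (hκ.2.1 v hv)])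
    fun v hv => by rw [a2 v hv, um, hκ.2.2 v hv])
  have := quad1 h (P.mul_mem hκ.1 hz.1) ho (by rw [cm.mul_pow, κr, zr, one_mul]) (α := l) (β := l⁻¹)
    (c.ext (fun v hv => by
      simp only [End.mul_apply, LinearMap.sub_apply, LinearMap.smul_apply, End.one_apply, map_sub, map_smul,
        a1 v hv, a1 _ (hκ.2.1 v hv), q1 v hv, LinearMap.zero_apply]
      linear_combination (norm := module) (mul_inv_cancel₀ l0) • v) fun v hv => by
      simp only [End.mul_apply, LinearMap.sub_apply, LinearMap.smul_apply, End.one_apply, map_sub, map_smul,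
        a2 v hv, a2 _ (hz.2.1 v hv), q2 v hv, LinearMap.zero_apply]
      linear_combination (norm := module) (mul_inv_cancel₀ l0) • v)
  exact κ1 (K_fix h.toSt c hκ hv v0 (by rw [← a1 v hv, this]; rfl))

theorem noss (hn : (n : k) ≠ 0) (e : g ^ n = 1) {α : k} (h1 : g.1 v = α • v) (h2 : g.1 w - α • w = v) :
    v = 0 := by
  have key : ∀ j : ℕ, (g ^ (j + 1)).1 w = α ^ (j + 1) • w + ((j + 1 : k) * α ^ j) • v := fun j => by
    induction j with
    | zero => simp [← h2]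
    | succ j ih =>
      rw [pow_succ', um, ih, map_add, map_smul, map_smul, h1, eq_add_of_sub_eq h2]
      push_cast; module
  by_contra v0
  obtain ⟨j, rfl⟩ : ∃ j, n = j + 1 := Nat.exists_eq_succ_of_ne_zero (by rintro rfl; simp at hn)
  have a := eig1 e v0 h1
  have := key j
  rw [e, a] at this
  have α0 : α ≠ 0 := by rintro rfl; simp at a
  simp [v0, α0] at this
  exact hn (by simpa using this)

theorem dc_of (h : Beta P π) (ha : a ∈ P) (ns : ¬ Sc a) (hn : (n : k) ≠ 0) (e : a ^ n = 1) {α : k}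
    (h2 : 2 ≤ finrank k (LinearMap.ker (a.1 - α • 1))) :
    Dc (LinearMap.ker (a.1 - α • 1)) (LinearMap.range (a.1 - α • 1)) := by
  have r1 := rk2 h ha ns α
  have r2 := (a.1 - α • 1).finrank_range_add_finrank_ker
  rw [h.dim] at r2
  have r3 := Submodule.finrank_sup_add_finrank_inf_eq (LinearMap.ker (a.1 - α • 1))
    (LinearMap.range (a.1 - α • 1))
  rw [show LinearMap.ker (a.1 - α • 1) ⊓ LinearMap.range (a.1 - α • 1) = ⊥ from eq_bot_iff.2 (by
    rintro v ⟨h1, w, h2⟩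
    exact noss hn e (α := α) (w := w) (by simpa [sub_eq_zero] using h1) (by simpa using h2)), finrank_bot] at r3
  refine ⟨by omega, by omega, fun v => ?_⟩
  obtain ⟨e, a, f, b, h⟩ := Submodule.mem_sup.1 (Submodule.eq_top_of_finrank_eq (r3.trans (by
    rw [h.dim]; omega)) ▸ Submodule.mem_top (x := v))
  exact ⟨e, a, f, b, h.symm⟩

theorem ab21 {q : ℕ} (h : Beta P π) (hD : AD G q) {a : P} (ho : Odd n) (hn : (n : k) ≠ 0) (an : a.1 ^ n = 1)
    (a1 : a.1 ≠ 1) {α : k} (h2 : 2 ≤ finrank k (LinearMap.ker (a.1.1 - α • 1))) {x y : P}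
    (cx : x.1 * a.1 = a.1 * x.1) (cy : y.1 * a.1 = a.1 * y.1) : x.1 * y.1 = y.1 * x.1 := by
  have := h.finG
  have := h.fin
  have c := dc_of h a.2 (fun s => a1 (sc_odd h.toSt a.2 ho an (s.mul s))) hn an h2
  have sE := fun x e => sb_ker (x := x) (a := a.1) e α
  have sF := fun x e => sb_range (x := x) (a := a.1) e α
  have aE : ∀ v, v ∈ LinearMap.ker (a.1.1 - α • 1) ↔ a.1.1 v = α • v := fun v => by simp [sub_eq_zero]
  have aF : ∀ v, v ∈ LinearMap.range (a.1.1 - α • 1) ↔ ∃ w, a.1.1 w - α • w = v := fun v => by simp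
  generalize LinearMap.ker (a.1.1 - α • 1) = E at *
  generalize LinearMap.range (a.1.1 - α • 1) = F at *
  have nsF : ¬ ∃ l : k, ∀ v ∈ F, a.1.1 v = l • v := fun ⟨l, hl⟩ =>
    a1 (quad1 h a.2 ho an (α := l) (β := α) (c.ext (fun v hv => by simp [(aE v).1 hv])
      fun v hv => by simp [hl v hv]; module))
  have c1 := comm2 c.d2 (sF _ rfl) (sF _ cx) (sF _ cy) (congrArg Units.val cx) (congrArg Units.val cy) nsF
  have hc : (y * x)⁻¹.1 * (x * y).1 ∈ KS P E F := ⟨P.mul_mem (y * x)⁻¹.2 (x * y).2,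
    ((sE _ cy).mul (sE _ cx)).inv.mul ((sE _ cx).mul (sE _ cy)), fun v hv => by
      rw [um, show (x * y).1.1 v = (y * x).1.1 v from c1 v hv]; exact ui _ _⟩
  by_contra ne
  have c0 : (y * x)⁻¹.1 * (x * y).1 ≠ 1 := fun e => ne (inv_mul_eq_one.1 e).symm
  obtain ⟨f, hf, f0⟩ := ne2 c.d2
  have scK : ∀ g ∈ KS P E F, Sc g → g = 1 := fun g hg ⟨s, hs⟩ => by
    have := hg.2.2 f hf
    rw [hs] at this
    obtain rfl : s = 1 := smul_left_injective k f0 (by simpa using this)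
    exact Units.ext (by simpa using hs)
  have a2 := ne1 h.toSt ho an a1
  by_cases no : ∀ τ ∈ KS P E F, τ * τ = 1 → τ = 1
  swap
  · push Not at no
    obtain ⟨τ, hτ, τ2, τ1⟩ := no
    obtain ⟨l, v, hv, v0, e⟩ := eigv (ne2 c.d1) hτ.2.1
    obtain rfl : l = -1 := (mul_self_eq_one_iff.1 (by rw [← sq]; exact eig1 ((sq τ).trans τ2) v0 e)).resolve_left
      (by rintro rfl; exact τ1 (K_fix h.toSt c hτ hv v0 (by simpa using e)))
    have e2 : ∀ z ∈ E, τ.1 z = -z := fun z hz => smul_right_injective V h.two (by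
      have := (K_eig h.toSt c hτ hv v0 e).2 z hz
      rw [← um, τ2] at this
      simp only [inv_neg, inv_one, Units.val_one, End.one_apply] at this ⊢
      linear_combination (norm := module) this)
    have ct : ∀ x : P, x.1 * a.1 = a.1 * x.1 → π x ∈ Cen (π ⟨τ, hτ.1⟩) := fun x e =>
      mem_cen (Units.ext (c.ext (fun v hv => by rw [um, um, e2 v hv, e2 _ (sE _ e v hv), map_neg])
        fun v hv => by rw [um, um, hτ.2.2 v hv, hτ.2.2 _ (sF _ e v hv)]))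
    obtain ⟨⟨m, d⟩, -⟩ := hD (π ⟨τ, hτ.1⟩) ⟨by
      rw [← map_mul, show (⟨τ, hτ.1⟩ * ⟨τ, hτ.1⟩ : P) = 1 from Subtype.ext τ2, map_one],
      fun e => τ1 (scK τ hτ ((h.ker _).1 e))⟩
    have am := d.mem_of_sq (ct a rfl) a2
    refine c0 (scK _ hc ((h.ker ((y * x)⁻¹ * (x * y))).1 ?_))
    rw [map_mul, map_inv, map_mul, map_mul, zpowers_comm (ddcen d am a2 (ct x cx) (mem_cen cx))
      (ddcen d am a2 (ct y cy) (mem_cen cy)), inv_mul_cancel]
  obtain ⟨od, ab⟩ := K_ab h c no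
  generalize (y * x)⁻¹.1 * (x * y).1 = z at *
  obtain ⟨r, hr, j, hj⟩ := Nat.exists_prime_and_dvd (orderOf_eq_one_iff.not.2 c0)
  have pos := (finOrd hc.1).orderOf_pos
  have j0 : j ≠ 0 := by rintro rfl; omega
  have κr : (z ^ j) ^ r = 1 := by rw [← pow_mul, mul_comm, ← hj, pow_orderOf_eq_one]
  have κ1 : z ^ j ≠ 1 := pow_ne_one_of_lt_orderOf j0 (by
    have := hr.two_le; rw [hj]; nlinarith [Nat.pos_of_ne_zero j0])
  have ro : Odd r := (od z hc).of_dvd_nat ⟨j, hj⟩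
  have hκ := pow_mem hc j
  generalize z ^ j = κ at *
  have pm : ∀ d ∈ P, Sb d E → Sb d F → d * κ * d⁻¹ = κ ∨ d * κ * d⁻¹ = κ⁻¹ := fun d hd s1 s2 =>
    K_pm h c hκ ro κr hd s1 s2 (ab _ (K_conj hκ hd s1 s2) _ hκ)
  obtain ⟨d, da, dκ⟩ : ∃ d : P, d.1 * a.1 = a.1 * d.1 ∧ d.1 * κ * d.1⁻¹ = κ⁻¹ := by
    by_contra! n
    have cm : ∀ d : P, d.1 * a.1 = a.1 * d.1 → d.1.1 * κ.1 = κ.1 * d.1.1 := fun d e => congrArg Units.val
      (mul_inv_eq_iff_eq_mul.1 ((pm d d.2 (sE _ e) (sF _ e)).resolve_right (n d e)))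
    exact ne (Units.ext (c.ext (comm2 c.d1 hκ.2.1 (sE _ cx) (sE _ cy) (cm x cx) (cm y cy)
      (K_ns h c hκ ro κr κ1)) c1))
  lift κ to P using hκ.1
  have κ2 := ne1 h.toSt ro κr κ1
  obtain ⟨j, ti, tκ⟩ := hD.inverter (d := π d) (κ := π κ) (by
    rw [← map_inv, ← map_inv, ← map_mul, ← map_mul]; exact congrArg π (Subtype.ext dκ)) κ2
  have ta : (d ^ j).1 * a.1 = a.1 * (d ^ j).1 := Commute.pow_left da j
  rw [← map_pow] at ti tκ
  generalize d ^ j = t at *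
  have tκ' := conj_eq h.toSt (b := κ⁻¹) ro ro κr (by simp [κr]) (by rw [tκ, map_inv])
  obtain ⟨⟨m, D⟩, cj⟩ := hD _ ti
  obtain ⟨w, wt, wm⟩ := D.exists_out
  obtain ⟨w, rfl⟩ := h.surj w
  have am := D.mem_of_sq (mem_Cen_comm.1 (mem_cen ta)) a2
  have wa := conj_eq h.toSt (b := a⁻¹) ho ho an (by simp [an]) (by rw [D.inverts wt wm am, map_inv])
  have wa' : ∀ v, a.1.1 (w.1.1 (a.1.1 v)) = w.1.1 v := fun v => by
    rw [← um w.1, mul_inv_eq_iff_eq_mul.1 wa, um]; exact iu _ _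
  obtain ⟨e, he, e0⟩ := ne2 c.d1
  have αn := eig1 an e0 ((aE e).1 he)
  have α0 : α ≠ 0 := by rintro rfl; rw [zero_pow ho.pos.ne'] at αn; simp at αn
  have wE : ∀ v ∈ E, a.1.1 (w.1.1 v) = α⁻¹ • w.1.1 v := fun v hv => by
    nth_rw 2 [← wa' v]; rw [(aE v).1 hv, map_smul, map_smul, smul_smul, inv_mul_cancel₀ α0, one_smul]
  obtain rfl : α = 1 := one_of ho αn (by
    by_contra n
    have n' : α⁻¹ - α ≠ 0 := fun e => n (by field_simp at e; linear_combination -e)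
    have wF : ∀ v ∈ E, w.1.1 v ∈ F := fun v hv => (aF _).2 ⟨(α⁻¹ - α)⁻¹ • w.1.1 v, by
      rw [map_smul, wE v hv, smul_comm α, ← smul_sub, ← sub_smul, smul_smul, inv_mul_cancel₀ n', one_smul]⟩
    obtain ⟨e', he', ne'⟩ := basis2 c.d1 e0
    refine nsF ⟨α⁻¹, fun v hv => ?_⟩
    obtain ⟨s, t, rfl⟩ := span2 c.d2 (wF e he) (wF e' he') (u_ne _ e0)
      (fun s f => ne' s (H6.S4.u_inj w.1 (by rw [f, map_smul]))) hv
    rw [map_add, map_smul, map_smul, wE e he, wE e' he']; module)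
  have wE' : Sb w.1 E := fun v hv => (aE _).2 (by simpa using wE v hv)
  have wF' : Sb w.1 F := fun v hv => by
    obtain ⟨z, rfl⟩ := (aF v).1 hv
    exact (aF _).2 ⟨-w.1.1 (a.1.1 z), by simp [wa', sub_eq_neg_add, add_comm]⟩
  obtain ⟨g, g1⟩ : ∃ g, g * π κ * g⁻¹ ∈ Cen (π t) := by
    have H : ∀ s : P, π s ∈ Cen (π t) → π s ∉ zpowers m → s.1 * κ.1 * s.1⁻¹ = κ →
        ∃ g, g * π κ * g⁻¹ ∈ Cen (π t) := fun s s1 s2 e => by
      obtain ⟨g, hg⟩ := cj (π s) ⟨D.out _ s1 s2, fun e => s2 (e ▸ one_mem _)⟩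
      exact ⟨g, hg ▸ (conj_mem_Cen g).2 (mem_cen (mul_inv_eq_iff_eq_mul.1 e).symm)⟩
    rcases pm _ w.2 wE' wF' with e | e
    · exact H w wt wm e
    · refine H (t * w) (by rw [map_mul]; exact mul_mem (self_mem_Cen _) wt)
        (by rwa [map_mul, mul_mem_cancel_left D.tmem]) ?_
      have : t.1 * κ.1⁻¹ * t.1⁻¹ = κ := by rw [← conj_inv, tκ']; simp
      rw [Subgroup.coe_mul, mul_inv_rev, show t.1 * w.1 * κ.1 * (w.1⁻¹ * t.1⁻¹) =
        t.1 * (w.1 * κ.1 * w.1⁻¹) * t.1⁻¹ by group, e, this]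
  have g2 := D.mem_of_sq g1 (by rwa [conj_mul, Ne, conj_eq_one_iff])
  obtain ⟨g, rfl⟩ := h.surj g
  rw [← map_inv, ← map_mul, ← map_mul] at g1 g2
  have yr : (g * κ * g⁻¹).1 ^ r = 1 := cpow κr _
  have y1 : (g * κ * g⁻¹).1 ≠ 1 := fun e => κ1 (by simpa [mul_inv_eq_one] using e)
  generalize g * κ * g⁻¹ = y at *
  have ya := comm h.toSt ho an (mem_Cen.2 (zpowers_comm am g2))
  have ty := comm h.toSt ro yr (mem_Cen_comm.1 g1)
  have wy := conj_eq h.toSt (b := y⁻¹) ro ro yr (by simp [yr]) (by rw [D.inverts wt wm g2, map_inv])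
  have ne2' : κ.1 ≠ κ.1⁻¹ := fun e => κ2 (by
    rw [← map_mul, show κ * κ = 1 from Subtype.ext (mul_eq_one_iff_eq_inv.2 e), map_one])
  have yκ : κ.1 * y.1 = y.1 * κ.1 := by
    rcases pm _ y.2 (sE _ ya) (sF _ ya) with e | e
    · exact (mul_inv_eq_iff_eq_mul.1 e).symm
    · have := (inverts_pow e r).2 ro
      rw [yr, one_mul, inv_one, mul_one] at this
      exact absurd this ne2'
  by_cases s : ∃ l : k, ∀ v ∈ E, y.1.1 v = l • v
  · obtain ⟨l, hl⟩ := s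
    obtain rfl : l = 1 := one_of ro (eig1 yr e0 (hl e he)) (smul_left_injective k (u_ne w.1 e0) (by
      have := congrArg (fun g : (End k V)ˣ => y.1.1 (g.1 (w.1.1 e))) wy
      simp only [um, ui, hl e he, map_smul, hl _ (wE' e he), Subgroup.coe_inv, iu] at this
      simpa [mul_smul] using this))
    exact noYY h c hκ ⟨y.2, sF _ ya, by simpa using hl⟩ hr ro κr yr κ1 y1
  have c2 := comm2 c.d1 (sE _ ya) hκ.2.1 (sE _ ta) (congrArg Units.val yκ) (congrArg Units.val ty) s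
  refine ne2' (Units.ext (c.ext (fun v hv => ?_) fun v hv => by rw [hκ.2.2 v hv, (inv_mem hκ).2.2 v hv]))
  have := c2 _ ((sE _ ta).inv v hv)
  rw [iu, ← um, ← um, tκ'] at this
  exact this

theorem semis (hn : (n : k) ≠ 0) (e : g ^ n = 1) : ⨆ μ, g.1.eigenspace μ = ⊤ :=
  (End.isSemisimple_of_squarefree_aeval_eq_zero
    ((Polynomial.X_pow_sub_one_separable_iff.2 hn).squarefree) (by
      simp [← Units.val_pow_eq_pow_val, e])).iSup_eigenspace_eq_top

variable [hp : Fact p.Prime] [CharP k p]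

include hp in
theorem oddAb {q : ℕ} (h : Beta P π) (hD : AD G q) : OddAb G := fun a a1 ho x hx y hy => by
  obtain ⟨a, rfl, an⟩ := lift h.toSt ho (pow_orderOf_eq_one a)
  obtain ⟨x, rfl⟩ := h.surj x
  obtain ⟨y, rfl⟩ := h.surj y
  have cx := comm h.toSt ho an hx
  have cy := comm h.toSt ho an hy
  rw [← map_mul, ← map_mul]
  refine congrArg π (Subtype.ext ?_)
  by_cases hn : p ∣ orderOf (π a)
  · obtain ⟨j, hj⟩ := hn
    have pos := ho.pos
    have j0 : j ≠ 0 := by rintro rfl; omega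
    refine (ucen (p := p) h (a ^ j).2 (by rw [coe_pow, ← pow_mul, mul_comm, ← hj, an]) fun e => ?_).2
      _ x.2 _ y.2 (Commute.pow_right cx j) (Commute.pow_right cy j)
    refine pow_ne_one_of_lt_orderOf (x := π a) j0 (by
      have := hp.out.two_le; rw [hj]; nlinarith [Nat.pos_of_ne_zero j0]) ?_
    rw [← map_pow, show a ^ j = 1 from Subtype.ext e, map_one]
  rw [← CharP.cast_eq_zero_iff k p] at hn
  by_cases h2 : ∃ α : k, 2 ≤ finrank k (LinearMap.ker (a.1.1 - α • 1))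
  · obtain ⟨α, h2⟩ := h2
    exact ab21 h hD ho hn an (fun e => a1 (by rw [show a = 1 from Subtype.ext e, map_one])) h2 cx cy
  push Not at h2
  refine Units.ext (LinearMap.ext fun v => ?_)
  refine Submodule.iSup_induction _ (motive := fun v => (x * y).1.1 v = (y * x).1.1 v)
    (semis hn an ▸ Submodule.mem_top (x := v)) (fun α v hv => ?_) (by simp) fun a b ha hb => by
      rw [map_add, map_add, ha, hb]
  obtain ⟨w, hw⟩ := finrank_le_one_iff.1 (Nat.lt_succ_iff.1 (h2 α))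
  obtain ⟨s, e⟩ := hw ⟨v, by simpa [sub_eq_zero, End.mem_eigenspace_iff] using hv⟩
  obtain ⟨b, e1⟩ := hw ⟨_, sb_ker cx α _ w.2⟩
  obtain ⟨c, e2⟩ := hw ⟨_, sb_ker cy α _ w.2⟩
  replace e := congrArg Subtype.val e
  replace e1 := congrArg Subtype.val e1
  replace e2 := congrArg Subtype.val e2
  simp only [Submodule.coe_smul] at e e1 e2
  simp only [coe_mul, um, ← e, map_smul, ← e1, ← e2]
  module

end Cfsg.Agent.H2.LF
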