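import Cfsg.Agent.H6.S4.F1

/-! Arithmetic of the class equation and of the count of pairs of involutions. -/

set_option autoImplicit false
set_option linter.unusedSectionVars false
set_option linter.unusedVariables false

namespace Cfsg.Agent.H2.LF

open Finset Cfsg.Agent.H8.M3

theorem c_one {c X n : ℤ} (hc : 1 ≤ c) (hn : n ≠ 0) (d : n ∣ X) (e : c * X = -n) : c = 1 := by
  obtain ⟨Y, rfl⟩ := d
  have : c * -Y = 1 := mul_left_cancel₀ hn (by linear_combination -e)
  exact Int.eq_one_of_mul_eq_one_right (by omega) this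

theorem dA {k a b c : ℤ} (hk : 3 ≤ k) (ha : 7 ≤ a) (hb : 5 ≤ b) (b4 : b % 4 = 1) (hc : 1 ≤ c)
    (h3 : 3 ∣ k ∨ 3 ∣ b) (e1 : c * (a * b) = 1 + 2 * k * (2 * k - 1) + k * (b - 1))
    (e2 : c * (k * a * b - 3 * k * a - 4 * k * b - 3 * a * b) = -3) : False := by
  obtain rfl := c_one hc three_ne_zero (by
    rcases h3 with ⟨j, rfl⟩ | ⟨j, rfl⟩
    exacts [⟨j * a * b - 3 * j * a - 4 * j * b - a * b, by ring⟩,
      ⟨k * a * j - k * a - 4 * k * j - 3 * a * j, by ring⟩]) e2
  have e3 : 3 * a = (k - 3) * (4 * k - 3) + (k - 7) * b + 1 :=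
    mul_left_cancel₀ (show k ≠ 0 by omega) (by linear_combination (k - 3) * e1 - e2)
  rcases (show k ≤ 8 ∨ 9 ≤ k by omega) with h | h
  · interval_cases k
    · omega
    · omega
    · omega
    · have : b ≤ 43 := by omega
      interval_cases b <;> omega
    · omega
    · rcases (show b = 5 ∨ 9 ≤ b by omega) with rfl | h
      · omega
      · nlinarith
  · have h1 : 4 * k ^ 2 - 13 * k - 25 ≤ 3 * (a - k) := by nlinarith
    have h2 : 5 * (4 * k ^ 2 - 13 * k - 25) ≤ b * (3 * (a - k)) :=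
      mul_le_mul hb h1 (by nlinarith) (by omega)
    nlinarith

theorem finB : ∀ k < 74, ∀ j < 77, k = 0 ∨ (6 * j + 1) * (2 * k * k + 8) + 10 * k ≠
    (6 * j + 1) * (16 * k + 3 * (6 * j + 1)) + 20 * k * k + 5 := by decide +kernel

theorem dB {k a u c : ℤ} (hk : 3 ≤ k) (ha : 7 ≤ a) (a6 : a % 6 = 1) (hu : 11 ≤ u) (hc : 1 ≤ c)
    (h3 : 3 ∣ k ∨ 3 ∣ u) (h5 : 5 ∣ k ∨ 5 ∣ a) (e1 : c * (a * u) = 1 + 2 * k * (2 * k - 1))
    (e2 : c * (2 * k * a * u - 12 * k * a - 20 * k * u - 15 * a * u) = -15) : False := by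
  obtain rfl := c_one hc (n := 15) (by decide) (by
    refine (show IsCoprime (3 : ℤ) 5 from ⟨2, -1, by decide⟩).mul_dvd ?_ ?_
    · rcases h3 with ⟨j, rfl⟩ | ⟨j, rfl⟩
      exacts [⟨2 * j * a * u - 12 * j * a - 20 * j * u - 5 * a * u, by ring⟩,
        ⟨2 * k * a * j - 4 * k * a - 20 * k * j - 15 * a * j, by ring⟩]
    · rcases h5 with ⟨j, rfl⟩ | ⟨j, rfl⟩
      exacts [⟨2 * j * a * u - 12 * j * a - 20 * j * u - 3 * a * u, by ring⟩,
        ⟨2 * k * j * u - 12 * k * j - 4 * k * u - 15 * j * u, by ring⟩]) e2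
  have e3 : 3 * a + 5 * u = 2 * k ^ 2 - 16 * k + 8 :=
    mul_left_cancel₀ (show 4 * k ≠ 0 by omega) (by linear_combination (2 * k - 15) * e1 - e2)
  have e4 : (a - 10) * (u - 6) = 30 * k + 45 := by linear_combination e1 - 2 * e3
  have a13 : 13 ≤ a := by
    by_contra
    obtain rfl : a = 7 := by omega
    omega
  have h1 : 15 * (a * u) ≤ 143 * ((a - 10) * (u - 6)) := by nlinarith
  have k74 : k < 74 := by nlinarith
  have a77 : a < 6 * 77 := by nlinarith
  obtain ⟨k, rfl⟩ := Int.eq_ofNat_of_zero_le (show 0 ≤ k by omega)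
  obtain ⟨j, hj⟩ := Int.eq_ofNat_of_zero_le (show 0 ≤ a / 6 by omega)
  obtain rfl : a = 6 * j + 1 := by omega
  refine (finB k (by omega) j (by omega)).resolve_left (by omega) ?_
  zify
  linear_combination 5 * e1 - (6 * j + 1) * e3

theorem dC {k a b d v e c : ℤ} (hk : 3 ≤ k) (ha : 7 ≤ a) (a6 : a % 6 = 1) (hb : 5 ≤ b) (b4 : b % 4 = 1)
    (hd : 5 ≤ d) (hv : 1 ≤ v) (he : e = 0 ∨ e = 1 ∧ d % 2 = 0) (hc : 1 ≤ c)
    (h3 : 3 ∣ k ∨ 3 ∣ b ∨ 3 ∣ d * v + 1)
    (e1 : c * (a * b * (d * v + 1)) = 1 + 2 * k * (2 * k - 1) + k * (b - 1) + 4 * k * e * v)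
    (e2 : c * (12 * v * k * a * b - 4 * k * b * (d * v + 1) - 3 * k * a * (d * v + 1) -
      3 * a * b * (d * v + 1) + k * a * b * (d * v + 1)) = -3) : False := by
  obtain ⟨u, hu⟩ : ∃ u, u = d * v + 1 := ⟨_, rfl⟩
  rw [← hu] at h3 e1 e2
  obtain rfl := c_one hc three_ne_zero (by
    rcases h3 with ⟨j, rfl⟩ | ⟨j, rfl⟩ | ⟨j, rfl⟩
    exacts [⟨12 * v * j * a * b - 4 * j * b * u - 3 * j * a * u - a * b * u + j * a * b * u, by ring⟩,
      ⟨12 * v * k * a * j - 4 * k * j * u - k * a * u - 3 * a * j * u + k * a * j * u, by ring⟩,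
      ⟨4 * v * k * a * b - 4 * k * b * j - 3 * k * a * j - 3 * a * b * j + k * a * b * j, by ring⟩]) e2
  obtain ⟨s, hs⟩ : ∃ s, s = 4 * k - 3 + b + 4 * e * v := ⟨_, rfl⟩
  have e3 : a * b * u = 1 + k * s := by rw [hs]; linear_combination e1
  have e4 : 3 * s = u * (a * b - 4 * b - 3 * a) + 12 * v * (a * b) :=
    mul_left_cancel₀ (show k ≠ 0 by omega) (by linear_combination -e2 - 3 * e3)
  have u0 : 0 < u := by nlinarith
  by_cases n : a = 7 ∧ b = 5
  · obtain ⟨rfl, rfl⟩ := n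
    rcases he with rfl | ⟨rfl, he⟩
    · have e5 : 1225 * v = 2 * k ^ 2 + 36 * k + 18 := by
        have : 12 * (1225 * v) = 12 * (2 * k ^ 2 + 36 * k + 18) := by
          rw [hs] at e3 e4; linear_combination 6 * e3 - 35 * e4
        omega
      obtain ⟨j, r, rfl, h1, h2⟩ : ∃ j r, k = 5 * j + r ∧ 0 ≤ r ∧ r < 5 := ⟨k / 5, k % 5, by omega⟩
      have : (5 * j + r) ^ 2 = 5 * (5 * j * j + 2 * j * r) + r * r := by ring
      interval_cases r <;> omega
    obtain ⟨f, rfl⟩ : ∃ f, d = 68 - 2 * f := ⟨(68 - d) / 2, by omega⟩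
    obtain rfl : k = f * v - 1 := by
      have : 12 * k = 12 * (f * v - 1) := by rw [hs, hu] at e4; linear_combination e4
      omega
    have e5 : v * (596 - v * f - v * f * f - 16 * f) = -8 := by
      have : 24 * (v * (596 - v * f - v * f * f - 16 * f)) = 24 * -8 := by
        rw [hs] at e3 e4; linear_combination 6 * e3 - 35 * e4
      omega
    have : v ≤ 8 := Int.le_of_dvd (by decide) ⟨-(596 - v * f - v * f * f - 16 * f), by linear_combination e5⟩
    have : 0 < f := by nlinarith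
    have : f ≤ 31 := by omega
    interval_cases v <;> interval_cases f <;> omega
  have X : 6 ≤ a * b - 4 * b - 3 * a := by
    rcases (show 9 ≤ b ∨ 13 ≤ a by omega) with h | h <;> nlinarith
  have h1 : 2 * u + 4 * (v * (a * b)) ≤ s := by nlinarith
  have h2 : a * b ≤ v * (a * b) := by nlinarith
  have h3 : v * 35 ≤ v * (a * b) := by gcongr; nlinarith
  have h4 : u ≤ 2 * k := by rcases he with rfl | ⟨rfl, -⟩ <;> nlinarith
  have h5 : u * (4 * (a * b)) ≤ 2 * k * s := mul_le_mul h4 (by omega) (by positivity) (by omega)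
  have : 0 < a * b * u := by positivity
  nlinarith

variable {ι : Type*}

structure Fam5 (R : Finset ι) (a ν : ι → ℕ) (U : ι → Prop) (I k : ℕ) : Prop where
  odd : ∀ i ∈ R, a i % 2 = 1
  three_le : ∀ i ∈ R, 3 ≤ a i
  nu_dvd : ∀ i ∈ R, ν i ∣ a i - 1
  two_le : ∀ i ∈ R, 2 ≤ ν i
  dvd : ∀ i ∈ R, a i * ν i ∣ 4 * k * I
  kpos : 1 ≤ k
  Ipos : 0 < I
  cop : ∀ i ∈ R, ∀ j ∈ R, i ≠ j → (a i).Coprime (a j)
  copc : ∀ i ∈ R, (a i).Coprime (4 * k)
  kind : ∀ i ∈ R, ν i ≤ 4 ∨ U i
  uniq : ∀ i ∈ R, ∀ j ∈ R, U i → U j → i = j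
  ev : ∀ i ∈ R, ν i % 2 = 0 → ν i ∣ 2 * k
  pr : ∀ r : ℕ, r.Prime → r ∣ 4 * k * I → ¬ r ∣ 4 * k → ∃ i ∈ R, r ∣ a i
  he : 1 - 1 / (4 * k * I : ℚ) = (2 * k - 1) / (4 * k) + ∑ i ∈ R, tm (a i) (ν i)
  hI : (I : ℚ) = 1 + 2 * k * (2 * k - 1) +
    4 * k * ∑ i ∈ R, if ν i % 2 = 0 then ((a i : ℚ) - 1) / ν i else 0

variable [DecidableEq ι] {R : Finset ι} {a ν : ι → ℕ} {U : ι → Prop} {I k : ℕ}

theorem Fam5.adv (h : Fam5 R a ν U I k) {i : ι} (hi : i ∈ R) : a i ∣ I :=
  (h.copc i hi).dvd_of_dvd_mul_left ((dvd_mul_right _ _).trans (h.dvd i hi))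

theorem le1 {S : Finset ι} (f : ι → ℚ) {c : ℚ} (h0 : 0 ≤ c) (h : ∀ j ∈ S, c ≤ f j)
    (e : ∑ j ∈ S, f j < 2 * c) : S = ∅ ∨ ∃ j, S = {j} := by
  have := card_nsmul_le_sum S f c h
  rw [nsmul_eq_mul] at this
  have : (S.card : ℚ) < 2 := lt_of_mul_lt_mul_right (this.trans_lt e) h0
  have : S.card < 2 := by exact_mod_cast this
  obtain e | e : S.card = 0 ∨ S.card = 1 := by omega
  exacts [Or.inl (card_eq_zero.1 e), Or.inr (card_eq_one.1 e)]

set_option maxHeartbeats 1000000 in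
theorem Fam5.main (h : Fam5 R a ν U I k) {i : ι} (hi : i ∈ R) (n3 : ν i = 3) : k = 2 ∧ I = 21 := by
  classical
  have f3 : ∀ j ∈ R, ν j = 3 → 7 ≤ a j ∧ a j % 6 = 1 := fun j hj e => by
    have := e ▸ h.nu_dvd j hj
    have := h.three_le j hj
    have := h.odd j hj
    omega
  have f4 : ∀ j ∈ R, ν j = 4 → 5 ≤ a j ∧ a j % 4 = 1 := fun j hj e => by
    have := e ▸ h.nu_dvd j hj
    have := h.three_le j hj
    omega
  obtain ⟨i7, i6⟩ := f3 i hi n3
  let x : ι → ℚ := fun j => 1 / (a j : ℚ)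
  have xp : ∀ j ∈ R, 0 < x j := fun j hj => inv_pos' (by have := h.three_le j hj; omega)
  have xl : ∀ j (n : ℕ), 0 < n → n ≤ a j → x j ≤ 1 / n := fun j n h1 h2 => inv_le_of h1 h2
  have ap : ∀ j ∈ R, (a j : ℚ) ≠ 0 := fun j hj => by have := h.three_le j hj; positivity
  have he := h.he
  have hI := h.hI
  rw [sum_congr rfl (fun j hj => tm_eq (by have := h.three_le j hj; omega)
    (by have := h.two_le j hj; omega))] at he
  change _ = _ + ∑ j ∈ R, (1 - x j) / ν j at he
  have hk := h.kpos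
  have k0 : (0 : ℚ) < k := by exact_mod_cast hk
  have I0 : (1 : ℚ) ≤ I := by exact_mod_cast h.Ipos
  have e1 : (2 * k - 1) / (4 * k) = 1 / 2 - (1 / (k : ℚ)) / 4 := by field_simp; ring
  have gp : (0 : ℚ) < 1 / (4 * k * I) := by positivity
  have gl : 1 / (4 * k * I : ℚ) ≤ 1 / (k : ℚ) / 4 := by
    rw [div_div, mul_comm (k : ℚ)]
    exact one_div_le_one_div_of_le (by positivity) (le_mul_of_one_le_right (by positivity) I0)
  rw [e1, ← add_sum_erase R _ hi, n3] at he
  rw [← add_sum_erase R _ hi, n3, if_neg (by decide), zero_add] at hI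
  have xi := xl i 7 (by decide) i7
  have xi0 := xp i hi
  have nn : ∀ j ∈ R, 0 ≤ (1 - x j) / ν j := fun j hj => by
    have := xl j 3 (by decide) (h.three_le j hj)
    push_cast at this
    exact div_nonneg (by linarith) (by positivity)
  have g3 : 3 ∣ 4 * k * I := (Dvd.intro_left _ (by rw [n3])).trans (h.dvd i hi)
  have l2 : ∀ j ∈ R, ν j = 2 → 1 / 3 ≤ (1 - x j) / ν j := fun j hj e => by
    have := xl j 3 (by decide) (h.three_le j hj)
    rw [e]; push_cast at this ⊢; linarith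
  have l4 : ∀ j ∈ R, ν j = 4 → 1 / 5 ≤ (1 - x j) / ν j := fun j hj e => by
    have := xl j 5 (by decide) (f4 j hj e).1
    rw [e]; push_cast at this ⊢; linarith
  push_cast at he xi
  rcases (show k ≤ 2 ∨ 3 ≤ k by omega) with k2 | k3
  · rw [← sum_filter] at hI
    have sE := sum_le_sum_of_subset_of_nonneg (filter_subset (fun j => ν j % 2 = 0) (R.erase i))
      (f := fun j => (1 - x j) / ν j) fun j hj _ => nn j (mem_of_mem_erase hj)
    have mE : ∀ j ∈ (R.erase i).filter fun j => ν j % 2 = 0, j ∈ R ∧ ν j ∣ 2 * k ∧ ν j % 2 = 0 :=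
      fun j hj => by
        obtain ⟨a, b⟩ := mem_filter.1 hj
        exact ⟨mem_of_mem_erase a, h.ev j (mem_of_mem_erase a) b, b⟩
    have di := h.adv hi
    generalize (R.erase i).filter (fun j => ν j % 2 = 0) = E at *
    obtain rfl | rfl : k = 1 ∨ k = 2 := by omega
    · have m2 : ∀ j ∈ E, ν j = 2 := fun j hj => by
        have := Nat.le_of_dvd two_pos (mE j hj).2.1
        have := h.two_le j (mE j hj).1
        omega
      exfalso
      rcases le1 (fun j => (1 - x j) / ν j) (c := 1 / 3) (by norm_num)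
        (fun j hj => l2 j (mE j hj).1 (m2 j hj)) (by push_cast at he; linarith) with rfl | ⟨j, rfl⟩
      · obtain rfl : I = 3 := by exact_mod_cast (show (I : ℚ) = 3 by rw [hI]; norm_num)
        have := Nat.le_of_dvd (by decide) di
        omega
      · rw [sum_singleton, m2 j (mem_singleton_self j)] at hI
        obtain rfl : I = a j * 2 + 1 := by exact_mod_cast (show (I : ℚ) = a j * 2 + 1 by rw [hI]; push_cast; ring)
        have j1 := (mE j (mem_singleton_self j)).1
        have := Nat.le_of_dvd one_pos ((Nat.dvd_add_right (dvd_mul_right _ 2)).1 (h.adv j1))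
        have := h.three_le j j1
        omega
    have m2 : ∀ j ∈ E, ν j = 2 ∨ ν j = 4 := fun j hj => by
      have := Nat.le_of_dvd (by decide) (mE j hj).2.1
      have := h.two_le j (mE j hj).1
      have := (mE j hj).2.2
      omega
    refine ⟨rfl, ?_⟩
    rcases le1 (fun j => (1 - x j) / ν j) (c := 1 / 5) (by norm_num)
      (fun j hj => (m2 j hj).elim (fun e => by linarith [l2 j (mE j hj).1 e]) (l4 j (mE j hj).1))
      (by push_cast at he; linarith) with rfl | ⟨j, rfl⟩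
    · obtain rfl : I = 13 := by exact_mod_cast (show (I : ℚ) = 13 by rw [hI]; norm_num)
      omega
    have j1 := (mE j (mem_singleton_self j)).1
    have dj := h.adv j1
    have := h.three_le j j1
    have := h.odd j j1
    rw [sum_singleton] at hI sE
    rcases m2 j (mem_singleton_self j) with e | e <;> rw [e] at hI sE
    · obtain rfl : I = a j * 4 + 9 := by exact_mod_cast (show (I : ℚ) = a j * 4 + 9 by rw [hI]; push_cast; ring)
      by_contra n
      have := xl j 5 (by decide) (by omega)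
      push_cast at this he sE gp; linarith
    · obtain rfl : I = a j * 2 + 11 := by exact_mod_cast (show (I : ℚ) = a j * 2 + 11 by rw [hI]; push_cast; ring)
      have := (Nat.dvd_prime (by decide)).1 ((Nat.dvd_add_right (dvd_mul_right _ 2)).1 dj)
      have := f4 j j1 e
      omega
  exfalso
  have kl : 1 / (k : ℚ) ≤ 1 / (3 : ℕ) := inv_le_of three_pos k3
  push_cast at kl
  have sg : ∀ j ∈ R.erase i, (1 - x j) / ν j ≤ ∑ j ∈ R.erase i, (1 - x j) / ν j := fun j hj =>
    single_le_sum (f := fun j => (1 - x j) / ν j) (fun j hj => nn j (mem_of_mem_erase hj)) hj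
  have kT : ∀ j ∈ (R.erase i).filter fun j => ν j ≤ 4, j ∈ R ∧ j ≠ i ∧ ν j = 4 := fun j hj => by
    obtain ⟨j1, j2⟩ := mem_filter.1 hj
    have s := sg j j1
    obtain ⟨j3, j4⟩ := mem_erase.1 j1
    refine ⟨j4, j3, ?_⟩
    have := h.two_le j j4
    obtain e | e | e : ν j = 2 ∨ ν j = 3 ∨ ν j = 4 := by omega
    · linarith [l2 j j4 e]
    · exfalso
      have c := h.cop j j4 i hi j3
      obtain ⟨b1, b2⟩ := f3 j j4 e
      rw [e] at s
      rcases (show 13 ≤ a j ∨ 13 ≤ a i by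
        by_contra n
        rw [show a j = 7 by omega, show a i = 7 by omega] at c; exact absurd c (by decide)) with b | b
      · have := xl j 13 (by decide) b
        push_cast at this s; linarith
      · have := xl i 13 (by decide) b
        have := xl j 7 (by decide) b1
        push_cast at *; linarith
    · exact e
  have kS : ∀ j ∈ (R.erase i).filter fun j => ¬ ν j ≤ 4, j ∈ R ∧ j ≠ i ∧ 5 ≤ ν j ∧ U j := fun j hj => by
    obtain ⟨j1, j2⟩ := mem_filter.1 hj
    obtain ⟨j3, j4⟩ := mem_erase.1 j1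
    exact ⟨j4, j3, by omega, (h.kind j j4).resolve_left j2⟩
  have mR : ∀ j ∈ R, j = i ∨ j ∈ (R.erase i).filter (fun j => ν j ≤ 4) ∨
      j ∈ (R.erase i).filter fun j => ¬ ν j ≤ 4 := fun j hj => by
    simp only [mem_filter, mem_erase]; tauto
  have sT := sum_le_sum_of_subset_of_nonneg (filter_subset (fun j => ν j ≤ 4) (R.erase i))
    (f := fun j => (1 - x j) / ν j) fun j hj _ => nn j (mem_of_mem_erase hj)
  have cT := le1 (fun j => (1 - x j) / ν j) (c := 1 / 5) (by norm_num)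
    (fun j hj => l4 j (kT j hj).1 (kT j hj).2.2) (by linarith)
  rw [← sum_filter_add_sum_filter_not (R.erase i) (fun j => ν j ≤ 4)] at he hI
  generalize (R.erase i).filter (fun j => ν j ≤ 4) = T at *
  generalize (R.erase i).filter (fun j => ¬ ν j ≤ 4) = S at *
  have cS : S = ∅ ∨ ∃ u, S = {u} := by
    rcases S.eq_empty_or_nonempty with e | ⟨u, hu⟩
    · exact Or.inl e
    · exact Or.inr ⟨u, eq_singleton_iff_unique_mem.2 ⟨hu, fun j hj =>
        h.uniq j (kS j hj).1 u (kS u hu).1 (kS j hj).2.2.2 (kS u hu).2.2.2⟩⟩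
  have p3 : 3 ∣ k ∨ ∃ j, (j ∈ T ∨ j ∈ S) ∧ 3 ∣ a j := or_iff_not_imp_left.2 fun n => by
    obtain ⟨j, hj, e⟩ := h.pr 3 Nat.prime_three g3 (by omega)
    exact ⟨j, (mR j hj).resolve_left (by rintro rfl; omega), e⟩
  have := ap i hi
  have c0 : ∀ {b c : ℕ}, I = b * c → (c : ℚ) ≠ 0 ∧ (1 : ℤ) ≤ c := fun {b c} e => by
    have : 0 < c := Nat.pos_of_ne_zero (by rintro rfl; exact h.Ipos.ne' e)
    exact ⟨by positivity, by omega⟩
  rcases cS with rfl | ⟨u, rfl⟩
  · rcases cT with rfl | ⟨j, rfl⟩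
    · simp only [sum_empty] at he; linarith
    obtain ⟨j1, j2, e⟩ := kT j (mem_singleton_self j)
    obtain ⟨c, hc⟩ := (h.cop i hi j j1 j2.symm).mul_dvd_of_dvd_of_dvd (h.adv hi) (h.adv j1)
    obtain ⟨c1, c2⟩ := c0 hc
    have := ap j j1
    obtain ⟨b1, b2⟩ := f4 j j1 e
    simp only [sum_empty, sum_singleton, e, hc, x] at he hI
    refine dA (k := k) (a := a i) (b := a j) (c := c) (by omega) (by omega) (by omega) (by omega) c2
      (by simp at p3; omega) ?_ ?_
    · qify; push_cast at hI; linear_combination hI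
    · push_cast at he; field_simp at he; qify; linear_combination -he / 2
  obtain ⟨u1, u2, u3, -⟩ := kS u (mem_singleton_self u)
  obtain ⟨v, hv⟩ := h.nu_dvd u u1
  have u4 := h.three_le u u1
  have uo := h.odd u u1
  have v0 : 1 ≤ v := Nat.pos_of_ne_zero (by rintro rfl; omega)
  have hu : a u = ν u * v + 1 := by omega
  have d0 : (0 : ℚ) < ν u := by positivity
  have xu := xp u u1
  have := ap u u1
  rcases cT with rfl | ⟨j, rfl⟩
  · have d5 : ν u = 5 := by
      by_contra n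
      have := lt_of_lt_of_le (div_lt_div_of_pos_right (show 1 - x u < 1 by linarith) d0)
        (inv_le_of (b := 6) (by decide) (by omega))
      simp only [sum_empty, sum_singleton] at he
      push_cast at this; linarith
    obtain ⟨c, hc⟩ := (h.cop i hi u u1 u2.symm).mul_dvd_of_dvd_of_dvd (h.adv hi) (h.adv u1)
    obtain ⟨c1, c2⟩ := c0 hc
    have p5 : 5 ∣ k ∨ 5 ∣ a i := or_iff_not_imp_left.2 fun n => by
      obtain ⟨j, hj, e⟩ := h.pr 5 (by decide) ((Dvd.intro_left _ (by rw [d5])).trans (h.dvd u u1)) (by omega)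
      rcases mR j hj with rfl | f | f
      · exact e
      · simp at f
      · rw [mem_singleton.1 f, hu, d5] at e; omega
    simp only [sum_empty, sum_singleton, d5, hc, x] at he hI hu
    refine dB (k := k) (a := a i) (u := a u) (c := c) (by omega) (by omega) (by omega) (by omega) c2
      (by simp at p3; omega) (by omega) ?_ ?_
    · qify; push_cast at hI; linear_combination hI
    · push_cast at he; field_simp at he; qify; linear_combination -he / 2
  obtain ⟨j1, j2, e⟩ := kT j (mem_singleton_self j)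
  have ju : j ≠ u := by rintro rfl; omega
  obtain ⟨c, hc⟩ := (Nat.Coprime.mul_left (h.cop i hi u u1 u2.symm) (h.cop j j1 u u1 ju)).mul_dvd_of_dvd_of_dvd
    ((h.cop i hi j j1 j2.symm).mul_dvd_of_dvd_of_dvd (h.adv hi) (h.adv j1)) (h.adv u1)
  obtain ⟨c1, c2⟩ := c0 hc
  have := ap j j1
  obtain ⟨b1, b2⟩ := f4 j j1 e
  simp only [sum_empty, sum_singleton, e, hc, x, hu] at he hI p3
  refine dC (k := k) (a := a i) (b := a j) (d := ν u) (v := v) (e := if ν u % 2 = 0 then 1 else 0) (c := c)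
    (by omega) (by omega) (by omega) (by omega) (by omega) (by omega) (by omega) (by split_ifs <;> omega) c2
    ?_ ?_ ?_
  · rcases p3 with f | ⟨l, f | f, f'⟩
    · omega
    · rw [mem_singleton.1 f] at f'; omega
    · rw [mem_singleton.1 f, hu] at f'; exact Or.inr (Or.inr (by exact_mod_cast f'))
  · push_cast at hI
    rw [add_sub_cancel_right, mul_div_cancel_left₀ _ d0.ne'] at hI
    split_ifs at hI ⊢ <;> qify <;> linear_combination hI
  · push_cast at he; field_simp at he; qify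
    exact mul_left_cancel₀ d0.ne' (by linear_combination -he / 2)

end Cfsg.Agent.H2.LF
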