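import Cfsg.Agent.H2.L4F2
import Cfsg.Agent.H2.L4F3

/-! Counting pairs of involutions in groups with dihedral centralisers. -/

set_option autoImplicit false
set_option linter.unusedSectionVars false
set_option linter.unusedVariables false
set_option linter.unusedSimpArgs false

namespace Cfsg.Agent.H2.LF

open Cfsg.Agent.H8.M3 Subgroup
open Cfsg.Agent.H6.S4 (DD OddAb cc_of)
open Cfsg.Agent.H2.SP (CC_inverts)

universe u

variable {G : Type u} [Group G] [Finite G] {t m x y r w : G} {k p : ℕ}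

theorem inv_of (hr : IsInv r) (h : IsInv (r * x)) : r * x * r⁻¹ = x⁻¹ := by
  rw [hr.inv_eq, eq_inv_iff_mul_eq_one, ← h.1]; group

theorem ev_inv (hn : NI x) (he : nu x % 2 = 0) : ∃ w, IsInv w ∧ w ∈ normalizer (Cen x : Set G) := by
  obtain ⟨⟨w, hw⟩, e⟩ := exists_prime_orderOf_dvd_card' (G := normalizer (Cen x : Set G)) 2
    (card_normalizer_eq x ▸ Dvd.dvd.mul_left (by omega) _)
  rw [← orderOf_coe] at e
  exact ⟨w, ⟨by rw [← sq, ← e, pow_orderOf_eq_one], fun e' => by simp [e'] at e⟩, hw⟩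

theorem coset (h : CC x) (hn : NI x) (hw : IsInv w) (hw' : w ∈ normalizer (Cen x : Set G))
    (hy : y ∈ Cen x) : IsInv (w * y) := ⟨by
  have := CC_inverts h hn.card_odd hw hw' hy
  rw [hw.inv_eq] at this
  rw [← mul_assoc, this, inv_mul_cancel], fun e => hn w hw (by
    rw [eq_inv_of_mul_eq_one_left e]; exact inv_mem hy)⟩

theorem two_cen (e : w * x * w⁻¹ = x⁻¹) (e' : r * x * r⁻¹ = x⁻¹) : w⁻¹ * r ∈ Cen x := by
  rw [mem_Cen, eq_comm, ← mul_inv_eq_iff_eq_mul, show w⁻¹ * r * x * (w⁻¹ * r)⁻¹ =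
    w⁻¹ * (r * x * r⁻¹) * w by group, e', ← e]; group

theorem nu_ev (hD : AD G k) (h : CC x) (hn : NI x) (he : nu x % 2 = 0) : nu x ∣ 2 * k := by
  obtain ⟨w, hw, hw'⟩ := ev_inv hn he
  obtain ⟨⟨m, D⟩, -⟩ := hD w hw
  have iv := fun r hr hr' => CC_inverts (w := r) h hn.card_odd hr hr' (self_mem_Cen x)
  have nm := normal_in_normalizer (H := Cen x)
  have le : normalizer (Cen x : Set G) ⊓ Cen w ≤ zpowers m := fun y hy => by
    by_contra n
    have a := two_cen (iv w hw hw') (iv y ⟨D.out y hy.2 n, fun e => n (e ▸ one_mem _)⟩ hy.1)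
    refine hn _ ⟨D.out _ (mul_mem (inv_mem (self_mem_Cen w)) hy.2) ?_, fun e => n ?_⟩ a
    · rwa [mul_mem_cancel_left (inv_mem D.tmem)]
    · exact inv_mul_eq_one.1 e ▸ D.tmem
  rw [← D.ord, ← Nat.card_zpowers]
  refine (card_dvd_of_surjective ((QuotientGroup.mk' ((Cen x).subgroupOf _)).comp
    (inclusion (inf_le_left (b := Cen w)))) fun n => ?_).trans (card_dvd_of_le le)
  obtain ⟨⟨n, hn'⟩, rfl⟩ := QuotientGroup.mk'_surjective _ n
  have a := two_cen (iv _ (hw.conj n) (mul_mem (mul_mem hn' hw') (inv_mem hn'))) (iv w hw hw')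
  rw [(hw.conj n).inv_eq] at a
  obtain ⟨j, hj⟩ := Nat.odd_iff.2 hn.card_odd
  have b2 : (n * w * n⁻¹ * w) ^ (j + 1) * (n * w * n⁻¹ * w) ^ (j + 1) = n * w * n⁻¹ * w := by
    rw [← pow_add, show j + 1 + (j + 1) = 2 * j + 1 + 1 by ring, ← hj, pow_succ,
      show (n * w * n⁻¹ * w) ^ Nat.card (Cen x) = 1 from
        congrArg Subtype.val (pow_card_eq_one' (x := (⟨_, a⟩ : Cen x))), one_mul]
  have b1 := pow_mem a (j + 1)
  generalize (n * w * n⁻¹ * w) ^ (j + 1) = b at *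
  have b3 := CC_inverts h hn.card_odd hw hw' (inv_mem b1)
  have b4 : b * w * b⁻¹ = n * w * n⁻¹ := by
    rw [show b * w * b⁻¹ = b * (w * b⁻¹ * w⁻¹) * w by group, b3, inv_inv, b2, mul_assoc _ w w, hw.1, mul_one]
  refine ⟨⟨b⁻¹ * n, mem_inf.2 ⟨mul_mem (inv_mem (le_normalizer b1)) hn', mem_Cen.2 ?_⟩⟩, ?_⟩
  · rw [eq_comm, ← mul_inv_eq_iff_eq_mul, show b⁻¹ * n * w * (b⁻¹ * n)⁻¹ = b⁻¹ * (n * w * n⁻¹) * b by group,
      ← b4]; group
  · refine (QuotientGroup.mk'_eq_mk' _).2 ⟨⟨n⁻¹ * b * n, mul_mem (mul_mem (inv_mem hn') (le_normalizer b1)) hn'⟩,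
      ?_, Subtype.ext (by simp [mul_assoc])⟩
    simpa [mem_subgroupOf] using (mem_normalizer_iff.1 (inv_mem hn') b).1 b1

/-- ways to write `x` as a product of two involutions -/
def pr (x : G) : Set G := {r | IsInv r ∧ IsInv (r * x)}

theorem pr_conj (g x : G) : (pr (g * x * g⁻¹)).ncard = (pr x).ncard :=
  (ncard_conj_eq g (pr x) _ fun y => ⟨fun h => And.intro (h.1.conj g) (by rw [conj_mul]; exact h.2.conj g),
    fun h => And.intro h.1.of_conj (by have := h.2; rw [conj_mul] at this; exact this.of_conj)⟩).symm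

theorem pr_sum [Fintype G] : (Invs G).ncard * (Invs G).ncard = ∑ x : G, (pr x).ncard := by
  classical
  rw [Set.ncard_eq_toFinset_card', ← Finset.card_product,
    Finset.card_eq_sum_card_fiberwise (f := fun z : G × G => z.1 * z.2) (t := Finset.univ) (by simp)]
  refine Finset.sum_congr rfl fun x _ => ?_
  rw [Set.ncard_eq_toFinset_card']
  refine Finset.card_bij (fun z _ => z.1) (fun z hz => ?_) (fun z hz z' hz' e => ?_) fun r hr => ?_
  · simp only [Finset.mem_filter, Finset.mem_product, Set.mem_toFinset] at hz ⊢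
    obtain ⟨⟨a, b⟩, rfl⟩ := hz
    exact ⟨a, by rwa [← mul_assoc, a.1, one_mul]⟩
  · have e2 := (Finset.mem_filter.1 hz).2.trans (Finset.mem_filter.1 hz').2.symm
    exact Prod.ext e (by rwa [e, mul_right_inj] at e2)
  · simp only [Set.mem_toFinset] at hr
    exact ⟨(r, r * x), by
      simp only [Finset.mem_filter, Finset.mem_product, Set.mem_toFinset]
      exact ⟨hr, by rw [← mul_assoc, hr.1.1, one_mul]⟩, rfl⟩

theorem pr_zp (h : DD t m k) (hab : OddAb G) (hx : x ∈ zpowers m) (x1 : x ≠ 1) : (pr x).ncard = 2 * k := by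
  have e : pr x = (Cen t : Set G) \ zpowers m := Set.ext fun r => ⟨fun ⟨a, b⟩ => ⟨?_, fun c => x1 (by
      have := (cyc_inv_unique (mul_mem c hx) h.tmem b h.inv).trans (cyc_inv_unique c h.tmem a h.inv).symm
      simpa using this)⟩, fun ⟨a, b⟩ => by
      have c : r * x ∉ zpowers m := by rwa [mul_mem_cancel_right hx]
      exact ⟨⟨h.out r a b, fun e => b (e ▸ one_mem _)⟩, h.out _ (mul_mem a (h.le hx)) c,
        fun e => c (e ▸ one_mem _)⟩⟩
  · have := Set.ncard_diff_add_ncard_of_subset (show (zpowers m : Set G) ⊆ Cen t from h.le)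
    rw [← card_eq_ncard, ← card_eq_ncard, h.card, Nat.card_zpowers, h.ord] at this
    rw [e]; omega
  have i := inv_of a b
  by_cases x2 : x * x = 1
  · obtain rfl := cyc_inv_unique hx h.tmem ⟨x2, x1⟩ h.inv
    rw [h.inv.inv_eq] at i
    exact mem_Cen.2 (mul_inv_eq_iff_eq_mul.1 i).symm
  obtain ⟨s, hs⟩ := Set.ncard_eq_one.1 (h.ni hab (h.le hx) x2)
  have tx := mem_Cen_comm.1 (h.le hx)
  have e1 : t ∈ ({s} : Set G) := hs ▸ ⟨h.inv, tx⟩
  have e2 : r * t * r⁻¹ ∈ ({s} : Set G) := hs ▸ ⟨h.inv.conj r, by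
    have := (conj_mem_Cen r).2 tx
    rw [i, mem_Cen_comm, inv_mem_iff, mem_Cen_comm] at this
    exact this⟩
  exact mem_Cen.2 (mul_inv_eq_iff_eq_mul.1 (e2.trans e1.symm)).symm

theorem zp_conj (hG : SN G) (h : DD t m k) (hn : ¬ NI x) : ∃ g, g * x * g⁻¹ ∈ zpowers m := by
  obtain ⟨g, hg⟩ := not_ni_conj (h.conj hG) hn
  by_cases e : g * x * g⁻¹ ∈ zpowers m
  · exact ⟨g, e⟩
  obtain ⟨g', e'⟩ := h.conj hG _ ⟨h.out _ hg e, fun f => e (f ▸ one_mem _)⟩
  exact ⟨g'⁻¹ * g, by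
    rw [show g'⁻¹ * g * x * (g'⁻¹ * g)⁻¹ = g'⁻¹ * (g * x * g⁻¹) * g' by group, ← e']
    simpa [mul_assoc] using h.tmem⟩

theorem pr_ni (h : CC x) (hn : NI x) : (pr x).ncard = if nu x % 2 = 0 then Nat.card (Cen x) else 0 := by
  have nr : ∀ r ∈ pr x, r ∈ normalizer (Cen x : Set G) := fun r hr =>
    h.mem_normalizer (self_mem_Cen x) h.1 (by rw [inv_of hr.1 hr.2]; exact inv_mem (self_mem_Cen x))
  split_ifs with e
  · obtain ⟨w, hw, hw'⟩ := ev_inv hn e
    rw [card_eq_ncard, ← Set.ncard_image_of_injective (Cen x : Set G) (mul_right_injective w)]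
    congr 1
    refine Set.ext fun r => ⟨fun hr => ⟨w⁻¹ * r, two_cen (CC_inverts h hn.card_odd hw hw' (self_mem_Cen x))
      (inv_of hr.1 hr.2), by simp⟩, ?_⟩
    rintro ⟨y, hy, rfl⟩
    exact ⟨coset h hn hw hw' hy, mul_assoc w y x ▸ coset h hn hw hw' (mul_mem hy (self_mem_Cen x))⟩
  · rw [Set.ncard_eq_zero, Set.eq_empty_iff_forall_notMem]
    intro r hr
    have := (normalizer (Cen x : Set G)).orderOf_dvd_natCard (nr r hr)
    rw [hr.1.orderOf, card_normalizer_eq, Nat.prime_two.dvd_mul] at this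
    have := hn.card_odd
    omega

theorem sr (hG : SN G) (h : DD t m k) (hab : OddAb G) (e : x ≠ 1 → NI x → nu x % 2 = 0) :
    ∃ r s, IsInv r ∧ IsInv s ∧ x = r * s := by
  by_cases x1 : x = 1
  · exact ⟨t, t, h.inv, h.inv, by rw [x1, h.inv.1]⟩
  obtain ⟨r, a, b⟩ : (pr x).Nonempty := Set.nonempty_of_ncard_ne_zero (by
    by_cases hn : NI x
    · rw [pr_ni (cc_of hab x1 hn) hn, if_pos (e x1 hn)]; exact Nat.card_pos.ne'
    · obtain ⟨g, hg⟩ := zp_conj hG h hn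
      rw [← pr_conj g, pr_zp h hab hg (conj_ne_one x1)]
      have := h.pos; omega)
  exact ⟨r, r * x, a, b, by rw [← mul_assoc, a.1, one_mul]⟩

theorem count (hG : SN G) (hD : DD t m k) (hab : OddAb G) (hp : p.Prime)
    (n4 : ∀ x : G, x ≠ 1 → NI x → ¬ p ∣ Nat.card (Cen x) → nu x ≤ 4) (x1 : x ≠ 1) (hx : NI x)
    (n3 : nu x = 3) : Nat.card G = 168 ∧ Nat.card (Cen x) = 7 := by
  classical
  have := Fintype.ofFinite G
  have hI := hD.conj hG
  have cc0 : ∀ x ∈ {x : G | x ≠ 1 ∧ NI x}, CC x := fun x hx => cc_of hab hx.1 hx.2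
  obtain ⟨R, h1, h2, h3, h4⟩ := cc_count _ cc0 (fun x hx g => ⟨conj_ne_one hx.1, hx.2.conj g⟩)
    (fun x hx y hy y1 => ⟨y1, fun r hr e => hx.2 r hr ((cc0 x hx).2 y hy y1 ▸ e)⟩)
  have cc := fun x hx => cc0 x (h1 x hx)
  have h5 : ∀ x ∈ R, 3 ≤ Nat.card (Cen x) := fun x hx => by
    have := (h1 x hx).2.card_odd
    have : Nontrivial (Cen x) := ⟨⟨⟨x, self_mem_Cen x⟩, 1, fun e => (h1 x hx).1 (congrArg Subtype.val e)⟩⟩
    have := Finite.one_lt_card (α := Cen x)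
    omega
  have tr : ∀ ρ ∈ R, ∀ y ∈ ccls ρ, Nat.card (Cen y) = Nat.card (Cen ρ) ∧ nu y = nu ρ ∧ NI y :=
    fun ρ hρ y hy => by
      obtain ⟨y1, g, hg⟩ := mem_ccls.1 hy
      have e := (cc ρ hρ).2 _ hg (conj_ne_one y1)
      exact ⟨by rw [← e, card_Cen_conj], by rw [← nu_congr e, nu_conj], by
        simpa [mul_assoc] using NI.conj (x := g * y * g⁻¹) (fun r hr f => (h1 ρ hρ).2 r hr (e ▸ f)) g⁻¹⟩
  have gI := ncard_Inv_mul hI hD.inv
  rw [hD.card, mul_comm] at gI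
  have I0 : 0 < (Invs G).ncard := Nat.pos_of_ne_zero fun e => by
    rw [e] at gI; exact Nat.card_pos.ne gI
  have g0 : (Nat.card G : ℚ) ≠ 0 := by exact_mod_cast Nat.card_pos.ne'
  have gq : (Nat.card G : ℚ) = 4 * k * (Invs G).ncard := by rw [← gI]; push_cast; ring
  have he := hD.class_eq hG hab
  have k0 : (0 : ℚ) < k := by exact_mod_cast hD.pos
  have pt : ∀ y : G, (pr y).ncard = (if y = 1 then (Invs G).ncard else 0) +
      (if y ≠ 1 ∧ ¬ NI y then 2 * k else 0) +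
      ∑ ρ ∈ R, if y ∈ ccls ρ then (if nu ρ % 2 = 0 then Nat.card (Cen ρ) else 0) else 0 := fun y => by
    by_cases y1 : y = 1
    · subst y1
      simp [mem_ccls, pr, Invs]
    by_cases hn : NI y
    · obtain ⟨ρ, hρ, g, hg⟩ := h2 y ⟨y1, hn⟩
      have a := mem_ccls.2 ⟨y1, g, hg⟩
      rw [Finset.sum_eq_single_of_mem ρ hρ fun σ hσ ne => if_neg fun b => by
        have := h3 σ hσ ρ hρ ne
        rw [← (tr σ hσ y b).1, (tr ρ hρ y a).1, Nat.coprime_self] at this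
        have := h5 ρ hρ; omega]
      rw [pr_ni (cc_of hab y1 hn) hn, (tr ρ hρ y a).1, (tr ρ hρ y a).2.1]
      simp [y1, hn, a]
    · obtain ⟨g, hg⟩ := zp_conj hG hD hn
      rw [← pr_conj g, pr_zp hD hab hg (conj_ne_one y1), Finset.sum_eq_zero fun ρ hρ =>
        if_neg fun b => hn (tr ρ hρ y b).2.2]
      simp [y1, hn]
  have a3 := pr_sum (G := G)
  rw [Finset.sum_congr rfl fun y _ => pt y, Finset.sum_add_distrib, Finset.sum_add_distrib, Finset.sum_comm,
    Finset.sum_ite_eq'] at a3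
  simp only [Finset.mem_univ, if_true, Finset.sum_ite _ (fun _ => 0), Finset.sum_const, smul_eq_mul,
    mul_zero, add_zero] at a3
  have a4 : ∀ ρ ∈ R, ((((Finset.univ.filter fun x => x ∈ ccls ρ).filter fun _ => nu ρ % 2 = 0).card *
      Nat.card (Cen ρ) : ℕ) : ℚ) =
      Nat.card G * if nu ρ % 2 = 0 then ((Nat.card (Cen ρ) : ℚ) - 1) / nu ρ else 0 := fun ρ hρ => by
    have e := congrArg (Nat.cast : ℕ → ℚ) (cc ρ hρ).ncard_ccls
    have : (nu ρ : ℚ) ≠ 0 := by have := (cc ρ hρ).two_le_nu hG; positivity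
    rw [Set.ncard_eq_toFinset_card', show (ccls ρ).toFinset = Finset.univ.filter fun x => x ∈ ccls ρ by
      ext; simp] at e
    split_ifs with c
    · rw [Finset.filter_true_of_mem fun _ _ => c]
      push_cast [Nat.cast_sub Nat.card_pos] at e ⊢
      field_simp
      linear_combination e
    · simp [c]
  have a5 : (Finset.univ.filter fun y : G => y ≠ 1 ∧ ¬ NI y).card + {x : G | x ≠ 1 ∧ NI x}.ncard + 1 =
      Nat.card G := by
    rw [Set.ncard_eq_toFinset_card', ← Finset.card_union_of_disjoint (by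
      simp only [Finset.disjoint_left, Finset.mem_filter, Set.mem_toFinset, Set.mem_setOf_eq]; tauto),
      Nat.card_eq_fintype_card, ← Finset.card_univ, ← Finset.card_erase_add_one (Finset.mem_univ (1 : G))]
    congr 2; ext; simp; tauto
  have a6 := congrArg (Nat.cast : ℕ → ℚ) a3
  rw [Nat.cast_add, Nat.cast_sum, Finset.sum_congr rfl a4, ← Finset.mul_sum] at a6
  have a7 := congrArg (Nat.cast : ℕ → ℚ) a5
  have I1 : ((Invs G).ncard : ℚ) ≠ 0 := by positivity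
  have o : ∀ (y g : G) (A : Subgroup G), g * y * g⁻¹ ∈ A → orderOf y ∣ Nat.card A := fun y g A e => by
    have := A.orderOf_dvd_natCard e
    rwa [← MulAut.conj_apply, MulEquiv.orderOf_eq] at this
  have F : Fam5 R (fun x => Nat.card (Cen x)) nu (fun x => p ∣ Nat.card (Cen x)) (Invs G).ncard k := by
    refine ⟨fun x hx => (h1 x hx).2.card_odd, h5, fun x hx => (cc x hx).nu_dvd,
      fun x hx => (cc x hx).two_le_nu hG, fun x _ => gI ▸ mul_nu_dvd x, hD.pos, I0, h3,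
      fun x hx => Nat.coprime_of_dvd fun r hr a b => ?_,
      fun x hx => or_iff_not_imp_right.2 (n4 x (h1 x hx).1 (h1 x hx).2), fun x hx y hy a b => ?_,
      fun x hx => nu_ev (ad_of hG hD) (cc x hx) (h1 x hx).2, fun r hr a b => ?_, ?_, ?_⟩
    · obtain ⟨y, hy, hn⟩ := exists_not_ni hD.inv r hr (hD.card ▸ b)
      obtain ⟨g, hg⟩ := (cc x hx).exists_conj hr a hy
      exact hn (tr x hx y (mem_ccls.2 ⟨fun e => hr.one_lt.ne (by simpa [e] using hy), g, hg⟩)).2.2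
    · by_contra hne
      have := Nat.dvd_gcd a b
      rw [h3 x hx y hy hne] at this
      exact hp.one_lt.ne' (Nat.dvd_one.1 this)
    · have := Fact.mk hr
      obtain ⟨y, hy⟩ := exists_prime_orderOf_dvd_card' r (gI ▸ a)
      obtain ⟨x, hx, g, e⟩ := h2 y ⟨fun e => hr.one_lt.ne (by simpa [e] using hy), by
        by_contra hn
        obtain ⟨g, hg⟩ := not_ni_conj hI hn
        exact b (hD.card ▸ hy ▸ o y g _ hg)⟩
      exact ⟨x, hx, hy ▸ o y g _ e⟩
    · rw [← gq, he, h4, mul_div_cancel_left₀ _ g0]; rfl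
    · push_cast at a6 a7
      rw [gq] at a6 a7 he
      field_simp at he
      exact mul_left_cancel₀ I1 (by linear_combination a6 + 2 * k * a7 + 2 * k * he)
  obtain ⟨ρ, hρ, g, hg⟩ := h2 x ⟨x1, hx⟩
  obtain ⟨e1, e2, -⟩ := tr ρ hρ x (mem_ccls.2 ⟨x1, g, hg⟩)
  obtain ⟨rfl, e3⟩ := F.main hρ (e2 ▸ n3)
  have a := F.adv hρ
  have b := F.nu_dvd ρ hρ
  have c := h5 ρ hρ
  simp only [e3, ← e1, ← e2, n3] at a b c gI
  refine ⟨gI.symm, ?_⟩
  have := Nat.le_of_dvd (by decide) a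
  interval_cases Nat.card (Cen x) <;> omega

end Cfsg.Agent.H2.LF
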