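import Cfsg.Agent.H2.L4F4
import Cfsg.Agent.H8.L4.Hm3a

/-! The generic case in `SL_4`: tori, traces, invariant forms. -/

set_option autoImplicit false
set_option linter.unusedSectionVars false
set_option linter.unusedVariables false
set_option linter.unusedSimpArgs false

namespace Cfsg.Agent.H2.LF

open Module Cfsg.Agent.H6.L4 Cfsg.Agent.H8.M3 Subgroup
open Cfsg.Agent.H6.S4 (nc um ui iu u_ne DD OddAb cc_of)

universe u

variable {k V : Type*} [Field k] [AddCommGroup V] [Module k V] [FiniteDimensional k V]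
  {G : Type u} [Group G] {P : Subgroup (End k V)ˣ} {π : P →* G} {p n : ℕ}
  {g : (End k V)ˣ} {v : V} {U : Submodule k V} {x s : G}

theorem li_wt {A ι : Type*} [Monoid A] (ρ : A → End k V) (w : ι → A →* k) (inj : Function.Injective w)
    (v : ι → V) (v0 : ∀ i, v i ≠ 0) (e : ∀ i y, ρ y (v i) = w i y • v i) : LinearIndependent k v := by
  refine linearIndependent_iff'.2 fun S c h i hi => ?_
  refine (smul_eq_zero.1 ((forall_dual_apply_eq_zero_iff k _).1 fun φ => ?_)).resolve_right (v0 i)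
  rw [map_smul]
  refine linearIndependent_iff'.1 ((linearIndependent_monoidHom A k).comp w inj) S
    (fun i => c i • φ (v i)) (funext fun y => ?_) i hi
  have := congrArg (fun v => φ (ρ y v)) h
  simpa [e, mul_comm, mul_left_comm, mul_assoc] using this

theorem coef0 {A ι : Type*} [Monoid A] [Fintype ι] (w : ι → A →* k) (c : ι → k) (i : ι)
    (h : ∀ j, j ≠ i → w j ≠ w i) (e : ∀ y, ∑ j, c j * w j y = 0) : c i = 0 := by
  classical
  have := linearIndependent_iff.1 (linearIndependent_monoidHom A k) (∑ j, Finsupp.single (w j) (c j))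
    (funext fun y => by simpa [map_sum] using e y)
  have := DFunLike.congr_fun this (w i)
  rwa [Finsupp.finset_sum_apply, Finset.sum_eq_single i (fun j _ n => Finsupp.single_eq_of_ne (h j n).symm)
    (by simp), Finsupp.single_eq_same] at this

theorem free [Finite G] (h : CC x) (s : normalizer (Cen x : Set G)) (hs : s.1 ∉ Cen x) (χ : Cen x →* k)
    (e : ∀ y, χ ((Cen x).normalizerMonoidHom s y) = χ y) : χ = 1 := MonoidHom.ext fun z => by
  obtain ⟨y, rfl⟩ := Finite.surjective_of_injective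
    (f := fun y : Cen x => y⁻¹ * (Cen x).normalizerMonoidHom s y) (fun y z f => by
      by_contra n
      have f' : y.1⁻¹ * (s * y * s.1⁻¹) = z.1⁻¹ * (s * z * s.1⁻¹) := congrArg Subtype.val f
      refine hs ((h.2 _ (z * y⁻¹).2 (fun e => n (mul_inv_eq_one.1 (Subtype.ext e)).symm)).le (mem_Cen.2 ?_))
      calc z.1 * y.1⁻¹ * s = z * (y.1⁻¹ * (s * y * s.1⁻¹)) * s * y.1⁻¹ := by group
        _ = _ := by rw [f']; simp [mul_assoc]) z
  rw [map_mul, e, ← map_mul, inv_mul_cancel, map_one]; rfl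

variable [IsAlgClosed k]

theorem ceig {ι : Type*} (f : ι → End k V) (c : ∀ i j, f i * f j = f j * f i) (U : Submodule k V)
    (h0 : ∃ v ∈ U, v ≠ 0) (h : ∀ i, ∀ v ∈ U, f i v ∈ U) : ∃ v ∈ U, v ≠ 0 ∧ ∀ i, ∃ l : k, f i v = l • v := by
  induction hn : finrank k U using Nat.strong_induction_on generalizing U with
  | _ n ih =>
  by_cases s : ∀ i, ∃ l : k, ∀ v ∈ U, f i v = l • v
  · obtain ⟨v, hv, v0⟩ := h0
    exact ⟨v, hv, v0, fun i => (s i).imp fun l e => e v hv⟩
  push Not at s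
  obtain ⟨i, s⟩ := s
  obtain ⟨l, w, hw, w0, e⟩ := eigv h0 (h i)
  obtain ⟨z, hz, n⟩ := s l
  obtain ⟨v, hv, r⟩ := ih _ (hn ▸ Submodule.finrank_lt_finrank_of_lt (s := U ⊓ (f i).eigenspace l)
    (lt_of_le_of_ne inf_le_left fun e => n (End.mem_eigenspace_iff.1 (e.ge hz).2))) (U ⊓ (f i).eigenspace l)
    ⟨w, ⟨hw, End.mem_eigenspace_iff.2 e⟩, w0⟩ (fun j v hv => ⟨h j v hv.1, End.mem_eigenspace_iff.2 (by
      rw [← End.mul_apply, c, End.mul_apply, End.mem_eigenspace_iff.1 hv.2, map_smul])⟩) rfl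
  exact ⟨v, hv.1, r⟩

theorem exists_chi {A : Type*} [Monoid A] (ρ : A →* End k V) (c : ∀ i j, ρ i * ρ j = ρ j * ρ i)
    (U : Submodule k V) (h0 : ∃ v ∈ U, v ≠ 0) (h : ∀ i, ∀ v ∈ U, ρ i v ∈ U) :
    ∃ (χ : A →* k) (v : V), v ∈ U ∧ v ≠ 0 ∧ ∀ y, ρ y v = χ y • v := by
  obtain ⟨v, hv, v0, e⟩ := ceig ρ c U h0 h
  choose χ e using e
  exact ⟨⟨⟨χ, smul_left_injective k v0 (by simp [← e])⟩, fun a b => smul_left_injective k v0 (by
    simp only; rw [← e, map_mul, End.mul_apply, e, map_smul, e, smul_smul, mul_comm])⟩, v, hv, v0, e⟩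

theorem dle (P : Subgroup (End k V)ˣ) : ⁅P, P⁆ ≤ P := commutator_le.2 fun a ha b hb =>
  P.mul_mem (P.mul_mem (P.mul_mem ha hb) (P.inv_mem ha)) (P.inv_mem hb)

theorem surjD (h : St P π) (y : G) : ∃ g : P, g.1 ∈ ⁅P, P⁆ ∧ π g = y := by
  obtain ⟨g, rfl⟩ := h.surj y
  obtain ⟨x, hx, z, hz, s, e⟩ := h.core g.2
  refine ⟨⟨x, dle P hx⟩, hx, ?_⟩
  rw [show g = ⟨z, hz⟩ * ⟨x, dle P hx⟩ from Subtype.ext e, map_mul, (h.ker ⟨z, hz⟩).2 s, one_mul]

theorem scD (h : St P π) (m : G) (hg : g ∈ ⁅P, P⁆) {c : k} (e : g.1 = c • 1) :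
    c ^ (zpowers m).index = 1 := by
  have := h.fin
  have := h.nontriv
  have le := dle P
  have : Finite ↥⁅P, P⁆ := Finite.of_injective _ (inclusion_injective le)
  let φ := π.comp (inclusion le)
  have sj : Function.Surjective φ := fun y => let ⟨g, a, b⟩ := surjD h y; ⟨⟨g, a⟩, b⟩
  obtain ⟨M, rfl⟩ := h.surj m
  obtain ⟨χ, v, -, v0, hv⟩ := exists_chi ((Units.coeHom _).comp ((⁅P, P⁆).subtype.comp
    ((zpowers (π M)).comap φ).subtype)) (fun a b => by
      obtain ⟨i, hi⟩ := a.2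
      obtain ⟨j, hj⟩ := b.2
      obtain ⟨α, ha⟩ := h.eq_iff.1 ((hi.symm.trans (map_zpow π M i).symm))
      obtain ⟨β, hb⟩ := h.eq_iff.1 ((hj.symm.trans (map_zpow π M j).symm))
      change a.1.1.1 * b.1.1.1 = b.1.1.1 * a.1.1.1
      have := congrArg (fun x : P => x.1.1) (Commute.zpow_zpow_self M i j).eq
      simp only [coe_mul, Units.val_mul] at this
      rw [show a.1.1.1 = _ from ha, show b.1.1.1 = _ from hb]
      simp only [nc k V, this, smul_comm α]) ⊤ (by simpa using exists_ne (0 : V)) (by simp)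
  rw [← index_comap_of_surjective _ sj]
  refine H8.L4.trz h.perf _ χ ⟨g, hg⟩ fun x n hm => smul_left_injective k v0 ?_
  simp only
  rw [← hv]
  change x.1⁻¹.1 ((g ^ n).1 (x.1.1 v)) = _
  simp [e, smul_pow]

theorem irrD (h : St P π) (U : Submodule k V) (e : ∀ g ∈ ⁅P, P⁆, ∀ v ∈ U, g.1 v ∈ U) : U = ⊥ ∨ U = ⊤ :=
  h.irr U fun g hg v hv => by
    obtain ⟨x, hx, z, -, ⟨c, hc⟩, rfl⟩ := h.core hg
    simpa [hc] using U.smul_mem c (e x hx v hv)

theorem burn (h : St P π) (X : End k V) :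
    X ∈ Submodule.span k (Set.range fun g : ↥⁅P, P⁆ => g.1.1) := by
  classical
  have := h.nontriv
  let A : Subalgebra k (End k V) := (Submodule.span k (Set.range fun g : ↥⁅P, P⁆ => g.1.1)).toSubalgebra
    (Submodule.subset_span ⟨1, rfl⟩) fun x y hx hy => by
      have := Submodule.mul_mem_mul hx hy
      rw [Submodule.span_mul_span] at this
      refine Submodule.span_mono ?_ this
      rintro _ ⟨_, ⟨a, rfl⟩, _, ⟨b, rfl⟩, rfl⟩
      exact ⟨a * b, rfl⟩
  have mA : ∀ g ∈ ⁅P, P⁆, g.1 ∈ A := fun g hg => Submodule.subset_span ⟨⟨g, hg⟩, rfl⟩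
  have : IsSimpleModule A V := (isSimpleModule_iff A V).2 ⟨fun W => by
    simpa using irrD h (W.restrictScalars k) fun g hg v hv => W.smul_mem (⟨_, mA g hg⟩ : A) hv⟩
  let f : End (End A V) V := ⟨⟨X, X.map_add⟩, fun a w => by
    obtain ⟨c, hc⟩ := h.schur (X := a.restrictScalars k) fun g hg => by
      obtain ⟨x, hx, z, -, ⟨c, hc⟩, rfl⟩ := h.core hg
      refine LinearMap.ext fun v => ?_
      have := a.map_smul (⟨_, mA x hx⟩ : A) v
      simp only [Units.val_mul, hc, End.mul_apply, LinearMap.smul_apply, End.one_apply, map_smul]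
      exact congrArg _ this.symm
    have e : ∀ v, a v = c • v := LinearMap.congr_fun hc
    change X (a w) = a (X w)
    rw [e, e, map_smul]⟩
  let b := finBasis k V
  obtain ⟨r, hr⟩ := jacobson_density f (Finset.univ.image b)
  rw [show X = r.1 from b.ext fun i => hr _ (by simp)]
  exact r.2

theorem tr_nd {X : End k V} (e : ∀ Y, LinearMap.trace k V (X * Y) = 0) : X = 0 :=
  LinearMap.ext fun v => (forall_dual_apply_eq_zero_iff k _).1 fun φ => by
    have := e (φ.smulRight v)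
    rwa [show X * φ.smulRight v = φ.smulRight (X v) by ext; simp, LinearMap.trace_smulRight] at this

theorem sd (h : St P π) (e : ∀ g ∈ ⁅P, P⁆, LinearMap.trace k V g.1 = LinearMap.trace k V g⁻¹.1) : False := by
  have := h.nontriv
  let φ := Finsupp.linearCombination k fun g : ↥⁅P, P⁆ => g.1.1
  let ψ := Finsupp.linearCombination k fun g : ↥⁅P, P⁆ => g⁻¹.1.1
  have sj : LinearMap.range φ = ⊤ := by
    rw [Finsupp.range_linearCombination, eq_top_iff]; exact fun X _ => burn h X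
  have t1 : ∀ (g : ↥⁅P, P⁆) r, LinearMap.trace k V (φ r * g.1.1) = LinearMap.trace k V (ψ r * g⁻¹.1.1) :=
    fun g r => by
      induction r using Finsupp.induction_linear with
      | zero => simp
      | add a b ha hb => simp only [map_add, add_mul, ha, hb]
      | single a c =>
        simp only [φ, ψ, Finsupp.linearCombination_single, smul_mul_assoc, map_smul]
        rw [LinearMap.trace_mul_comm k a⁻¹.1.1]
        exact congrArg _ (by simpa using e _ (a * g).2)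
  have nd : ∀ X : End k V, (∀ g : ↥⁅P, P⁆, LinearMap.trace k V (X * g.1.1) = 0) → X = 0 := fun X hX =>
    tr_nd fun Y => Submodule.span_induction (by rintro _ ⟨g, rfl⟩; exact hX g) (by simp)
      (fun a b _ _ ha hb => by simp [mul_add, ha, hb]) (fun c a _ ha => by simp [ha]) (burn h Y)
  have k1 : ∀ r, φ r = 0 ↔ ψ r = 0 := fun r => ⟨fun e => nd _ fun g => by simpa [e] using (t1 g⁻¹ r).symm,
    fun e => nd _ fun g => by simpa [e] using t1 g r⟩
  obtain ⟨τ, hτ⟩ := φ.exists_rightInverse_of_surjective sj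
  replace hτ : ∀ X, φ (τ X) = X := LinearMap.congr_fun hτ
  have eq : ∀ (g : ↥⁅P, P⁆) X, ψ (τ (g.1.1 * X)) = ψ (τ X) * g⁻¹.1.1 := fun g X => by
    have : ∀ r, φ (r.mapDomain (g * ·)) = g.1.1 * φ r ∧ ψ (r.mapDomain (g * ·)) = ψ r * g⁻¹.1.1 := fun r => by
      induction r using Finsupp.induction_linear with
      | zero => simp
      | add a b ha hb => simp only [Finsupp.mapDomain_add, map_add, add_mul, mul_add, ha, hb, and_self]
      | single a c => simp [φ, ψ]
    rw [← (this _).2, ← sub_eq_zero, ← map_sub, ← k1, map_sub, (this _).1, hτ, hτ, sub_self]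
  obtain ⟨v, v0⟩ := exists_ne (0 : V)
  obtain ⟨f, hf⟩ : ∃ f : Dual k V, f v ≠ 0 := by
    by_contra! n; exact v0 ((forall_dual_apply_eq_zero_iff k _).1 n)
  have z : ∀ f' : Dual k V, ∀ w, f' (ψ (τ (f.smulRight v)) w) = 0 := fun f' w => by
    have := h.nsd ((((ψ ∘ₗ τ) ∘ₗ LinearMap.smulRightₗ f)).compr₂ f') fun g hg => by
      obtain ⟨x, hx, z, -, ⟨c, hc⟩, rfl⟩ := h.core hg
      refine ⟨c * c, fun u w => ?_⟩
      have := eq ⟨x, hx⟩ (f.smulRight u)
      rw [show x.1 * f.smulRight u = LinearMap.smulRightₗ f (x.1 u) by ext; simp] at this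
      simp only [Units.val_mul, hc, End.mul_apply, LinearMap.smul_apply, End.one_apply, map_smul,
        LinearMap.compr₂_apply, LinearMap.comp_apply, this, smul_eq_mul, mul_assoc]
      simp
    exact LinearMap.congr_fun (LinearMap.congr_fun this v) w
  have := (k1 _).2 (LinearMap.ext fun w => (forall_dual_apply_eq_zero_iff k _).1 fun f' => z f' w)
  rw [hτ] at this
  simpa [hf, v0] using LinearMap.congr_fun this v

/-- a torus with a non-trivial weight -/
structure To (π : P →* G) (x : G) (ℓ : Cen x →* P) (χ : Cen x →* k) (v : V) : Prop where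
  pi : ∀ y, π (ℓ y) = y
  pw : ∀ y, (ℓ y).1 ^ Nat.card (Cen x) = 1
  v0 : v ≠ 0
  ap : ∀ y, (ℓ y).1.1 v = χ y • v
  ne : χ ≠ 1

theorem exists_To (h : St P π) (c : CC x) (hn : NI x) (hp : (Nat.card (Cen x) : k) ≠ 0) :
    ∃ ℓ χ v, To π x ℓ χ v := by
  have := h.finG
  have ho := Nat.odd_iff.2 hn.card_odd
  choose l l1 l2 using fun y : Cen x => lift h (y := y.1) ho (congrArg Subtype.val (pow_card_eq_one' (x := y)))
  have cm : ∀ y z, (l y).1 * (l z).1 = (l z).1 * (l y).1 := fun y z =>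
    comm h ho (l2 z) (by rw [l1, l1]; exact mem_Cen.2 (c.comm z.2 y.2))
  let ℓ : Cen x →* P := MonoidHom.mk' l fun y z => uniq h (by simp [l1]) ho ho (l2 _) (by
    rw [coe_mul, Commute.mul_pow (cm y z), l2, l2, one_mul])
  let a := l ⟨x, self_mem_Cen x⟩
  obtain ⟨χ, v, ⟨w, hw⟩, v0, e⟩ := exists_chi ((Units.coeHom _).comp (P.subtype.comp ℓ))
    (fun y z => congrArg Units.val (cm y z)) (LinearMap.range (a.1.1 - (1 : k) • 1)) (by
      by_contra! n
      refine c.1 ((l1 ⟨x, self_mem_Cen x⟩).symm.trans ((h.ker _).2 ⟨1, LinearMap.ext fun v => ?_⟩))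
      simpa [sub_eq_zero] using n _ ⟨v, rfl⟩) fun y => sb_range (cm y _) 1
  refine ⟨ℓ, χ, v, l1, l2, v0, e, fun n => v0 (noss hp (l2 ⟨x, self_mem_Cen x⟩) (α := 1) (w := w) ?_ hw)⟩
  simpa [n, ℓ] using e ⟨x, self_mem_Cen x⟩

variable {ℓ : Cen x →* P} {χ : Cen x →* k}

theorem To.cj (T : To π x ℓ χ v) (h : St P π) (hn : NI x) {n : normalizer (Cen x : Set G)} {g : P}
    (e : π g = n) (y : Cen x) (w : V) :
    (ℓ y).1.1 (g.1.1 w) = g.1.1 ((ℓ ((Cen x).normalizerMonoidHom n⁻¹ y)).1.1 w) := by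
  have := h.finG
  have ho := Nat.odd_iff.2 hn.card_odd
  rw [← conj_eq h (x := g) ho ho (T.pw ((Cen x).normalizerMonoidHom n⁻¹ y)) (T.pw y) (by
    rw [T.pi, T.pi, e]; change n.1 * (n.1⁻¹ * y * n.1⁻¹⁻¹) * n.1⁻¹ = _; group), um, um, ui]

theorem To.inj [Finite G] (T : To π x ℓ χ v) (c : CC x) {a b : normalizer (Cen x : Set G)}
    (e : χ.comp ((Cen x).normalizerMonoidHom a⁻¹).toMonoidHom =
      χ.comp ((Cen x).normalizerMonoidHom b⁻¹).toMonoidHom) : (a⁻¹ * b).1 ∈ Cen x := by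
  by_contra n
  refine T.ne (free c _ n χ fun y => ?_)
  simpa using DFunLike.congr_fun e ((Cen x).normalizerMonoidHom b y)

theorem nu4 (h : St P π) (c : CC x) (hn : NI x) (hp : (Nat.card (Cen x) : k) ≠ 0) : nu x ≤ 4 := by
  have := h.finG
  obtain ⟨ℓ, χ, v, T⟩ := exists_To h c hn hp
  choose s hs using h.surj
  have := Fintype.ofFinite (normalizer (Cen x : Set G) ⧸ (Cen x).subgroupOf (normalizer (Cen x : Set G)))
  have := (li_wt (ι := normalizer (Cen x : Set G) ⧸ (Cen x).subgroupOf (normalizer (Cen x : Set G)))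
    (fun y => (ℓ y).1.1) (fun q => χ.comp ((Cen x).normalizerMonoidHom q.out⁻¹).toMonoidHom)
    (fun a b e => by rw [← a.out_eq', ← b.out_eq', QuotientGroup.eq]; exact T.inj c e)
    (fun q => (s q.out).1.1 v) (fun q => u_ne _ T.v0) fun q y => by
      rw [T.cj h hn (hs _), T.ap, map_smul]; rfl).fintype_card_le_finrank
  rwa [h.dim, ← Nat.card_eq_fintype_card] at this

variable [hp : Fact p.Prime] [CharP k p]

theorem unip (h : Beta P π) (hab : OddAb G) (x1 : x ≠ 1) (hn : NI x) (hd : p ∣ Nat.card (Cen x))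
    {g : P} (e : π g = x) : ∃ α β : k, (g.1.1 - α • 1) ^ p = 0 ∧ (g.1⁻¹.1 - β • 1) ^ p = 0 := by
  have := h.finG
  obtain ⟨⟨u, hu⟩, ho⟩ := exists_prime_orderOf_dvd_card' p hd
  rw [← orderOf_coe] at ho
  obtain ⟨u, rfl, up⟩ := lift h.toSt (podd (p := p) h.toSt) (y := u) (by rw [← ho]; exact pow_orderOf_eq_one _)
  have c := comm h.toSt (podd h.toSt) up (mem_Cen_comm.1 (e ▸ hu))
  have H := (ucen h u.2 up fun e => hp.out.one_lt.ne (by
    rw [← ho]; simp [show u = 1 from Subtype.ext e])).1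
  obtain ⟨α, a⟩ := H _ g.2 c
  obtain ⟨β, b⟩ := H _ g⁻¹.2 (Commute.inv_left c)
  exact ⟨α, β, a, b⟩

theorem tr_nil (hd : finrank k V = 4) {X : End k V} {α : k} (e : (X - α • 1) ^ p = 0) :
    LinearMap.trace k V X = 4 * α := by
  have := (LinearMap.isNilpotent_trace_of_isNilpotent ⟨p, e⟩).eq_zero
  rw [map_sub, map_smul, LinearMap.trace_one, hd] at this
  simpa [sub_eq_zero, mul_comm] using this

theorem dd (h : Beta P π) {t m : G} {q : ℕ} (D : DD t m q) : CD p G := by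
  have := h.finG
  have hD := ad_of h.sn D
  have hab := oddAb (p := p) h hD
  have n4 : ∀ x : G, x ≠ 1 → NI x → ¬ p ∣ Nat.card (Cen x) → nu x ≤ 4 := fun x x1 hn e =>
    nu4 h.toSt (cc_of hab x1 hn) hn ((CharP.cast_eq_zero_iff k p _).not.2 e)
  by_cases e : ∃ x : G, x ≠ 1 ∧ NI x ∧ ¬ p ∣ Nat.card (Cen x) ∧ nu x = 3
  · obtain ⟨x, x1, hn, e, n3⟩ := e
    obtain ⟨a, b⟩ := count h.sn D hab hp.out n4 x1 hn n3
    exact ⟨a, by rintro rfl; exact e (b ▸ dvd_rfl)⟩
  push Not at e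
  have s2 : ∀ g ∈ ⁅P, P⁆, ∀ c : k, g.1 = c • 1 → c * c = 1 := fun g hg c f => by
    have a := scD h.toSt m hg f
    have b := (zpowers m).card_mul_index
    rw [← (Cen t).card_mul_index, D.card, Nat.card_zpowers, D.ord] at b
    rw [show (zpowers m).index = 2 * (Cen t).index from Nat.eq_of_mul_eq_mul_left (by have := D.pos; omega)
      (b.trans (by ring)), pow_mul, sq] at a
    exact one_of (Nat.odd_iff.2 D.odd) a (by linear_combination h.four (dle P hg) f)
  refine (sd h.toSt fun g hg => ?_).elim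
  lift g to P using dle P hg
  by_cases o : π g ≠ 1 → NI (π g) → nu (π g) % 2 = 0
  · obtain ⟨r, s, hr, hs, f⟩ := sr h.sn D hab o
    obtain ⟨y, rfl⟩ := (hD s hs).2 r hr
    obtain ⟨r, r1, rfl⟩ := surjD h.toSt r
    obtain ⟨y, y1, rfl⟩ := surjD h.toSt y
    obtain ⟨c, hc⟩ := (h.ker (r * r)).1 (by rw [map_mul, hr.1])
    have c2 := s2 _ (mul_mem r1 r1) c hc
    obtain ⟨ε, hε⟩ := (h.ker (g * (r * (y * r * y⁻¹))⁻¹)).1 (by simp [f, mul_assoc])
    have ε2 := s2 _ (mul_mem hg (inv_mem (mul_mem r1 (mul_mem (mul_mem y1 r1) (inv_mem y1))))) ε hε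
    replace hc : r.1.1 * r.1.1 = c • 1 := hc
    have g1 : g.1.1 = ε • (r.1.1 * (y.1.1 * (r.1.1 * y.1⁻¹.1))) := by
      have := congrArg (· * (r * (y * r * y⁻¹)).1.1) hε
      simp only [← Units.val_mul, ← coe_mul, inv_mul_cancel_right] at this
      simpa only [nc k V, coe_mul, coe_inv] using this
    have g2 : g.1⁻¹.1 = ε • (y.1.1 * (r.1.1 * y.1⁻¹.1) * r.1.1) := Units.inv_eq_of_mul_eq_one_left (by
      have : ∀ X, r.1.1 * (r.1.1 * X) = c • X := fun X => by rw [← mul_assoc, hc]; simp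
      simp only [g1, nc k V, this, smul_smul]
      rw [show ε * (ε * (c * c)) = 1 by linear_combination ε2 + ε * ε * c2, one_smul])
    rw [g1, g2, map_smul, map_smul, LinearMap.trace_mul_comm]
  push Not at o
  obtain ⟨x1, hn, o⟩ := o
  obtain ⟨α, β, a, b⟩ := unip (p := p) h hab x1 hn (by
    by_contra f
    have := n4 _ x1 hn f
    have := e _ x1 hn f
    have := (cc_of hab x1 hn).two_le_nu h.sn
    omega) rfl
  rw [tr_nil h.dim a, tr_nil h.dim b]
  rw [frob h.toSt, sub_eq_zero, ← Units.val_pow_eq_pow_val] at a b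
  have c := s2 _ (pow_mem hg p) _ a
  have d := h.sc' (a := α ^ p * β ^ p) (b := 1) (by
    rw [mul_smul, ← b, ← smul_one_mul, ← a, ← Units.val_mul, inv_pow, mul_inv_cancel, one_smul]; rfl)
  rw [frobenius_inj k p (show α ^ p = β ^ p by linear_combination β ^ p * c - α ^ p * d)]

end Cfsg.Agent.H2.LF
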