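import Cfsg.Agent.H2.L4F5

/-! The generic case in `SL_4`: groups of odd order. -/

set_option autoImplicit false
set_option linter.unusedSectionVars false
set_option linter.unusedVariables false
set_option linter.unusedSimpArgs false

namespace Cfsg.Agent.H2.LF

open Module Cfsg.Agent.H6.L4 Cfsg.Agent.H8.M3 Subgroup
open Cfsg.Agent.H6.S4 (nc um ui iu u_ne DD OddAb cc_of Dih exists_DD)

universe u

variable {k V : Type*} [Field k] [AddCommGroup V] [Module k V] [FiniteDimensional k V]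
  {G : Type u} [Group G] {P : Subgroup (End k V)ˣ} {π : P →* G} {p n : ℕ} {v : V} {x : G}
  [IsAlgClosed k] {ℓ : Cen x →* P} {χ : Cen x →* k}

theorem fr3 (h : St P π) (c : CC x) (hn : NI x) (T : To π x ℓ χ v) (n3 : nu x = 3)
    (hp : (Nat.card (Cen x) : k) ≠ 0) : ∃ (s : P) (e1 e2 f : V) (χ1 χ2 : Cen x →* k), s.1 ^ 3 = 1 ∧
      I4 k v e1 e2 f ∧ s.1.1 v = e1 ∧ s.1.1 e1 = e2 ∧ s.1.1 e2 = v ∧ s.1.1 f = f ∧
      (∀ y, (ℓ y).1.1 e1 = χ1 y • e1 ∧ (ℓ y).1.1 e2 = χ2 y • e2 ∧ (ℓ y).1.1 f = f ∧ χ y * χ1 y * χ2 y = 1) ∧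
      χ ≠ χ1 ∧ χ ≠ χ2 ∧ χ1 ≠ 1 ∧ χ2 ≠ 1 := by
  classical
  have := h.finG
  have : Fact (Nat.Prime 3) := ⟨Nat.prime_three⟩
  obtain ⟨n, hn3⟩ := exists_prime_orderOf_dvd_card' (G := normalizer (Cen x : Set G)) 3
    (by rw [card_normalizer_eq, n3]; exact dvd_mul_left _ _)
  have n3' : n ^ 3 = 1 := hn3 ▸ pow_orderOf_eq_one n
  have nA : n.1 ∉ Cen x := fun e => by
    have a := (Cen x).orderOf_dvd_natCard e
    have b := c.nu_dvd
    have := Nat.card_pos (α := Cen x)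
    rw [orderOf_coe, hn3] at a
    rw [n3] at b
    omega
  have n2 : n * n = n⁻¹ := eq_inv_of_mul_eq_one_left (by rw [← n3', pow_three'])
  obtain ⟨s, hs, s3⟩ := lift h (y := n.1) (n := 3) (by decide) (congrArg Subtype.val n3')
  let ψ : normalizer (Cen x : Set G) → Cen x →* k := fun a =>
    χ.comp ((Cen x).normalizerMonoidHom a⁻¹).toMonoidHom
  have ψ1 : ψ 1 = χ := by ext; simp [ψ]
  have ψm : ∀ a b y, ψ a ((Cen x).normalizerMonoidHom b y) = ψ (b⁻¹ * a) y := fun a b y => by simp [ψ]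
  have ψn : ∀ a, ψ a ≠ 1 := fun a e => T.ne (MonoidHom.ext fun y => by
    simpa [e, ψ1] using (ψm a a y).symm)
  have d01 : ψ 1 ≠ ψ n := fun e => nA (by simpa using T.inj c e)
  have d02 : ψ 1 ≠ ψ n⁻¹ := fun e => nA (by simpa using T.inj c e)
  have d12 : ψ n ≠ ψ n⁻¹ := fun e => nA (by
    have := T.inj c e
    rwa [← mul_inv_rev, n2, inv_inv] at this)
  have w1 : ∀ y, (ℓ y).1.1 (s.1.1 v) = ψ n y • s.1.1 v := fun y => by
    rw [T.cj h hn hs, T.ap, map_smul]; rfl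
  have w2 : ∀ y, (ℓ y).1.1 (s.1.1 (s.1.1 v)) = ψ n⁻¹ y • s.1.1 (s.1.1 v) := fun y => by
    rw [T.cj h hn hs, w1, map_smul, ψm, inv_inv, n2]
  have li := li_wt (fun y => (ℓ y).1.1) ![ψ 1, ψ n, ψ n⁻¹] (fun i j e => by
      fin_cases i <;> fin_cases j <;> simp_all) ![v, s.1.1 v, s.1.1 (s.1.1 v)]
    (fun i => by fin_cases i; exacts [T.v0, u_ne _ T.v0, u_ne _ (u_ne _ T.v0)]) fun i y => by
      fin_cases i; exacts [ψ1 ▸ T.ap y, w1 y, w2 y]
  obtain ⟨z, hz⟩ := ext4 h.dim (a := v) (b := s.1.1 v) (c := s.1.1 (s.1.1 v)) fun a b d e => by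
    have := Fintype.linearIndependent_iff.1 li ![a, b, d] (by simpa [Fin.sum_univ_three] using e)
    exact ⟨this 0, this 1, this 2⟩
  have pr : ∀ y, χ y * ψ n y * ψ n⁻¹ y = 1 := fun y => DFunLike.congr_fun (free c n nA
    (ψ 1 * ψ n * ψ n⁻¹) fun y => by
      simp only [MonoidHom.mul_apply, ψm, mul_one, inv_mul_cancel, ← mul_inv_rev, n2, inv_inv]; ring) y |>
    fun e => by simpa [ψ1] using e
  have hz' : ∀ y, ∃ a b d : k, (ℓ y).1.1 z = a • v + b • s.1.1 v + d • s.1.1 (s.1.1 v) + z := fun y => by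
    obtain ⟨a, b, d, r, e⟩ := hz.span h.dim ((ℓ y).1.1 z)
    have dt := hz.det (X := (ℓ y).1.1) h.dim (a0 := χ y) (b0 := 0) (c0 := 0) (d0 := 0) (a1 := 0) (b1 := ψ n y)
      (c1 := 0) (d1 := 0) (a2 := 0) (b2 := 0) (c2 := ψ n⁻¹ y) (d2 := 0) (by simp [T.ap]) (by simp [w1])
      (by simp [w2]) e
    rw [h.det _ (ℓ y).2] at dt
    obtain rfl : r = 1 := by linear_combination -dt - r * pr y
    exact ⟨a, b, d, by simpa using e⟩
  choose α β γ hz' using hz'
  have := Fintype.ofFinite (Cen x)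
  obtain ⟨f, hf⟩ : ∃ f, f = ∑ y, (ℓ y).1.1 z := ⟨_, rfl⟩
  have ff : ∀ y, (ℓ y).1.1 f = f := fun y => by
    rw [hf, map_sum, ← Equiv.sum_comp (Equiv.mulLeft y) fun y => (ℓ y).1.1 z]
    simp
  have i4 : I4 k v (s.1.1 v) (s.1.1 (s.1.1 v)) f := fun a b d r e => by
    simp only [hf, hz', Finset.sum_add_distrib, ← Finset.sum_smul, Finset.sum_const, Finset.card_univ,
      ← Nat.card_eq_fintype_card, ← Nat.cast_smul_eq_nsmul k] at e
    obtain ⟨e1, e2, e3, e4⟩ := hz (a + r * ∑ y, α y) (b + r * ∑ y, β y) (d + r * ∑ y, γ y)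
      (r * Nat.card (Cen x)) (by linear_combination (norm := module) e)
    obtain rfl := (mul_eq_zero.1 e4).resolve_right hp
    simpa using And.intro e1 (And.intro e2 e3)
  have s3' : s.1.1 (s.1.1 (s.1.1 v)) = v := by
    rw [← um, ← um, ← pow_three', s3]; rfl
  refine ⟨s, _, _, f, ψ n, ψ n⁻¹, s3, i4, rfl, rfl, s3', ?_, fun y => ⟨w1 y, w2 y, ff y, pr y⟩, ψ1 ▸ d01,
    ψ1 ▸ d02, ψn _, ψn _⟩
  obtain ⟨a, b, d, r, e⟩ := i4.span h.dim (s.1.1 f)
  have q : ∀ y, χ y * a = a ∧ ψ n y * b = b ∧ ψ n⁻¹ y * d = d := fun y => by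
    have := T.cj h hn hs y f
    rw [ff, e] at this
    simp only [map_add, map_smul, T.ap, w1, w2, ff, smul_smul, mul_comm a, mul_comm b, mul_comm d] at this
    exact ⟨(i4.eq this).1, (i4.eq this).2.1, (i4.eq this).2.2.1⟩
  have z0 : ∀ (φ : Cen x →* k) (a : k), φ ≠ 1 → (∀ y, φ y * a = a) → a = 0 := fun φ a n e => by
    by_contra a0
    exact n (MonoidHom.ext fun y => mul_right_cancel₀ a0 (by simp [e y]))
  rw [z0 _ a T.ne fun y => (q y).1, z0 _ b (ψn _) fun y => (q y).2.1, z0 _ d (ψn _) fun y => (q y).2.2] at e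
  have dt := i4.det (X := s.1.1) h.dim (a0 := 0) (b0 := 1) (c0 := 0) (d0 := 0) (a1 := 0) (b1 := 0)
    (c1 := 1) (d1 := 0) (a2 := 1) (b2 := 0) (c2 := 0) (d2 := 0) (by simp) (by simp) (by simp [s3']) e
  rw [h.det _ s.2] at dt
  rw [e, show r = 1 by linear_combination -dt]; simp

variable [hp : Fact p.Prime] [CharP k p]

include hp in
theorem noinv (h : Beta P π) (no : ∀ t : G, ¬ IsInv t) : False := by
  have := h.finG
  have hab := oddAb (p := p) (q := 0) h fun t ht => (no t ht).elim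
  have ni : ∀ x : G, NI x := fun x r hr => absurd hr (no r)
  have od : Odd (Nat.card G) := by
    by_contra e
    obtain ⟨w, e⟩ := exists_prime_orderOf_dvd_card' (G := G) 2 (Nat.not_odd_iff_even.1 e).two_dvd
    exact no w ⟨by rw [← sq, ← e, pow_orderOf_eq_one], fun e' => by simp [e'] at e⟩
  have s1 : ∀ g ∈ ⁅P, P⁆, ∀ c : k, g.1 = c • 1 → c = 1 := fun g hg c f => by
    have a := scD h.toSt 1 hg f
    rw [zpowers_one_eq_bot, index_bot] at a
    exact one_of od a (one_of od (by rw [mul_pow, a, one_mul]) (by linear_combination h.four (dle P hg) f))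
  have oD : ∀ g : P, g.1 ∈ ⁅P, P⁆ → g.1 ^ Nat.card G = 1 := fun g hg => by
    obtain ⟨c, hc⟩ := (h.ker (g ^ Nat.card G)).1 (by rw [map_pow, pow_card_eq_one'])
    exact Units.ext (by simpa [s1 _ (pow_mem hg _) c hc] using hc)
  have mD : ∀ (g : P) (n : ℕ), Odd n → g.1 ^ n = 1 → g.1 ∈ ⁅P, P⁆ := fun g n hn e => by
    obtain ⟨g', a, b⟩ := surjD h.toSt (π g)
    rwa [← uniq h.toSt b od hn (oD _ a) e]
  have n3 : ∀ x : G, x ≠ 1 → ¬ p ∣ Nat.card (Cen x) → nu x = 3 := fun x x1 e => by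
    have := nu4 h.toSt (cc_of hab x1 (ni x)) (ni x) ((CharP.cast_eq_zero_iff k p _).not.2 e)
    have := (cc_of hab x1 (ni x)).two_le_nu h.sn
    have := Nat.odd_iff.1 (od.of_dvd_nat ((dvd_mul_left _ _).trans (mul_nu_dvd x)))
    omega
  have un : ∀ g : P, g.1 ∈ ⁅P, P⁆ → (π g ≠ 1 → p ∣ Nat.card (Cen (π g))) → (g.1.1 - (1 : k) • 1) ^ p = 0 :=
    fun g hg e => by
      by_cases g1 : π g = 1
      · obtain ⟨c, hc⟩ := (h.ker g).1 g1
        rw [hc, s1 _ hg c hc, sub_self, zero_pow hp.out.ne_zero]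
      obtain ⟨α, -, a, -⟩ := unip h hab g1 (ni _) (e g1) rfl
      have b := a
      rw [frob h.toSt, sub_eq_zero, ← Units.val_pow_eq_pow_val] at b
      rwa [frobenius_inj k p (show α ^ p = 1 ^ p by rw [s1 _ (pow_mem hg p) _ b, one_pow])] at a
  by_cases e : ∀ x : G, x ≠ 1 → p ∣ Nat.card (Cen x)
  · exact sd h.toSt fun g hg => by
      exact (tr_nil h.dim (un ⟨g, dle P hg⟩ hg (e _))).trans
        (tr_nil h.dim (un ⟨g, dle P hg⟩⁻¹ (inv_mem hg) (e _))).symm
  have fx : ∀ g ∈ ⁅P, P⁆, LinearMap.det (g.1 - 1) = 0 := fun g hg => by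
    lift g to P using dle P hg
    by_cases o : π g ≠ 1 → p ∣ Nat.card (Cen (π g))
    · have := congrArg LinearMap.det (un g hg o)
      rw [map_pow, one_smul, LinearMap.det_zero, h.dim] at this
      exact pow_eq_zero_iff hp.out.ne_zero |>.1 (by simpa using this)
    push Not at o
    have c := cc_of hab o.1 (ni _)
    have a := (CharP.cast_eq_zero_iff k p _).not.2 o.2
    obtain ⟨ℓ, χ, v, T⟩ := exists_To h.toSt c (ni _) a
    obtain ⟨s, e1, e2, f, χ1, χ2, -, i, -, -, -, -, w, -⟩ := fr3 h.toSt c (ni _) T (n3 _ o.1 o.2) a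
    rw [← uniq h.toSt (T.pi ⟨_, self_mem_Cen _⟩) (Nat.odd_iff.2 (ni _).card_odd) od (T.pw _) (oD g hg),
      LinearMap.det_eq_zero_iff_ker_ne_bot, Submodule.ne_bot_iff]
    exact ⟨f, by simp [(w _).2.2.1], fun e => by simpa using i 0 0 0 1 (by simp [e])⟩
  push Not at e
  obtain ⟨x, x1, e⟩ := e
  have c := cc_of hab x1 (ni _)
  have a := (CharP.cast_eq_zero_iff k p _).not.2 e
  have ho := Nat.odd_iff.2 (ni x).card_odd
  obtain ⟨ℓ, χ, v, T⟩ := exists_To h.toSt c (ni _) a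
  obtain ⟨s, e1, e2, f, χ1, χ2, s3, i, s0, s1', s2, sf, w, d1, d2, d3, d4⟩ :=
    fr3 h.toSt c (ni _) T (n3 _ x1 e) a
  have sD := mD s 3 (by decide) s3
  have nz : ∀ (φ : Cen x →* k) y, φ y ≠ 0 := fun φ y => ((Group.isUnit y).map φ).ne_zero
  have R : ∀ g ∈ ⁅P, P⁆, ∀ a0 b0 c0 d0 a3 b3 c3 d3 : k, g.1 v = a0 • v + b0 • e1 + c0 • e2 + d0 • f →
      g.1 f = a3 • v + b3 • e1 + c3 • e2 + d3 • f → a0 * (d3 - 1) = a3 * d0 :=
    fun g hg a0 b0 c0 d0 a3 b3 c3 d3' g0 g3 => by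
      obtain ⟨a1, b1, c1, d1', g1⟩ := i.span h.dim (g.1 e1)
      obtain ⟨a2, b2, c2, d2', g2⟩ := i.span h.dim (g.1 e2)
      have := coef0 ![χ1 * χ2, 1, χ, χ1, χ2, χ * χ2, χ * χ1] ![a0 * (d3' - 1) - a3 * d0,
        (a0 * b1 - a1 * b0) * (c2 * (d3' - 1) - c3 * d2') - (a0 * b2 - a2 * b0) * (c1 * (d3' - 1) - c3 * d1') +
        (a0 * b3 - a3 * b0) * (c1 * d2' - c2 * d1') + (a1 * b2 - a2 * b1) * (c0 * (d3' - 1) - c3 * d0) -
        (a1 * b3 - a3 * b1) * (c0 * d2' - c2 * d0) + (a2 * b3 - a3 * b2) * (c0 * d1' - c1 * d0) - (d3' - 1),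
        -(b1 * (c2 * (d3' - 1) - c3 * d2') - b2 * (c1 * (d3' - 1) - c3 * d1') + b3 * (c1 * d2' - c2 * d1')),
        -(a0 * (c2 * (d3' - 1) - c3 * d2') - a2 * (c0 * (d3' - 1) - c3 * d0) + a3 * (c0 * d2' - c2 * d0)),
        -(a0 * (b1 * (d3' - 1) - b3 * d1') - a1 * (b0 * (d3' - 1) - b3 * d0) + a3 * (b0 * d1' - b1 * d0)),
        b1 * (d3' - 1) - b3 * d1', c2 * (d3' - 1) - c3 * d2'] 0 (fun j n e => by
          have e' := fun y => DFunLike.congr_fun e y
          fin_cases j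
          · exact n rfl
          · exact T.ne (MonoidHom.ext fun y => by
              have := e' y; simp at this ⊢; linear_combination (w y).2.2.2 + χ y * this)
          · exact T.ne (MonoidHom.ext fun y => one_of ho (by rw [← map_pow, pow_card_eq_one', map_one]) (by
              have := e' y; simp at this ⊢; linear_combination (w y).2.2.2 + χ y * this))
          · exact d4 (MonoidHom.ext fun y => by simpa [nz] using e' y)
          · exact d3 (MonoidHom.ext fun y => by simpa [nz] using e' y)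
          · exact d1 (MonoidHom.ext fun y => by simpa [nz] using e' y)
          · exact d2 (MonoidHom.ext fun y => by simpa [nz, mul_comm (χ y)] using (e' y)))  fun y => by
        have dt := i.det (X := g.1 - (ℓ y).1.1) h.dim (a0 := a0 - χ y) (b0 := b0) (c0 := c0) (d0 := d0)
          (a1 := a1) (b1 := b1 - χ1 y) (c1 := c1) (d1 := d1') (a2 := a2) (b2 := b2) (c2 := c2 - χ2 y)
          (d2 := d2') (a3 := a3) (b3 := b3) (c3 := c3) (d3 := d3' - 1)
          (by simp only [LinearMap.sub_apply, g0, T.ap]; module)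
          (by simp only [LinearMap.sub_apply, g1, (w y).1]; module)
          (by simp only [LinearMap.sub_apply, g2, (w y).2.1]; module)
          (by simp only [LinearMap.sub_apply, g3, (w y).2.2.1]; module)
        rw [show g.1 - (ℓ y).1.1 = (ℓ y).1.1 * (((ℓ y).1⁻¹ * g).1 - 1) by simp only [nc k V], map_mul,
          fx _ (mul_mem (inv_mem (mD _ _ ho (T.pw y))) hg), mul_zero] at dt
        simp only [Fin.sum_univ_succ, Fin.sum_univ_zero, Matrix.cons_val_zero, Matrix.cons_val_succ,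
          MonoidHom.mul_apply, MonoidHom.one_apply]
        linear_combination -dt + (d3' - 1) * (w y).2.2.2
      exact sub_eq_zero.1 this
  have one : ∀ g ∈ ⁅P, P⁆, g.1 f - f ∈ Submodule.span k {v, e1, e2} := fun g hg => by
    obtain ⟨a3, b3, c3, d3', g3⟩ := i.span h.dim (g.1 f)
    have col : ∀ g' ∈ ⁅P, P⁆, g'.1 f = g.1 f → ∃ d : k, (d3' - 1) • g'.1 v = d • (g.1 f - f) := fun g' hg' e => by
      obtain ⟨a0, b0, c0, d0, g0⟩ := i.span h.dim (g'.1 v)
      rw [g3] at e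
      have r0 := R g' hg' _ _ _ _ _ _ _ _ g0 e
      have r1 := R _ (mul_mem sD hg') c0 a0 b0 d0 c3 a3 b3 d3'
        (by simp only [um, g0, map_add, map_smul, s0, s1', s2, sf]; module)
        (by simp only [um, e, map_add, map_smul, s0, s1', s2, sf]; module)
      have r2 := R _ (mul_mem sD (mul_mem sD hg')) b0 c0 a0 d0 b3 c3 a3 d3'
        (by simp only [um, g0, map_add, map_smul, s0, s1', s2, sf]; module)
        (by simp only [um, e, map_add, map_smul, s0, s1', s2, sf]; module)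
      exact ⟨d0, by rw [g0, g3]; linear_combination (norm := module) r0 • v + r2 • e1 + r1 • e2⟩
    obtain rfl : d3' = 1 := by
      by_contra n
      have n' := sub_ne_zero.2 n
      obtain ⟨a, ha⟩ := col g hg rfl
      obtain ⟨b, hb⟩ := col _ (mul_mem hg sD) (by rw [um, sf])
      rw [um, s0] at hb
      have := i (b * (d3' - 1)) (-a * (d3' - 1)) 0 0 (H6.S4.u_inj g (by
        simp only [map_add, map_smul, map_zero]; linear_combination (norm := module) b • ha - a • hb))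
      rw [show a = 0 by simpa [n'] using this.2.1, zero_smul] at ha
      exact u_ne g T.v0 ((smul_eq_zero.1 ha).resolve_left n')
    rw [g3]
    exact Submodule.mem_span_triple.2 ⟨a3, b3, c3, by module⟩
  let W : Submodule k V := ⨅ g ∈ ⁅P, P⁆, (Submodule.span k {v, e1, e2}).comap (g.1 - 1)
  have mW : ∀ z, z ∈ W ↔ ∀ g ∈ ⁅P, P⁆, g.1 z - z ∈ Submodule.span k {v, e1, e2} := fun z => by simp [W]
  have f0 : f ∉ Submodule.span k {v, e1, e2} := fun e => by
    obtain ⟨a, b, d, e⟩ := Submodule.mem_span_triple.1 e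
    simpa using (i a b d (-1) (by rw [e]; simp)).2.2.2
  rcases irrD h.toSt W fun g hg z hz => (mW _).2 fun g' hg' => by
    simpa using sub_mem ((mW z).1 hz _ (mul_mem hg' hg)) ((mW z).1 hz _ hg) with e | e
  · exact f0 (by rw [show f = 0 from (Submodule.mem_bot k).1 (e ▸ (mW f).2 one)]; exact zero_mem _)
  rcases irrD h.toSt (Submodule.span k {v, e1, e2}) fun g hg z hz => by
    simpa using add_mem ((mW z).1 (e ▸ Submodule.mem_top) g hg) hz with e | e
  · exact T.v0 ((Submodule.mem_bot k).1 (e ▸ Submodule.subset_span (by simp)))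
  · exact f0 (e ▸ Submodule.mem_top)

theorem f1 (h : Beta P π) (hd : (∀ t : G, ¬ IsInv t) ∨ Dih G) : CD p G := by
  have := h.finG
  by_cases e : ∀ t : G, ¬ IsInv t
  · exact (noinv (p := p) h e).elim
  obtain ⟨t, ht⟩ := not_forall_not.1 e
  obtain ⟨t, m, q, D⟩ := exists_DD h.sn (hd.resolve_left e) ht
  exact dd h D

end Cfsg.Agent.H2.LF
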