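import Cfsg.Agent.H9.E4.I5
import Cfsg.Agent.H9.A67.E5

/-! Root systems acted on by a subgroup of `SL_4`: induction and traces. -/

set_option autoImplicit false
set_option linter.unusedSimpArgs false
set_option linter.unusedSectionVars false
set_option linter.unusedVariables false

namespace Cfsg.Agent.H2.LT

open Module Cfsg.Agent.Orth Cfsg.Agent.H6.L4 Cfsg.Agent.H9.E4
open Cfsg.Agent.H6.S4 (nc wa finSub)
open Cfsg.Agent.H9.A67 (Wd)

universe u

variable {k V W S : Type*} [Field k] [AddCommGroup V] [Module k V] [FiniteDimensional k V]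
  [AddCommGroup W] [Module k W] [FiniteDimensional k W]
  [AddCommGroup S] [Module k S] [FiniteDimensional k S]
  {Q : QuadraticForm k W} {ι : W →ₗ[k] End k S} {ρ : (End k V)ˣ →* (End k S)ˣ}
  {j : End k V →ₗ[k] End k S} {pr : End k S →ₗ[k] End k V}
  {G : Type u} [Group G] {P : Subgroup (End k V)ˣ} {π : P →* G} {Φ : W → Prop} {p : ℕ}
  {g : (End k V)ˣ} {u v : W}

theorem q1 (h : RS6 Q Φ) (hu : Φ u) : Q u = 1 := by
  have := h.bb u hu
  rw [B_self] at this
  exact mul_left_cancel₀ h.two (by linear_combination this)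

theorem indep (h : RS6 Q Φ) (hu : Φ u) : ∃ v, Φ v ∧ ∀ c : k, v ≠ c • u := by
  by_contra! hh
  rcases h.irr (k ∙ u) (fun w hw x hx => by
    obtain ⟨c, hc⟩ := hh w hw
    exact Submodule.sub_mem _ (Submodule.smul_mem _ _ (hc ▸ Submodule.smul_mem _ _
      (Submodule.mem_span_singleton_self u))) hx) with e | e
  · have := h.bb u hu
    rw [Submodule.span_singleton_eq_bot] at e
    exact h.two (by simpa [e] using this.symm)
  · have := finrank_span_le_card (R := k) ({u} : Set W)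
    rw [e, finrank_top, h.dim] at this
    simp at this

theorem nsc (h : Rt P π Q ι ρ j pr Φ) (hu : Φ u) (hv : Φ v) (hi : ∀ c : k, v ≠ c • u) (hg : g ∈ P)
    (e : (ρ g).1 = ι u * ι v) : ¬ Sc g := fun hs => by
  obtain ⟨ε, -, he⟩ := h.sp.wa_sc h.toSt hg hs
  have hw := h.sp.wa_pair (h.det g hg) e (q1 h.rs hu) (q1 h.rs hv)
  by_cases e1 : ε = 1
  · obtain ⟨z, z1, z2⟩ := h.sp.exists_b hi
    have := (he z).symm.trans (hw z)
    rw [B_comm Q u, B_comm Q v, z1, z2, e1] at this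
    exact hi (B Q u v) (by linear_combination (norm := module) this)
  · have : Submodule.span k ({u, v} : Set W) = ⊤ := eq_top_iff.2 fun x _ => by
      have h1 : (1 - ε) ≠ 0 := sub_ne_zero.2 (Ne.symm e1)
      refine Submodule.mem_span_pair.2 ⟨(1 - ε)⁻¹ * (B Q u x - B Q u v * B Q v x),
        (1 - ε)⁻¹ * B Q v x, ?_⟩
      have := (he x).symm.trans (hw x)
      rw [mul_smul, mul_smul, ← smul_add, inv_smul_eq_iff₀ h1]
      linear_combination (norm := module) this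
    classical
    have h2 := finrank_span_finset_le_card (R := k) ({u, v} : Finset W)
    rw [Set.finrank, Finset.coe_pair, this, finrank_top, h.rs.dim] at h2
    have := Finset.card_le_two (a := u) (b := v)
    omega

/-- induction over the products of two roots -/
theorem ind (h : Rt P π Q ι ρ j pr Φ) (R : (End k V)ˣ → Prop) (rs : ∀ g ∈ P, Sc g → R g)
    (rm : ∀ a ∈ P, ∀ b ∈ P, R a → R b → R (a * b))
    (rX : ∀ g ∈ P, ∀ u v, Φ u → Φ v → (ρ g).1 = ι u * ι v → R g) : ∀ g ∈ P, R g := by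
  obtain ⟨u, hu⟩ := h.rs.ex
  obtain ⟨v, hv, hi⟩ := indep h.rs hu
  obtain ⟨x, hx, e⟩ := h.pair u v hu hv
  refine h.toSt.ind (X := {g | g ∈ P ∧ ∃ u v, Φ u ∧ Φ v ∧ (ρ g).1 = ι u * ι v}) (fun x hx => hx.1)
    ?_ ⟨hx, u, v, hu, hv, e⟩ (nsc h hu hv hi hx e) R rs rm
    fun x ⟨hx, u, v, hu, hv, e⟩ => rX x hx u v hu hv e
  rintro g hg x ⟨hx, u, v, hu, hv, e⟩
  refine ⟨P.mul_mem (P.mul_mem hg hx) (P.inv_mem hg), _, _, h.inv g hg u hu, h.inv g hg v hv, ?_⟩
  rw [h.sp.ι_wa (h.det g hg), h.sp.ι_wa (h.det g hg), map_mul, map_mul, map_inv, Units.val_mul,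
    Units.val_mul, e]
  simp only [mul_assoc, Units.inv_mul_cancel_left]

section

variable {K : Subfield k} {D : Set W} {N : ℕ} {X : End k S}

theorem mv (h : Sp Q ι ρ j pr) (hD : ∀ u ∈ D, ∀ v ∈ D, B Q u v ∈ K) (hu : u ∈ D)
    (h1 : Wd K ι D N X) : ∃ Z, Wd K ι D (N - 1) Z ∧ (N = 0 → Z = 0) ∧
      ι u * X = (-1 : k) ^ N • (X * ι u) + Z := by
  induction h1 with
  | one => exact ⟨0, Wd.zero _, fun _ => rfl, by simp⟩
  | zero n => exact ⟨0, Wd.zero _, fun _ => rfl, by simp⟩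
  | @mul n v X hv h1 ih =>
    obtain ⟨Z, z1, z2, z3⟩ := ih
    refine ⟨B Q u v • X + (-1 : k) • (ι v * Z), (h1.smul (hD u hu v hv)).add
      (Wd.smul (K.neg_mem K.one_mem) ?_), by simp, ?_⟩
    · rcases n with _ | n
      · simpa [z2] using Wd.zero _
      · exact z1.mul hv
    · rw [h.antim, z3]; simp only [nc k S, pow_succ]; module
  | add _ _ ih ih' =>
    obtain ⟨Z, z1, z2, z3⟩ := ih
    obtain ⟨Z', y1, y2, y3⟩ := ih'
    exact ⟨Z + Z', z1.add y1, fun e => by simp [z2 e, y2 e], by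
      simp only [nc k S, z3, y3]; module⟩
  | @smul n c X hc _ ih =>
    obtain ⟨Z, z1, z2, z3⟩ := ih
    exact ⟨c • Z, z1.smul hc, fun e => by simp [z2 e], by simp only [nc k S, z3]; module⟩

theorem wtr (h : Sp Q ι ρ j pr) (hD : ∀ u ∈ D, ∀ v ∈ D, B Q u v ∈ K) (h1 : Wd K ι D N X)
    (hN : Even N) : LinearMap.trace k S X ∈ K := by
  induction N using Nat.strong_induction_on generalizing X with
  | _ N ih =>
  induction h1 with
  | one => simp
  | zero n => simp
  | @mul n v X hv h1 _ =>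
    obtain ⟨Z, z1, -, z3⟩ := mv h hD hv h1
    have on : Odd n := Nat.not_even_iff_odd.1 (Nat.even_add_one.1 hN)
    have a := ih (n - 1) (by omega) z1 (Nat.Odd.sub_odd on odd_one)
    have b := congrArg (LinearMap.trace k S) z3
    rw [on.neg_one_pow, map_add, map_smul, LinearMap.trace_mul_comm k X, smul_eq_mul] at b
    have two := h.two
    rw [show LinearMap.trace k S (ι v * X) = LinearMap.trace k S Z / 2 by
      field_simp; linear_combination b]
    exact K.div_mem a (by simp)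
  | add _ _ i1 i2 => rw [map_add]; exact K.add_mem (i1 ih hN) (i2 ih hN)
  | smul hc _ i1 => rw [map_smul]; exact K.mul_mem hc (i1 ih hN)

end

/-- (R-T) -/
theorem tt [Fact p.Prime] [CharP k p] (h : Rt P π Q ι ρ j pr Φ) : TT0 p P := by
  let K := (frobenius k p).eqLocusField (RingHom.id k)
  have := h.fin
  let M := finSub P (fun g => ∃ n, Even n ∧ Wd K ι {u | Φ u} n (ρ g).1)
    ⟨0, Even.zero, by simpa using Wd.one⟩ fun a ha b hb ⟨n, h1, h2⟩ ⟨m, h3, h4⟩ =>
      ⟨m + n, h3.add h1, by simpa using h2.mul' h4⟩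
  have key := ind h (fun g => ∃ z m, Sc z ∧ m ∈ M ∧ g = z * m)
    (fun g hg hs => ⟨g, 1, hs, M.one_mem, by simp⟩)
    (by
      rintro _ - _ - ⟨z, m, hz, hm, rfl⟩ ⟨z', m', hz', hm', rfl⟩
      exact ⟨z * z', m * m', hz.mul hz', M.mul_mem hm hm', by
        rw [mul_assoc, mul_assoc, ← mul_assoc m, ← hz'.comm m, mul_assoc]⟩)
    fun g hg u v hu hv e => ⟨1, g, sc_one, ⟨hg, 2, even_two, by
      rw [e, ← mul_one (ι v)]
      exact ((Wd.one (K := K) (ι := ι) (D := {u | Φ u})).mul hv).mul hu⟩, by simp⟩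
  have le : ⁅P, P⁆ ≤ M := Subgroup.commutator_le.2 fun a ha b hb => by
    obtain ⟨z, m, hz, hm, rfl⟩ := key a ha
    obtain ⟨z', m', hz', hm', rfl⟩ := key b hb
    have : z * m * (z' * m') * (z * m)⁻¹ * (z' * m')⁻¹ = m * m' * m⁻¹ * m'⁻¹ := by
      calc _ = z * (m * (z' * (m' * m⁻¹ * z⁻¹ * m'⁻¹) * z'⁻¹)) := by group
        _ = z * (m * (m' * m⁻¹ * z⁻¹ * m'⁻¹)) := by rw [hz'.comm]; group
        _ = z * (m * m' * m⁻¹) * z⁻¹ * m'⁻¹ := by group
        _ = _ := by rw [hz.comm]; group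
    rw [commutatorElement_def, this]
    exact M.mul_mem (M.mul_mem (M.mul_mem hm hm') (M.inv_mem hm)) (M.inv_mem hm')
  intro g hg
  obtain ⟨-, n, h1, h2⟩ := le hg
  rw [← h.sp.tr]
  refine wtr h.sp (K := K) (fun u hu v hv => ?_) h2 h1
  have two : (2 : k) ∈ K := by simp
  by_cases e : v = u
  · rw [e, h.rs.bb u hu]; exact two
  by_cases e' : v = -u
  · rw [e', map_neg, h.rs.bb u hu]; exact K.neg_mem two
  rcases h.rs.f1 u v hu hv e e' with e | e | e <;> rw [e]
  exacts [K.zero_mem, K.one_mem, K.neg_mem K.one_mem]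

end Cfsg.Agent.H2.LT
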