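import Cfsg.Agent.H2.L4T

/-! Root systems acted on by a subgroup of `SL_4`: the types `D₆` and `A₆`. -/

set_option autoImplicit false
set_option linter.unusedSimpArgs false
set_option linter.unusedSectionVars false
set_option linter.unusedVariables false

namespace Cfsg.Agent.H2.LT

open Module Cfsg.Agent.Orth Cfsg.Agent.H6.L4 Cfsg.Agent.H9.E4 Equiv
open Cfsg.Agent.H6.S4 (nc wa finSub)

universe u

variable {k V W S : Type*} [Field k] [AddCommGroup V] [Module k V] [FiniteDimensional k V]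
  [AddCommGroup W] [Module k W] [FiniteDimensional k W]
  [AddCommGroup S] [Module k S] [FiniteDimensional k S]
  {Q : QuadraticForm k W} {ι : W →ₗ[k] End k S} {ρ : (End k V)ˣ →* (End k S)ˣ}
  {j : End k V →ₗ[k] End k S} {pr : End k S →ₗ[k] End k V}
  {G : Type u} [Group G] {P : Subgroup (End k V)ˣ} {π : P →* G} {Φ : W → Prop} {p : ℕ}
  {g : (End k V)ˣ} {u v : W}

theorem wa2 (h : Rt P π Q ι ρ j pr Φ) (hu : Φ u) (hv : Φ v) (hg : g ∈ P)
    (e : (ρ g).1 = ι u * ι v) (x : W) :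
    wa ι (ρ g) x = (x - B Q v x • v) - B Q u (x - B Q v x • v) • u := by
  rw [h.sp.wa_pair (h.det g hg) e (q1 h.rs hu) (q1 h.rs hv)]
  simp only [map_sub, map_smul, smul_eq_mul]
  module

/-- (R-D) -/
theorem td (h : Rt P π Q ι ρ j pr Φ) (t : TD Q Φ) : False := by
  obtain ⟨e, hb, hr, hx⟩ := t
  have := h.fin
  have rf : ∀ u, Φ u → ∀ i, ∃ l, ∃ c : k, e i - B Q u (e i) • u = c • e l := fun u hu i => by
    obtain ⟨a, b, ab, s, t, hs, ht, rfl⟩ := hx u hu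
    simp only [map_add, map_smul, LinearMap.add_apply, LinearMap.smul_apply, hb, smul_eq_mul]
    by_cases ai : a = i
    · subst ai
      exact ⟨b, -(s * t), by
        simp only [if_true, if_neg ab.symm]; linear_combination (norm := module) -hs • e a⟩
    by_cases bi : b = i
    · subst bi
      exact ⟨a, -(s * t), by
        simp only [if_true, if_neg ab]; linear_combination (norm := module) -ht • e b⟩
    exact ⟨i, 1, by simp [ai, bi]⟩
  have mono := ind h (fun g => ∀ i, ∃ l, ∃ c : k, wa ι (ρ g) (e i) = c • e l)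
    (fun g hg hs i => let ⟨ε, _, he⟩ := h.sp.wa_sc h.toSt hg hs; ⟨i, ε, he _⟩)
    (fun a ha b hb r1 r2 i => by
      obtain ⟨l, c, e2⟩ := r2 i
      obtain ⟨m, d, e1⟩ := r1 l
      exact ⟨m, c * d, by rw [h.sp.wa_mul (h.det a ha) (h.det b hb), e2, map_smul, e1, smul_smul]⟩)
    fun g hg u v hu hv e' i => by
      obtain ⟨l, c, e2⟩ := rf v hv i
      obtain ⟨m, d, e1⟩ := rf u hu l
      exact ⟨m, c * d, by
        rw [wa2 h hu hv hg e', e2, map_smul, mul_smul, ← e1, smul_sub, smul_assoc]⟩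
  let N := finSub P (fun g => ∀ i, ∃ c : k, wa ι (ρ g) (e i) = c • e i)
    (fun i => ⟨1, by rw [h.sp.wa_one, one_smul]⟩) fun a ha b hb r1 r2 i => by
      obtain ⟨c, e2⟩ := r2 i
      obtain ⟨d, e1⟩ := r1 i
      exact ⟨c * d, by rw [h.sp.wa_mul (h.det a ha) (h.det b hb), e2, map_smul, e1, smul_smul]⟩
  rcases h.normal N (fun g hg x hx hN => ⟨P.mul_mem (P.mul_mem hg hx) (P.inv_mem hg), fun i => by
      obtain ⟨l, c, e1⟩ := mono _ (P.inv_mem hg) i
      obtain ⟨d, e2⟩ := hN.2 l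
      refine ⟨d, ?_⟩
      rw [h.sp.wa_mul (h.det _ (P.mul_mem hg hx)) (h.det _ (P.inv_mem hg)),
        h.sp.wa_mul (h.det _ hg) (h.det _ hx), e1, map_smul, e2, smul_comm, ← e1, map_smul,
        h.sp.wa_iu (h.det _ hg)]⟩)
    (fun g hg hs => ⟨hg, fun i => let ⟨ε, _, he⟩ := h.sp.wa_sc h.toSt hg hs; ⟨ε, he _⟩⟩) with a | a
  · obtain ⟨r1, r2⟩ := hr 0 1 (by decide)
    obtain ⟨g, hg, e'⟩ := h.pair _ _ r1 r2
    refine nsc h r1 r2 (fun c hc => ?_) hg e' (a g hg ⟨hg, fun i => ?_⟩)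
    · have h0 := congrArg (B Q (e 0)) hc
      have h1 := congrArg (B Q (e 1)) hc
      simp [hb] at h0 h1
      exact h.two (by linear_combination h0 + h1)
    · rw [wa2 h r1 r2 hg e']
      by_cases i0 : 0 = i
      · subst i0; exact ⟨-1, by simp [hb]; abel⟩
      by_cases i1 : 1 = i
      · subst i1; exact ⟨-1, by simp [hb]; abel⟩
      exact ⟨1, by simp [hb, i0, i1]⟩
  · obtain ⟨r1, -⟩ := hr 0 1 (by decide)
    obtain ⟨r2, -⟩ := hr 1 2 (by decide)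
    obtain ⟨g, hg, e'⟩ := h.pair _ _ r1 r2
    obtain ⟨c, hc⟩ := (a hg).2 0
    rw [wa2 h r1 r2 hg e'] at hc
    simpa [hb] using congrArg (B Q (e 1)) hc

section A

variable {q : Fin 7 → W} {σ τ : Perm (Fin 7)}

theorem gram (h : RS6 Q Φ) (hq : ∀ i j, i ≠ j → Φ (q i - q j)) (i j l m : Fin 7) :
    B Q (q i - q j) (q l - q m) = (if i = l then 1 else 0) - (if i = m then 1 else 0) -
      (if j = l then 1 else 0) + (if j = m then 1 else 0) := by
  have N : ∀ i j, B Q (q i - q j) (q i - q j) = 2 - 2 * (if i = j then 1 else 0) := fun i j => by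
    by_cases e : i = j
    · simp [e]
    · simp [e, h.bb _ (hq i j e), -map_sub]
  have a := N i m; have b := N j l; have c := N i l; have d := N j m
  simp only [map_sub, LinearMap.sub_apply] at a b c d ⊢
  rw [B_comm Q (q m)] at a d
  rw [B_comm Q (q l)] at b c
  refine mul_left_cancel₀ h.two ?_
  linear_combination a + b - c - d

theorem rsw (h : RS6 Q Φ) (hq : ∀ i j, i ≠ j → Φ (q i - q j)) {i j : Fin 7} (ij : i ≠ j)
    (l m : Fin 7) :
    q l - q m - B Q (q i - q j) (q l - q m) • (q i - q j) = q (swap i j l) - q (swap i j m) := by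
  have key : ∀ l, q (swap i j l) =
      q l - ((if i = l then 1 else 0) - (if j = l then 1 else 0) : k) • (q i - q j) := fun l => by
    by_cases il : i = l
    · subst il; simp [ij.symm]
    by_cases jl : j = l
    · subst jl; simp [ij]
    simp [il, jl, swap_apply_of_ne_of_ne (Ne.symm il) (Ne.symm jl)]
  rw [key, key, gram h hq]; module

/-- `g` permutes the vertices up to sign -/
def Rl (ι : W →ₗ[k] End k S) (ρ : (End k V)ˣ →* (End k S)ˣ) (q : Fin 7 → W) (g : (End k V)ˣ)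
    (σ : Perm (Fin 7)) : Prop :=
  ∃ ε : k, ε ≠ 0 ∧ ∀ i j, wa ι (ρ g) (q i - q j) = ε • (q (σ i) - q (σ j))

theorem Rl.mul (h : Rt P π Q ι ρ j pr Φ) {g' : (End k V)ˣ} (hg : g ∈ P) (hg' : g' ∈ P)
    (h1 : Rl ι ρ q g σ) (h2 : Rl ι ρ q g' τ) : Rl ι ρ q (g * g') (σ * τ) :=
  let ⟨a, ha, e1⟩ := h1
  let ⟨b, hb, e2⟩ := h2
  ⟨b * a, mul_ne_zero hb ha, fun i j => by
    rw [h.sp.wa_mul (h.det _ hg) (h.det _ hg'), e2, map_smul, e1, smul_smul]; rfl⟩

theorem rl_pair (h : Rt P π Q ι ρ j pr Φ) (hq : ∀ i j, i ≠ j → Φ (q i - q j)) (hg : g ∈ P)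
    {i j l m : Fin 7} (ij : i ≠ j) (lm : l ≠ m) (e : (ρ g).1 = ι (q i - q j) * ι (q l - q m)) :
    Rl ι ρ q g (swap i j * swap l m) := ⟨1, one_ne_zero, fun a b => by
  rw [wa2 h (hq i j ij) (hq l m lm) hg e, rsw h.rs hq lm, rsw h.rs hq ij, one_smul]; rfl⟩

theorem exists_rl (h : Rt P π Q ι ρ j pr Φ) (hq : ∀ i j, i ≠ j → Φ (q i - q j)) (σ : Perm (Fin 7)) :
    (Perm.sign σ = 1 → ∃ g ∈ P, Rl ι ρ q g σ) ∧
      (Perm.sign σ = -1 → ∀ i j, i ≠ j → ∃ g ∈ P, Rl ι ρ q g (swap i j * σ)) := by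
  induction σ using Perm.swap_induction_on with
  | one => exact ⟨fun _ => ⟨1, P.one_mem, 1, one_ne_zero, fun i j => by
      rw [h.sp.wa_one, one_smul]; rfl⟩, fun e => by simp at e⟩
  | swap_mul σ a b ab ih =>
    simp only [Perm.sign_mul, Perm.sign_swap ab, neg_mul, one_mul, neg_inj, neg_eq_iff_eq_neg]
    refine ⟨fun e => ih.2 e a b ab, fun e i j ij => ?_⟩
    obtain ⟨g, hg, r⟩ := ih.1 e
    obtain ⟨g', hg', e'⟩ := h.pair _ _ (hq i j ij) (hq a b ab)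
    exact ⟨g' * g, P.mul_mem hg' hg, mul_assoc (swap i j) _ _ ▸
      (rl_pair h hq hg' ij ab e').mul h hg' hg r⟩

theorem avoid (a b c d : Fin 7) : ∃ m, m ≠ a ∧ m ≠ b ∧ m ≠ c ∧ m ≠ d := by
  obtain ⟨m, -, hm⟩ := Finset.exists_mem_notMem_of_card_lt_card (s := {a, b, c, d})
    (t := Finset.univ) (Finset.card_le_four.trans_lt (by simp))
  exact ⟨m, by simpa using hm⟩

end A

/-- (R-A) -/
theorem ta [Fact p.Prime] [CharP k p] (h : Rt P π Q ι ρ j pr Φ) (t : TA (k := k) Φ) : CA0 p P G := by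
  obtain ⟨h7, q, hq, hx⟩ := t
  refine ⟨?_, fun e => h7 (by subst e; exact CharP.cast_eq_zero k 7), tt h⟩
  have := h.fin
  have := h.sn.simple
  have sc : ∀ g ∈ P, Sc g → ∃ ε : k, ε ≠ 0 ∧ ∀ x, wa ι (ρ g) x = ε • x := fun g hg hs =>
    let ⟨ε, h1, he⟩ := h.sp.wa_sc h.toSt hg hs
    ⟨ε, left_ne_zero_of_mul_eq_one h1, he⟩
  refine iso_of_rel π h.surj (MonoidHom.id _) Function.surjective_id
    (finSub (⊤ : Subgroup (P × alternatingGroup (Fin 7))) (fun x => Rl ι ρ q x.1.1 x.2.1)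
      ⟨1, one_ne_zero, fun i j => (h.sp.wa_one _).trans (one_smul _ _).symm⟩
      fun a _ b _ r1 r2 => r1.mul h a.1.2 b.1.2 r2) (fun a => ?_) (fun σ => ?_) fun a σ r e => ?_
  · obtain ⟨σ, r⟩ := ind h (fun g => ∃ σ : alternatingGroup (Fin 7), Rl ι ρ q g σ)
      (fun g hg hs => let ⟨ε, h1, he⟩ := sc g hg hs; ⟨1, ε, h1, fun i j => he _⟩)
      (fun a ha b hb ⟨σ, h1⟩ ⟨τ, h2⟩ => ⟨σ * τ, h1.mul h ha hb h2⟩) (fun g hg u v hu hv e => by
        obtain ⟨i, j, ij, rfl⟩ := hx u hu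
        obtain ⟨l, m, lm, rfl⟩ := hx v hv
        exact ⟨⟨_, by simp [ij, lm]⟩, rl_pair h hq hg ij lm e⟩) a.1 a.2
    exact ⟨σ, trivial, r⟩
  · obtain ⟨g, hg, r⟩ := (exists_rl h hq σ.1).1 (Perm.mem_alternatingGroup.1 σ.2)
    exact ⟨⟨g, hg⟩, trivial, r⟩
  · obtain ⟨-, ε, h0, r⟩ := r
    obtain ⟨δ, -, hd⟩ := sc _ a.2 ((h.ker a).1 e)
    refine Subtype.ext (Equiv.ext fun i => by_contra fun ne => h0 ?_)
    obtain ⟨l, li, ls, -⟩ := avoid i (σ.1 i) i i
    obtain ⟨m, m1, m2, m3, m4⟩ := avoid i l (σ.1 i) (σ.1 l)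
    have := congrArg (B Q (q (σ.1 i) - q m)) ((r i l).symm.trans (hd _))
    have ne' : ¬ σ.1 i = i := ne
    simpa [gram h.rs hq, -map_sub, ne', ls.symm, m1, m2, m3, m4, li.symm] using this

end Cfsg.Agent.H2.LT
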