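import Cfsg.Agent.H1.L4.Ix
import Cfsg.Agent.H7.FA.Ax
import Cfsg.Agent.H2.L4F5

/-! Case I in `SL_4`: linear facts about frames, first part. -/

set_option autoImplicit false
set_option linter.unusedSectionVars false
set_option linter.unusedVariables false
set_option linter.unusedSimpArgs false

namespace Cfsg.Agent.H2.LX

open Module Cfsg.Agent.H6.L4 Cfsg.Agent.H8.M3 Cfsg.Agent.LD.F4 Cfsg.Agent.H2.LF Cfsg.Agent.H7.FA
open Cfsg.Agent.H1.L4 (Cy)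
open Cfsg.Agent.H6.S4 (nc um ui iu u_inj u_ne)

universe u

variable {k V : Type*} [Field k] [AddCommGroup V] [Module k V] [FiniteDimensional k V]
  {G : Type u} [Group G] {P : Subgroup (End k V)ˣ} {π : P →* G} {p n : ℕ}
  {g x y z τ υ η : (End k V)ˣ} {v e0 e1 e2 e3 : V} {d0 d1 d2 d3 : k}

theorem sgn (h : H6.L4.St P π) {a b : P} (e : π a = π b) (ha : a.1 * a.1 = 1) (hb : b.1 * b.1 = 1) :
    a.1 = b.1 ∨ a.1 = -b.1 := by
  obtain ⟨l, hl⟩ := h.eq_iff.1 e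
  have l2 : l * l = 1 := h.sc' (by
    have := congrArg Units.val ha
    rwa [Units.val_mul, hl, smul_mul_smul_comm, ← Units.val_mul, hb, ← one_smul k (Units.val 1),
      smul_smul, mul_one] at this)
  exact (mul_self_eq_one_iff.1 l2).imp (fun e => Units.ext (by simp [hl, e]))
    fun e => Units.ext (by simp [hl, e])

/-- a frame adapted to an element of order three -/
structure FH (τ υ η : (End k V)ˣ) (e0 e1 e2 e3 : V) : Prop extends Fr τ υ e0 e1 e2 e3 where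
  h1 : η * τ * η⁻¹ = υ
  h2 : η * υ * η⁻¹ = τ * υ

theorem tt1 (f : Fr τ υ e0 e1 e2 e3) : τ * τ = 1 := Units.ext (by
  simpa using f.eq_smul (f.dgt.mul f.dgt) (dg_one _ _ _ _) (c := 1) (by ring) (by ring) (by ring) (by ring))

theorem FH.mv (f : FH τ υ η e0 e1 e2 e3) : ∃ c0 c1 c2 c3 : k,
    η.1 e0 = c0 • e0 ∧ η.1 e1 = c1 • e2 ∧ η.1 e2 = c2 • e3 ∧ η.1 e3 = c3 • e1 := by
  have a : ∀ v, υ.1 (η.1 v) = η.1 (τ.1 v) := fun v => by rw [← f.h1, um, ui, um]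
  have b : ∀ v, τ.1 (η.1 v) = η.1 (υ.1 (τ.1 v)) := fun v => by
    have := congrArg (fun x : (End k V)ˣ => x.1 (η.1 (τ.1 v))) f.h2
    simp only [um, ui] at this
    rw [this, a, ← um τ τ, tt1 f.toFr]; rfl
  obtain ⟨c0, h0⟩ := f.line0 (v := η.1 e0) (by rw [b, f.t0, f.u0]) (by rw [a, f.t0])
  obtain ⟨c1, h1⟩ := f.line2 (v := η.1 e1) (by rw [b, f.t1, f.u1, map_neg]) (by rw [a, f.t1])
  obtain ⟨c2, h2⟩ := f.line3 (v := η.1 e2) (by rw [b, f.t2, map_neg, f.u2, map_neg])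
    (by rw [a, f.t2, map_neg])
  obtain ⟨c3, h3⟩ := f.line1 (v := η.1 e3) (by rw [b, f.t3, map_neg, f.u3, neg_neg])
    (by rw [a, f.t3, map_neg])
  exact ⟨c0, c1, c2, c3, h0, h1, h2, h3⟩

theorem FH.cj (f : FH τ υ η e0 e1 e2 e3) (a : Dg x e0 e1 e2 e3 d0 d1 d2 d3) :
    Dg (η * x * η⁻¹) e0 e1 e2 e3 d0 d3 d1 d2 := by
  obtain ⟨c0, c1, c2, c3, h0, h1, h2, h3⟩ := f.mv
  have key : ∀ {v w : V} {c d : k}, v ≠ 0 → η.1 v = c • w → x.1 v = d • v →
      (η * x * η⁻¹).1 w = d • w := fun {v w c d} v0 e1 e2 => by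
    have c0 : c ≠ 0 := fun e => u_ne η v0 (by rw [e1, e, zero_smul])
    refine smul_right_injective V c0 ?_
    simp only
    rw [← map_smul, ← e1, um, ui, um, e2, map_smul, e1, smul_comm]
  exact ⟨key f.ne0 h0 a.h0, key f.ne3 h3 a.h3, key f.ne1 h1 a.h1, key f.ne2 h2 a.h2⟩

theorem hm0 (h : Beta P π) (hx : x ∈ P) (f : Fr τ υ e0 e1 e2 e3) (a : Dg x e0 e1 e2 e3 d0 d1 d2 d3)
    (h1 : d1 = d2) (h2 : d2 = d3) : Sc x := h.hm x hx d1 e0 fun v => by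
  obtain ⟨s, t, q, r, rfl⟩ := f.i4.span f.dim v
  exact ⟨s * (d0 - d1), by simp only [map_add, map_smul, a.h0, a.h1, a.h2, a.h3, ← h2, ← h1]; module⟩

theorem dne (v0 : v ≠ 0) (e : x.1 v = d0 • v) : d0 ≠ 0 := fun c => u_ne x v0 (by rw [e, c, zero_smul])

theorem ev_of (f : Fr τ υ e0 e1 e2 e3) (a : Dg x e0 e1 e2 e3 d0 d1 d2 d3) {l : k} (e : x.1 v = l • v)
    (h2 : l ≠ d2) (h3 : l ≠ d3) : τ.1 v = v := by
  obtain ⟨s, t, q, r, rfl⟩ := f.i4.span f.dim v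
  simp only [map_add, map_smul, a.h0, a.h1, a.h2, a.h3, smul_add, smul_smul] at e
  obtain ⟨-, -, k2, k3⟩ := f.i4.eq e
  have q0 : q = 0 := by_contra fun c => h2 (mul_left_cancel₀ c (by linear_combination -k2))
  have r0 : r = 0 := by_contra fun c => h3 (mul_left_cancel₀ c (by linear_combination -k3))
  simp [q0, r0, f.t0, f.t1]

theorem sepa (f : Fr τ υ e0 e1 e2 e3) (a : Dg x e0 e1 e2 e3 d0 d1 d2 d3) (h02 : d0 ≠ d2) (h03 : d0 ≠ d3)
    (h12 : d1 ≠ d2) (h13 : d1 ≠ d3) (c : y * x = x * y) : y * τ = τ * y := by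
  have key : ∀ {v : V} {l : k}, x.1 v = l • v → x.1 (y.1 v) = l • y.1 v := fun e => by
    rw [← um, ← c, um, e, map_smul]
  have a' : Dg x e2 e3 e0 e1 d2 d3 d0 d1 := ⟨a.h2, a.h3, a.h0, a.h1⟩
  have k2 := ev_of f.negt a' (key a.h2) h02.symm h12.symm
  have k3 := ev_of f.negt a' (key a.h3) h03.symm h13.symm
  rw [Units.val_neg, LinearMap.neg_apply, neg_eq_iff_eq_neg] at k2 k3
  exact Units.ext (f.i4.ext f.dim (by rw [um, um, f.t0, ev_of f a (key a.h0) h02 h03])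
    (by rw [um, um, f.t1, ev_of f a (key a.h1) h12 h13]) (by rw [um, um, f.t2, k2, map_neg])
    (by rw [um, um, f.t3, k3, map_neg]))

theorem ftu (f : Fr τ υ e0 e1 e2 e3) : Fr (τ * υ) τ e0 e3 e1 e2 :=
  ⟨f.two, f.dim, fun a b c d e => by
    have := f.i4 a c d b (by linear_combination (norm := module) e); tauto,
    by simp [um, f.t0, f.u0], by simp [um, f.t3, f.u3], by simp [um, f.t1, f.u1], by simp [um, f.t2, f.u2],
    f.t0, f.t3, f.t1, f.t2⟩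

theorem pl2 (f : Fr τ υ e0 e1 e2 e3) (hn : Odd n) (zn : z ^ n = 1) (c : z * τ = τ * z)
    (iv : υ * z * υ⁻¹ = z⁻¹) (hv : τ.1 v = v) (v0 : v ≠ 0) {α : k} (e : z.1 v = α • v) :
    ((z.1 - α • 1) * (z.1 - α⁻¹ • 1)) e0 = (0 : End k V) e0 ∧
      ((z.1 - α • 1) * (z.1 - α⁻¹ • 1)) e1 = (0 : End k V) e1 := by
  obtain ⟨a, c', h0⟩ := f.plane (v := z.1 e0) (by rw [← um, ← c, um, f.t0])
  obtain ⟨b, d, h1⟩ := f.plane (v := z.1 e1) (by rw [← um, ← c, um, f.t1])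
  obtain ⟨s, t, rfl⟩ := f.plane hv
  have a0 := dne v0 e
  have eq : ∀ {a b c d : k}, a • e0 + b • e1 = c • e0 + d • e1 → a = c ∧ b = d := fun {a b c d} e =>
    let r := f.i4.eq (s := a) (t := b) (u := 0) (r := 0) (s' := c) (t' := d) (u' := 0) (r' := 0)
      (by simpa using e); ⟨r.1, r.2.1⟩
  have i : ∀ w, z.1 (υ.1 (z.1 w)) = υ.1 w := fun w => by
    rw [← um υ, mul_inv_eq_iff_eq_mul.1 iv, um, iu]
  have i0 := i e0
  have i1 := i e1
  simp only [h0, h1, map_add, map_smul, map_neg, f.u0, f.u1] at i0 i1 e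
  obtain ⟨k1, k2⟩ := eq (a := a * a - c' * b) (b := a * c' - c' * d) (c := 1) (d := 0)
    (by linear_combination (norm := module) i0)
  obtain ⟨k3, k4⟩ := eq (a := b * a - d * b) (b := b * c' - d * d) (c := 0) (d := -1)
    (by linear_combination (norm := module) i1)
  obtain ⟨k5, k6⟩ := eq (a := s * a + t * b) (b := s * c' + t * d) (c := α * s) (d := α * t)
    (by linear_combination (norm := module) e)
  obtain rfl : a = d := by_contra fun ne => ne (by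
    have c0 : c' = 0 := by_contra fun c0 => ne (mul_left_cancel₀ c0 (by linear_combination k2))
    have b0 : b = 0 := by_contra fun b0 => ne (mul_left_cancel₀ b0 (by linear_combination k3))
    subst c0 b0
    rw [one_of (l := a) hn (eig1 zn f.ne0 (by simpa using h0)) (by linear_combination k1),
      one_of (l := d) hn (eig1 zn f.ne1 (by simpa using h1)) (by linear_combination -k4)])
  have k7 : α * α - 2 * a * α + 1 = 0 := by_contra fun ne => v0 (by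
    have s0 : s = 0 := (mul_eq_zero.1 (show (α * α - 2 * a * α + 1) * s = 0 by
      linear_combination (a - α) * k5 - b * k6 - s * k1)).resolve_left ne
    have t0 : t = 0 := (mul_eq_zero.1 (show (α * α - 2 * a * α + 1) * t = 0 by
      linear_combination (a - α) * k6 - c' * k5 - t * k1)).resolve_left ne
    simp [s0, t0])
  have k8 : α⁻¹ = 2 * a - α := by field_simp; linear_combination k7
  simp only [End.mul_apply, LinearMap.sub_apply, LinearMap.smul_apply, End.one_apply, map_add, map_sub,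
    map_smul, h0, h1, k8, LinearMap.zero_apply]
  constructor
  · linear_combination (norm := module) (-k1 - k7) • e0
  · linear_combination (norm := module) (-k1 - k7) • e1

variable [IsAlgClosed k]

theorem frameH (h : Beta P π) {t u g : G} (c : Cy (Yc π) t u g) : ∃ (τ υ η : P) (e0 e1 e2 e3 : V),
    π τ = t ∧ π υ = u ∧ π η = g ∧ FH τ.1 υ.1 η.1 e0 e1 e2 e3 := by
  obtain ⟨τ, υ, e0, e1, e2, e3, rfl, rfl, t2, u2, cm, f⟩ := frame h c.f
  obtain ⟨η, rfl⟩ := h.surj g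
  have a := sgn h.toSt (a := η * τ * η⁻¹) (b := υ) (by simpa using c.h1)
    (by simp [mul_assoc, ← mul_assoc τ.1, t2]) u2
  have b := sgn h.toSt (a := η * υ * η⁻¹) (b := τ * υ) (by simpa using c.h2)
    (by simp [mul_assoc, ← mul_assoc υ.1, u2]) (tt1 (ftu f))
  simp only [Subgroup.coe_mul, Subgroup.coe_inv] at a b
  rcases a with a | a <;> rcases b with b | b
  · exact ⟨τ, υ, η, _, _, _, _, rfl, rfl, rfl, f, a, b⟩
  · exact ⟨⟨_, h.neg τ.2⟩, ⟨_, h.neg υ.2⟩, η, _, _, _, _, pi_neg h.toSt _ _, pi_neg h.toSt _ _, rfl,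
      f.negt.negu, by simp [a], by simp [b]⟩
  · exact ⟨τ, ⟨_, h.neg υ.2⟩, η, _, _, _, _, rfl, pi_neg h.toSt _ _, rfl, f.negu, a, by simp [b]⟩
  · exact ⟨⟨_, h.neg τ.2⟩, υ, η, _, _, _, _, pi_neg h.toSt _ _, rfl, rfl, f.negt, by simp [a],
      by simp [b]⟩

theorem fx (H : Beta P π) {t u h a : G} (c : Cy (Yc π) t u h) (h1 : Yc π a t) (h2 : Yc π a u)
    (e : h * a = a * h) : a = 1 := by
  obtain ⟨τ, υ, η, e0, e1, e2, e3, rfl, rfl, rfl, f⟩ := frameH H c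
  obtain ⟨a, rfl⟩ := H.surj a
  obtain ⟨d0, d1, d2, d3, d⟩ := f.diag ((yc_iff H.toSt _ _).1 h1) ((yc_iff H.toSt _ _).1 h2)
  obtain ⟨l, hl⟩ := H.eq_iff.1 (show π (η * a * η⁻¹) = π a by simp [e])
  obtain ⟨k0, k1, k2, -⟩ := f.of_smul (f.cj d) d hl
  obtain rfl : 1 = l := mul_right_cancel₀ (dne f.ne0 d.h0) (by rw [one_mul, ← k0])
  exact (H.ker a).2 (hm0 H a.2 f.toFr d (by simpa using k2) (by simpa [k1] using k2.symm))

theorem cx (H : Beta P π) {t u o : G} (c : F1 (Yc π) t u) (h1 : Yc π o t) (h2 : Yc π o u)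
    (ho : Odd (orderOf o)) (o1 : o ≠ 1) :
    ∃ s, (s = t ∨ s = u ∨ s = t * u) ∧ ∀ g, g * o = o * g → g * s = s * g := by
  obtain ⟨τ, υ, e0, e1, e2, e3, rfl, rfl, -, -, -, f⟩ := frame H c
  obtain ⟨a, ha, an⟩ := lift H.toSt ho (pow_orderOf_eq_one o)
  rw [← ha] at h1 h2
  obtain ⟨d0, d1, d2, d3, d⟩ := f.diag ((yc_iff H.toSt _ _).1 h1) ((yc_iff H.toSt _ _).1 h2)
  have ns : ¬ Sc a.1 := fun s => o1 (ha ▸ (H.ker a).2 s)
  have n0 := fun a' b => ns (hm0 H a.2 f d a' b)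
  have n1 := fun a' b => ns (hm0 H a.2 f.negu ⟨d.h1, d.h0, d.h3, d.h2⟩ a' b)
  have n2 := fun a' b => ns (hm0 H a.2 f.negt ⟨d.h2, d.h3, d.h0, d.h1⟩ a' b)
  have n3 := fun a' b => ns (hm0 H a.2 f.negt.negu ⟨d.h3, d.h2, d.h1, d.h0⟩ a' b)
  have key : ∀ s : P, (∀ y : (End k V)ˣ, y * a.1 = a.1 * y → y * s.1 = s.1 * y) →
      ∀ g, g * o = o * g → g * π s = π s * g := fun s hs g e => by
    obtain ⟨g, rfl⟩ := H.surj g
    rw [← map_mul, ← map_mul]
    exact congrArg π (Subtype.ext (hs _ (comm H.toSt ho an (mem_Cen.2 (by rw [ha, e])))))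
  have : (d0 ≠ d2 ∧ d0 ≠ d3 ∧ d1 ≠ d2 ∧ d1 ≠ d3) ∨ (d0 ≠ d1 ∧ d0 ≠ d3 ∧ d2 ≠ d1 ∧ d2 ≠ d3) ∨
      (d0 ≠ d1 ∧ d0 ≠ d2 ∧ d3 ≠ d1 ∧ d3 ≠ d2) := by
    clear * - n0 n1 n2 n3
    grind
  rcases this with ⟨a1, a2, a3, a4⟩ | ⟨a1, a2, a3, a4⟩ | ⟨a1, a2, a3, a4⟩
  · exact ⟨_, Or.inl rfl, key τ fun y => sepa f d a1 a2 a3 a4⟩
  · exact ⟨_, Or.inr (Or.inl rfl), key υ fun y => sepa f.swap ⟨d.h0, d.h2, d.h1, d.h3⟩ a1 a2 a3 a4⟩
  · exact ⟨_, Or.inr (Or.inr (map_mul π τ υ)),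
      key (τ * υ) fun y => sepa (ftu f) ⟨d.h0, d.h3, d.h1, d.h2⟩ a1 a2 a3 a4⟩

theorem cy (H : Beta P π) {t u : G} (X : Subgroup G) (c : F1 (Yc π) t u)
    (h1 : ∀ x ∈ X, Yc π x t ∧ u * x * u⁻¹ = x⁻¹) (h2 : ∀ x ∈ X, ∀ y ∈ X, Yc π x y)
    (h3 : ∀ x ∈ X, x * x = 1 → x = 1 ∨ x = t) : IsCyclic X := by
  classical
  have := H.finG
  have cm : ∀ a b : X, a * b = b * a := fun a b => Subtype.ext (by
    obtain ⟨x, y, e1, e2, e⟩ := h2 a a.2 b b.2
    rw [Subgroup.coe_mul, Subgroup.coe_mul, ← e1, ← e2, ← map_mul, ← map_mul]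
    exact congrArg π (Subtype.ext e))
  refine cyc_of cm (t := if h : t ∈ X then ⟨t, h⟩ else 1) (fun x e => ?_) fun n hn => ?_
  · rcases h3 x x.2 (congrArg Subtype.val e) with e | e
    · exact Or.inl (Subtype.ext e)
    · exact Or.inr (by rw [dif_pos (e ▸ x.2)]; exact Subtype.ext e)
  obtain ⟨τ, υ, e0, e1, e2, e3, rfl, rfl, -, -, -, f⟩ := frame H c
  have lf : ∀ x : {x : X | x ^ n = 1}, ∃ a : P, π a = x.1.1 ∧ a.1 ^ n = 1 := fun x =>
    lift H.toSt hn (congrArg Subtype.val x.2)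
  choose l hl ln using lf
  have cl : ∀ x y, (l x).1 * (l y).1 = (l y).1 * (l x).1 := fun x y =>
    (yc_iff H.toSt _ _).1 (by rw [hl, hl]; exact h2 _ x.1.2 _ y.1.2)
  have ct : ∀ x, (l x).1 * τ.1 = τ.1 * (l x).1 := fun x =>
    (yc_iff H.toSt _ _).1 (by rw [hl]; exact (h1 _ x.1.2).1)
  obtain ⟨v, hv, v0, α⟩ := ceig (fun x => (l x).1.1) (fun x y => congrArg Units.val (cl x y)) (Ev τ.1)
    ⟨e0, mem_Ev.2 f.t0, f.ne0⟩ fun x => sb_ev (ct x)
  obtain ⟨w, hw, w0, β⟩ := ceig (fun x => (l x).1.1) (fun x y => congrArg Units.val (cl x y)) (Ev (-τ.1))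
    ⟨e2, mem_Ev'.2 f.t2, f.ne2⟩ fun x => sb_ev (by simp [ct x])
  choose α hα using α
  choose β hβ using β
  rw [← Nat.card_coe_set_eq]
  refine le_trans (Nat.card_le_card_of_injective
    (fun x => (⟨α x / β x, by
      simp [Polynomial.mem_nthRoots hn.pos, div_pow, eig1 (ln x) v0 (hα x), eig1 (ln x) w0 (hβ x)]⟩ :
      (Polynomial.nthRoots n (1 : k)).toFinset)) fun x y e => ?_) ?_
  · have e' : α x / β x = α y / β y := congrArg Subtype.val e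
    have a0 := dne v0 (hα y)
    have b0 := dne w0 (hβ y)
    have b1 := dne w0 (hβ x)
    have ev : ∀ {v : V} {a b : k}, b ≠ 0 → (l x).1.1 v = a • v → (l y).1.1 v = b • v →
        (l x * (l y)⁻¹).1.1 v = (a / b) • v := fun {v a b} b0 e1 e2 => by
      have : (l y).1⁻¹.1 v = b⁻¹ • v := u_inj (l y).1 (by
        rw [iu, map_smul, e2, smul_smul, inv_mul_cancel₀ b0, one_smul])
      rw [Subgroup.coe_mul, um, Subgroup.coe_inv, this, map_smul, e1, smul_smul, div_eq_inv_mul]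
    have zn : (l x * (l y)⁻¹).1 ^ n = 1 := by
      rw [Subgroup.coe_mul, Subgroup.coe_inv, (show Commute _ _ from cl x y).inv_right.mul_pow, ln,
        inv_pow, ln, inv_one, mul_one]
    have zt : (l x * (l y)⁻¹).1 * τ.1 = τ.1 * (l x * (l y)⁻¹).1 :=
      (show Commute _ _ from ct x).mul_left (show Commute _ _ from ct y).inv_left
    have iv := conj_eq H.toSt (x := υ) (b := (l x * (l y)⁻¹)⁻¹) hn hn zn
      (by rw [Subgroup.coe_inv, inv_pow, zn, inv_one]) (by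
        rw [map_inv, map_mul, map_inv, hl, hl]; exact (h1 _ (x.1 * y.1⁻¹).2).2)
    have e2 : β x / β y = α x / α y := by field_simp at e' ⊢; linear_combination -e'
    obtain ⟨k0, k1⟩ := pl2 f hn zn zt iv (mem_Ev.1 hv) v0 (ev a0 (hα x) (hα y))
    obtain ⟨k2, k3⟩ := pl2 f.negt hn zn (by rw [mul_neg, neg_mul, zt]) iv (mem_Ev.1 hw) w0
      (e2 ▸ ev b0 (hβ x) (hβ y))
    have := quad1 H (l x * (l y)⁻¹).2 hn zn (f.i4.ext f.dim k0 k1 k2 k3)
    have : l x = l y := Subtype.ext (mul_inv_eq_one.1 this)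
    exact Subtype.ext (Subtype.ext (by rw [← hl, this, hl]))
  · rw [Nat.card_eq_fintype_card, Fintype.card_coe]
    exact (Multiset.toFinset_card_le _).trans (Polynomial.card_nthRoots n (1 : k))

end Cfsg.Agent.H2.LX
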