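import Cfsg.Agent.H2.SP10

/-! Short unipotent elements of subgroups of `GL_4` without transvections: meeting lines. -/

set_option autoImplicit false
set_option linter.unusedSimpArgs false
set_option linter.unusedSectionVars false
set_option linter.unusedVariables false

namespace Cfsg.Agent.H2.L4

open Module Cfsg.Agent.H6.S4 Cfsg.Agent.H2.SP

variable {k V : Type*} [Field k] [AddCommGroup V] [Module k V] [FiniteDimensional k V]
  {P : Subgroup (End k V)ˣ} {p : ℕ} {g : (End k V)ˣ} {N N' M M' : End k V}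

/-- the set-up: an irreducible finite subgroup of `GL_4` without transvections, simple modulo
scalars -/
structure Sc (P : Subgroup (End k V)ˣ) : Prop where
  two : (2 : k) ≠ 0
  dim : finrank k V = 4
  fin : Finite P
  irr : ∀ U : Submodule k V, (∀ g ∈ P, ∀ v ∈ U, g.1 v ∈ U) → U = ⊥ ∨ U = ⊤
  gen : ∀ N : Subgroup (End k V)ˣ, N ≤ P → (∀ g ∈ P, ∀ x ∈ N, g * x * g⁻¹ ∈ N) →
    (∃ x ∈ N, ∀ c : k, x.1 ≠ c • 1) → ∀ g ∈ P, ∃ x ∈ N, ∃ c : k, g.1 = c • x.1
  tv : ∀ g ∈ P, ∀ v, g.1 v = v → (∀ x, ∃ c : k, g.1 x - x = c • v) → g = 1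

/-- `1 + N` lies in `P` -/
def In (P : Subgroup (End k V)ˣ) (N : End k V) : Prop := ∃ g ∈ P, g.1 = 1 + N

/-- the root group of the line of `N` -/
def Aa (P : Subgroup (End k V)ˣ) (N M : End k V) : Prop := In P M ∧ M * N = 0 ∧ N * M = 0

/-- short elements -/
def Sh (P : Subgroup (End k V)ˣ) (N : End k V) : Prop := Aa P N N ∧ N ≠ 0

theorem inv_sh (e : g.1 = 1 + N) (h : N * N = 0) : g⁻¹.1 = 1 - N :=
  Units.inv_eq_of_mul_eq_one_right (by rw [e]; simp only [nc k V, h]; abel)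

theorem In.conj (h : In P N) (hg : g ∈ P) : In P (g.1 * N * g⁻¹.1) :=
  let ⟨x, hx, e⟩ := h
  ⟨g * x * g⁻¹, P.mul_mem (P.mul_mem hg hx) (P.inv_mem hg), by simp only [nc k V, e]⟩

theorem In.mul (h : In P N) (h' : In P M) : In P (N + M + N * M) :=
  let ⟨x, hx, e⟩ := h
  let ⟨y, hy, e'⟩ := h'
  ⟨x * y, P.mul_mem hx hy, by simp only [nc k V, e, e']; abel⟩

theorem Aa.conj (h : Aa P N M) (hg : g ∈ P) : Aa P (g.1 * N * g⁻¹.1) (g.1 * M * g⁻¹.1) :=
  ⟨h.1.conj hg, by simp only [nc k V, ← mul_assoc M N, h.2.1], by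
    simp only [nc k V, ← mul_assoc N M, h.2.2]⟩

theorem conj_ne (h : N ≠ 0) (g : (End k V)ˣ) : g.1 * N * g⁻¹.1 ≠ 0 := fun e =>
  h (by simpa using e)

theorem Sh.conj (h : Sh P N) (hg : g ∈ P) : Sh P (g.1 * N * g⁻¹.1) := ⟨h.1.conj hg, conj_ne h.2 g⟩

theorem Sh.sq (h : Sh P N) : N * N = 0 := h.1.2.1

theorem Sh.app (h : Sh P N) (v : V) : N (N v) = 0 := LinearMap.congr_fun h.sq v

theorem Aa.zero (N : End k V) : Aa P N 0 := ⟨⟨1, P.one_mem, by simp⟩, by simp, by simp⟩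

variable (c : Sc P)
include c

theorem Sh.kr (h : Sh P N) : LinearMap.range N = LinearMap.ker N ∧ finrank k (LinearMap.ker N) = 2 := by
  have h1 : LinearMap.range N ≤ LinearMap.ker N := by
    rintro _ ⟨v, rfl⟩; exact h.app v
  have h2 := LinearMap.finrank_range_add_finrank_ker N
  have h3 := Submodule.finrank_mono h1
  have h4 : ¬ finrank k (LinearMap.range N) ≤ 1 := fun h4 => by
    obtain ⟨⟨v, hv⟩, h5⟩ := finrank_le_one_iff.1 h4
    obtain ⟨g, hg, e⟩ := h.1.1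
    have := c.tv g hg v (by simpa [e] using h1 hv) fun x => by
      obtain ⟨t, ht⟩ := h5 ⟨N x, x, rfl⟩
      exact ⟨t, by simpa [e] using (congrArg Subtype.val ht).symm⟩
    exact h.2 (by simpa [this] using e.symm)
  rw [c.dim] at h2
  exact ⟨Submodule.eq_of_le_of_finrank_le h1 (by omega), by omega⟩

theorem Sh.rg (h : Sh P N) {v : V} (hv : N v = 0) : ∃ z, N z = v := by
  have : v ∈ LinearMap.range N := (h.kr c).1 ▸ hv
  exact this

theorem Sh.span (h : Sh P N) {a b w : V} (ha : N a = 0) (hb : N b = 0) (a0 : a ≠ 0)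
    (hab : ∀ t : k, b ≠ t • a) (hw : N w = 0) : ∃ s t : k, w = s • a + t • b :=
  span2 (h.kr c).2 ha hb a0 hab hw

theorem Aa.ker (h : Sh P N) (hM : Aa P N M) {v : V} (hv : N v = 0) : M v = 0 := by
  obtain ⟨z, rfl⟩ := h.rg c hv
  exact LinearMap.congr_fun hM.2.1 z

theorem Aa.mul (h : Sh P N) (hM : Aa P N M) (hM' : Aa P N M') : M * M' = 0 :=
  LinearMap.ext fun v => hM.ker c h (LinearMap.congr_fun hM'.2.2 v)

theorem Aa.sh (h : Sh P N) (hM : Aa P N M) (M0 : M ≠ 0) : Sh P M :=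
  ⟨⟨hM.1, hM.mul c h hM, hM.mul c h hM⟩, M0⟩

theorem Aa.trans (h : Sh P N) (hM : Aa P N M) (hM' : Aa P N M') : Aa P M M' :=
  ⟨hM'.1, hM'.mul c h hM, hM.mul c h hM'⟩

omit c in
theorem Aa.symm (h : Sh P N) (hM : Aa P N M) : Aa P M N := ⟨h.1.1, hM.2.2, hM.2.1⟩

theorem Aa.back (h : Sh P N) (hM : Aa P N M) (M0 : M ≠ 0) (hM' : Aa P M M') : Aa P N M' :=
  (hM.symm h).trans c (hM.sh c h M0) hM'

theorem Aa.ker' (h : Sh P N) (hM : Aa P N M) (M0 : M ≠ 0) {v : V} (hv : M v = 0) : N v = 0 :=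
  (hM.symm h).ker c (hM.sh c h M0) hv

theorem Aa.add (h : Sh P N) (hM : Aa P N M) (hM' : Aa P N M') : Aa P N (M + M') :=
  ⟨by simpa [hM.mul c h hM'] using hM.1.mul hM'.1, by simp [add_mul, hM.2.1, hM'.2.1],
    by simp [mul_add, hM.2.2, hM'.2.2]⟩

theorem Aa.neg (h : Sh P N) (hM : Aa P N M) : Aa P N (-M) :=
  let ⟨⟨x, hx, e⟩, h1, h2⟩ := hM
  ⟨⟨x⁻¹, P.inv_mem hx, by rw [inv_sh e (hM.mul c h hM), sub_eq_add_neg]⟩, by simp [h1], by simp [h2]⟩

theorem Aa.sub (h : Sh P N) (hM : Aa P N M) (hM' : Aa P N M') : Aa P N (M - M') := by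
  simpa [sub_eq_add_neg] using hM.add c h (hM'.neg c h)

/-- the kernel of one short element inside the kernel of another one -/
theorem Aa.of_ker (h : Sh P N) (h' : Sh P N') (e : ∀ v, N v = 0 → N' v = 0) : Aa P N N' := by
  have h1 : LinearMap.ker N = LinearMap.ker N' :=
    Submodule.eq_of_le_of_finrank_eq e (by rw [(h.kr c).2, (h'.kr c).2])
  refine ⟨h'.1.1, LinearMap.ext fun v => e _ (h.app v), LinearMap.ext fun v => ?_⟩
  have : N' v ∈ LinearMap.ker N := h1 ▸ h'.app v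
  exact this

theorem comm1 (h : Sh P N) (h' : Sh P N') {x : V} (h1 : N x = 0) (h2 : N' x = 0)
    (h3 : ∀ z, ∃ t : k, N (N' z) = t • x) (h4 : ∀ z, ∃ t : k, N' (N z) = t • x) : N * N' = N' * N := by
  obtain ⟨g, hg, e⟩ := h.1.1
  obtain ⟨g', hg', e'⟩ := h'.1.1
  have gx : (g' * g).1 x = x := by simp [e, e', h1, h2]
  have := c.tv ((g' * g)⁻¹ * (g * g')) (P.mul_mem (P.inv_mem (P.mul_mem hg' hg)) (P.mul_mem hg hg')) x
    (u_inj (g' * g) (by rw [um _ (g * g'), iu, gx]; simp [e, e', h1, h2])) fun z => by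
      obtain ⟨s, hs⟩ := h3 z
      obtain ⟨t, ht⟩ := h4 z
      refine ⟨s - t, u_inj (g' * g) ?_⟩
      rw [map_sub, um _ (g * g'), iu, map_smul, gx]
      simp only [um, e, e', LinearMap.add_apply, End.one_apply, map_add, hs, ht]
      module
  have := congrArg Units.val (inv_mul_eq_one.1 this)
  simp only [nc k V, e, e'] at this
  linear_combination (norm := module) -this

theorem asym (h : Sh P N) (h' : Sh P N') {x y y' : V} (x0 : x ≠ 0) (h1 : N x = 0) (h2 : N' x = 0)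
    (hy : N y = 0) (hxy : ∀ t : k, y ≠ t • x) (hy' : N' y' = 0) {α α' β' : k}
    (e1 : N y' = α • x) (e2 : N' y = α' • x + β' • y') (α0 : α ≠ 0) : β' = 0 := by
  obtain ⟨g', hg', e'⟩ := h'.1.1
  have i' := inv_sh e' h'.sq
  have h'' := h.conj hg'
  have ap : ∀ z, (g'.1 * N * g'⁻¹.1) z = N (z - N' z) + N' (N (z - N' z)) := fun z => by
    simp [i', e']
  generalize g'.1 * N * g'⁻¹.1 = N'' at h'' ap
  have := comm1 c h h'' h1 (by simp [ap, h1, h2]) (fun z => by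
    obtain ⟨s, t, hz⟩ := h.span c h1 hy x0 hxy (h.app (z - N' z))
    exact ⟨t * β' * α, by simp [ap, hz, h1, h2, hy, e1, e2, smul_smul, mul_assoc]⟩) fun z => by
    obtain ⟨s, t, hz⟩ := h.span c h1 hy x0 hxy (h.app z)
    exact ⟨-(t * β' * α), by simp [ap, hz, h1, h2, hy, e1, e2, smul_smul, mul_assoc]⟩
  obtain ⟨z, hz⟩ := h.rg c hy
  have a1 := LinearMap.congr_fun this z
  obtain ⟨s, t, hs⟩ : ∃ s t : k, N (N' z) = s • x + t • N y' := by
    by_cases y0 : ∀ t : k, y' ≠ t • x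
    · obtain ⟨s, t, hs⟩ := h'.span c h2 hy' x0 y0 (h'.app z)
      exact ⟨0, t, by simp [hs, h1]⟩
    · push Not at y0
      obtain ⟨t, rfl⟩ := y0
      exact absurd e1.symm (by simp [h1, α0, x0])
  simp only [End.mul_apply, ap, map_sub, map_add, hz, hs, e1, e2, h.app, map_smul, h1, h2, hy,
    smul_zero, add_zero, sub_zero, zero_add, zero_sub, map_neg, neg_zero] at a1
  have : (2 * β' * α) • x = 0 := by linear_combination (norm := module) a1
  simpa [x0, α0, c.two] using this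

theorem span4 {a b d e : V} (h : ∀ s t u r : k, s • a + t • b + u • d + r • e = 0 →
    s = 0 ∧ t = 0 ∧ u = 0 ∧ r = 0) (z : V) : ∃ s t u r : k, z = s • a + t • b + u • d + r • e := by
  have li : LinearIndependent k ![a, b, d, e] := Fintype.linearIndependent_iff.2 fun g hg i => by
    have := h (g 0) (g 1) (g 2) (g 3) (by simpa [Fin.sum_univ_four] using hg)
    fin_cases i <;> simp [this]
  have hz : z ∈ Submodule.span k (Set.range ![a, b, d, e]) := by
    rw [li.span_eq_top_of_card_eq_finrank' (by simp [c.dim])]; trivial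
  obtain ⟨f, hf⟩ := (Submodule.mem_span_range_iff_exists_fun k).1 hz
  exact ⟨f 0, f 1, f 2, f 3, by simpa [Fin.sum_univ_four] using hf.symm⟩

omit c in
/-- large root groups -/
def Lg (p : ℕ) (P : Subgroup (End k V)ˣ) (N : End k V) : Prop :=
  Sh P N ∧ (5 ≤ p ∨ (p = 3 ∧ ∃ M, Aa P N M ∧ M ≠ 0 ∧ M + N ≠ 0 ∧ M - N ≠ 0))

omit c in
theorem Lg.conj (h : Lg p P N) (hg : g ∈ P) : Lg p P (g.1 * N * g⁻¹.1) :=
  ⟨h.1.conj hg, h.2.imp_right fun ⟨hp, M, h1, h2, h3, h4⟩ => ⟨hp, _, h1.conj hg, conj_ne h2 g,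
    by simpa only [← add_mul, ← mul_add] using conj_ne h3 g,
    by simpa only [← sub_mul, ← mul_sub] using conj_ne h4 g⟩⟩

theorem Lg.tr (h : Lg p P N) (hM : Aa P N M) (M0 : M ≠ 0) : Lg p P M := by
  refine ⟨hM.sh c h.1 M0, h.2.imp_right fun ⟨hp, M', h1, h2, h3, h4⟩ => ⟨hp, ?_⟩⟩
  by_cases a1 : N + M = 0
  · obtain rfl : M = -N := by rw [eq_neg_iff_add_eq_zero, add_comm, a1]
    exact ⟨M', hM.trans c h.1 h1, h2, by simpa [sub_eq_add_neg] using h4, by simpa using h3⟩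
  by_cases a2 : N - M = 0
  · obtain rfl : N = M := sub_eq_zero.1 a2
    exact ⟨M', h1, h2, h3, h4⟩
  · exact ⟨N, hM.symm h.1, h.1.2, a1, a2⟩

variable [Fact p.Prime] [CharP k p] [IsAlgClosed k]

theorem K0 (h : Lg p P N) (h' : Sh P N') {x : V} (x0 : x ≠ 0) (h1 : N x = 0) (h2 : N' x = 0) :
    Aa P N N' ∨ N * N' = N' * N := by
  have := c.fin
  by_contra! hh
  obtain ⟨hn, hc⟩ := hh
  have hs := h.1
  obtain ⟨y, hy, hy1⟩ : ∃ y, N y = 0 ∧ N' y ≠ 0 := by
    by_contra! hh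
    exact hn (Aa.of_ker c hs h' hh)
  obtain ⟨y', hy', hy1'⟩ : ∃ y, N' y = 0 ∧ N y ≠ 0 := by
    by_contra! hh
    exact hn ((Aa.of_ker c h' hs hh).symm h')
  have hxy : ∀ t : k, y ≠ t • x := by rintro t rfl; simp [h2] at hy1
  have hxy' : ∀ t : k, y' ≠ t • x := by rintro t rfl; simp [h1] at hy1'
  obtain ⟨α', β', e2⟩ := h'.span c h2 hy' x0 hxy' (h'.app y)
  have key : ∀ M, Aa P N M → ∃ α β : k, M y' = α • x + β • y := fun M hM =>
    hs.span c h1 hy x0 hxy (LinearMap.congr_fun hM.2.2 y')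
  by_cases β0 : β' = 0
  · obtain ⟨α, β, e1⟩ := key N hs.1
    have α0 : α' ≠ 0 := by rintro rfl; simp [β0, hy1] at e2
    rw [β0, zero_smul, add_zero] at e2
    have b0 := asym c h' hs x0 h2 h1 hy' hxy' hy e2 e1 α0
    refine hc (comm1 c hs h' h1 h2 (fun z => ?_) fun z => ?_)
    · obtain ⟨s, t, hz⟩ := h'.span c h2 hy' x0 hxy' (h'.app z)
      exact ⟨t * α, by simp [hz, h1, e1, b0, smul_smul]⟩
    · obtain ⟨s, t, hz⟩ := hs.span c h1 hy x0 hxy (hs.app z)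
      exact ⟨t * α', by simp [hz, h2, e2, smul_smul]⟩
  have k2 : ∀ M, Aa P N M → M ≠ 0 → ∀ α β : k, M y' = α • x + β • y → β ≠ 0 := by
    rintro M hM M0 α β e rfl
    rw [zero_smul, add_zero] at e
    refine β0 (asym c (hM.sh c hs M0) h' x0 (hM.ker c hs h1) h2 (hM.ker c hs hy) hxy hy' e e2 ?_)
    rintro rfl
    exact hy1' (hM.ker' c hs M0 (by simpa using e))
  obtain ⟨M, hM, M0, α, β, e1, hp⟩ : ∃ M, Aa P N M ∧ M ≠ 0 ∧ ∃ α β : k, M y' = α • x + β • y ∧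
      (5 ≤ p ∨ (β * β') ^ 4 ≠ 1) := by
    obtain ⟨α, β, e1⟩ := key N hs.1
    rcases h.2 with hp | ⟨hp, M, a1, a2, a3, a4⟩
    · exact ⟨N, hs.1, hs.2, α, β, e1, Or.inl hp⟩
    by_contra! hh
    have h3 : (3 : k) = 0 := three_eq hp
    obtain ⟨α1, β1, e3⟩ := key M a1
    have b1 := (hh _ hs.1 hs.2 _ _ e1).2
    have b2 := (hh _ a1 a2 _ _ e3).2
    have b3 := (hh _ (a1.add c hs hs.1) a3 (α1 + α) (β1 + β) (by simp [e1, e3]; module)).2
    have b4 := (hh _ (a1.sub c hs hs.1) a4 (α1 - α) (β1 - β) (by simp [e1, e3]; module)).2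
    have := c.two
    grind
  have b0 := k2 M hM M0 α β e1
  have sM := hM.sh c hs M0
  have Mx := hM.ker c hs h1
  have My := hM.ker c hs hy
  obtain ⟨g, hg, eg⟩ := hM.1
  obtain ⟨g', hg', eg'⟩ := h'.1.1
  obtain ⟨z0, hz0⟩ := sM.rg c Mx
  obtain ⟨γ, δ, e3⟩ := h'.span c h2 hy' x0 hxy' (h'.app z0)
  obtain ⟨v, hv⟩ : ∃ v, v = α • x + β • y := ⟨_, rfl⟩
  obtain ⟨w, hw⟩ : ∃ w, w = N' v := ⟨_, rfl⟩
  obtain ⟨z, hz⟩ : ∃ z, z = z0 - (δ / (β * β')) • v := ⟨_, rfl⟩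
  have Mv : M v = 0 := by simp [hv, Mx, My]
  have Mw : M w = (β * β') • v := by
    simp only [hw, hv, map_add, map_smul, h2, e2, Mx, e1, map_zero]; module
  have Nw : N' w = 0 := by rw [hw, h'.app]
  have Mz : M z = x := by simp [hz, hz0, Mv]
  have Nz : N' z = (γ - δ * α' / β') • x := by
    have e1 : β * β⁻¹ = 1 := mul_inv_cancel₀ b0
    have e2' : β' * β'⁻¹ = 1 := mul_inv_cancel₀ β0
    simp only [hz, hv, map_sub, map_add, map_smul, h2, e2, e3, div_eq_mul_inv, mul_inv]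
    linear_combination (norm := module) (-(δ * β'⁻¹ * α')) • e1 • x - (δ * β'⁻¹ * β') • e1 • y' -
      δ • e2' • y'
  have τ0 : β * β' ≠ 0 := mul_ne_zero b0 β0
  have vx : ∀ s t : k, s • v + t • x = 0 → s = 0 ∧ t = 0 := fun s t e => by
    have := indep2 x0 hxy (c := s * α + t) (d := s * β) (c' := 0) (d' := 0) (by
      rw [hv] at e; linear_combination (norm := module) e)
    have s0 : s = 0 := by simpa [b0] using this.2
    exact ⟨s0, by simpa [s0] using this.1⟩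
  have v0 : v ≠ 0 := fun e => by simpa using (vx 1 0 (by simp [e])).1
  have w0 : w ≠ 0 := fun e => smul_ne_zero τ0 v0 (by rw [← Mw, e, map_zero])
  have sp := span4 c (a := v) (b := w) (d := x) (e := z) fun s t u r e => by
    have a1 := congrArg M e
    simp only [map_add, map_smul, Mv, Mw, Mx, Mz, smul_zero, zero_add, add_zero, map_zero,
      smul_smul] at a1
    obtain ⟨a2, rfl⟩ := vx _ _ a1
    obtain rfl : t = 0 := by simpa [τ0] using a2
    have := vx s u (by simpa using e)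
    simp [this]
  generalize β * β' = τ at *
  have gv : g.1 v = v := by simp [eg, Mv]
  have gw : g.1 w = w + τ • v := by simp [eg, Mw]
  have g'v : g'.1 v = v + w := by simp [eg', hw]
  have g'w : g'.1 w = w := by simp [eg', Nw]
  have g'x : g'.1 x = x := by simp [eg', h2]
  have g'z : g'.1 z = z + (γ - δ * α' / β') • x := by simp [eg', Nz]
  obtain ⟨-, d, ⟨hd, -, dx, t, dz⟩, s, s0, s1, dv, dw⟩ := dk (p := p) c.two
    (finSub P (fun d => Act v w d.1 ∧ d.1 x = x ∧ ∃ t : k, d.1 z = z + t • x)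
      ⟨Act.one _ _, rfl, 0, by simp⟩
      fun a _ b _ ⟨h1, h2, s, h3⟩ ⟨h4, h5, t, h6⟩ => ⟨h1.mul h4, by rw [um, h5, h2], s + t, by
        rw [um, h6, map_add, map_smul, h3, h2]; module⟩)
    (hfin := fin_finSub _ _ _ _) (fun d hd => hd.2.1) (x := g) (y := g')
    ⟨hg, act_of (a := 1) (b := 0) (c := τ) (d := 1) (by simp [gv]) (by simp [gw, add_comm])
      (by simp), by simp [eg, Mx], 1, by simp [eg, Mz]⟩
    ⟨hg', act_of (a := 1) (b := 1) (c := 0) (d := 1) (by simp [g'v]) (by simp [g'w]) (by simp),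
      g'x, _, g'z⟩ τ0 v0 gv gw g'v g'w hp
  have si : s * s⁻¹ = 1 := mul_inv_cancel₀ s0
  have hc := c.tv ((g' * d)⁻¹ * (d * g')) (P.mul_mem (P.inv_mem (P.mul_mem hg' hd)) (P.mul_mem hd hg')) w
    (u_inj (g' * d) (by rw [um _ (d * g'), iu]; simp only [um, dw, g'w, map_smul])) fun u => by
      obtain ⟨m, n, a, b, rfl⟩ := sp u
      refine ⟨m * (1 - s⁻¹ * s⁻¹), u_inj (g' * d) ?_⟩
      rw [map_sub, um _ (d * g'), iu]
      simp only [um, map_add, map_smul, dv, dw, g'v, g'w, dx, dz, g'x, g'z]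
      linear_combination (norm := module) (m * s⁻¹) • si • w
  have := congrArg (fun f : (End k V)ˣ => f.1 v) (inv_mul_eq_one.1 hc)
  simp only [um, map_add, map_smul, dv, dw, g'v, g'w, smul_add, add_right_inj] at this
  have := smul_left_injective k w0 this
  exact s1 (by nth_rw 1 [← this]; exact inv_mul_cancel₀ s0)

end Cfsg.Agent.H2.L4
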