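import Cfsg.Agent.H2.L4a

/-! Short unipotent elements of subgroups of `GL_4` without transvections: opposite lines. -/

set_option autoImplicit false
set_option linter.unusedSimpArgs false
set_option linter.unusedSectionVars false
set_option linter.unusedVariables false

namespace Cfsg.Agent.H2.L4

open Module Cfsg.Agent.H6.S4 Cfsg.Agent.H2.SP

variable {k V : Type*} [Field k] [AddCommGroup V] [Module k V] [FiniteDimensional k V]
  {P : Subgroup (End k V)ˣ} {p : ℕ} {g : (End k V)ˣ} {N N' M M' : End k V}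

/-- opposite lines -/
def Opp (N N' : End k V) : Prop := ∀ v, N v = 0 → N' v = 0 → v = 0

theorem Opp.symm (h : Opp N N') : Opp N' N := fun v a b => h v b a

theorem eig2 {f : End k V} {a b : V} (a0 : a ≠ 0) (hab : ∀ t : k, b ≠ t • a) {x y z w τ : k}
    (h1 : f a = x • a + y • b) (h2 : f b = z • a + w • b) (hτ : τ * τ - (x + w) * τ + (x * w - z * y) = 0) :
    ∃ s t : k, s • a + t • b ≠ 0 ∧ f (s • a + t • b) = τ • (s • a + t • b) := by
  have ne : ∀ s t : k, s ≠ 0 ∨ t ≠ 0 → s • a + t • b ≠ 0 := fun s t h e => by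
    have := indep2 a0 hab (c' := 0) (d' := 0) (by simpa using e)
    tauto
  by_cases c1 : z ≠ 0 ∨ τ - x ≠ 0
  · exact ⟨z, τ - x, ne _ _ c1, by
      simp only [map_add, map_smul, h1, h2]; linear_combination (norm := module) -hτ • b⟩
  by_cases c2 : τ - w ≠ 0 ∨ y ≠ 0
  · exact ⟨τ - w, y, ne _ _ c2, by
      simp only [map_add, map_smul, h1, h2]; linear_combination (norm := module) -hτ • a⟩
  push Not at c1 c2
  exact ⟨1, 0, by simpa using a0, by simp [h1, c2.2, sub_eq_zero.1 c1.2]⟩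

theorem root2 [IsAlgClosed k] (h2 : (2 : k) ≠ 0) (s n : k) : ∃ τ, τ * τ - s * τ + n = 0 := by
  obtain ⟨r, hr⟩ := IsAlgClosed.exists_eq_mul_self (s * s - 4 * n)
  exact ⟨(r + s) / 2, by field_simp; linear_combination -hr⟩

theorem pick3 {s1 s2 n1 n2 n3 n4 : k} (h3 : (3 : k) = 0) (h2 : (2 : k) ≠ 0)
    (k1 : (s1 = 0 ∧ n1 = 1) ∨ (s1 ^ 2 = -1 ∧ n1 = -1)) (k2 : (s2 = 0 ∧ n2 = 1) ∨ (s2 ^ 2 = -1 ∧ n2 = -1))
    (k3 : (s2 + s1 = 0 ∧ n3 = 1) ∨ ((s2 + s1) ^ 2 = -1 ∧ n3 = -1))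
    (k4 : (s2 - s1 = 0 ∧ n4 = 1) ∨ ((s2 - s1) ^ 2 = -1 ∧ n4 = -1)) (e : n3 + n4 = 2 * n1 + 2 * n2) :
    False := by grind

theorem five_or [Fact p.Prime] [CharP k p] (h2 : (2 : k) ≠ 0) : p = 3 ∨ 5 ≤ p := by
  have h : p.Prime := Fact.out
  have a : p ≠ 2 := fun e => h2 (by subst e; exact_mod_cast CharP.cast_eq_zero k 2)
  have b := h.two_le
  have : p ≠ 4 := fun e => by subst e; exact absurd h (by decide)
  omega

theorem upow [Fact p.Prime] [CharP k p] (h2 : (2 : k) ≠ 0) {D : Subgroup (End k V)ˣ} [Finite D]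
    {d : (End k V)ˣ} (hd : d ∈ D) {v w : V} (v0 : v ≠ 0) {ε t : k} (hε : ε * ε = 1)
    (dv : d.1 v = ε • (v - t • w)) (dw : d.1 w = ε • w) :
    ∃ u ∈ D, Un u ∧ u.1 v = v - t • w ∧ u.1 w = w := by
  obtain ⟨j, r, hr, hj⟩ := Nat.exists_eq_pow_mul_and_not_dvd (finOrd hd).orderOf_pos.ne' p
    (Fact.out : p.Prime).ne_one
  have pw : ∀ n : ℕ, (d ^ n).1 v = ε ^ n • (v - ((n : k) * t) • w) ∧ (d ^ n).1 w = ε ^ n • w :=
    fun n => by
    induction n with
    | zero => simp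
    | succ n ih =>
      simp only [pow_succ' d, um, ih, map_smul, map_sub, dv, dw]
      push_cast
      constructor <;> module
  have p1 : p - 1 ≠ 0 := by have := five_or (p := p) h2; omega
  set n := (2 * r) ^ (p - 1) with hn
  have n1 : (n : k) = 1 := by
    have h1 : ((2 * r : ℕ) : k) ≠ 0 := by
      push_cast; exact mul_ne_zero h2 (cast_ne hr)
    have h2 : ((2 * r : ℕ) : k) ^ p = ((2 * r : ℕ) : k) := by
      rw [← frobenius_def, map_natCast]
    rw [hn, Nat.cast_pow]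
    apply mul_right_cancel₀ h1
    rw [← pow_succ, Nat.sub_add_cancel (by omega), h2, one_mul]
  obtain ⟨m, hm⟩ : 2 * r ∣ n := dvd_pow_self _ p1
  have n2 : ε ^ n = 1 := by rw [hm, mul_assoc, pow_mul, sq, hε, one_pow]
  obtain ⟨uv, uw⟩ := pw n
  rw [n1, n2, one_mul, one_smul] at uv
  rw [n2, one_smul] at uw
  refine ⟨d ^ n, D.pow_mem hd n, ⟨p ^ j, ?_⟩, uv, uw⟩
  have : Nontrivial V := ⟨v, 0, v0⟩
  have : CharP (End k V) p := charP_of_injective_algebraMap (algebraMap k (End k V)).injective p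
  rw [sub_pow_char_pow_of_commute _ _ (Commute.one_right _), one_pow, ← Units.val_pow_eq_pow_val,
    ← pow_mul, hm, show 2 * r * m * p ^ j = p ^ j * r * (2 * m) by ring, ← hj, pow_mul,
    pow_orderOf_eq_one]
  simp

variable (c : Sc P)
include c

theorem Opp.tr (o : Opp N N') (h : Sh P N') (hM : Aa P N' M) (M0 : M ≠ 0) : Opp N M :=
  fun v a b => o v a (hM.ker' c h M0 b)

theorem ext4 (h : Sh P M) (o : Opp N M) {a b : V} (ha : N a = 0) (hb : N b = 0) (a0 : a ≠ 0)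
    (hab : ∀ t : k, b ≠ t • a) (z : V) : ∃ s t u r : k, z = s • a + t • b + u • M a + r • M b :=
  span4 c (fun s t u r e => by
    have a1 := congrArg M e
    simp only [map_add, map_smul, h.app, smul_zero, add_zero, map_zero] at a1
    obtain ⟨rfl, rfl⟩ := indep2 a0 hab (c' := 0) (d' := 0)
      ((o (s • a + t • b) (by simp [ha, hb]) (by simpa using a1)).trans (by simp))
    obtain ⟨rfl, rfl⟩ := indep2 a0 hab (c' := 0) (d' := 0)
      ((o (u • a + r • b) (by simp [ha, hb]) (by simpa using e)).trans (by simp))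
    simp) z

theorem Sh.basis (h : Sh P N) {a : V} (a0 : a ≠ 0) : ∃ b, N b = 0 ∧ ∀ t : k, b ≠ t • a :=
  basis2 (h.kr c).2 a0

theorem Sh.ne (h : Sh P N) : ∃ a, N a = 0 ∧ a ≠ 0 := ne2 (h.kr c).2

variable [Fact p.Prime] [CharP k p] [IsAlgClosed k]

theorem pick (h : Sh P N) (h' : Lg p P N') (o : Opp N N') : ∃ M v, ∃ τ : k, Aa P N' M ∧ M ≠ 0 ∧
    v ≠ 0 ∧ N v = 0 ∧ N (M v) = τ • v ∧ (5 ≤ p ∨ τ * τ ≠ -1) := by
  obtain ⟨a, ha, a0⟩ := h.ne c
  obtain ⟨b, hb, hab⟩ := h.basis c a0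
  have co : ∀ M : End k V, ∃ x y z w : k, N (M a) = x • a + y • b ∧ N (M b) = z • a + w • b := fun M =>
    let ⟨x, y, h1⟩ := h.span c ha hb a0 hab (h.app (M a))
    let ⟨z, w, h2⟩ := h.span c ha hb a0 hab (h.app (M b))
    ⟨x, y, z, w, h1, h2⟩
  have ev : ∀ (M : End k V) (x y z w τ : k), N (M a) = x • a + y • b → N (M b) = z • a + w • b →
      τ * τ - (x + w) * τ + (x * w - z * y) = 0 → ∃ v, v ≠ 0 ∧ N v = 0 ∧ N (M v) = τ • v :=
    fun M x y z w τ h1 h2 hτ => by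
      obtain ⟨s, t, h3, h4⟩ := eig2 (f := N * M) a0 hab h1 h2 hτ
      exact ⟨_, h3, by simp [ha, hb], h4⟩
  obtain ⟨x, y, z, w, h1, h2⟩ := co N'
  rcases h'.2 with hp | ⟨hp, M, a1, a2, a3, a4⟩
  · obtain ⟨τ, hτ⟩ := root2 c.two (x + w) (x * w - z * y)
    obtain ⟨v, h3⟩ := ev _ _ _ _ _ _ h1 h2 hτ
    exact ⟨N', v, τ, h'.1.1, h'.1.2, h3.1, h3.2.1, h3.2.2, Or.inl hp⟩
  by_contra! hh
  have h3 : (3 : k) = 0 := three_eq hp
  have key : ∀ (M : End k V) (x y z w : k), Aa P N' M → M ≠ 0 → N (M a) = x • a + y • b →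
      N (M b) = z • a + w • b → (x + w = 0 ∧ x * w - z * y = 1) ∨
        ((x + w) ^ 2 = -1 ∧ x * w - z * y = -1) := fun M x y z w b1 b2 h1 h2 => by
    obtain ⟨τ, hτ⟩ := root2 c.two (x + w) (x * w - z * y)
    obtain ⟨v, h4⟩ := ev _ _ _ _ _ _ h1 h2 hτ
    obtain ⟨v', h5⟩ := ev _ _ _ _ _ (x + w - τ) h1 h2 (by linear_combination hτ)
    have e1 := (hh M v τ b1 b2 h4.1 h4.2.1 h4.2.2).2
    have e2 := (hh M v' _ b1 b2 h5.1 h5.2.1 h5.2.2).2
    generalize x * w - z * y = n at *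
    generalize x + w = s at *
    grind
  obtain ⟨x', y', z', w', h1', h2'⟩ := co M
  have k1 := key _ _ _ _ _ h'.1.1 h'.1.2 h1 h2
  have k2 := key _ _ _ _ _ a1 a2 h1' h2'
  have k3 := key _ (x' + x) (y' + y) (z' + z) (w' + w) (a1.add c h'.1 h'.1.1) a3
    (by simp [h1, h1']; module) (by simp [h2, h2']; module)
  have k4 := key _ (x' - x) (y' - y) (z' - z) (w' - w) (a1.sub c h'.1 h'.1.1) a4
    (by simp [h1, h1']; module) (by simp [h2, h2']; module)
  rw [show x' + x + (w' + w) = (x' + w') + (x + w) by ring] at k3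
  rw [show x' - x + (w' - w) = (x' + w') - (x + w) by ring] at k4
  exact pick3 h3 c.two k1 k2 k3 k4 (by ring)

theorem exu1 (h : Sh P N) (h' : Lg p P M) (o : Opp N M) {v v2 : V} {τ τ2 : k} (v0 : v ≠ 0)
    (hv : N v = 0) (e1 : N (M v) = τ • v) (hp : 5 ≤ p ∨ τ ^ 4 ≠ 1) (hv2 : N v2 = 0)
    (hi : ∀ t : k, v2 ≠ t • v) (e2 : N (M v2) = τ2 • v2) : ∃ X, Aa P M X ∧ N (X v) = v := by
  have := c.fin
  have hM := h'.1
  have sp := ext4 c hM o hv hv2 v0 hi
  obtain ⟨g, hg, eg⟩ := h.1.1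
  obtain ⟨g', hg', eg'⟩ := hM.1.1
  have v20 : v2 ≠ 0 := fun e => hi 0 (by simp [e])
  have w0 : M v ≠ 0 := fun e => v0 (o v hv e)
  have w20 : M v2 ≠ 0 := fun e => v20 (o v2 hv2 e)
  have τ0 : τ ≠ 0 := by rintro rfl; exact w0 (o _ (by simpa using e1) (hM.app v))
  have hw : ∀ t : k, M v2 ≠ t • M v := fun t e =>
    hi t (sub_eq_zero.1 (o _ (by simp [hv, hv2]) (by simp [e])))
  have hi2 : ∀ t : k, M v2 ≠ t • v2 := fun t e => w20 (o _ (by rw [e]; simp [hv2]) (hM.app _))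
  have Mw := hM.app v
  have Mw2 := hM.app v2
  obtain ⟨w, hw'⟩ : ∃ w, M v = w := ⟨_, rfl⟩
  obtain ⟨w2, hw2'⟩ : ∃ w, M v2 = w := ⟨_, rfl⟩
  simp only [hw', hw2'] at sp e1 e2 w0 w20 hw hi2 Mw Mw2
  have fD := fin_finSub P (fun d => Act v w d.1 ∧ ∃ a b s e : k, d.1 v2 = a • v2 + b • w2 ∧
      d.1 w2 = s • v2 + e • w2 ∧ a * e - s * b = 1) ⟨Act.one _ _, 1, 0, 0, 1, by simp⟩
      fun x _ y _ ⟨h0, a, b, s, e, h1, h2, h3⟩ ⟨H0, A, B, S, E, H1, H2, H3⟩ => ⟨h0.mul H0,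
        A * a + B * s, A * b + B * e, S * a + E * s, S * b + E * e, by
        simp only [um, H1, H2, h1, h2, map_add, map_smul]
        exact ⟨by module, by module, by linear_combination (A * E - S * B) * h3 + H3⟩⟩
  obtain ⟨⟨d, hd, ε, hε, dv, dw⟩, -⟩ := dk (p := p) c.two _ (hfin := fD) (fun d hd => hd.2.1)
    (x := g) (y := g')
    ⟨hg, act_of (a := 1) (b := 0) (c := τ) (d := 1) (by simp [eg, hv]) (by simp [eg, e1, add_comm])
      (by simp), 1, 0, τ2, 1, by simp [eg, hv2], by simp [eg, e2, add_comm], by simp⟩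
    ⟨hg', act_of (a := 1) (b := 1) (c := 0) (d := 1) (by simp [eg', hw']) (by simp [eg', Mw]) (by simp),
      1, 1, 0, 1, by simp [eg', hw2'], by simp [eg', Mw2], by simp⟩
    τ0 v0 (by simp [eg, hv]) (by simp [eg, e1]) (by simp [eg', hw']) (by simp [eg', Mw]) hp
  obtain ⟨u, ⟨hu, -, a, b, s, e, u1, u2, hdet⟩, uu, uv, uw⟩ := upow (p := p) c.two hd v0 hε dv dw
  obtain ⟨l, hl⟩ := root2 c.two (a + e) (a * e - s * b)
  obtain ⟨s', t', h1, h2⟩ := eig2 v20 hi2 u1 u2 hl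
  obtain rfl := uu.eig h1 h2
  have tr : a + e = 2 := by linear_combination hdet - hl
  have hX : Sh P (u.1 - 1) := by
    have : (u.1 - 1) * (u.1 - 1) = 0 := LinearMap.ext fun z => by
      obtain ⟨x1, x2, x3, x4, rfl⟩ := sp z
      simp only [End.mul_apply, LinearMap.sub_apply, End.one_apply, map_add, map_sub, map_smul, uv,
        uw, u1, u2, LinearMap.zero_apply]
      linear_combination (norm := module) (x2 * a + x4 * s) • tr • v2 + (x2 * b + x4 * e) • tr • w2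
        - x2 • hdet • v2 - x4 • hdet • w2
    refine ⟨⟨⟨u, hu, by simp⟩, this, this⟩, fun e => ?_⟩
    have := LinearMap.congr_fun e v
    simp [uv, τ0, w0] at this
  have : Aa P M (u.1 - 1) := by
    rcases K0 c h' hX w0 Mw (by simp [uw]) with e' | e'
    · exact e'
    refine Aa.of_ker c hM hX fun z hz => ?_
    have a1 := LinearMap.congr_fun e' v2
    simp only [End.mul_apply, LinearMap.sub_apply, End.one_apply, map_add, map_sub, map_smul, u1, u2,
      hw2', Mw2] at a1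
    have a2 := indep2 v20 hi2 (c := s) (d := e) (c' := 0) (d' := a)
      (by linear_combination (norm := module) -a1)
    have a3 : e = 1 := mul_left_cancel₀ c.two (by linear_combination tr + a2.2)
    obtain ⟨x1, x2, rfl⟩ := hM.span c Mw Mw2 w0 hw hz
    simp [uw, u2, a2.1, a3]
  exact ⟨_, this.neg c hM, by simp [uv, e1, smul_smul, τ0]⟩

theorem exu2 (h : Sh P N) (h' : Lg p P M) (o : Opp N M) {v v2 : V} {τ σ : k} (v0 : v ≠ 0)
    (hv : N v = 0) (e1 : N (M v) = τ • v) (hp : 5 ≤ p ∨ τ ^ 4 ≠ 1) (hv2 : N v2 = 0)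
    (hi : ∀ t : k, v2 ≠ t • v) (e2 : N (M v2) = τ • v2 + σ • v) : ∃ X, Aa P M X ∧ N (X v) = v := by
  have := c.fin
  have hM := h'.1
  have sp := ext4 c hM o hv hv2 v0 hi
  obtain ⟨g, hg, eg⟩ := h.1.1
  obtain ⟨g', hg', eg'⟩ := hM.1.1
  have w0 : M v ≠ 0 := fun e => v0 (o v hv e)
  have τ0 : τ ≠ 0 := by rintro rfl; exact w0 (o _ (by simpa using e1) (hM.app v))
  have hi1 : ∀ t : k, M v ≠ t • v := fun t e => w0 (o _ (by rw [e]; simp [hv]) (hM.app _))
  have Mw := hM.app v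
  have Mw2 := hM.app v2
  obtain ⟨w, hw'⟩ : ∃ w, M v = w := ⟨_, rfl⟩
  obtain ⟨w2, hw2'⟩ : ∃ w, M v2 = w := ⟨_, rfl⟩
  simp only [hw', hw2'] at sp e1 e2 w0 hi1 Mw Mw2
  have g'v : g'.1 v = v + w := by simp [eg', hw']
  have g'w : g'.1 w = w := by simp [eg', Mw]
  have g'v2 : g'.1 v2 = v2 + w2 := by simp [eg', hw2']
  have g'w2 : g'.1 w2 = w2 := by simp [eg', Mw2]
  have fD := fin_finSub P (fun d => ∃ a b s e a' b' s' e' : k, d.1 v = a • v + b • w ∧
      d.1 w = s • v + e • w ∧ d.1 v2 = a • v2 + b • w2 + a' • v + b' • w ∧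
      d.1 w2 = s • v2 + e • w2 + s' • v + e' • w ∧ a * e - s * b = 1 ∧
      a * e' + a' * e - s * b' - s' * b = 0) ⟨1, 0, 0, 1, 0, 0, 0, 0, by simp⟩
      fun x _ y _ ⟨a, b, s, e, a', b', s', e', h1, h2, h3, h4, h5, h6⟩
        ⟨A, B, S, E, A', B', S', E', H1, H2, H3, H4, H5, H6⟩ =>
      ⟨A * a + B * s, A * b + B * e, S * a + E * s, S * b + E * e,
        A * a' + B * s' + A' * a + B' * s, A * b' + B * e' + A' * b + B' * e,
        S * a' + E * s' + S' * a + E' * s, S * b' + E * e' + S' * b + E' * e, by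
        simp only [um, H1, H2, H3, H4, h1, h2, h3, h4, map_add, map_smul]
        refine ⟨by module, by module, by module, by module, ?_, ?_⟩
        · linear_combination (A * E - S * B) * h5 + H5
        · linear_combination (A * E - S * B) * h6 + (a * e - s * b) * H6⟩
  obtain ⟨⟨d, hd, ε, hε, dv, dw⟩, -⟩ := dk (p := p) c.two _ (hfin := fD)
    (fun d ⟨_, a, b, s, e, _, _, _, _, h1, h2, _, _, h5, _⟩ => act_of h1 h2 h5) (x := g) (y := g')
    ⟨hg, 1, 0, τ, 1, 0, 0, σ, 0, by simp [eg, hv], by simp [eg, e1, add_comm], by simp [eg, hv2],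
      by simp [eg, e2]; abel, by simp, by simp⟩
    ⟨hg', 1, 1, 0, 1, 0, 0, 0, 0, by simp [g'v, g'w, g'v2, g'w2]⟩
    τ0 v0 (by simp [eg, hv]) (by simp [eg, e1]) g'v g'w hp
  obtain ⟨u, ⟨hu, a, b, s, e, a', b', s', e', u1, u2, u3, u4, -, hdet⟩, -, uv, uw⟩ :=
    upow (p := p) c.two hd v0 hε dv dw
  obtain ⟨rfl, rfl⟩ := indep2 v0 hi1 (c := a) (d := b) (c' := 1) (d' := -τ⁻¹)
    (by rw [← u1, uv]; module)
  obtain ⟨rfl, rfl⟩ := indep2 v0 hi1 (c := s) (d := e) (c' := 0) (d' := 1) (by rw [← u2, uw]; module)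
  obtain ⟨y, hy⟩ : ∃ y, y = (g' * u)⁻¹ * (u * g') := ⟨_, rfl⟩
  have yP : y ∈ P := hy ▸ P.mul_mem (P.inv_mem (P.mul_mem hg' hu)) (P.mul_mem hu hg')
  have ya : ∀ z z', u.1 (g'.1 z) = g'.1 (u.1 z') → y.1 z = z' := fun z z' e =>
    u_inj (g' * u) (by rw [hy, um _ (u * g'), iu, um, um, e])
  have yv : y.1 v = v := ya _ _ (by simp only [g'v, uv, uw, g'w, map_add, map_sub, map_smul]; module)
  have yw : y.1 w = w := ya _ _ (by simp only [uw, g'w])
  have yv2 : y.1 v2 = v2 + s' • v + (e' - a' - s' * (1 - τ⁻¹)) • w := ya _ _ (by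
    simp only [g'v, uv, uw, g'w, g'v2, g'w2, u3, u4, map_add, map_sub, map_smul]; module)
  have yw2 : y.1 w2 = w2 - s' • w := ya _ _ (by
    simp only [g'v, uv, uw, g'w, g'v2, g'w2, u3, u4, map_add, map_sub, map_smul]; module)
  have s0 : s' = 0 := by
    by_contra s0
    have hY : Sh P (y.1 - 1) := by
      have : (y.1 - 1) * (y.1 - 1) = 0 := LinearMap.ext fun z => by
        obtain ⟨x1, x2, x3, x4, rfl⟩ := sp z
        simp only [End.mul_apply, LinearMap.sub_apply, End.one_apply, map_add, map_sub, map_smul, yv,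
          yw, yv2, yw2, LinearMap.zero_apply]
        module
      refine ⟨⟨⟨y, yP, by simp⟩, this, this⟩, fun e => ?_⟩
      have := LinearMap.congr_fun e w2
      simp [yw2, s0, w0] at this
    rcases K0 c h' hY w0 Mw (by simp [yw]) with e | e
    · have := LinearMap.congr_fun e.2.2 v2
      simp [yv2, hw', Mw, s0, w0] at this
    · have := LinearMap.congr_fun e v2
      simp only [End.mul_apply, LinearMap.sub_apply, End.one_apply, map_add, map_sub, map_smul, yv2,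
        yw2, hw', hw2', Mw] at this
      have : (2 * s') • w = 0 := by linear_combination (norm := module) this
      simp [c.two, s0, w0] at this
  subst s0
  have y1 := c.tv y yP w yw fun z => by
    obtain ⟨x1, x2, x3, x4, rfl⟩ := sp z
    exact ⟨x2 * (e' - a'), by simp only [map_add, map_smul, yv, yw, yv2, yw2]; module⟩
  have a1 : e' = a' := by simpa [y1, w0, sub_eq_zero] using yv2
  have a2 : a' = 0 := mul_left_cancel₀ c.two (by linear_combination hdet - a1)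
  subst a1 a2
  refine ⟨_, Aa.neg c hM (M := u.1 - 1) ⟨⟨u, hu, by simp⟩, LinearMap.ext fun z => ?_,
    LinearMap.ext fun z => ?_⟩, by simp [uv, e1, smul_smul, τ0]⟩ <;>
  · obtain ⟨x1, x2, x3, x4, rfl⟩ := sp z
    simp [hw', hw2', Mw, Mw2, uv, uw, u3, u4]

theorem exu (h : Sh P N) (h' : Lg p P N') (o : Opp N N') :
    ∃ v X, v ≠ 0 ∧ N v = 0 ∧ Aa P N' X ∧ N (X v) = v := by
  obtain ⟨M, v, τ, hM, M0, v0, hv, e1, hp⟩ := pick c h h' o
  by_cases h1 : τ = 1
  · exact ⟨v, M, v0, hv, hM, by simp [e1, h1]⟩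
  by_cases h2 : τ = -1
  · exact ⟨v, -M, v0, hv, hM.neg c h'.1, by simp [e1, h2]⟩
  have hp' : 5 ≤ p ∨ τ ^ 4 ≠ 1 := hp.imp_right fun h3 h4 => by grind
  have l := h'.tr c hM M0
  have o' := o.tr c h'.1 hM M0
  obtain ⟨v2, hv2, hi⟩ := h.basis c v0
  obtain ⟨σ, τ2, e2⟩ := h.span c hv hv2 v0 hi (h.app (M v2))
  suffices ∃ X, Aa P M X ∧ N (X v) = v from
    let ⟨X, a1, a2⟩ := this
    ⟨v, X, v0, hv, hM.back c h'.1 M0 a1, a2⟩
  by_cases h3 : τ2 - τ = 0
  · exact exu2 c h l o' v0 hv e1 hp' hv2 hi (σ := σ) (by rw [e2, sub_eq_zero.1 h3, add_comm])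
  · refine exu1 c h l o' v0 hv e1 hp' (v2 := v2 + (σ / (τ2 - τ)) • v) (τ2 := τ2) (by simp [hv, hv2])
      (fun t e => hi (t - σ / (τ2 - τ)) (by linear_combination (norm := module) e)) ?_
    have := div_mul_cancel₀ σ h3
    simp only [map_add, map_smul, e1, e2]
    linear_combination (norm := module) -this • v

theorem Sh.inv (h : Sh P N) (h' : Lg p P N') (o : Opp N N') :
    ∃ X, Aa P N' X ∧ X ≠ 0 ∧ N * X + X * N = 1 := by
  obtain ⟨v, X, v0, hv, hX, e⟩ := exu c h h' o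
  have X0 : X ≠ 0 := by rintro rfl; exact v0 (by simpa using e.symm)
  have sX := hX.sh c h'.1 X0
  have o' := o.tr c h'.1 hX X0
  obtain ⟨g, hg, eg⟩ := h.1.1
  obtain ⟨g', hg', eg'⟩ := sX.1.1
  have ig := inv_sh eg h.sq
  have ig' := inv_sh eg' sX.sq
  have nP : g * g'⁻¹ * g ∈ P := P.mul_mem (P.mul_mem hg (P.inv_mem hg')) hg
  have nz : ∀ z, N z = 0 → (g * g'⁻¹ * g).1 z = z - N (X z) - X z := fun z hz => by
    simp [eg, ig', hz]; abel
  have ni : ∀ z, N ((g * g'⁻¹ * g)⁻¹.1 z) = N z + N (X z) - N (X (N z)) := fun z => by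
    simp [eg', ig, h.app]; abel
  have sp : ∀ y z, N y = 0 → X z = 0 → y + z = 0 → y = 0 ∧ z = 0 := fun y z a1 a2 a3 => by
    obtain rfl := eq_neg_of_add_eq_zero_left a3
    simpa using o' z (by simpa using a1) a2
  have key : ∀ z, N z = 0 → N (X z) = z := fun z hz => by
    rcases K0 c (h'.tr c hX X0) (h.conj nP) (x := X v) (fun e' => v0 (by rw [← e, e', map_zero]))
      (sX.app v) (by
        have : (g * g'⁻¹ * g).1 (-v) = X v := by rw [nz _ (by simp [hv])]; simp [e]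
        rw [← this]; simp [hv]) with e' | e'
    · obtain ⟨y, rfl⟩ := h.rg c hz
      have := LinearMap.congr_fun e'.2.2 ((g * g'⁻¹ * g).1 y)
      rw [End.mul_apply, End.mul_apply, End.mul_apply, ui, nz _ hz, map_sub, sX.app, sub_zero] at this
      exact (sub_eq_zero.1 (o' _ (by simp [h.app]) this)).symm
    · have a1 := LinearMap.congr_fun e' z
      simp only [End.mul_apply, ni, hz, sX.app, map_zero, zero_add, sub_zero, add_zero] at a1
      rw [nz _ (h.app _), nz _ (by simp [h.app])] at a1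
      obtain ⟨y, hy⟩ : ∃ y, y = N (X z) - N (X (N (X z))) := ⟨_, rfl⟩
      rw [← hy, map_sub, sX.app] at a1
      have a2 := (sp (y - N (X y)) (-((2 : k) • X y)) (by simp [hy, h.app]) (by simp [sX.app])
        (by linear_combination (norm := module) -a1)).2
      have a3 : y = 0 := o' y (by simp [hy, h.app]) (by simpa [c.two] using a2)
      have a4 : X (z - N (X z)) = 0 := o' _ (by simp [← hy, a3]) (sX.app _)
      exact (sub_eq_zero.1 (o' _ (by simp [hz, h.app]) a4)).symm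
  refine ⟨X, hX, X0, LinearMap.ext fun z => ?_⟩
  obtain ⟨v2, hv2, hi⟩ := h.basis c v0
  obtain ⟨x1, x2, x3, x4, rfl⟩ := ext4 c sX o' hv hv2 v0 hi z
  simp [hv, hv2, key, sX.app, add_assoc]

end Cfsg.Agent.H2.L4
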