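import Cfsg.Agent.H2.L4b

/-! Large groups of short unipotent elements do not occur in dimension four. -/

set_option autoImplicit false
set_option linter.unusedSimpArgs false
set_option linter.unusedSectionVars false
set_option linter.unusedVariables false

namespace Cfsg.Agent.H2.L4

open Module Cfsg.Agent.H6.S4 Cfsg.Agent.H2.SP

variable {k V : Type*} [Field k] [AddCommGroup V] [Module k V] [FiniteDimensional k V]
  {P : Subgroup (End k V)ˣ} {p : ℕ} {g : (End k V)ˣ} {N N' N'' M M' X Y : End k V}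

theorem borel [IsAlgClosed k] (h2 : (2 : k) ≠ 0) (U : Set (k × k × k))
    (ha : ∀ a ∈ U, ∀ b ∈ U, a + b ∈ U)
    (hg : ∀ a ∈ U, ∀ b ∈ U, (2 * a.1 * b.1 + a.2.1 * b.2.2 + a.2.2 * b.2.1) ^ 2 =
      4 * (a.1 * a.1 + a.2.1 * a.2.2) * (b.1 * b.1 + b.2.1 * b.2.2)) :
    ∃ s t : k, (s ≠ 0 ∨ t ≠ 0) ∧ ∀ a ∈ U, a.2.2 * t * t + 2 * a.1 * s * t - a.2.1 * s * s = 0 := by
  by_cases h0 : ∀ a ∈ U, a = 0
  · exact ⟨1, 0, by simp, fun a h => by simp [h0 a h]⟩
  push Not at h0
  obtain ⟨⟨x, y, z⟩, hx, x0⟩ := h0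
  obtain ⟨α, β, γ, δ, h1, h3, e1, e2, e3⟩ : ∃ α β γ δ : k, (β ≠ 0 ∨ -α ≠ 0) ∧ (δ ≠ 0 ∨ -γ ≠ 0) ∧
      α * γ = -y ∧ α * δ + β * γ = 2 * x ∧ β * δ = z := by
    by_cases y0 : y = 0
    · refine ⟨0, 1, 2 * x, z, by simp, ?_, by simp [y0], by simp, by simp⟩
      by_contra! hh
      exact x0 (by simpa [y0, hh.1, h2] using hh.2)
    · obtain ⟨β, hβ⟩ := root2 h2 (-(2 * x / y)) (-(z / y))
      refine ⟨1, β, -y, 2 * x + β * y, by simp, by simp [y0], by simp, by ring, ?_⟩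
      field_simp at hβ
      linear_combination hβ
  have key : ∀ b ∈ U, b.2.2 * -α * -α + 2 * b.1 * β * -α - b.2.1 * β * β = 0 ∨
      b.2.2 * -γ * -γ + 2 * b.1 * δ * -γ - b.2.1 * δ * δ = 0 := fun b hb => by
    have := hg _ hx b hb
    obtain rfl : y = -(α * γ) := by rw [e1, neg_neg]
    subst e3
    rw [← mul_eq_zero]
    simp only [] at this
    linear_combination this + (2 * b.1 * (b.2.2 * α * γ - b.2.1 * β * δ) * -1 -
      b.2.1 * b.2.2 * (α * δ + β * γ + 2 * x)) * e2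
  by_cases c1 : ∀ b ∈ U, b.2.2 * -α * -α + 2 * b.1 * β * -α - b.2.1 * β * β = 0
  · exact ⟨β, -α, h1, c1⟩
  push Not at c1
  obtain ⟨b, hb, c1⟩ := c1
  refine ⟨δ, -γ, h3, fun b' hb' => ?_⟩
  by_contra c2
  have a1 := (key b hb).resolve_left c1
  have a2 := (key b' hb').resolve_right c2
  rcases key _ (ha b hb b' hb') with e | e <;> simp only [Prod.fst_add, Prod.snd_add] at e
  · exact c1 (by linear_combination e - a2)
  · exact c2 (by linear_combination e - a1)

/-- the Weyl element -/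
theorem weyl (h : In P N) (h' : In P X) (e1 : N * N = 0) (e2 : X * X = 0) (e : N * X + X * N = 1) :
    ∃ n ∈ P, n.1 = N - X ∧ n⁻¹.1 = X - N := by
  obtain ⟨g, hg, eg⟩ := h
  obtain ⟨g', hg', eg'⟩ := h'
  have e3 : N * (X * N) = N := by rw [eq_sub_of_add_eq' e]; simp [mul_sub, ← mul_assoc, e1]
  have e4 : (g * g'⁻¹ * g).1 = N - X := by
    simp only [Units.val_mul, eg, inv_sh eg' e2, nc k V, e1, e3]
    linear_combination (norm := module) -e
  refine ⟨_, P.mul_mem (P.mul_mem hg (P.inv_mem hg')) hg, e4, Units.inv_eq_of_mul_eq_one_right ?_⟩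
  simp only [e4, nc k V, e1, e2]
  linear_combination (norm := module) e

noncomputable def Qd (k : Type*) [Field k] : QuadraticForm k (Fin 4 → k) :=
  QuadraticMap.proj 0 3 - QuadraticMap.proj 1 2

theorem Qd_apply (m : Fin 4 → k) : Qd k m = m 0 * m 3 - m 1 * m 2 := by simp [Qd]

theorem Bd_apply (a b : Fin 4 → k) :
    Orth.B (Qd k) a b = a 0 * b 3 + a 3 * b 0 - a 1 * b 2 - a 2 * b 1 := by
  simp [Orth.B, QuadraticMap.polar, Qd_apply]; ring

variable (c : Sc P) [Fact p.Prime] [CharP k p] [IsAlgClosed k]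
include c

theorem Opp.tl (o : Opp N N') (h : Sh P N) (hM : Aa P N M) (M0 : M ≠ 0) : Opp M N' :=
  (o.symm.tr c h hM M0).symm

theorem hua (h : Sh P N) (h' : Lg p P N') (o : Opp N N') (hM : Aa P N M) (hX : Aa P N' X) :
    Aa P N (M * X * M) := by
  by_cases M0 : M = 0
  · simpa [M0] using Aa.zero (P := P) N
  have sM := hM.sh c h M0
  obtain ⟨Y, hY, Y0, e⟩ := sM.inv c h' (o.tl c h hM M0)
  obtain ⟨n, hn, e1, e2⟩ := weyl hM.1 hY.1 sM.sq (hY.mul c h'.1 hY) e
  have a1 := hX.1.conj hn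
  have a2 : n.1 * X * n⁻¹.1 = -(M * X * M) := by
    simp only [e1, e2, sub_mul, mul_sub, hY.mul c h'.1 hX, mul_assoc, hX.mul c h'.1 hY]; simp
  simpa using Aa.neg c h (M := -(M * X * M)) ⟨a2 ▸ a1, by simp [mul_assoc, hM.2.1],
    by simp [← mul_assoc, hM.2.2]⟩

theorem plane (h : Lg p P N) (h' : Lg p P N') (o : Opp N N') : ∃ U : Submodule k V, U ≠ ⊥ ∧ U ≠ ⊤ ∧
    ∀ M, Aa P N M ∨ Aa P N' M → ∀ v ∈ U, M v ∈ U := by
  have := c.fin
  have hs := h.1
  obtain ⟨X, hX, X0, eX⟩ := hs.inv c h' o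
  have nx : ∀ u, N u = 0 → N (X u) = u := fun u hu => by simpa [hu] using LinearMap.congr_fun eX u
  obtain ⟨a, ha, a0⟩ := hs.ne c
  obtain ⟨b, hb, hab⟩ := hs.basis c a0
  have co : ∀ M, Aa P N M → ∃ m : Fin 4 → k, M (X a) = m 0 • a + m 1 • b ∧ M (X b) = m 2 • a + m 3 • b :=
    fun M hM =>
      let ⟨x, y, h1⟩ := hs.span c ha hb a0 hab (LinearMap.congr_fun hM.2.2 (X a))
      let ⟨z, w, h2⟩ := hs.span c ha hb a0 hab (LinearMap.congr_fun hM.2.2 (X b))
      ⟨![x, y, z, w], h1, h2⟩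
  let A : AddSubgroup (Fin 4 → k) :=
    { carrier := {m | ∃ M, Aa P N M ∧ M (X a) = m 0 • a + m 1 • b ∧ M (X b) = m 2 • a + m 3 • b}
      add_mem' := fun ⟨M, h1, h2, h3⟩ ⟨M', h4, h5, h6⟩ => ⟨M + M', h1.add c hs h4,
        by simp [h2, h5]; module, by simp [h3, h6]; module⟩
      zero_mem' := ⟨0, Aa.zero N, by simp, by simp⟩
      neg_mem' := fun ⟨M, h1, h2, h3⟩ => ⟨-M, h1.neg c hs, by simp [h2]; module, by simp [h3]; module⟩ }
  have ex : ∀ m m' : Fin 4 → k, m 0 • a + m 1 • b = m' 0 • a + m' 1 • b →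
      m 2 • a + m 3 • b = m' 2 • a + m' 3 • b → m = m' := fun m m' e1 e2 => by
    have a1 := indep2 a0 hab e1
    have a2 := indep2 a0 hab e2
    ext i; fin_cases i <;> simp [a1, a2]
  have : Finite A := Finite.of_injective
    (fun m : A => (⟨m.2.choose_spec.1.1.choose, m.2.choose_spec.1.1.choose_spec.1⟩ : P)) fun m m' e => by
      have e1 := congrArg (fun g : P => g.1.1) e
      simp only [m.2.choose_spec.1.1.choose_spec.2, m'.2.choose_spec.1.1.choose_spec.2,
        add_right_inj] at e1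
      exact Subtype.ext (ex _ _ (by rw [← m.2.choose_spec.2.1, e1, m'.2.choose_spec.2.1])
        (by rw [← m.2.choose_spec.2.2, e1, m'.2.choose_spec.2.2]))
  have hj := fun u v α β => jordan (p := p) (Q := Qd k) (a := u) (b := v) (α := α) (β := β) c.two A
    (c := ![1, 0, 0, 1]) ⟨N, hs.1, by simp [nx a ha], by simp [nx b hb]⟩ (by simp [Qd_apply])
    (fun m ⟨M, h1, h2, h3⟩ hm => by
      obtain ⟨s, t, h4, h5⟩ := eig2 (f := M * X) (τ := 0) a0 hab h2 h3 (by
        rw [Qd_apply] at hm; linear_combination hm)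
      by_cases M0 : M = 0
      · exact ex _ _ (by simp [← h2, M0]) (by simp [← h3, M0])
      · exact absurd ((nx _ (by simp [ha, hb])).symm.trans (h1.ker' c hs M0 (by simpa using h5))) h4)
    fun m ⟨M, h1, h2, h3⟩ => ⟨_, hua c hs h' o h1 hX, by
      simp [h2, h3, Qd_apply, Bd_apply]; module, by simp [h2, h3, Qd_apply, Bd_apply]; module⟩
  have h2 := c.two
  have tl : ∀ m ∈ A, ![(m 0 - m 3) / 2, m 1, m 2, -((m 0 - m 3) / 2)] +
      ((m 0 + m 3) / 2) • ![(1 : k), 0, 0, 1] ∈ A := fun m hm => by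
    convert hm
    ext i; fin_cases i <;> simp <;> field_simp <;> ring
  obtain ⟨s, t, h3, h4⟩ := borel h2 {u | ∃ m ∈ A, u = ((m 0 - m 3) / 2, m 1, m 2)} (by
    rintro _ ⟨m, hm, rfl⟩ _ ⟨m', hm', rfl⟩
    exact ⟨m + m', A.add_mem hm hm', by simp; ring⟩) (by
    rintro _ ⟨m, hm, rfl⟩ _ ⟨m', hm', rfl⟩
    have := hj _ _ _ _ (tl m hm) (tl m' hm') (by simp [Bd_apply]) (by simp [Bd_apply])
    simp [Bd_apply, Qd_apply] at this ⊢
    linear_combination this)
  obtain ⟨e, he⟩ : ∃ e, e = s • a + t • b := ⟨_, rfl⟩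
  have Ne : N e = 0 := by simp [he, ha, hb]
  have e0 : e ≠ 0 := fun e' => by
    have := indep2 a0 hab (c := s) (d := t) (c' := 0) (d' := 0) (by simp [← he, e'])
    tauto
  have ev : ∀ M, Aa P N M → ∃ l : k, M (X e) = l • e := fun M hM => by
    obtain ⟨m, h5, h6⟩ := co M hM
    have h7 := h4 _ ⟨m, ⟨M, hM, h5, h6⟩, rfl⟩
    simp only [] at h7
    field_simp at h7
    rcases h3 with h3 | h3
    · have := mul_inv_cancel₀ h3
      refine ⟨(s * m 0 + t * m 2) * s⁻¹, ?_⟩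
      simp only [he, map_add, map_smul, h5, h6]
      linear_combination (norm := module) -(s * m 0 + t * m 2) • this • a - s⁻¹ • h7 • b -
        (s * m 1 + t * m 3) • this • b
    · have := mul_inv_cancel₀ h3
      refine ⟨(s * m 1 + t * m 3) * t⁻¹, ?_⟩
      simp only [he, map_add, map_smul, h5, h6]
      linear_combination (norm := module) -(s * m 1 + t * m 3) • this • b + t⁻¹ • h7 • a -
        (s * m 0 + t * m 2) • this • a
  have m1 : e ∈ Submodule.span k {e, X e} := Submodule.subset_span (by simp)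
  have m2 : X e ∈ Submodule.span k {e, X e} := Submodule.subset_span (by simp)
  refine ⟨Submodule.span k {e, X e}, fun e' => e0 (by rwa [e'] at m1), fun e' => ?_, fun M hM v hv => ?_⟩
  · classical
    have := finrank_span_finset_le_card (R := k) (M := V) (s := {e, X e})
    have h5 := Finset.card_le_two (a := e) (b := X e)
    rw [Set.finrank, Finset.coe_insert, Finset.coe_singleton, e', finrank_top, c.dim] at this
    omega
  obtain ⟨x, y, rfl⟩ := Submodule.mem_span_pair.1 hv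
  rcases hM with hM | hM
  · obtain ⟨l, hl⟩ := ev M hM
    simpa [hM.ker c hs Ne, hl] using Submodule.smul_mem _ _ (Submodule.smul_mem _ _ m1)
  by_cases M0 : M = 0
  · simp [M0]
  have MX : M (X e) = 0 := LinearMap.congr_fun (hM.mul c h'.1 hX) e
  obtain ⟨Y, hY, Y0, eY⟩ := (hM.sh c h'.1 M0).inv c h (o.symm.tl c h'.1 hM M0)
  obtain ⟨l, hl⟩ := ev Y hY
  have a1 : l • M e = X e := by simpa [hl, MX] using LinearMap.congr_fun eY (X e)
  have l0 : l ≠ 0 := by
    rintro rfl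
    exact e0 (by rw [← nx e Ne, ← a1]; simp)
  rw [map_add, map_smul, map_smul, MX, smul_zero, add_zero, (eq_inv_smul_iff₀ l0).2 a1]
  exact Submodule.smul_mem _ _ (Submodule.smul_mem _ _ m2)

theorem sig (h : Lg p P N) (h' : Lg p P N') (h'' : Lg p P N'') (o : Opp N N') (o' : Opp N N'') :
    ∃ C, Aa P N C ∧ ∀ M, Aa P N'' M → Aa P N' ((1 - C) * M * (1 + C)) := by
  have hs := h.1
  obtain ⟨X, hX, X0, eX⟩ := hs.inv c h' o
  obtain ⟨X2, hX2, X20, eX2⟩ := hs.inv c h'' o'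
  have NN := hs.sq
  have sX := hX.sh c h'.1 X0
  have sX2 := hX2.sh c h''.1 X20
  have pr : ∀ M X Y : End k V, N * X + X * N = 1 → M * Y + Y * M = 1 → X * Y = 0 → N * M = 0 →
      M * Y = N * X := fun M X Y e1 e2 e3 e4 => by
    calc M * Y = (N * X + X * N) * M * Y := by rw [e1, one_mul]
      _ = N * X * (M * Y + Y * M) := by
        simp only [add_mul, mul_add, mul_assoc, ← mul_assoc N M, ← mul_assoc X Y, e3, e4]; simp
      _ = N * X := by rw [e2, mul_one]
  have r1 : X * N = 1 - N * X := eq_sub_of_add_eq' eX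
  have r2 : X2 * N = 1 - N * X2 := eq_sub_of_add_eq' eX2
  have r3 : ∀ Z, X * (N * Z) = Z - N * (X * Z) := fun Z => by rw [← mul_assoc, r1]; simp [sub_mul, mul_assoc]
  have r4 : ∀ Z, X2 * (N * Z) = Z - N * (X2 * Z) := fun Z => by
    rw [← mul_assoc, r2]; simp [sub_mul, mul_assoc]
  have r5 : ∀ Z, N * (N * Z) = 0 := fun Z => by rw [← mul_assoc, NN, zero_mul]
  have f : ∀ M, Aa P N M → M ≠ 0 → Aa P N (N * X - N * X2 + M * (X2 * (X * M))) := fun M hM M0 => by
    have sM := hM.sh c hs M0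
    obtain ⟨Y, hY, Y0, eY⟩ := sM.inv c h' (o.tl c hs hM M0)
    obtain ⟨Y2, hY2, Y20, eY2⟩ := sM.inv c h'' (o'.tl c hs hM M0)
    obtain ⟨n1, hn1, a1, -⟩ := weyl hM.1 hY2.1 sM.sq (hY2.mul c h''.1 hY2) eY2
    obtain ⟨n2, hn2, -, a2⟩ := weyl hs.1.1 hX2.1 NN sX2.sq eX2
    obtain ⟨n3, hn3, a3, -⟩ := weyl hs.1.1 hX.1 NN sX.sq eX
    obtain ⟨n4, hn4, -, a4⟩ := weyl hM.1 hY.1 sM.sq (hY.mul c h'.1 hY) eY
    have b1 := pr M X Y eX eY (hX.mul c h'.1 hY) hM.2.2
    have b2 := pr M X2 Y2 eX2 eY2 (hX2.mul c h''.1 hY2) hM.2.2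
    have b3 : ∀ Z, M * (N * Z) = 0 := fun Z => by rw [← mul_assoc, hM.2.1, zero_mul]
    have b4 : ∀ Z, N * (M * Z) = 0 := fun Z => by rw [← mul_assoc, hM.2.2, zero_mul]
    have b5 : N * (X * M) = M := by
      rw [← mul_assoc, eq_sub_of_add_eq eX]; simp [sub_mul, mul_assoc, hM.2.2]
    refine ⟨⟨n1 * n2⁻¹ * (n3 * n4⁻¹), P.mul_mem (P.mul_mem hn1 (P.inv_mem hn2))
      (P.mul_mem hn3 (P.inv_mem hn4)), ?_⟩, ?_, ?_⟩
    · have c1 : (M - Y2) * (X2 - N) = M * X2 + Y2 * N := by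
        simp only [nc k V, hM.2.1, hY2.mul c h''.1 hX2]; abel
      have c2 : (N - X) * (Y - M) = N * Y + X * M := by
        simp only [nc k V, hM.2.2, hX.mul c h'.1 hY]; abel
      simp only [Units.val_mul, a1, a2, a3, a4, c1, c2]
      simp only [nc k V, r4, r5, b3, b5, b1, eq_sub_of_add_eq' eY2, b2]
      abel
    · simp only [nc k V, r1, r2, r5, hM.2.1]; abel
    · simp only [nc k V, r5, b4]; abel
  have hC : Aa P N (N * X - N * X2) := by
    rcases h.2 with hp | ⟨hp, M, a1, a2, a3, a4⟩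
    · have h3 : (3 : k) ≠ 0 := fun e => by
        have := eq_of_cast (p := p) (k := k) Nat.prime_three (by exact_mod_cast e); omega
      have b2 := hs.1.add c hs hs.1
      have f2 := f _ b2 fun e => hs.2 (smul_right_injective _ c.two (by simpa [two_smul] using e))
      have f3 := f _ (b2.add c hs hs.1) fun e => hs.2 (smul_right_injective _ h3 (by
        linear_combination (norm := module) e))
      convert ((f3.sub c hs f2).sub c hs f2).sub c hs f2 using 1
      simp only [nc k V, r1, r4, r5]; abel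
    · have h3 : (3 : k) = 0 := three_eq hp
      convert ((f _ (a1.add c hs hs.1) a3).add c hs (f _ (a1.sub c hs hs.1) a4)).add c hs (f _ a1 a2)
        using 1
      simp only [nc k V, r1, r4, r5]
      linear_combination (norm := module) -h3 • (M * (X2 * (X * M)))
  refine ⟨_, hC, fun M hM => hX.back c h'.1 X0 ⟨?_, ?_, ?_⟩⟩
  · obtain ⟨g, hg, eg⟩ := hC.1
    have := hM.1.conj (P.inv_mem hg)
    rwa [inv_inv, inv_sh eg (hC.mul c hs hC), eg] at this
  · have : (1 + (N * X - N * X2)) * X = X2 * (N * X) := by simp only [nc k V, r4, sX.sq]; abel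
    rw [mul_assoc, this, ← mul_assoc, mul_assoc _ M, hM.mul c h''.1 hX2]; simp
  · have : X * (1 - (N * X - N * X2)) = (1 - N * X) * X2 := by
      simp only [nc k V, r3, sX.sq]; abel
    rw [← mul_assoc, ← mul_assoc, this, mul_assoc _ X2, hX2.mul c h''.1 hM]; simp

theorem comm_of (h : Lg p P N) (h' : Sh P N') (o : ¬ Opp N N') (hM : Aa P N M) : M * N' = N' * M := by
  by_cases M0 : M = 0
  · simp [M0]
  simp only [Opp, not_forall] at o
  obtain ⟨x, h1, h2, x0⟩ := o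
  rcases K0 c (h.tr c hM M0) h' x0 (hM.ker c h.1 h1) h2 with e | e
  · rw [e.2.1, e.2.2]
  · exact e

theorem nonscal (h : Sh P N) (e : g.1 = 1 + N) (t : k) : g.1 ≠ t • 1 := fun e' => by
  obtain ⟨a, ha, a0⟩ := h.ne c
  have a1 := LinearMap.congr_fun (e.symm.trans e') a
  obtain rfl : 1 = t := smul_left_injective k a0 (by simpa [ha] using a1)
  exact h.2 (by simpa [e'] using e.symm)

theorem no_Lg (h : Lg p P N) : False := by
  have := c.fin
  obtain ⟨x, hx, ex⟩ := h.1.1.1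
  obtain ⟨N', h', o⟩ : ∃ N', Lg p P N' ∧ Opp N N' := by
    by_contra! hh
    have := c.gen (finSub P (fun g => ∀ y ∈ P, (y * g * y⁻¹).1 * N = N * (y * g * y⁻¹).1)
      (by simp) fun a _ b _ h1 h2 y hy => by
        rw [show y * (a * b) * y⁻¹ = y * a * y⁻¹ * (y * b * y⁻¹) by group, Units.val_mul, mul_assoc,
          h2 y hy, ← mul_assoc, h1 y hy, mul_assoc]) (fun _ h => h.1)
      (fun g hg a ha => ⟨P.mul_mem (P.mul_mem hg ha.1) (P.inv_mem hg), fun y hy => by
        simpa only [mul_assoc, mul_inv_rev] using ha.2 _ (P.mul_mem hy hg)⟩)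
      ⟨x, ⟨hx, fun y hy => by
        have := comm_of c h (h.1.conj hy) (hh _ (h.conj hy)) h.1.1
        simp only [nc k V, ex] at this ⊢
        rw [this]⟩, nonscal c h.1 ex⟩
    have d := (h.1.kr c).2
    rcases c.irr (LinearMap.ker N) fun g hg v hv => by
      obtain ⟨y, hy, t, e⟩ := this g hg
      have := LinearMap.congr_fun (hy.2 1 P.one_mem) v
      simp only [one_mul, inv_one, mul_one, End.mul_apply, LinearMap.mem_ker.1 hv, map_zero] at this
      simp [e, ← this] with e | e <;> rw [e] at d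
    · simp at d
    · simp [c.dim] at d
  obtain ⟨U, U0, U1, hU⟩ := plane c h h' o
  set S := Subgroup.closure {g : (End k V)ˣ | ∃ M, (Aa P N M ∨ Aa P N' M) ∧ g.1 = 1 + M} with hS
  have SP : S ≤ P := (Subgroup.closure_le _).2 fun g ⟨M, hM, e⟩ => by
    obtain ⟨g', hg', e'⟩ : In P M := hM.elim And.left And.left
    rwa [show g = g' from Units.ext (e.trans e'.symm)]
  have inS : ∀ (C M : End k V) (y : (End k V)ˣ), C * C = 0 → In P C → (Aa P N C ∨ Aa P N' C) →
      (Aa P N ((1 - C) * M * (1 + C)) ∨ Aa P N' ((1 - C) * M * (1 + C))) → y.1 = 1 + M → y ∈ S :=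
    fun C M y h0 ⟨g, hg, eg⟩ h1 h2 e => by
      have a1 : g ∈ S := Subgroup.subset_closure ⟨C, h1, eg⟩
      have a2 : g⁻¹ * y * g ∈ S := Subgroup.subset_closure ⟨_, h2, by
        rw [← inv_sh eg h0, ← eg]; simp only [nc k V, e]⟩
      simpa [mul_assoc] using S.mul_mem (S.mul_mem a1 a2) (S.inv_mem a1)
  have key := c.gen (finSub P (fun g => ∀ y ∈ P, ∀ s ∈ S, y * g * y⁻¹ * s * (y * g * y⁻¹)⁻¹ ∈ S)
      (by simp) fun a _ b _ h1 h2 y hy s hs => by
        convert h1 y hy _ (h2 y hy s hs) using 1; group) (fun _ h => h.1)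
      (fun g hg a ha => ⟨P.mul_mem (P.mul_mem hg ha.1) (P.inv_mem hg), fun y hy s hs => by
        simpa only [mul_assoc, mul_inv_rev] using ha.2 _ (P.mul_mem hy hg) s hs⟩)
      ⟨x, ⟨hx, fun y hy s hs => by
        have l := h.conj hy
        have e : (y * x * y⁻¹).1 = 1 + y.1 * N * y⁻¹.1 := by simp only [nc k V, ex]
        generalize y * x * y⁻¹ = z at e
        generalize y.1 * N * y⁻¹.1 = M at l e
        by_cases o1 : Opp N M
        · obtain ⟨C, h1, h2⟩ := sig c h h' l o o1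
          have := inS C M z (h1.mul c h.1 h1) h1.1 (Or.inl h1) (Or.inr (h2 _ l.1.1)) e
          exact S.mul_mem (S.mul_mem this hs) (S.inv_mem this)
        by_cases o2 : Opp N' M
        · obtain ⟨C, h1, h2⟩ := sig c h' h l o.symm o2
          have := inS C M z (h1.mul c h'.1 h1) h1.1 (Or.inr h1) (Or.inl (h2 _ l.1.1)) e
          exact S.mul_mem (S.mul_mem this hs) (S.inv_mem this)
        have : S ≤ Subgroup.centralizer {z} := (Subgroup.closure_le _).2 fun g ⟨M', hM, e'⟩ => by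
          have := hM.elim (comm_of c h l.1 o1) (comm_of c h' l.1 o2)
          exact Subgroup.mem_centralizer_singleton_iff.2 (Units.ext (by
            simp only [nc k V, e, e', this]; abel))
        rwa [← Subgroup.mem_centralizer_singleton_iff.1 (this hs), mul_inv_cancel_right]⟩,
        nonscal c h.1 ex⟩
  have key2 := c.gen S SP (fun g hg s hs => by
    obtain ⟨y, hy, t, e⟩ := key g hg
    have a1 := hy.2 1 P.one_mem s hs
    have : g * s * g⁻¹ = y * s * y⁻¹ := by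
      rw [mul_inv_eq_iff_eq_mul]
      exact Units.ext (by simp only [nc k V, e])
    simpa [this] using a1) ⟨x, Subgroup.subset_closure ⟨N, Or.inl h.1.1, ex⟩, nonscal c h.1 ex⟩
  have SU : S ≤ finSub P (fun g => ∀ v ∈ U, g.1 v ∈ U) (fun v hv => hv)
      fun a _ b _ h1 h2 v hv => h1 _ (h2 v hv) := (Subgroup.closure_le _).2 fun g hg =>
    ⟨SP (Subgroup.subset_closure hg), fun v hv => by
      obtain ⟨M, hM, e⟩ := hg
      simpa [e] using U.add_mem hv (hU M hM v hv)⟩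
  refine (c.irr U fun g hg v hv => ?_).elim U0 U1
  obtain ⟨y, hy, t, e⟩ := key2 g hg
  simpa [e] using U.smul_mem t ((SU hy).2 v hv)

/-- no short unipotent elements for `p ≥ 5` -/
theorem un5 (hp : 5 ≤ p) (hg : g ∈ P) (e : (g.1 - 1) * (g.1 - 1) = 0) : g = 1 := by
  by_contra g1
  exact no_Lg c ⟨⟨⟨⟨g, hg, by simp⟩, e, e⟩, fun e' => g1 (Units.ext (sub_eq_zero.1 e'))⟩, Or.inl hp⟩

/-- root groups have order at most three for `p = 3` -/
theorem un3 (hp : p = 3) {x : (End k V)ˣ} (hg : g ∈ P) (e : (g.1 - 1) * (g.1 - 1) = 0) (g1 : g ≠ 1)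
    (hx : x ∈ P) (e1 : (x.1 - 1) * (g.1 - 1) = 0) (e2 : (g.1 - 1) * (x.1 - 1) = 0) :
    x = 1 ∨ x = g ∨ x = g⁻¹ := by
  by_contra! hh
  refine no_Lg c ⟨⟨⟨⟨g, hg, by simp⟩, e, e⟩, fun e' => g1 (Units.ext (sub_eq_zero.1 e'))⟩,
    Or.inr ⟨hp, x.1 - 1, ⟨⟨x, hx, by simp⟩, e1, e2⟩, fun e' => hh.1 (Units.ext (sub_eq_zero.1 e')),
      fun e' => hh.2.2 (Units.ext ?_), fun e' => hh.2.1 (Units.ext (by simpa [sub_eq_zero] using e'))⟩⟩
  rw [inv_sh (N := g.1 - 1) (by simp) e]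
  linear_combination (norm := module) e'

end Cfsg.Agent.H2.L4
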