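import Cfsg.Agent.H2.L4c
import Cfsg.Agent.H6.L4.If

/-! Step (C) in the common setting. -/

set_option autoImplicit false
set_option linter.unusedSectionVars false

namespace Cfsg.Agent.H2.L4

open Module Cfsg.Agent.H6.L4
open Cfsg.Agent.H6.S4 (T_two_iff finSub)

universe u

variable {k V : Type*} [Field k] [AddCommGroup V] [Module k V] [FiniteDimensional k V]
  {G : Type u} [Group G] {P : Subgroup (End k V)ˣ} {π : P →* G} {p : ℕ}

theorem toSc (h : St P π) : Sc P := by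
  have := h.fin
  refine ⟨h.two, h.dim, h.fin, h.irr, fun N hN hn ⟨x, hx, xs⟩ g hg => ?_, fun g hg v _ => h.tv g hg v⟩
  refine h.ind (X := N) hN hn hx (fun ⟨c, e⟩ => xs c e) (fun g => ∃ x ∈ N, ∃ c : k, g.1 = c • x.1)
    (fun g _ ⟨c, e⟩ => ⟨1, N.one_mem, c, by simpa using e⟩) ?_ (fun x hx => ⟨x, hx, 1, by simp⟩) g hg
  rintro a - b - ⟨x, hx, c, e⟩ ⟨y, hy, d, f⟩
  exact ⟨x * y, N.mul_mem hx hy, c * d, by simp [e, f, smul_smul, mul_comm]⟩

theorem toS2 [IsAlgClosed k] [Fact p.Prime] [CharP k p] (h : St P π) : S2 p P π := by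
  refine ⟨h, ?_⟩
  have hp : p.Prime := Fact.out
  have p2 : p ≠ 2 := by rintro rfl; exact h.two (CharP.cast_eq_zero k 2)
  have c := toSc h
  rcases (show p = 3 ∨ 5 ≤ p by
    have := hp.two_le
    have : p ≠ 4 := by rintro rfl; exact absurd hp (by decide)
    omega) with e | e
  · refine Or.inr ⟨e, fun g hg x hx a b g1 f => ?_⟩
    rw [T_two_iff] at a b
    by_cases x1 : x = 1
    · exact Or.inl x1
    have s1 : Sh P (g.1 - 1) := ⟨⟨⟨g, hg, by simp⟩, a, a⟩, fun e => g1 (Units.ext (sub_eq_zero.1 e))⟩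
    have s2 : Sh P (x.1 - 1) := ⟨⟨⟨x, hx, by simp⟩, b, b⟩, fun e => x1 (Units.ext (sub_eq_zero.1 e))⟩
    refine un3 c e hg a g1 hx (LinearMap.ext fun v => ?_) f
    have r : LinearMap.ker (x.1 - 1) = LinearMap.ker (g.1 - 1) :=
      Submodule.eq_of_le_of_finrank_eq (by
        rw [← (s2.kr c).1]; rintro _ ⟨z, rfl⟩; exact LinearMap.congr_fun f z)
        ((s2.kr c).2.trans (s1.kr c).2.symm)
    have : (g.1 - 1) v ∈ LinearMap.ker (x.1 - 1) := by rw [r]; exact LinearMap.congr_fun a v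
    exact this
  · exact Or.inl ⟨e, fun g hg a => un5 c e hg (T_two_iff.1 a)⟩

end Cfsg.Agent.H2.L4
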