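import Cfsg.Agent.H8.OType
import Cfsg.Agent.Orth.Ext1
import Cfsg.Agent.H3.Gleason
import Cfsg.Agent.H9.LinBasic

/-! Orthogonal groups, prime order elements, part 1: isometry groups of subspaces, Witt
transitivity, existence of subspaces of given type. -/

set_option autoImplicit false
set_option linter.unusedSectionVars false

namespace Cfsg.Agent.H2.Oel

open Module Cfsg.Agent.Orth Cfsg.Agent.H8

variable {F V : Type*} [Field F] [AddCommGroup V] [Module F V] {Q : QuadraticForm F V}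

/-- `W` is invariant under `g` -/
def Inv (g : V ≃ₗ[F] V) (W : Submodule F V) : Prop := ∀ v ∈ W, g v ∈ W

lemma Inv.inf {g : V ≃ₗ[F] V} {A C : Submodule F V} (hA : Inv g A) (hC : Inv g C) :
    Inv g (A ⊓ C) := fun v hv => ⟨hA v hv.1, hC v hv.2⟩

lemma Inv.sup {g : V ≃ₗ[F] V} {A C : Submodule F V} (hA : Inv g A) (hC : Inv g C) :
    Inv g (A ⊔ C) := by
  intro v hv
  obtain ⟨a, ha, c, hc, rfl⟩ := Submodule.mem_sup.1 hv
  rw [map_add]; exact Submodule.add_mem_sup (hA a ha) (hC c hc)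

lemma inv_bot (g : V ≃ₗ[F] V) : Inv g ⊥ := fun v hv => by
  rw [Submodule.mem_bot] at hv ⊢; rw [hv, map_zero]

lemma inv_top (g : V ≃ₗ[F] V) : Inv g ⊤ := fun _ _ => trivial

lemma inv_of_fix {g : V ≃ₗ[F] V} {W : Submodule F V} (h : ∀ v ∈ W, g v = v) : Inv g W :=
  fun v hv => by rw [h v hv]; exact hv

lemma inv_of_eig {g : V ≃ₗ[F] V} {W : Submodule F V} {c : F} (h : ∀ v ∈ W, g v = c • v) :
    Inv g W := fun v hv => by rw [h v hv]; exact W.smul_mem c hv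

lemma Inv.mul {g h : V ≃ₗ[F] V} {W : Submodule F V} (hg : Inv g W) (hh : Inv h W) :
    Inv (g * h) W := fun v hv => hg _ (hh v hv)

lemma Inv.pow {g : V ≃ₗ[F] V} {W : Submodule F V} (hg : Inv g W) (k : ℕ) : Inv (g ^ k) W := by
  induction k with
  | zero => exact fun v hv => hv
  | succ k ih => rw [pow_succ]; exact ih.mul hg

section fd
variable [FiniteDimensional F V]

lemma Inv.perp {g : V ≃ₗ[F] V} (hg : g ∈ O Q) {W : Submodule F V} (h : Inv g W) :
    Inv g (perp Q W) := perp_stable hg h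

lemma Inv.inv {g : V ≃ₗ[F] V} {W : Submodule F V} (h : Inv g W) : Inv g⁻¹ W :=
  inv_mem_of_forall_mem h

lemma Inv.map_eq {g : V ≃ₗ[F] V} {W : Submodule F V} (h : Inv g W) :
    W.map (g : V →ₗ[F] V) = W := map_eq_of_forall_mem h

end fd

lemma inv_of_map_eq {g : V ≃ₗ[F] V} {W : Submodule F V} (h : W.map (g : V →ₗ[F] V) = W) :
    Inv g W := fun v hv => h ▸ Submodule.mem_map_of_mem hv

variable (Q) in
/-- isometries acting trivially on `W^⊥` -/
def OW (W : Submodule F V) : Subgroup (V ≃ₗ[F] V) where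
  carrier := {g | g ∈ O Q ∧ ∀ v ∈ perp Q W, g v = v}
  mul_mem' {a b} ha hb := ⟨mul_mem ha.1 hb.1, fun v hv => by rw [mul_app, hb.2 v hv, ha.2 v hv]⟩
  one_mem' := ⟨one_mem _, fun _ _ => rfl⟩
  inv_mem' {a} ha := ⟨inv_mem ha.1, fun v hv => by
    nth_rewrite 1 [← ha.2 v hv]; exact inv_apply_apply a v⟩

lemma mem_OW {W : Submodule F V} {g : V ≃ₗ[F] V} :
    g ∈ OW Q W ↔ g ∈ O Q ∧ ∀ v ∈ perp Q W, g v = v := Iff.rfl

lemma OW_mono {W W' : Submodule F V} (h : W ≤ W') : OW Q W ≤ OW Q W' :=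
  fun _ hg => ⟨hg.1, fun v hv => hg.2 v (perp_anti h hv)⟩

lemma OW_le_O (W : Submodule F V) : OW Q W ≤ O Q := fun _ hg => hg.1

lemma mem_OW_top (hQ : Nd Q) {g : V ≃ₗ[F] V} (hg : g ∈ O Q) : g ∈ OW Q ⊤ :=
  ⟨hg, fun v hv => by rw [hQ.perp_top, Submodule.mem_bot] at hv; rw [hv, map_zero]⟩

lemma refl_mem_OW {W : Submodule F V} {a : V} (ha : a ∈ W) : refl Q a ∈ OW Q W :=
  ⟨refl_mem_O Q a, fun _ hv => refl_of_perp (hv a ha)⟩

lemma eich_mem_OW {W : Submodule F V} {u w : V} (hu : u ∈ W) (hw : w ∈ W) :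
    eich Q u w ∈ OW Q W :=
  ⟨eich_mem_O u w, fun _ hv => eich_apply_of_perp (hv u hu) (hv w hw)⟩

lemma OW.fix {A C : Submodule F V} {g : V ≃ₗ[F] V} (hg : g ∈ OW Q A) (h : C ≤ perp Q A) :
    ∀ v ∈ C, g v = v := fun v hv => hg.2 v (h hv)

section fd
variable [FiniteDimensional F V] [Finite F]

lemma OW.sub_mem (hQ : Nd Q) {W : Submodule F V} {g : V ≃ₗ[F] V} (hg : g ∈ OW Q W) (x : V) :
    g x - x ∈ W := sub_mem_of_fix_perp hQ hg.1 hg.2 x

lemma OW.inv_ge (hQ : Nd Q) {W X : Submodule F V} {g : V ≃ₗ[F] V} (hg : g ∈ OW Q W)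
    (h : W ≤ X) : Inv g X := fun v hv => by
  have := X.add_mem (h (OW.sub_mem hQ hg v)) hv
  rwa [sub_add_cancel] at this

lemma OW.inv (hQ : Nd Q) {W : Submodule F V} {g : V ≃ₗ[F] V} (hg : g ∈ OW Q W) : Inv g W :=
  OW.inv_ge hQ hg le_rfl

lemma OW.commute (hQ : Nd Q) {A C : Submodule F V} (hA : NdOn Q A) (h : C ≤ perp Q A)
    {g k : V ≃ₗ[F] V} (hg : g ∈ OW Q A) (hk : k ∈ OW Q C) : Commute g k := by
  ext x
  obtain ⟨a, ha, b, hb, rfl⟩ := hA.exists_decomp x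
  have h1 : k a = a := hk.2 a (le_perp_comm h ha)
  have h2 : k (g a) = g a := hk.2 _ (le_perp_comm h (OW.inv hQ hg a ha))
  have h3 : g b = b := hg.2 b hb
  have h4 : g (k b) = k b := hg.2 _ (OW.inv_ge hQ hk h b hb)
  simp only [mul_app, map_add, h1, h2, h3, h4]

lemma exists_lin {V' : Type*} [AddCommGroup V'] [Module F V'] {A : Submodule F V} (hA : NdOn Q A)
    (f1 f2 : V →ₗ[F] V') :
    ∃ L : V →ₗ[F] V', (∀ a ∈ A, L a = f1 a) ∧ ∀ c ∈ perp Q A, L c = f2 c :=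
  ⟨LinearMap.ofIsCompl hA.isCompl (f1.domRestrict A) (f2.domRestrict _),
    fun a ha => LinearMap.ofIsCompl_apply_left hA.isCompl ⟨a, ha⟩,
    fun c hc => LinearMap.ofIsCompl_apply_right hA.isCompl ⟨c, hc⟩⟩

lemma exists_O_of_lin (hQ : Nd Q) (L : V →ₗ[F] V) (h : ∀ v, Q (L v) = Q v) :
    ∃ g ∈ O Q, ∀ v, g v = L v :=
  ⟨LinearEquiv.ofInjectiveEndo L (by
      rw [← LinearMap.ker_eq_bot, Submodule.eq_bot_iff]
      exact fun x hx => inj_of_iso hQ.ndOn_top (fun w _ => h w) x trivial hx),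
    fun v => h v, fun _ => rfl⟩

/-- an isometry of `X` extends by the identity -/
lemma exists_OW_ext (hQ : Nd Q) {X : Submodule F V} (hX : NdOn Q X) (f : V →ₗ[F] V)
    (h1 : ∀ x ∈ X, f x ∈ X) (h2 : ∀ x ∈ X, Q (f x) = Q x) :
    ∃ g ∈ OW Q X, ∀ x ∈ X, g x = f x := by
  obtain ⟨L, hL1, hL2⟩ := exists_lin hX f LinearMap.id
  obtain ⟨g, hg, hgL⟩ := exists_O_of_lin hQ L (fun v => by
    obtain ⟨a, ha, b, hb, rfl⟩ := hX.exists_decomp v
    rw [map_add, hL1 a ha, hL2 b hb, Q_add, Q_add, h2 a ha, LinearMap.id_apply, hb a ha,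
      hb _ (h1 a ha)])
  exact ⟨g, ⟨hg, fun v hv => by rw [hgL, hL2 v hv]; rfl⟩, fun x hx => by rw [hgL, hL1 x hx]⟩

/-- glue two isometries -/
lemma exists_OW_glue (hQ : Nd Q) {X A A' : Submodule F V} (hX : NdOn Q X) (hA : NdOn Q A)
    (hAX : A ≤ X) (hAX' : A' ≤ X) (h1 : Iso Q A Q A')
    (h2 : Iso Q (X ⊓ perp Q A) Q (X ⊓ perp Q A')) :
    ∃ g ∈ OW Q X, A.map (g : V →ₗ[F] V) = A' := by
  obtain ⟨f1, hf1, hq1⟩ := h1
  obtain ⟨f2, hf2, hq2⟩ := h2
  obtain ⟨L, hL1, hL2⟩ := exists_lin hA f1 f2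
  have hdec : ∀ x ∈ X, ∃ a ∈ A, ∃ c ∈ X ⊓ perp Q A, x = a + c := by
    intro x hx
    obtain ⟨a, ha, b, hb, rfl⟩ := hA.exists_decomp x
    exact ⟨a, ha, b, ⟨by simpa using X.sub_mem hx (hAX ha), hb⟩, rfl⟩
  have m1 : ∀ a ∈ A, f1 a ∈ A' := fun a ha => hf1 ▸ Submodule.mem_map_of_mem ha
  have m2 : ∀ c ∈ X ⊓ perp Q A, f2 c ∈ X ⊓ perp Q A' := fun c hc =>
    hf2 ▸ Submodule.mem_map_of_mem hc
  obtain ⟨g, hg, hgL⟩ := exists_OW_ext hQ hX L
    (fun x hx => by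
      obtain ⟨a, ha, c, hc, rfl⟩ := hdec x hx
      rw [map_add, hL1 a ha, hL2 c hc.2]
      exact X.add_mem (hAX' (m1 a ha)) (m2 c hc).1)
    (fun x hx => by
      obtain ⟨a, ha, c, hc, rfl⟩ := hdec x hx
      rw [map_add, hL1 a ha, hL2 c hc.2, Q_add, Q_add, hq1 a ha, hq2 c hc, hc.2 a ha,
        (m2 c hc).2 _ (m1 a ha)])
  refine ⟨g, hg, ?_⟩
  rw [← hf1]
  apply le_antisymm
  · rintro _ ⟨a, ha, rfl⟩
    exact ⟨a, ha, by rw [LinearEquiv.coe_coe, hgL a (hAX ha), hL1 a ha]⟩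
  · rintro _ ⟨a, ha, rfl⟩
    exact ⟨a, ha, by rw [LinearEquiv.coe_coe, hgL a (hAX ha), hL1 a ha]⟩

/-- transport of an isometry from a model -/
lemma exists_transport (hQ : Nd Q) {V' : Type*} [AddCommGroup V'] [Module F V']
    {Q' : QuadraticForm F V'} (hQ' : Nd Q') {W : Submodule F V} (hW : NdOn Q W)
    (h : Iso Q' ⊤ Q W) (g' : V' →ₗ[F] V') (hg' : ∀ v, Q' (g' v) = Q' v) :
    ∃ (e : V' →ₗ[F] V) (g : V ≃ₗ[F] V), g ∈ OW Q W ∧ Function.Injective e ∧
      (∀ x, x ∈ W ↔ ∃ v, e v = x) ∧ ∀ v, g (e v) = e (g' v) := by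
  obtain ⟨e, he, hq⟩ := h
  have hinj : Function.Injective e := by
    rw [← LinearMap.ker_eq_bot, Submodule.eq_bot_iff]
    exact fun x hx => inj_of_iso hQ'.ndOn_top hq x trivial hx
  have hr : ∀ x, x ∈ W ↔ ∃ v, e v = x := fun x => by
    rw [← he]; simp
  obtain ⟨s, hs⟩ := e.exists_leftInverse_of_injective (LinearMap.ker_eq_bot.2 hinj)
  have hs' : ∀ v, s (e v) = v := fun v => LinearMap.congr_fun hs v
  obtain ⟨g, hg, hgf⟩ := exists_OW_ext hQ hW (e ∘ₗ g' ∘ₗ s)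
    (fun x _ => (hr _).2 ⟨_, rfl⟩)
    (fun x hx => by
      obtain ⟨v, rfl⟩ := (hr x).1 hx
      simp only [LinearMap.comp_apply, hs']
      rw [hq _ trivial, hq _ trivial, hg'])
  exact ⟨e, g, hg, hinj, hr, fun v => by
    rw [hgf _ ((hr _).2 ⟨v, rfl⟩)]; simp only [LinearMap.comp_apply, hs']⟩

/-- transitivity on singular vectors -/
lemma sing_trans {X : Submodule F V} (hX : NdOn Q X) {u u' : V} (hu : u ∈ X) (hu' : u' ∈ X)
    (h0 : u ≠ 0) (h0' : u' ≠ 0) (hq : Q u = 0) (hq' : Q u' = 0) : ∃ g ∈ OW Q X, g u = u' := by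
  have key : ∀ a b : V, a ∈ X → b ∈ X → Q a = 0 → Q b = 0 → B Q a b ≠ 0 →
      ∃ g ∈ OW Q X, g a = b := fun a b ha hb qa qb hab =>
    ⟨refl Q (b - a), refl_mem_OW (X.sub_mem hb ha), refl_sub_apply (qa.trans qb.symm) (by
      rw [Q_sub, qa, qb, B_comm]; simpa using hab)⟩
  by_cases hb : B Q u u' = 0
  · obtain ⟨y1, hy1, h1⟩ := hX.exists_B_ne hu h0
    obtain ⟨y2, hy2, h2⟩ := hX.exists_B_ne hu' h0'
    obtain ⟨y, hy, h3, h4⟩ : ∃ y ∈ X, B Q u y ≠ 0 ∧ B Q u' y ≠ 0 := by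
      by_cases e1 : B Q u' y1 = 0
      · by_cases e2 : B Q u y2 = 0
        · exact ⟨y1 + y2, X.add_mem hy1 hy2, by simpa [e2] using h1, by simpa [e1] using h2⟩
        · exact ⟨y2, hy2, e2, h2⟩
      · exact ⟨y1, hy1, h1, e1⟩
    have hw : y - (Q y / B Q u y) • u ∈ X := X.sub_mem hy (X.smul_mem _ hu)
    have qw : Q (y - (Q y / B Q u y) • u) = 0 := by
      rw [Q_sub, Q_smul, hq, map_smul, B_comm Q y u, smul_eq_mul]; field_simp; ring
    obtain ⟨g1, hg1, e1⟩ := key u _ hu hw hq qw (by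
      rw [map_sub, map_smul, B_self_of_sing Q hq]; simpa using h3)
    obtain ⟨g2, hg2, e2⟩ := key _ u' hw hu' qw hq' (by
      rw [B_comm, map_sub, map_smul, B_comm Q u' u, hb]; simpa using h4)
    exact ⟨g2 * g1, mul_mem hg2 hg1, by rw [mul_app, e1, e2]⟩
  · exact key u u' hu hu' hq hq' hb

lemma ts_map {g : V ≃ₗ[F] V} (hg : g ∈ O Q) {U : Submodule F V} (hU : TS Q U) :
    TS Q (U.map (g : V →ₗ[F] V)) := by
  rintro _ ⟨u, hu, rfl⟩
  exact (hg u).trans (hU u hu)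

lemma map_le_of_inv {g : V ≃ₗ[F] V} {X U : Submodule F V} (h : Inv g X) (hU : U ≤ X) :
    U.map (g : V →ₗ[F] V) ≤ X := by
  rintro _ ⟨u, hu, rfl⟩; exact h u (hU hu)

lemma map_mul' (g h : V ≃ₗ[F] V) (U : Submodule F V) :
    U.map ((g * h : V ≃ₗ[F] V) : V →ₗ[F] V) = (U.map (h : V →ₗ[F] V)).map (g : V →ₗ[F] V) := by
  rw [← Submodule.map_comp]; rfl

/-- a totally singular subspace through `u` splits along a hyperbolic partner -/
lemma ts_split {U : Submodule F V} (hU : TS Q U) {u f : V} (hu : u ∈ U) (hf : B Q u f = 1) :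
    (F ∙ u) ⊔ (U ⊓ perp Q (Submodule.span F {u, f})) = U ∧
      finrank F (U ⊓ perp Q (Submodule.span F {u, f}) : Submodule F V) + 1 = finrank F U := by
  have h0 : u ≠ 0 := by rintro rfl; simp at hf
  have e : (F ∙ u) ⊔ (U ⊓ perp Q (Submodule.span F {u, f})) = U := by
    apply le_antisymm (sup_le ((Submodule.span_singleton_le_iff_mem _ _).2 hu) inf_le_left)
    intro x hx
    have : x = B Q f x • u + (x - B Q f x • u) := by abel
    rw [this]
    refine Submodule.add_mem_sup (Submodule.smul_mem _ _ (Submodule.mem_span_singleton_self u))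
      ⟨U.sub_mem hx (U.smul_mem _ hu), mem_perp_pair.2 ⟨hU.B_eq_zero hu
        (U.sub_mem hx (U.smul_mem _ hu)), ?_⟩⟩
    rw [map_sub, map_smul, B_comm Q f u, hf]; simp
  refine ⟨e, ?_⟩
  have hd : Disjoint (F ∙ u) (U ⊓ perp Q (Submodule.span F {u, f})) := by
    rw [Submodule.disjoint_def]
    intro x hx hx'
    obtain ⟨c, rfl⟩ := Submodule.mem_span_singleton.1 hx
    have := (mem_perp_pair.1 hx'.2).2
    rw [map_smul, B_comm, hf, smul_eq_mul, mul_one] at this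
    rw [this, zero_smul]
  have := finrank_sup_of_disjoint hd
  rw [e, finrank_span_singleton h0] at this
  omega

/-- Witt's theorem for totally singular subspaces -/
theorem ts_trans (hQ : Nd Q) (m : ℕ) : ∀ X : Submodule F V, NdOn Q X → ∀ U U' : Submodule F V,
    U ≤ X → U' ≤ X → TS Q U → TS Q U' → finrank F U = m → finrank F U' = m →
    ∃ g ∈ OW Q X, U.map (g : V →ₗ[F] V) = U' := by
  induction m with
  | zero =>
    intro X _ U U' _ _ _ _ h1 h2
    rw [Submodule.finrank_eq_zero] at h1 h2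
    exact ⟨1, one_mem _, by rw [h1, h2, Submodule.map_bot]⟩
  | succ m ih =>
    intro X hX U U' hU hU' t1 t2 h1 h2
    obtain ⟨u, hu, hu0⟩ := U.exists_mem_ne_zero_of_ne_bot (by rintro rfl; simp at h1)
    obtain ⟨u', hu', hu0'⟩ := U'.exists_mem_ne_zero_of_ne_bot (by rintro rfl; simp at h2)
    obtain ⟨g1, hg1, e1⟩ := sing_trans hX (hU hu) (hU' hu') hu0 hu0' (t1 u hu) (t2 u' hu')
    obtain ⟨f, hf, qf, bf⟩ := exists_hyp hX (hU' hu') hu0' (t2 u' hu')
    have hU1 : U.map (g1 : V →ₗ[F] V) ≤ X := map_le_of_inv (OW.inv hQ hg1) hU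
    have hu1 : u' ∈ U.map (g1 : V →ₗ[F] V) := ⟨u, hu, e1⟩
    obtain ⟨a1, a2⟩ := ts_split (ts_map hg1.1 t1) hu1 bf
    obtain ⟨b1, b2⟩ := ts_split t2 hu' bf
    rw [LinearEquiv.finrank_map_eq] at a2
    obtain ⟨g2, hg2, e2⟩ := ih (X ⊓ perp Q (Submodule.span F {u', f}))
      (split_pair hX (hU' hu') hf (hyp_D (t2 u' hu') bf)).1 _ _ (inf_le_inf_right _ hU1)
      (inf_le_inf_right _ hU') (fun v hv => ts_map hg1.1 t1 v hv.1) (fun v hv => t2 v hv.1)
      (by omega) (by omega)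
    refine ⟨g2 * g1, mul_mem (OW_mono inf_le_left hg2) hg1, ?_⟩
    rw [map_mul', ← a1, Submodule.map_sup, e2, Submodule.map_span, Set.image_singleton,
      LinearEquiv.coe_coe, hg2.2 u' (le_perp_comm inf_le_right (left_mem_pair u' f)), b1]

lemma nonsing_trans (h2 : (2 : F) ≠ 0) {X : Submodule F V} {u u' : V} (hu : u ∈ X) (hu' : u' ∈ X)
    (hq : Q u = Q u') (h0 : Q u ≠ 0) : ∃ g ∈ OW Q X, g u = u' := by
  by_cases h : Q (u' - u) = 0
  · have h' : Q (-u' - u) ≠ 0 := by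
      intro h'
      rw [Q_sub] at h
      rw [Q_sub, Q_neg, map_neg, LinearMap.neg_apply] at h'
      apply mul_ne_zero h2 (mul_ne_zero h2 h0)
      linear_combination h + h' + 2 * hq
    refine ⟨refl Q u' * refl Q (-u' - u), mul_mem (refl_mem_OW hu')
      (refl_mem_OW (X.sub_mem (X.neg_mem hu') hu)), ?_⟩
    rw [mul_app, refl_sub_apply (by rw [Q_neg, hq]) h', map_neg, refl_self (hq ▸ h0), neg_neg]
  · exact ⟨_, refl_mem_OW (X.sub_mem hu' hu), refl_sub_apply hq h⟩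

lemma NdOn.exists_nonsing' {W : Submodule F V} (hW : NdOn Q W) (h0 : W ≠ ⊥) :
    ∃ v ∈ W, Q v ≠ 0 :=
  hW.exists_nonsing le_rfl (by have := Submodule.finrank_eq_zero.not.2 h0; omega)

lemma iso_inf_perp {V' : Type*} [AddCommGroup V'] [Module F V'] {Q' : QuadraticForm F V'}
    {W A : Submodule F V} {f : V →ₗ[F] V'} (hA : A ≤ W)
    (hq : ∀ w ∈ W, Q' (f w) = Q w) :
    Iso Q (W ⊓ perp Q A) Q' (W.map f ⊓ perp Q' (A.map f)) := by
  refine ⟨f, le_antisymm ?_ ?_, fun w hw => hq w hw.1⟩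
  · rintro _ ⟨w, hw, rfl⟩
    refine ⟨⟨w, hw.1, rfl⟩, ?_⟩
    rintro _ ⟨a, ha, rfl⟩
    rw [B_map_of_iso hq (hA ha) hw.1]; exact hw.2 a ha
  · rintro _ ⟨⟨w, hw, rfl⟩, h⟩
    refine ⟨w, ⟨hw, fun a ha => ?_⟩, rfl⟩
    rw [← B_map_of_iso hq (hA ha) hw]; exact h _ ⟨a, ha, rfl⟩

theorem nd_trans_odd (hQ : Nd Q) (h2 : (2 : F) ≠ 0) (m : ℕ) : ∀ X : Submodule F V, NdOn Q X →
    ∀ W W' : Submodule F V, W ≤ X → W' ≤ X → NdOn Q W → finrank F W = m → Iso Q W Q W' →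
    ∃ g ∈ OW Q X, W.map (g : V →ₗ[F] V) = W' := by
  induction m with
  | zero =>
    intro X _ W W' _ _ hW h1 hi
    have h2 := hi.finrank_eq hW
    rw [h1] at h2
    rw [Submodule.finrank_eq_zero] at h1 h2
    exact ⟨1, one_mem _, by rw [h1, h2, Submodule.map_bot]⟩
  | succ m ih =>
    intro X hX W W' hWX hWX' hW h1 hi
    have hW' := hi.ndOn hW
    obtain ⟨v, hv, hq⟩ := NdOn.exists_nonsing' hW (by rintro rfl; simp at h1)
    obtain ⟨f, hf, hfq⟩ := hi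
    have hv' : f v ∈ W' := hf ▸ Submodule.mem_map_of_mem hv
    obtain ⟨g1, hg1, e1⟩ := nonsing_trans h2 (hWX hv) (hWX' hv') (hfq v hv).symm hq
    have hq' : Q (f v) ≠ 0 := by rwa [hfq v hv]
    have i1 := iso_inf_perp (Q := Q) (Q' := Q) (f := (g1 : V →ₗ[F] V))
      ((Submodule.span_singleton_le_iff_mem _ _).2 hv) (fun w _ => hg1.1 w)
    have i2 := iso_inf_perp ((Submodule.span_singleton_le_iff_mem _ _).2 hv) hfq
    rw [Submodule.map_span, Set.image_singleton] at i1 i2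
    rw [hf] at i2
    rw [LinearEquiv.coe_coe, e1] at i1
    have s0 := split_line h2 hW hv hq
    have s1 := split_line h2 (hW.map hg1.1) (v := f v) ⟨v, hv, e1⟩ hq'
    have s2 := split_line h2 hW' hv' hq'
    rw [LinearEquiv.finrank_map_eq] at s1
    obtain ⟨g2, hg2, e2⟩ := ih (X ⊓ perp Q (F ∙ f v)) (split_line h2 hX (hWX' hv') hq').1 _ _
      (inf_le_inf_right _ (map_le_of_inv (OW.inv hQ hg1) hWX)) (inf_le_inf_right _ hWX') s1.1
      (by omega) ((i1.symm s0.1).trans i2)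
    refine ⟨g2 * g1, mul_mem (OW_mono inf_le_left hg2) hg1, ?_⟩
    rw [map_mul', ← s1.2.2, Submodule.map_sup, e2, Submodule.map_span, Set.image_singleton,
      LinearEquiv.coe_coe,
      hg2.2 _ (le_perp_comm inf_le_right (Submodule.mem_span_singleton_self _)), s2.2.2]

/-- type of a relative complement -/
lemma plus_inf_perp {X A : Submodule F V} (hX : NdOn Q X) (hA : NdOn Q A) (h : A ≤ X)
    (eX : Even (finrank F X)) (eA : Even (finrank F A)) :
    Plus Q X ↔ (Plus Q A ↔ Plus Q (X ⊓ perp Q A)) := by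
  have h1 := hX.finrank_inf_perp h
  rw [← plus_sup_iff hA (hX.inf_perp hA h) inf_le_right eA (by
    rw [Nat.even_iff] at *; omega), sup_inf_perp hA h]

/-- Witt's theorem for non-degenerate subspaces -/
theorem nd_trans (hQ : Nd Q) {X W W' : Submodule F V} (hX : NdOn Q X) (h1 : W ≤ X)
    (h2 : W' ≤ X) (hW : NdOn Q W) (hi : Iso Q W Q W') :
    ∃ g ∈ OW Q X, W.map (g : V →ₗ[F] V) = W' := by
  by_cases hc : (2 : F) = 0
  · have hW' := hi.ndOn hW
    have e1 := even_finrank_of_char_two hc _ X hX rfl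
    have e2 := even_finrank_of_char_two hc _ W hW rfl
    have e3 := even_finrank_of_char_two hc _ W' hW' rfl
    have d1 := hX.finrank_inf_perp h1
    have d2 := hX.finrank_inf_perp h2
    have d3 := hi.finrank_eq hW
    obtain ⟨j, hj⟩ := even_finrank_of_char_two hc _ _ (hX.inf_perp hW h1) rfl
    refine exists_OW_glue hQ hX hW h1 h2 hi (iso_of_type j _ _ (hX.inf_perp hW h1)
      (hX.inf_perp hW' h2) (by omega) (by omega) ?_)
    have p1 := plus_inf_perp hX hW h1 e1 e2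
    have p2 := plus_inf_perp hX hW' h2 e1 e3
    have p3 := hi.plus_iff hW
    tauto
  · exact nd_trans_odd hQ hc _ X hX W W' h1 h2 hW rfl hi

lemma exists_hyp_in {X : Submodule F V} (hX : NdOn Q X) (h3 : 3 ≤ finrank F X) :
    ∃ e ∈ X, ∃ f ∈ X, Q e = 0 ∧ Q f = 0 ∧ B Q e f = 1 := by
  obtain ⟨e, he, he0, hq⟩ := exists_sing_of_three (Q := Q) X h3
  obtain ⟨f, hf, h1, h2⟩ := exists_hyp hX he he0 hq
  exact ⟨e, he, f, hf, hq, h1, h2⟩

lemma exists_nonsquare (h2 : (2 : F) ≠ 0) : ∃ δ : F, δ ≠ 0 ∧ ¬ IsSquare δ := by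
  have : ringChar F ≠ 2 := by
    intro h
    apply h2
    have := ringChar.Nat.cast_ringChar (R := F)
    rw [h] at this; exact_mod_cast this
  obtain ⟨δ, hδ⟩ := FiniteField.exists_nonsquare this
  exact ⟨δ, by rintro rfl; exact hδ ⟨0, by simp⟩, hδ⟩

lemma exists_as (h2 : (2 : F) = 0) : ∃ c : F, ∀ t : F, t * t + t ≠ c := by
  by_contra h
  push Not at h
  have hs : Function.Surjective (fun t : F => t * t + t) := h
  have := (Finite.injective_iff_surjective.2 hs) (a₁ := 0) (a₂ := 1) (by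
    show (0 : F) * 0 + 0 = 1 * 1 + 1
    linear_combination -h2)
  exact zero_ne_one this

lemma isSquare_mul_iff {a b : F} (ha : a ≠ 0) (hb : b ≠ 0) :
    IsSquare (a * b) ↔ (IsSquare a ↔ IsSquare b) := by
  have key : ∀ a b : F, a ≠ 0 → IsSquare a → IsSquare (a * b) → IsSquare b := by
    rintro a b ha ⟨s, rfl⟩ ⟨t, ht⟩
    have hs : s ≠ 0 := by rintro rfl; simp at ha
    exact ⟨t / s, by field_simp; linear_combination ht⟩
  constructor
  · intro h
    exact ⟨fun h1 => key a b ha h1 h, fun h1 => key b a hb h1 (by rwa [mul_comm])⟩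
  · intro h
    by_cases h1 : IsSquare a
    · exact h1.mul (h.1 h1)
    · exact isSquare_mul_of_not' h1 (fun h2 => h1 (h.2 h2))

lemma D_orth (h2 : (2 : F) ≠ 0) {v w : V} (hv : Q v ≠ 0) (hw : Q w ≠ 0) (hb : B Q v w = 0) :
    4 * Q v * Q w - B Q v w ^ 2 ≠ 0 := by
  rw [hb]
  have : (4 : F) ≠ 0 := by
    have := mul_ne_zero h2 h2
    intro h; apply this; linear_combination h
  simpa using ⟨⟨this, hv⟩, hw⟩

/-- type of a plane with an orthogonal basis -/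
lemma plus_pair_iff (h2 : (2 : F) ≠ 0) {v w : V} (hv : Q v ≠ 0) (hw : Q w ≠ 0)
    (hb : B Q v w = 0) :
    Plus Q (Submodule.span F {v, w}) ↔ IsSquare (-(Q v * Q w)) := by
  have hD := D_orth h2 hv hw hb
  constructor
  · intro h
    obtain ⟨s, hs, hs0, hq⟩ := h.exists_sing (by
      intro h0
      have := finrank_pair hD
      rw [h0] at this; simp at this)
    obtain ⟨a, b, rfl⟩ := mem_span_pair'.1 hs
    rw [Q_pair, hb] at hq
    have hb0 : b ≠ 0 := by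
      rintro rfl
      have : a = 0 := by simpa [hv] using hq
      subst this; simp at hs0
    exact ⟨a * Q v / b, by field_simp; linear_combination (-1 : F) * hq⟩
  · rintro ⟨s, hs⟩
    refine H8.plus_of_sing (finrank_pair hD) (s := s • v + Q v • w) (mem_span_pair'.2 ⟨_, _, rfl⟩)
      (fun h0 => ?_) (by rw [Q_pair, hb]; linear_combination (-Q v) * hs)
    exact hv (pair_coeff_eq_zero hD (a := s) (b := Q v) (by rw [h0]; simp) (by rw [h0]; simp)).2

lemma exists_minus_plane {X : Submodule F V} (hX : NdOn Q X) (h3 : 3 ≤ finrank F X) :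
    ∃ Y ≤ X, NdOn Q Y ∧ finrank F Y = 2 ∧ ¬ Plus Q Y := by
  by_cases h2 : (2 : F) = 0
  · obtain ⟨e, he, f, hf, qe, qf, bef⟩ := exists_hyp_in hX h3
    obtain ⟨c, hc⟩ := exists_as h2
    obtain ⟨s1, s2, -⟩ := split_pair hX he hf (hyp_D qe bef)
    have := even_finrank_of_char_two h2 _ X hX rfl
    obtain ⟨w, hw, qw⟩ := s1.exists_Q_eq le_rfl (by rw [Nat.even_iff] at this; omega) c
    obtain ⟨b1, b2⟩ := mem_perp_pair.1 hw.2
    have q1 : Q (e + f) = 1 := by rw [Q_add, qe, qf, bef]; simp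
    have q2 : Q (f + w) = c := by rw [Q_add, qf, qw, b2]; simp
    have q3 : B Q (e + f) (f + w) = 1 := by
      simp only [map_add, LinearMap.add_apply, bef, b1, b2, B_self_of_sing Q qf]; simp
    have hD : 4 * Q (e + f) * Q (f + w) - B Q (e + f) (f + w) ^ 2 ≠ 0 := by
      rw [q1, q2, q3]
      intro h
      exact one_ne_zero (α := F) (by linear_combination -h + 2 * c * h2)
    refine ⟨_, span_pair_le (X.add_mem he hf) (X.add_mem hf hw.1), H8.ndOn_pair hD,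
      finrank_pair hD, Aniso.not_plus (fun s hs hq => ?_) (fun h0 => ?_)⟩
    · obtain ⟨a, b, rfl⟩ := mem_span_pair'.1 hs
      rw [Q_pair, q1, q2, q3] at hq
      by_cases hb : b = 0
      · subst hb
        have : a = 0 := by simpa using hq
        simp [this]
      · exact absurd (show a / b * (a / b) + a / b = c by
          field_simp; linear_combination hq - b * b * c * h2) (hc _)
    · have := finrank_pair hD
      rw [h0] at this; simp at this
  · obtain ⟨v, hv, hq⟩ := NdOn.exists_nonsing' hX (by rintro rfl; simp at h3)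
    obtain ⟨δ, hδ0, hδ⟩ := exists_nonsquare h2
    obtain ⟨s1, s2, -⟩ := split_line h2 hX hv hq
    obtain ⟨w, hw, qw⟩ := s1.exists_Q_eq le_rfl (by omega) (-(δ * Q v))
    have hb : B Q v w = 0 := mem_perp_span_singleton.1 hw.2
    have qw0 : Q w ≠ 0 := by rw [qw]; simp [hδ0, hq]
    have hD := D_orth h2 hq qw0 hb
    refine ⟨_, span_pair_le hv hw.1, H8.ndOn_pair hD, finrank_pair hD, ?_⟩
    rw [plus_pair_iff h2 hq qw0 hb, qw]
    rintro ⟨s, hs⟩
    exact hδ ⟨s / Q v, by field_simp; linear_combination hs⟩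

/-- proper non-zero even-dimensional subspaces of any type exist -/
theorem exists_type (τ : Prop) (j : ℕ) : ∀ X : Submodule F V, NdOn Q X →
    2 * (j + 1) < finrank F X →
    ∃ Y ≤ X, NdOn Q Y ∧ finrank F Y = 2 * (j + 1) ∧ (Plus Q Y ↔ τ) := by
  induction j with
  | zero =>
    intro X hX h
    by_cases hτ : τ
    · obtain ⟨e, he, f, hf, qe, qf, bef⟩ := exists_hyp_in hX (by omega)
      exact ⟨_, span_pair_le he hf, H8.ndOn_pair (hyp_D qe bef), finrank_pair (hyp_D qe bef),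
        iff_of_true (plus_hyp qe bef) hτ⟩
    · obtain ⟨Y, h1, h2, h3, h4⟩ := exists_minus_plane hX (by omega)
      exact ⟨Y, h1, h2, h3, iff_of_false h4 hτ⟩
  | succ j ih =>
    intro X hX h
    obtain ⟨e, he, f, hf, qe, qf, bef⟩ := exists_hyp_in hX (by omega)
    obtain ⟨s1, s2, -⟩ := split_pair hX he hf (hyp_D qe bef)
    obtain ⟨Y, h1, h2, h3, h4⟩ := ih _ s1 (by omega)
    have hn := H8.ndOn_pair (hyp_D qe bef)
    have hp : Y ≤ perp Q (Submodule.span F {e, f}) := h1.trans inf_le_right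
    refine ⟨Submodule.span F {e, f} ⊔ Y, sup_le (span_pair_le he hf) (h1.trans inf_le_left),
      ndOn_sup hn h2 hp, ?_, ?_⟩
    · rw [finrank_sup_of_perp hn hp, finrank_pair (hyp_D qe bef)]; omega
    · rw [Plus.sup_iff hn h2 hp (plus_hyp qe bef), h4]

/-- even-dimensional subspaces of a given type -/
theorem exists_type' {X : Submodule F V} (hX : NdOn Q X) (τ : Prop) {u : ℕ} (he : Even u)
    (h : u ≤ finrank F X) (h0 : u = 0 → τ) (h1 : u = finrank F X → (τ ↔ Plus Q X)) :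
    ∃ Y ≤ X, NdOn Q Y ∧ finrank F Y = u ∧ (Plus Q Y ↔ τ) := by
  by_cases e0 : u = 0
  · exact ⟨⊥, bot_le, ndOn_bot, by simp [e0], iff_of_true plus_bot (h0 e0)⟩
  by_cases e1 : u = finrank F X
  · exact ⟨X, le_rfl, hX, e1.symm, (h1 e1).symm⟩
  obtain ⟨j, hj⟩ := he
  obtain ⟨Y, a, b, c, d⟩ := exists_type τ (j - 1) X hX (by omega)
  exact ⟨Y, a, b, by omega, d⟩

lemma exists_nd_even {X : Submodule F V} (hX : NdOn Q X) {u : ℕ} (he : Even u)
    (h : u ≤ finrank F X) : ∃ Y ≤ X, NdOn Q Y ∧ finrank F Y = u := by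
  by_cases e1 : u = finrank F X
  · exact ⟨X, le_rfl, hX, e1.symm⟩
  · obtain ⟨Y, a, b, c, -⟩ := exists_type' hX True he h (fun _ => trivial) (fun h => absurd h e1)
    exact ⟨Y, a, b, c⟩

lemma exists_nd (h2 : (2 : F) ≠ 0) {X : Submodule F V} (hX : NdOn Q X) {u : ℕ}
    (h : u ≤ finrank F X) : ∃ Y ≤ X, NdOn Q Y ∧ finrank F Y = u := by
  rcases Nat.even_or_odd u with he | ⟨j, rfl⟩
  · exact exists_nd_even hX he h
  · obtain ⟨v, hv, hq⟩ := NdOn.exists_nonsing' hX (by rintro rfl; simp at h)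
    obtain ⟨s1, s2, -⟩ := split_line h2 hX hv hq
    obtain ⟨Y, a, b, c⟩ := exists_nd_even s1 (u := 2 * j) (by simp) (by omega)
    have hn := NdOn.span_singleton h2 hq
    have hp : Y ≤ perp Q (F ∙ v) := a.trans inf_le_right
    refine ⟨(F ∙ v) ⊔ Y, sup_le ((Submodule.span_singleton_le_iff_mem _ _).2 hv)
      (a.trans inf_le_left), ndOn_sup hn b hp, ?_⟩
    rw [finrank_sup_of_perp hn hp, finrank_span_singleton (ne_zero_of_Q_ne hq)]; omega

lemma ts_mono {U U' : Submodule F V} (h : TS Q U) (h' : U' ≤ U) : TS Q U' :=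
  fun v hv => h v (h' hv)

/-- existence of totally singular subspaces -/
theorem exists_ts_iff {X : Submodule F V} (hX : NdOn Q X) (u : ℕ) :
    (∃ U ≤ X, TS Q U ∧ finrank F U = u) ↔
      2 * u ≤ finrank F X ∧ (2 * u = finrank F X → Plus Q X) := by
  constructor
  · rintro ⟨U, h1, h2, rfl⟩
    exact ⟨hX.ts_finrank_le h1 h2.le_perp, fun h => ⟨U, h1, h2, h⟩⟩
  · rintro ⟨h1, h2⟩
    by_cases e : 2 * u = finrank F X
    · obtain ⟨U, a, b, c⟩ := h2 e
      exact ⟨U, a, b, by omega⟩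
    · obtain ⟨U, -, a, b, c⟩ := exists_max_ts (Q := Q) (W := X) (U₀ := ⊥) bot_le (by simp [TS])
      have := finrank_le_of_max hX a b c
      obtain ⟨U', d, e⟩ := H9.exists_le_finrank_eq U (c := u) (by omega)
      exact ⟨U', d.trans a, ts_mono b d, e⟩

lemma span_sup_pair (v w : V) : (F ∙ v) ⊔ (F ∙ w) = Submodule.span F {v, w} := by
  rw [← Submodule.span_union]; rfl

/-- complete an odd-dimensional space to a space of prescribed type -/
lemma exists_complete (h2 : (2 : F) ≠ 0) {Z X : Submodule F V} (hZ : NdOn Q Z)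
    (ho : Odd (finrank F Z)) (hX : NdOn Q X) (hd : 2 ≤ finrank F X) (hp : X ≤ perp Q Z)
    (τ : Prop) : ∃ v ∈ X, Q v ≠ 0 ∧ (Plus Q (Z ⊔ (F ∙ v)) ↔ τ) := by
  obtain ⟨z, hz, qz⟩ := NdOn.exists_nonsing' hZ (by rintro rfl; simp at ho)
  obtain ⟨s1, s2, s3⟩ := split_line h2 hZ hz qz
  obtain ⟨δ, hδ0, hδ⟩ := exists_nonsquare h2
  obtain ⟨γ, hγ0, hγ⟩ : ∃ γ : F, γ ≠ 0 ∧ (IsSquare γ ↔ (Plus Q (Z ⊓ perp Q (F ∙ z)) ↔ τ)) := by
    by_cases h : (Plus Q (Z ⊓ perp Q (F ∙ z)) ↔ τ)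
    · exact ⟨1, one_ne_zero, iff_of_true IsSquare.one h⟩
    · exact ⟨δ, hδ0, iff_of_false hδ h⟩
  obtain ⟨v, hv, qv⟩ := hX.exists_Q_eq le_rfl (by omega) (-(γ * Q z))
  have qv0 : Q v ≠ 0 := by rw [qv]; simp [hγ0, qz]
  refine ⟨v, hv, qv0, ?_⟩
  have hb : B Q z v = 0 := hp hv z hz
  have hD := D_orth h2 qz qv0 hb
  have hp2 : Submodule.span F {z, v} ≤ perp Q (Z ⊓ perp Q (F ∙ z)) :=
    span_pair_le (le_perp_comm inf_le_right (Submodule.mem_span_singleton_self z))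
      (perp_anti inf_le_left (hp hv))
  have e : Z ⊔ (F ∙ v) = (Z ⊓ perp Q (F ∙ z)) ⊔ Submodule.span F {z, v} := by
    nth_rewrite 1 [← s3]
    rw [← span_sup_pair, sup_comm (F ∙ z), sup_assoc]
  rw [e, plus_sup_iff s1 (H8.ndOn_pair hD) hp2 (by rw [Nat.odd_iff] at ho; rw [Nat.even_iff]; omega)
    (by rw [finrank_pair hD]; simp), plus_pair_iff h2 qz qv0 hb, qv]
  have : IsSquare (-(Q z * -(γ * Q z))) ↔ IsSquare γ := by
    rw [show -(Q z * -(γ * Q z)) = (Q z * Q z) * γ by ring,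
      isSquare_mul_iff (mul_ne_zero qz qz) hγ0]
    simp
  rw [this, hγ]; tauto

/-- complete an even-dimensional space to a space of prescribed isometry class -/
lemma exists_complete_iso (h2 : (2 : F) ≠ 0) {W₀ Z X : Submodule F V} (hW : NdOn Q W₀)
    (hZ : NdOn Q Z) (he : Even (finrank F Z)) (hd0 : finrank F W₀ = finrank F Z + 1)
    (hX : NdOn Q X) (hd : 2 ≤ finrank F X) (hp : X ≤ perp Q Z) :
    ∃ v ∈ X, Q v ≠ 0 ∧ Iso Q (Z ⊔ (F ∙ v)) Q W₀ := by
  obtain ⟨Z₀, a, b, c, d⟩ := exists_type' hW (Plus Q Z) he (by omega)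
    (fun h => by rw [Submodule.finrank_eq_zero.1 h]; exact plus_bot) (fun h => by omega)
  have d1 := hW.finrank_inf_perp a
  obtain ⟨v₀, qv₀, e₀⟩ := exists_eq_span_singleton (hW.inf_perp b a) (by omega)
  obtain ⟨v, hv, qv⟩ := hX.exists_Q_eq le_rfl (by omega) (Q v₀)
  refine ⟨v, hv, by rwa [qv], ?_⟩
  rw [← sup_inf_perp b a, e₀]
  obtain ⟨j, hj⟩ := he
  exact Iso.sup hZ ((Submodule.span_singleton_le_iff_mem _ _).2 (hp hv)) (e₀ ▸ inf_le_right)
    (iso_of_type j _ _ hZ b (by omega) (by omega) d.symm) (iso_line h2 (by rwa [qv]) qv.symm)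

/-- alternating forms have even rank -/
theorem even_of_alt (ω : V →ₗ[F] V →ₗ[F] F) (n : ℕ) : ∀ W : Submodule F V,
    (∀ v ∈ W, ω v v = 0) → (∀ v ∈ W, (∀ x ∈ W, ω x v = 0) → v = 0) → finrank F W = n →
    Even n := by
  induction n using Nat.strong_induction_on with
  | _ n ih =>
  intro W halt hnd hn
  by_cases h0 : W = ⊥
  · rw [h0] at hn; simp at hn; simp [← hn]
  obtain ⟨y, hy, hy0⟩ := W.exists_mem_ne_zero_of_ne_bot h0
  obtain ⟨x0, hx0, hxy0⟩ : ∃ x ∈ W, ω x y ≠ 0 := by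
    by_contra h; push Not at h; exact hy0 (hnd y hy h)
  have skew : ∀ a ∈ W, ∀ b ∈ W, ω a b = -ω b a := fun a ha b hb => by
    have := halt _ (W.add_mem ha hb)
    simp only [map_add, LinearMap.add_apply, halt a ha, halt b hb] at this
    linear_combination this
  obtain ⟨x, hx, hxy⟩ : ∃ x ∈ W, ω x y = 1 :=
    ⟨(ω x0 y)⁻¹ • x0, W.smul_mem _ hx0, by simp [hxy0]⟩
  have hyx : ω y x = -1 := by rw [skew y hy x hx, hxy]
  let φ : W →ₗ[F] F × F := ((ω x).prod (ω y)) ∘ₗ W.subtype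
  have hs : Function.Surjective φ := fun ⟨a, b⟩ =>
    ⟨⟨a • y - b • x, W.sub_mem (W.smul_mem _ hy) (W.smul_mem _ hx)⟩, by
      simp [φ, hxy, hyx, halt x hx, halt y hy]⟩
  have h1 := φ.finrank_range_add_finrank_ker
  rw [LinearMap.range_eq_top.2 hs, finrank_top, finrank_prod, finrank_self] at h1
  have hm : ∀ v, v ∈ (LinearMap.ker φ).map W.subtype ↔ v ∈ W ∧ ω x v = 0 ∧ ω y v = 0 := by
    intro v
    constructor
    · rintro ⟨w, hw, rfl⟩
      exact ⟨w.2, by simpa [φ] using hw⟩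
    · rintro ⟨h1, h2⟩
      exact ⟨⟨v, h1⟩, by simpa [φ] using h2, rfl⟩
  have := ih (n - 2) (by omega) ((LinearMap.ker φ).map W.subtype)
    (fun v hv => halt v ((hm v).1 hv).1) (fun v hv h => by
      obtain ⟨v1, v2, v3⟩ := (hm v).1 hv
      refine hnd v v1 fun z hz => ?_
      have := h (z - ω x z • y + ω y z • x) ((hm _).2 ⟨W.add_mem (W.sub_mem hz (W.smul_mem _ hy))
        (W.smul_mem _ hx), by simp [hxy, halt x hx], by simp [hyx, halt y hy]⟩)
      simpa [v2, v3] using this)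
    (by rw [Submodule.finrank_map_subtype_eq]; omega)
  rw [Nat.even_iff] at this ⊢; omega

end fd

end Cfsg.Agent.H2.Oel
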