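import Cfsg.Agent.H2.Oel9

/-! Orthogonal groups, prime order elements, part 10: involutions, odd characteristic. -/

set_option autoImplicit false
set_option linter.unusedSectionVars false

namespace Cfsg.Agent.H2.Oel

open Module Cfsg.Agent.Orth Cfsg.Agent.H8

variable {F V : Type*} [Field F] [AddCommGroup V] [Module F V] {Q : QuadraticForm F V}
  [Finite F] [FiniteDimensional F V]

lemma mem_OW_inf (hQ : Nd Q) {W A : Submodule F V} {g : V ≃ₗ[F] V} (hg : g ∈ OW Q W)
    (h : ∀ a ∈ A, g a = a) : g ∈ OW Q (W ⊓ perp Q A) := by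
  refine ⟨hg.1, fun v hv => ?_⟩
  rw [hQ.perp_inf, hQ.perp_perp] at hv
  obtain ⟨a, ha, b, hb, rfl⟩ := Submodule.mem_sup.1 hv
  rw [map_add, hg.2 a ha, h b hb]

lemma fix_span {g : V ≃ₗ[F] V} {S : Set V} (h : ∀ s ∈ S, g s = s) :
    ∀ v ∈ Submodule.span F S, g v = v :=
  fun _ hv => (Submodule.span_le (p := Fx g)).2 h hv

lemma inv_span {g : V ≃ₗ[F] V} {S : Set V} (h : ∀ s ∈ S, g s ∈ Submodule.span F S) :
    Inv g (Submodule.span F S) :=
  fun _ hv => (Submodule.span_le (p := (Submodule.span F S).comap (g : V →ₗ[F] V))).2 h hv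

lemma even_succ_or (η : Prop) (j : ℕ) : (η ∨ Even (j + 1)) ↔ (η ↔ (η ∨ Even j)) := by
  rw [Nat.even_add_one]; tauto

variable (hQ : Nd Q) (h2 : (2 : F) ≠ 0)
include hQ h2

lemma neg_peel {W : Submodule F V} {g : V ≃ₗ[F] V} (hg : g ∈ OW Q W) (hn : ∀ v ∈ W, g v = -v)
    {a : V} (ha : a ∈ W) (qa : Q a ≠ 0) : refl Q a * g ∈ OW Q (W ⊓ perp Q (F ∙ a)) ∧
      ∀ v ∈ W ⊓ perp Q (F ∙ a), (refl Q a * g) v = -v :=
  ⟨mem_OW_inf hQ (mul_mem (refl_mem_OW ha) hg) (fix_span (by
      rintro _ rfl; rw [mul_app, hn _ ha, map_neg, refl_self qa, neg_neg])),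
    fun v hv => by rw [mul_app, hn v hv.1, map_neg, refl_of_perp (mem_perp_span_singleton.1 hv.2)]⟩

omit hQ h2 in
lemma MP.refl_mul {P : (V ≃ₗ[F] V) → Prop} (h : MP Q P) {g : V ≃ₗ[F] V} (hg : g ∈ O Q) (a : V) :
    P g ↔ (P (refl Q a) ↔ P (refl Q a * g)) := by
  rw [h _ (refl_mem_O Q a) _ hg]; tauto

section spin
variable {D θ : (V ≃ₗ[F] V) → Prop} (S : Spin Q D θ)
include S

lemma Spin.neg_D (n : ℕ) : ∀ (W : Submodule F V) (g : V ≃ₗ[F] V), NdOn Q W → finrank F W = n →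
    g ∈ OW Q W → (∀ v ∈ W, g v = -v) → (D g ↔ Even n) := by
  induction n with
  | zero =>
    intro W g hW d hg hn
    rw [Submodule.finrank_eq_zero] at d
    subst d
    rw [eq_one_of_OW hW hg (by simp)]
    simp [S.mD.one]
  | succ n ih =>
    intro W g hW d hg hn
    obtain ⟨a, ha, qa⟩ := NdOn.exists_nonsing' hW (by rintro rfl; simp at d)
    obtain ⟨s1, s2, -⟩ := split_line h2 hW ha qa
    obtain ⟨p1, p2⟩ := neg_peel hQ h2 hg hn ha qa
    rw [S.mD.refl_mul hg.1 a, ih _ _ s1 (by omega) p1 p2, Nat.even_add_one]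
    simp [S.D_refl a qa]

lemma Spin.neg_θ (j : ℕ) : ∀ (W : Submodule F V) (g : V ≃ₗ[F] V), NdOn Q W → finrank F W = 2 * j →
    g ∈ OW Q W → (∀ v ∈ W, g v = -v) →
    (θ g ↔ (Plus Q W ↔ (IsSquare (-1 : F) ∨ Even j))) := by
  induction j with
  | zero =>
    intro W g hW d hg hn
    rw [mul_zero, Submodule.finrank_eq_zero] at d
    subst d
    rw [eq_one_of_OW hW hg (by simp)]
    simp [S.mθ.one, plus_bot]
  | succ n ih =>
    intro W g hW d hg hn
    obtain ⟨a, ha, qa⟩ := NdOn.exists_nonsing' hW (by rintro rfl; simp at d)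
    obtain ⟨s1, s2, -⟩ := split_line h2 hW ha qa
    obtain ⟨p1, p2⟩ := neg_peel hQ h2 hg hn ha qa
    obtain ⟨b, hb, qb⟩ := NdOn.exists_nonsing' s1 (by intro h; rw [h] at s2; simp at s2; omega)
    obtain ⟨t1, t2, -⟩ := split_line h2 s1 hb qb
    obtain ⟨r1, r2⟩ := neg_peel hQ h2 p1 p2 hb qb
    have hab : B Q a b = 0 := mem_perp_span_singleton.1 hb.2
    have hD := D_orth h2 qa qb hab
    have e := plus_inf_perp hW (H8.ndOn_pair hD) (span_pair_le ha hb.1) (by simp [d])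
      (by simp [finrank_pair hD])
    rw [plus_pair_iff h2 qa qb hab, ← span_sup_pair, perp_sup, ← inf_assoc, neg_eq_neg_one_mul,
      isSquare_mul_iff (by simp) (mul_ne_zero qa qb), isSquare_mul_iff qa qb] at e
    rw [S.mθ.refl_mul hg.1 a, S.mθ.refl_mul p1.1 b, ih _ _ t1 (by omega) r1 r2, S.θ_refl a qa,
      S.θ_refl b qb, e, even_succ_or]
    generalize (IsSquare (-1 : F) ∨ Even n) = x
    generalize IsSquare (-1 : F) = y
    generalize IsSquare (Q a) = z
    generalize IsSquare (Q b) = w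
    generalize Plus Q _ = u
    clear * -
    tauto

end spin

omit hQ in
lemma J_perp {g : V ≃ₗ[F] V} (hg : g ∈ O Q) {v : V} (h : g (g v) = -v) : B Q v (g v) = 0 := by
  have := O_B hg v (g v)
  rw [h, map_neg, B_comm] at this
  exact (mul_eq_zero.1 (show 2 * B Q v (g v) = 0 by linear_combination -this)).resolve_left h2

omit hQ h2 in
lemma J_inv {g : V ≃ₗ[F] V} {v : V} (h : g (g v) = -v) : Inv g (Submodule.span F {v, g v}) :=
  inv_span (by
    rintro _ (rfl | rfl)
    · exact right_mem_pair _ _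
    · rw [h]; exact neg_mem (left_mem_pair _ _))

omit hQ in
lemma rot_apply {v w : V} (qv : Q v ≠ 0) (e : Q w = Q v) (b : B Q v w = 0) :
    Q (w - v) = 2 * Q v ∧ (refl Q (w - v) * refl Q w) v = w ∧
      (refl Q (w - v) * refl Q w) w = -v := by
  have q : Q (w - v) = 2 * Q v := by rw [Q_sub, B_comm, b, e]; ring
  have q0 : Q (w - v) ≠ 0 := by rw [q]; exact mul_ne_zero h2 qv
  have h1 := refl_sub_apply e.symm q0
  refine ⟨q, by rw [mul_app, refl_of_perp (a := w) (by rw [B_comm, b]), h1], ?_⟩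
  rw [mul_app, refl_self (e ▸ qv), map_neg]
  nth_rewrite 2 [← h1]
  rw [refl_refl]

lemma Spin.J {D θ : (V ≃ₗ[F] V) → Prop} (S : Spin Q D θ) (n : ℕ) :
    ∀ (W : Submodule F V) (g : V ≃ₗ[F] V), NdOn Q W → finrank F W = n →
    g ∈ OW Q W → (∀ v ∈ W, g (g v) = -v) → ∃ j, n = 2 * j ∧
    (Plus Q W ↔ (IsSquare (-1 : F) ∨ Even j)) ∧ D g ∧ (θ g ↔ (IsSquare (2 : F) ∨ Even j)) := by
  induction n using Nat.strong_induction_on with
  | _ n ih =>
  intro W g hW d hg hn
  by_cases h0 : W = ⊥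
  · subst h0
    rw [eq_one_of_OW hW hg (by simp)]
    exact ⟨0, by simpa using d.symm, by simp [plus_bot], S.mD.one, by simp [S.mθ.one]⟩
  obtain ⟨v, hv, qv⟩ := NdOn.exists_nonsing' hW h0
  have hw := OW.inv hQ hg v hv
  have e : Q (g v) = Q v := hg.1 v
  have b := J_perp h2 hg.1 (hn v hv)
  have hD := D_orth h2 qv (e ▸ qv) b
  obtain ⟨s1, s2, -⟩ := split_pair hW hv hw hD
  obtain ⟨r1, r2, r3⟩ := rot_apply h2 qv e b
  have hR : refl Q (g v - v) * refl Q (g v) ∈ OW Q (Submodule.span F {v, g v}) :=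
    mul_mem (refl_mem_OW (sub_mem (right_mem_pair _ _) (left_mem_pair _ _)))
      (refl_mem_OW (right_mem_pair _ _))
  set R := refl Q (g v - v) * refl Q (g v) with hRd
  have i1 : Inv g (W ⊓ perp Q (Submodule.span F {v, g v})) :=
    (OW.inv hQ hg).inf ((J_inv (hn v hv)).perp hg.1)
  have e1 : ∀ x ∈ W ⊓ perp Q (Submodule.span F {v, g v}), (R⁻¹ * g) x = g x := fun x hx =>
    (inv_mem hR).2 _ (i1 x hx).2
  obtain ⟨j, a1, a2, a3, a4⟩ := ih _ (by omega) _ (R⁻¹ * g) s1 rfl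
    (mem_OW_inf hQ (mul_mem (inv_mem (OW_mono (span_pair_le hv hw) hR)) hg) (fix_span (by
      rintro _ (rfl | rfl)
      · rw [mul_app]; nth_rewrite 1 [← r2]; rw [inv_apply_apply]
      · rw [mul_app, hn v hv, ← r3, inv_apply_apply])))
    (fun x hx => by rw [e1 x hx, e1 _ (i1 x hx), hn x hx.1])
  have p := plus_inf_perp hW (H8.ndOn_pair hD) (span_pair_le hv hw) ⟨j + 1, by omega⟩
    (by simp [finrank_pair hD])
  rw [← span_sup_pair, plus_two_lines h2 qv e b, span_sup_pair, a2] at p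
  have q0 : Q (g v - v) ≠ 0 := by rw [r1]; exact mul_ne_zero h2 qv
  refine ⟨j + 1, by omega, by rw [p, even_succ_or], ?_, ?_⟩
  · rw [S.mD _ (inv_mem hR.1) _ hg.1, S.mD.inv hR.1, hRd,
      S.mD _ (refl_mem_O _ _) _ (refl_mem_O _ _)] at a3
    exact a3.1 (iff_of_false (S.D_refl _ q0) (S.D_refl _ (e ▸ qv)))
  · rw [S.mθ _ (inv_mem hR.1) _ hg.1, S.mθ.inv hR.1, hRd,
      S.mθ _ (refl_mem_O _ _) _ (refl_mem_O _ _), S.θ_refl _ q0, S.θ_refl _ (e ▸ qv), r1, e,
      isSquare_mul_iff h2 qv, iff4] at a4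
    rw [even_succ_or, ← a4]
    generalize IsSquare (2 : F) = y
    generalize θ g = x
    tauto

lemma J_sub {g : V ≃ₗ[F] V} (hg : g ∈ O Q) (hn : ∀ v, g (g v) = -v) (j : ℕ) :
    ∀ X : Submodule F V, NdOn Q X → Inv g X → 2 * j ≤ finrank F X →
    ∃ W ≤ X, NdOn Q W ∧ Inv g W ∧ finrank F W = 2 * j := by
  induction j with
  | zero => exact fun X _ _ _ => ⟨⊥, bot_le, ndOn_bot, inv_bot g, by simp⟩
  | succ j ih =>
    intro X hX iX d
    obtain ⟨v, hv, qv⟩ := NdOn.exists_nonsing' hX (by rintro rfl; simp at d)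
    have e : Q (g v) = Q v := hg v
    have hD := D_orth h2 qv (e ▸ qv) (J_perp h2 hg (hn v))
    obtain ⟨s1, s2, -⟩ := split_pair hX hv (iX v hv) hD
    obtain ⟨W, a1, a2, a3, a4⟩ := ih _ s1 (iX.inf ((J_inv (hn v)).perp hg)) (by omega)
    have hp := a1.trans inf_le_right
    exact ⟨_, sup_le (span_pair_le hv (iX v hv)) (a1.trans inf_le_left),
      ndOn_sup (H8.ndOn_pair hD) a2 hp, (J_inv (hn v)).sup a3, by
        rw [finrank_sup_of_perp (H8.ndOn_pair hD) hp, finrank_pair hD]; omega⟩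

lemma J_exists (j : ℕ) : ∀ W : Submodule F V, NdOn Q W → finrank F W = 2 * j →
    (Plus Q W ↔ (IsSquare (-1 : F) ∨ Even j)) → ∃ g ∈ OW Q W, ∀ v ∈ W, g (g v) = -v := by
  induction j with
  | zero =>
    intro W _ d _
    rw [mul_zero, Submodule.finrank_eq_zero] at d
    exact ⟨1, one_mem _, by simp [d]⟩
  | succ j ih =>
    intro W hW d hp
    obtain ⟨v, hv, qv⟩ := NdOn.exists_nonsing' hW (by rintro rfl; simp at d)
    obtain ⟨s1, s2, s3⟩ := split_line h2 hW hv qv
    obtain ⟨w, hw, e⟩ : ∃ w ∈ W ⊓ perp Q (F ∙ v), Q w = Q v := by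
      rcases Nat.eq_zero_or_pos j with rfl | hj
      · obtain ⟨w, qw, e⟩ := exists_eq_span_singleton s1 (by omega)
        have hw : w ∈ W ⊓ perp Q (F ∙ v) := e ▸ Submodule.mem_span_singleton_self w
        rw [← s3, e, span_sup_pair, plus_pair_iff h2 qv qw (mem_perp_span_singleton.1 hw.2),
          neg_eq_neg_one_mul, isSquare_mul_iff (by simp) (mul_ne_zero qv qw)] at hp
        obtain ⟨t, ht⟩ : IsSquare (Q v * Q w) := by
          have : ¬ Even (0 + 1) := by decide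
          tauto
        exact ⟨(t / Q w) • w, Submodule.smul_mem _ _ hw, by
          rw [Q_smul]; field_simp; linear_combination -ht⟩
      · exact s1.exists_Q_eq le_rfl (by omega) _
    have b : B Q v w = 0 := mem_perp_span_singleton.1 hw.2
    have hD := D_orth h2 qv (e ▸ qv) b
    obtain ⟨t1, t2, t3⟩ := split_pair hW hv hw.1 hD
    obtain ⟨r1, r2, r3⟩ := rot_apply h2 qv e b
    have hR : refl Q (w - v) * refl Q w ∈ OW Q (Submodule.span F {v, w}) :=
      mul_mem (refl_mem_OW (sub_mem (right_mem_pair _ _) (left_mem_pair _ _)))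
        (refl_mem_OW (right_mem_pair _ _))
    set R := refl Q (w - v) * refl Q w
    have p := plus_inf_perp hW (H8.ndOn_pair hD) (span_pair_le hv hw.1) ⟨j + 1, by omega⟩
      (by simp [finrank_pair hD])
    rw [← span_sup_pair, plus_two_lines h2 qv e b, span_sup_pair, hp, even_succ_or] at p
    obtain ⟨k, hk, hk2⟩ := ih _ t1 (by omega) (by tauto)
    refine ⟨R * k, t3 ▸ prod_mem hQ inf_le_right hR hk, fun x hx => ?_⟩
    rw [← t3] at hx
    obtain ⟨y, hy, z, hz, rfl⟩ := Submodule.mem_sup.1 hx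
    rw [map_add, prod_left hQ inf_le_right hR hk y hy, prod_right hQ inf_le_right hR hk z hz,
      map_add, prod_left hQ inf_le_right hR hk _ (OW.inv hQ hR y hy),
      prod_right hQ inf_le_right hR hk _ (OW.inv hQ hk z hz), hk2 z hz, neg_add]
    obtain ⟨s, t, rfl⟩ := mem_span_pair'.1 hy
    simp only [map_add, map_smul, map_neg, r2, r3, smul_neg, neg_add]

omit hQ h2 in
lemma J_even (hη : ¬ IsSquare (-1 : F)) {g : V ≃ₗ[F] V} (hn : ∀ v, g (g v) = -v)
    {W : Submodule F V} (hW : Inv g W) : Even (finrank F W) := by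
  by_contra h
  let f : W →ₗ[F] W := (g : V →ₗ[F] V).restrict hW
  have e : f ∘ₗ f = (-1 : F) • LinearMap.id := by
    ext v; exact (hn v).trans (neg_one_smul F _).symm
  have := congrArg LinearMap.det e
  rw [LinearMap.det_comp, LinearMap.det_smul, LinearMap.det_id, mul_one,
    (Nat.not_even_iff_odd.1 h).neg_one_pow] at this
  exact hη ⟨_, this.symm⟩

lemma J_ts_sq (hη : IsSquare (-1 : F)) {g : V ≃ₗ[F] V} (hg : g ∈ O Q) (hn : ∀ v, g (g v) = -v)
    {m : ℕ} (hm : 2 * m ≤ finrank F V) : FixIn (STS Q m) g := by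
  obtain ⟨i, hi⟩ := hη
  let E : F → Submodule F V := fun c => LinearMap.eqLocus (g : V →ₗ[F] V) (c • LinearMap.id)
  have hE : ∀ c v, v ∈ E c ↔ g v = c • v := fun _ _ => Iff.rfl
  have key : ∀ c, -1 = c * c → m ≤ finrank F (E c) → FixIn (STS Q m) g := fun c hc h => by
    obtain ⟨W, a, b⟩ := H9.exists_le_finrank_eq (E c) h
    refine ⟨W, ⟨b, fun v hv => ?_⟩, inv_of_eig fun v hv => (hE c v).1 (a hv)⟩
    have := hg v
    rw [(hE c v).1 (a hv), Q_smul, ← hc] at this
    exact (mul_eq_zero.1 (show 2 * Q v = 0 by linear_combination -this)).resolve_left h2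
  have hs : E i ⊔ E (-i) = ⊤ := eq_top_iff.2 fun v _ => by
    have : v = (2⁻¹ : F) • (v - i • g v) + (2⁻¹ : F) • (v + i • g v) := by
      rw [← smul_add, sub_add_add_cancel, ← two_smul F v, smul_smul, inv_mul_cancel₀ h2, one_smul]
    rw [this]
    refine Submodule.add_mem_sup (Submodule.smul_mem _ _ ((hE _ _).2 ?_))
      (Submodule.smul_mem _ _ ((hE _ _).2 ?_))
    · rw [map_sub, map_smul, hn, smul_sub, smul_smul, ← hi]; simp [add_comm]
    · rw [map_add, map_smul, hn, smul_add, smul_smul, neg_mul, ← hi]; simp [add_comm]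
  have := Submodule.finrank_add_le_finrank_add_finrank (E i) (E (-i))
  rw [hs, finrank_top] at this
  by_cases h : m ≤ finrank F (E i)
  · exact key i hi h
  · exact key (-i) (by rw [hi]; ring) (by omega)

lemma J_ts_even (hη : ¬ IsSquare (-1 : F)) {g : V ≃ₗ[F] V} (hg : g ∈ O Q)
    (hn : ∀ v, g (g v) = -v) (k : ℕ) : 4 * k ≤ finrank F V → FixIn (STS Q (2 * k)) g := by
  induction k with
  | zero => exact fun _ => ⟨⊥, ⟨by simp, by simp [TS]⟩, inv_bot g⟩
  | succ k ih =>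
    intro h
    obtain ⟨T, ⟨a, b⟩, c⟩ := ih (by omega)
    have d := hQ.finrank_perp T
    obtain ⟨x, hx, qx, hxT⟩ := hQ.ndOn_top.exists_sing_notMem (H := perp Q T) (Y := T) le_top
      (by rw [finrank_top]; omega) (fun h => by have := Submodule.finrank_mono h; omega)
    have i1 := c.sup (J_inv (hn x))
    refine ⟨_, ⟨?_, ts_sup b (ts_span ?_ ?_) (span_pair_le hx (c.perp hg x hx))⟩, i1⟩
    · have e1 := Nat.even_iff.1 (J_even hη hn i1)
      have e2 := Submodule.finrank_add_le_finrank_add_finrank T (Submodule.span F {x, g x})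
      have e3 := finrank_span_pair_le (F := F) x (g x)
      have e4 : finrank F T < finrank F (T ⊔ Submodule.span F {x, g x} : Submodule F V) :=
        Submodule.finrank_lt_finrank_of_lt (lt_of_le_of_ne le_sup_left fun e => hxT
          (e ▸ Submodule.mem_sup_right (left_mem_pair _ _)))
      omega
    · rintro _ (rfl | rfl)
      · exact qx
      · rw [hg x, qx]
    · have := J_perp h2 hg (hn x)
      rintro _ (rfl | rfl) _ (rfl | rfl)
      · exact B_self_of_sing Q qx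
      · exact this
      · rwa [B_comm]
      · exact B_self_of_sing Q (by rw [hg x, qx])

end Cfsg.Agent.H2.Oel
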