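import Cfsg.Agent.H2.Oel10

/-! Orthogonal groups, prime order elements, part 11: `r = 2`, odd characteristic. -/

set_option autoImplicit false
set_option linter.unusedSectionVars false

namespace Cfsg.Agent.H2.Oel

open Module Cfsg.Agent.Orth Cfsg.Agent.H8

variable {F V : Type*} [Field F] [AddCommGroup V] [Module F V] {Q : QuadraticForm F V}
  [Finite F] [FiniteDimensional F V]

variable (Q) in
/-- non-central involutions -/
def AllD (P : (V ≃ₗ[F] V) → Prop) : Prop :=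
  ∀ g ∈ EO Q, g ^ 2 = 1 → g ≠ 1 → (¬ ∀ v, g v = -v) → P g

variable (Q) in
/-- square roots of `-1` -/
def AllJ (P : (V ≃ₗ[F] V) → Prop) : Prop := ∀ g ∈ EO Q, (∀ v, g (g v) = -v) → P g

variable (Q) in
def Jex : Prop := ∃ g ∈ EO Q, ∀ v, g (g v) = -v

variable (hQ : Nd Q) (hd : 5 ≤ finrank F V) (h2 : (2 : F) ≠ 0)
include hQ hd h2

theorem pe_two (P : (V ≃ₗ[F] V) → Prop) : PE Q 2 P ↔ AllD Q P ∧ AllJ Q P := by
  constructor
  · refine fun H => ⟨fun g hg h1 h3 h4 => H g hg ⟨1, fun v => by rw [h1, one_smul]; rfl⟩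
      fun z hz => ?_, fun g hg h => H g hg ⟨-1, fun v => by rw [sq, mul_app, h, neg_one_smul]⟩
      fun z hz => ?_⟩
    · rcases mul_self_eq_one_iff.1 (sq_eq_one_of_scalar hQ hd (EO_le_O hg) hz) with rfl | rfl
      · exact h3 (LinearEquiv.ext fun v => by rw [hz, one_smul]; rfl)
      · exact h4 fun v => by rw [hz, neg_one_smul]
    · obtain ⟨v, -, hv⟩ := NdOn.exists_nonsing' hQ.ndOn_top (by
        intro h0; have := finrank_top F V; rw [h0] at this; simp at this; omega)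
      have := J_perp h2 (EO_le_O hg) (h v)
      rw [hz, map_smul, B_self, smul_eq_mul] at this
      have h5 := sq_eq_one_of_scalar hQ hd (EO_le_O hg) hz
      have : z = 0 := by simpa [h2, hv] using this
      simp [this] at h5
  · rintro ⟨H1, H2⟩ g hg ⟨z, hz⟩ h
    rcases mul_self_eq_one_iff.1 (sq_eq_one_of_scalar hQ hd (pow_mem (EO_le_O hg) 2) hz)
      with rfl | rfl
    · exact H1 g hg (LinearEquiv.ext fun v => by rw [hz, one_smul]; rfl)
        (fun e => h 1 fun v => by rw [e, one_smul]; rfl) fun e => h (-1) fun v => by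
          rw [e, neg_one_smul]
    · exact H2 g hg fun v => by rw [← neg_one_smul F v, ← hz, sq, mul_app]

theorem oe_two (ho : Odd (finrank F V)) (P : (V ≃ₗ[F] V) → Prop) : OE Q 2 P ↔ AllD Q P := by
  obtain ⟨D, θ, S⟩ := exists_spin hQ hd h2
  refine ⟨fun H g hg h1 h3 _ => H g hg (orderOf_eq_prime h1 h3), fun H g hg h => H g hg
    (h ▸ pow_orderOf_eq_one g) (by rintro rfl; simp at h) fun e => ?_⟩
  have := (S.neg_D hQ h2 _ ⊤ g hQ.ndOn_top rfl (mem_OW_top hQ (EO_le_O hg)) fun v _ => e v).1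
    ((S.mem g (EO_le_O hg)).1 hg).1
  rw [finrank_top] at this
  exact Nat.not_even_iff_odd.2 ho this

omit hd in
lemma neg_on_perp {g : V ≃ₗ[F] V} (hg : g ∈ O Q) (h1 : g ^ 2 = 1) :
    ∀ v ∈ perp Q (Fx g), g v = -v := fun v hv => by
  have fp := fpf_perp_Fx hQ hg h1 (by exact_mod_cast h2)
  have e : g (g v) = v := LinearEquiv.congr_fun (sq g ▸ h1) v
  exact eq_neg_of_add_eq_zero_left (fp.2 _ (add_mem (fp.inv v hv) hv) (by rw [map_add, e, add_comm]))

lemma D_data {g : V ≃ₗ[F] V} (hg : g ∈ EO Q) (h1 : g ^ 2 = 1) (h3 : g ≠ 1)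
    (h4 : ¬ ∀ v, g v = -v) : ∃ j, 1 ≤ j ∧ 2 * j < finrank F V ∧ finrank F (perp Q (Fx g)) = 2 * j ∧
      (Plus Q (perp Q (Fx g)) ↔ (IsSquare (-1 : F) ∨ Even j)) := by
  obtain ⟨D, θ, S⟩ := exists_spin hQ hd h2
  have hO := EO_le_O hg
  have nX := (nd_Fx hQ hO h1 (by exact_mod_cast h2)).perp hQ
  have hW : g ∈ OW Q (perp Q (Fx g)) := ⟨hO, by rw [hQ.perp_perp]; exact fun _ h => h⟩
  have hn := neg_on_perp hQ h2 hO h1
  obtain ⟨j, hj⟩ := (S.neg_D hQ h2 _ _ g nX rfl hW hn).1 ((S.mem g hO).1 hg).1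
  have d := hQ.finrank_perp (Fx g)
  refine ⟨j, ?_, ?_, by omega, (S.neg_θ hQ h2 j _ g nX (by omega) hW hn).1 ((S.mem g hO).1 hg).2⟩
  · by_contra h
    have : Fx g = ⊤ := Submodule.eq_top_of_finrank_eq (by omega)
    exact h3 (LinearEquiv.ext fun v => by have : v ∈ Fx g := this ▸ trivial; exact this)
  · by_contra h
    have : perp Q (Fx g) = ⊤ := Submodule.eq_top_of_finrank_eq (by omega)
    exact h4 fun v => hn v (this ▸ trivial)

lemma D_exists {W : Submodule F V} (hW : NdOn Q W) {j : ℕ} (d : finrank F W = 2 * j)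
    (hp : Plus Q W ↔ (IsSquare (-1 : F) ∨ Even j)) :
    ∃ g ∈ EO Q, g ^ 2 = 1 ∧ perp Q (Fx g) = W := by
  obtain ⟨D, θ, S⟩ := exists_spin hQ hd h2
  obtain ⟨g, hg, e⟩ := exists_OW_ext hQ hW (-LinearMap.id) (fun x hx => neg_mem hx)
    (fun x _ => Q_neg Q x)
  have e' : ∀ x ∈ W, g x = -x := e
  refine ⟨g, (S.mem g hg.1).2 ⟨(S.neg_D hQ h2 _ W g hW d hg e').2 (by simp),
    (S.neg_θ hQ h2 j W g hW d hg e').2 hp⟩, eq_one_of_OW hW (pow_mem hg 2) fun w hw => by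
      rw [sq, mul_app, e' w hw, map_neg, e' w hw, neg_neg],
    Fx_eq_perp hQ hW hg ⟨OW.inv hQ hg, fun v hv h => ?_⟩⟩
  rw [e' v hv] at h
  have : (2 : F) • v = 0 := by rw [two_smul]; nth_rewrite 1 [← h]; simp
  exact (smul_eq_zero.1 this).resolve_left h2

theorem allD_nd {m : ℕ} (hm : Even m) (h0 : 0 < m) (hn : m < finrank F V) (τ : Prop) :
    AllD Q (FixIn (SND Q m τ)) := by
  intro g hg h1 h3 h4
  obtain ⟨j, a1, a2, a3, -⟩ := D_data hQ hd h2 hg h1 h3 h4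
  have hO := EO_le_O hg
  have nX := nd_Fx hQ hO h1 (by exact_mod_cast h2)
  have d := hQ.finrank_perp (Fx g)
  have hneg := neg_on_perp hQ h2 hO h1
  rw [Nat.even_iff] at hm
  obtain ⟨u, w, b1, b2, b3, b4, b5⟩ : ∃ u w, u % 2 = 1 ∧ w % 2 = 0 ∧ u + w + 1 = m ∧
      u ≤ finrank F (Fx g) ∧ w + 2 ≤ 2 * j := by
    by_cases h : m ≤ 2 * j
    · exact ⟨1, m - 2, by omega⟩
    · exact ⟨m - 2 * j + 1, 2 * j - 2, by omega⟩
  obtain ⟨U, u1, u2, u3⟩ := exists_nd h2 nX b4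
  obtain ⟨Y, y1, y2, y3⟩ := exists_nd_even (nX.perp hQ) (u := w) (Nat.even_iff.2 b2) (by omega)
  have hp : Y ≤ perp Q U := y1.trans (perp_anti u1)
  have d1 := finrank_sup_of_perp u2 hp
  have d2 := (nX.perp hQ).finrank_inf_perp y1
  have hp2 : perp Q (Fx g) ⊓ perp Q Y ≤ perp Q (U ⊔ Y) := by
    rw [perp_sup]; exact inf_le_inf_right _ (perp_anti u1)
  obtain ⟨v, v1, v2, v3⟩ := exists_complete h2 (ndOn_sup u2 y2 hp) (by rw [Nat.odd_iff]; omega)
    ((nX.perp hQ).inf_perp y2 y1) (by omega) hp2 τ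
  have hp3 := (Submodule.span_singleton_le_iff_mem _ _).2 (hp2 v1)
  refine ⟨_, ⟨?_, ndOn_sup (ndOn_sup u2 y2 hp) (NdOn.span_singleton h2 v2) hp3, v3⟩,
    ((inv_of_le_Fx u1).sup (inv_of_eig (c := -1) fun x hx => by rw [hneg x (y1 hx), neg_one_smul])).sup
      (inv_of_eig (c := -1) fun x hx => by
        rw [hneg x ((Submodule.span_singleton_le_iff_mem _ _).2 v1.1 hx), neg_one_smul])⟩
  rw [finrank_sup_of_perp (ndOn_sup u2 y2 hp) hp3, finrank_span_singleton (ne_zero_of_Q_ne v2)]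
  omega

theorem allD_is {m : ℕ} (hm : Odd m) (hn : m < finrank F V) {W₀ : Submodule F V}
    (n0 : NdOn Q W₀) (d0 : finrank F W₀ = m) : AllD Q (FixIn (SIS Q m W₀)) := by
  intro g hg h1 h3 h4
  obtain ⟨j, a1, a2, a3, -⟩ := D_data hQ hd h2 hg h1 h3 h4
  have hO := EO_le_O hg
  have nX := nd_Fx hQ hO h1 (by exact_mod_cast h2)
  have d := hQ.finrank_perp (Fx g)
  have hneg := neg_on_perp hQ h2 hO h1
  rw [Nat.odd_iff] at hm
  obtain ⟨u, w, b1, b2, b3, b4, b5⟩ : ∃ u w, u % 2 = 0 ∧ w % 2 = 0 ∧ u + w + 1 = m ∧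
      u ≤ finrank F (Fx g) ∧ w + 2 ≤ 2 * j := by
    by_cases h : m ≤ 2 * j
    · exact ⟨0, m - 1, by omega⟩
    · exact ⟨m - 2 * j + 1, 2 * j - 2, by omega⟩
  obtain ⟨U, u1, u2, u3⟩ := exists_nd h2 nX b4
  obtain ⟨Y, y1, y2, y3⟩ := exists_nd_even (nX.perp hQ) (u := w) (Nat.even_iff.2 b2) (by omega)
  have hp : Y ≤ perp Q U := y1.trans (perp_anti u1)
  have d1 := finrank_sup_of_perp u2 hp
  have d2 := (nX.perp hQ).finrank_inf_perp y1
  have hp2 : perp Q (Fx g) ⊓ perp Q Y ≤ perp Q (U ⊔ Y) := by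
    rw [perp_sup]; exact inf_le_inf_right _ (perp_anti u1)
  obtain ⟨v, v1, v2, v3⟩ := exists_complete_iso h2 n0 (ndOn_sup u2 y2 hp)
    (by rw [Nat.even_iff]; omega) (by omega) ((nX.perp hQ).inf_perp y2 y1) (by omega) hp2
  have hp3 := (Submodule.span_singleton_le_iff_mem _ _).2 (hp2 v1)
  have nW := ndOn_sup (ndOn_sup u2 y2 hp) (NdOn.span_singleton h2 v2) hp3
  exact ⟨_, ⟨by rw [← v3.finrank_eq nW, d0], nW, v3⟩,
    ((inv_of_le_Fx u1).sup (inv_of_eig (c := -1) fun x hx => by rw [hneg x (y1 hx), neg_one_smul])).sup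
      (inv_of_eig (c := -1) fun x hx => by
        rw [hneg x ((Submodule.span_singleton_le_iff_mem _ _).2 v1.1 hx), neg_one_smul])⟩

omit hQ hd h2 in
/-- numerical criterion for involutions to fix a totally singular subspace -/
def CD (n m : ℕ) (ε η : Prop) : Prop :=
  ∀ j, 1 ≤ j → 2 * j < n → ∃ u w, u + w = m ∧ 2 * u + 2 * j ≤ n ∧
    (2 * u + 2 * j = n → (ε ↔ (η ∨ Even j))) ∧ w ≤ j ∧ (w = j → (η ∨ Even j))

omit hd h2 in
lemma plus_Fx {X : Submodule F V} (nX : NdOn Q X) {u j : ℕ} (d : finrank F (perp Q X) = 2 * j)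
    (h : 2 * u + 2 * j = finrank F V) : Plus Q X ↔ (Plus Q ⊤ ↔ Plus Q (perp Q X)) := by
  have d' := hQ.finrank_perp X
  have := plus_inf_perp hQ.ndOn_top nX le_top ⟨u + j, by rw [finrank_top]; omega⟩ ⟨u, by omega⟩
  rw [top_inf_eq] at this
  exact iff3 this

theorem allD_ts (m : ℕ) :
    AllD Q (FixIn (STS Q m)) ↔ CD (finrank F V) m (Plus Q ⊤) (IsSquare (-1 : F)) := by
  constructor
  · intro H j h1 hj
    obtain ⟨W, -, a, b, c⟩ := exists_type' hQ.ndOn_top (IsSquare (-1 : F) ∨ Even j) (u := 2 * j)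
      (by simp) (by rw [finrank_top]; omega) (by omega) (by rw [finrank_top]; omega)
    obtain ⟨g, hg, g2, rfl⟩ := D_exists hQ hd h2 a b c
    have hO := EO_le_O hg
    have nX := nd_Fx hQ hO g2 (by exact_mod_cast h2)
    have d := hQ.finrank_perp (Fx g)
    obtain ⟨T, ⟨t1, t2⟩, t3⟩ := H g hg g2 (by
      rintro rfl
      rw [b, show Fx (1 : V ≃ₗ[F] V) = ⊤ from eq_top_iff.2 fun _ _ => rfl, finrank_top] at d
      omega)
      (fun h => by
        obtain ⟨v, hv, h0⟩ := (Fx g).exists_mem_ne_zero_of_ne_bot (by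
          intro e; rw [b, e, finrank_bot] at d; omega)
        have e : -v = v := (h v).symm.trans hv
        have : (2 : F) • v = 0 := by rw [two_smul]; nth_rewrite 1 [← e]; simp
        exact h0 ((smul_eq_zero.1 this).resolve_left h2))
    have s := (spl_Fx hO g2 (by exact_mod_cast h2) t3).finrank nX
    obtain ⟨c1, c2⟩ := (exists_ts_iff nX _).1 ⟨_, inf_le_right, ts_mono t2 inf_le_left, rfl⟩
    obtain ⟨c3, c4⟩ := (exists_ts_iff a _).1 ⟨_, inf_le_right, ts_mono t2 inf_le_left, rfl⟩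
    refine ⟨_, _, s.symm.trans t1, by omega, fun h => ?_, by omega, fun h => c.1 (c4 (by omega))⟩
    rw [← c]; exact (plus_Fx hQ nX b h).1 (c2 (by omega))
  · intro C g hg h1 h3 h4
    obtain ⟨j, a1, a2, a3, a4⟩ := D_data hQ hd h2 hg h1 h3 h4
    have hO := EO_le_O hg
    have nX := nd_Fx hQ hO h1 (by exact_mod_cast h2)
    have d := hQ.finrank_perp (Fx g)
    obtain ⟨u, w, c1, c2, c3, c4, c5⟩ := C j a1 a2
    obtain ⟨U, u1, u2, u3⟩ := (exists_ts_iff nX u).2 ⟨by omega, fun h =>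
      (plus_Fx hQ nX (u := u) a3 (by omega)).2 (by rw [a4]; exact c3 (by omega))⟩
    obtain ⟨T, t1, t2, t3⟩ := (exists_ts_iff (nX.perp hQ) w).2 ⟨by omega, fun h =>
      a4.2 (c5 (by omega))⟩
    refine ⟨U ⊔ T, ⟨?_, ts_sup u2 t2 (t1.trans (perp_anti u1))⟩, (inv_of_le_Fx u1).sup
      (inv_of_eig (c := -1) fun x hx => by rw [neg_on_perp hQ h2 hO h1 x (t1 hx), neg_one_smul])⟩
    rw [finrank_sup_of_disjoint ((disjoint_of_perp nX le_rfl).mono u1 t1)]; omega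

theorem jex_iff {d : ℕ} (hn : finrank F V = 2 * d) : Jex Q ↔
    (Plus Q ⊤ ↔ (IsSquare (-1 : F) ∨ Even d)) ∧ (IsSquare (2 : F) ∨ Even d) := by
  obtain ⟨D, θ, S⟩ := exists_spin hQ hd h2
  constructor
  · rintro ⟨g, hg, h⟩
    obtain ⟨j, a1, a2, -, a4⟩ := S.J hQ h2 _ ⊤ g hQ.ndOn_top rfl (mem_OW_top hQ (EO_le_O hg))
      fun v _ => h v
    obtain rfl : j = d := by rw [finrank_top] at a1; omega
    exact ⟨a2, a4.1 ((S.mem g (EO_le_O hg)).1 hg).2⟩
  · rintro ⟨h1, h3⟩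
    obtain ⟨g, hg, h⟩ := J_exists hQ h2 d ⊤ hQ.ndOn_top (by rw [finrank_top, hn]) h1
    obtain ⟨j, a1, -, a3, a4⟩ := S.J hQ h2 _ ⊤ g hQ.ndOn_top rfl hg h
    obtain rfl : j = d := by rw [finrank_top] at a1; omega
    exact ⟨g, (S.mem g hg.1).2 ⟨a3, a4.2 h3⟩, fun v => h v trivial⟩

lemma J_type {g : V ≃ₗ[F] V} (hg : g ∈ O Q) (hn : ∀ v, g (g v) = -v) {W : Submodule F V}
    (hW : NdOn Q W) (iW : Inv g W) :
    ∃ j, finrank F W = 2 * j ∧ (Plus Q W ↔ (IsSquare (-1 : F) ∨ Even j)) := by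
  obtain ⟨D, θ, S⟩ := exists_spin hQ hd h2
  obtain ⟨k, hk, e⟩ := exists_OW_ext hQ hW g iW fun x _ => hg x
  obtain ⟨j, a1, a2, -⟩ := S.J hQ h2 _ W k hW rfl hk fun v hv => by
    rw [e v hv]; exact (e _ (iW v hv)).trans (hn v)
  exact ⟨j, a1, a2⟩

theorem allJ_nd {j : ℕ} (hn : 2 * j ≤ finrank F V) (τ : Prop) :
    AllJ Q (FixIn (SND Q (2 * j) τ)) ↔ (Jex Q → (τ ↔ (IsSquare (-1 : F) ∨ Even j))) := by
  constructor
  · rintro H ⟨g, hg, h⟩
    obtain ⟨W, ⟨a, b, c⟩, e⟩ := H g hg h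
    obtain ⟨k, a1, a2⟩ := J_type hQ hd h2 (EO_le_O hg) h b e
    obtain rfl : k = j := by omega
    rw [← c, a2]
  · intro H g hg h
    obtain ⟨W, -, a, b, c⟩ := J_sub hQ h2 (EO_le_O hg) h j ⊤ hQ.ndOn_top (inv_top g)
      (by rwa [finrank_top])
    obtain ⟨k, a1, a2⟩ := J_type hQ hd h2 (EO_le_O hg) h a b
    obtain rfl : k = j := by omega
    exact ⟨W, ⟨c, a, by rw [a2, H ⟨g, hg, h⟩]⟩, b⟩

theorem allJ_is {m : ℕ} (hm : Odd m) (W₀ : Submodule F V) :
    AllJ Q (FixIn (SIS Q m W₀)) ↔ ¬ Jex Q := by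
  constructor
  · rintro H ⟨g, hg, h⟩
    obtain ⟨W, ⟨a, b, -⟩, e⟩ := H g hg h
    obtain ⟨k, a1, -⟩ := J_type hQ hd h2 (EO_le_O hg) h b e
    rw [Nat.odd_iff] at hm; omega
  · exact fun H g hg h => absurd ⟨g, hg, h⟩ H

theorem allJ_ts {m : ℕ} (hn : 2 * m ≤ finrank F V) :
    AllJ Q (FixIn (STS Q m)) ↔ (Jex Q → (IsSquare (-1 : F) ∨ Even m)) := by
  constructor
  · rintro H ⟨g, hg, h⟩
    obtain ⟨W, ⟨a, -⟩, e⟩ := H g hg h
    by_cases hη : IsSquare (-1 : F)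
    · exact Or.inl hη
    · exact Or.inr (a ▸ J_even hη h e)
  · intro H g hg h
    by_cases hη : IsSquare (-1 : F)
    · exact J_ts_sq hQ h2 hη (EO_le_O hg) h hn
    · obtain ⟨k, rfl⟩ := (H ⟨g, hg, h⟩).resolve_left hη
      rw [← two_mul]
      exact J_ts_even hQ h2 hη (EO_le_O hg) h k (by omega)

omit hQ hd h2

lemma cd_odd {d m : ℕ} (h1 : 1 ≤ d) (h : m ≤ d) (η : Prop) :
    CD (2 * d + 1) m False η ↔ (m < d ∨ η) := by
  constructor
  · intro H
    obtain ⟨u, w, a, b, -, c, e⟩ := H 1 le_rfl (by omega)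
    by_cases h' : m < d
    · exact Or.inl h'
    · exact Or.inr ((e (by omega)).resolve_right (by decide))
  · intro H j a b
    by_cases h' : m ≤ d - j
    · exact ⟨m, 0, by omega, by omega, by omega, by omega, by omega⟩
    · exact ⟨d - j, m - (d - j), by omega, by omega, by omega, by omega,
        fun h => Or.inl (H.resolve_left (by omega))⟩

lemma cd_plus {d m : ℕ} (h1 : 2 ≤ d) (h : m < d) (η : Prop) :
    CD (2 * d) m True η ↔ (m + 2 ≤ d ∨ η) := by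
  constructor
  · intro H
    obtain ⟨u, w, a, b, f, c, e⟩ := H 1 le_rfl (by omega)
    by_cases h' : m + 2 ≤ d
    · exact Or.inl h'
    · by_cases h'' : w = 1
      · exact Or.inr ((e h'').resolve_right (by decide))
      · exact Or.inr (((f (by omega)).1 trivial).resolve_right (by decide))
  · intro H j a b
    by_cases h' : m + 1 ≤ d - j
    · exact ⟨m, 0, by omega, by omega, by omega, by omega, by omega⟩
    · exact ⟨d - j - 1, m - (d - j - 1), by omega, by omega, by omega, by omega,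
        fun h => Or.inl (H.resolve_left (by omega))⟩

lemma cd_minus {d m : ℕ} (h : m < d) (η : Prop) : CD (2 * d) m False η := by
  intro j a b
  by_cases h' : m + 1 ≤ d - j
  · exact ⟨m, 0, by omega, by omega, by omega, by omega, by omega⟩
  by_cases e : η ∨ Even j
  · exact ⟨d - j - 1, m - (d - j - 1), by omega, by omega, by omega, by omega, fun _ => e⟩
  · exact ⟨d - j, m - (d - j), by omega, by omega, fun _ => iff_of_false id e, by omega, by omega⟩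

end Cfsg.Agent.H2.Oel
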