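import Cfsg.Agent.H2.Oel11

/-! Orthogonal groups, prime order elements, part 12: glue. -/

set_option autoImplicit false
set_option linter.unusedSectionVars false

namespace Cfsg.Agent.H2.Oel

open Module Cfsg.Agent.Orth Cfsg.Agent.H8

lemma two_ne_iff {F : Type*} [Field F] {p : ℕ} [Fact p.Prime] [CharP F p] :
    (2 : F) ≠ 0 ↔ p ≠ 2 := by
  have := CharP.cast_eq_zero_iff F p 2
  rw [Nat.cast_ofNat, Nat.prime_dvd_prime_iff_eq Fact.out Nat.prime_two] at this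
  exact this.not

lemma tri {F : Type*} [Field F] [Fintype F] {p : ℕ} [Fact p.Prime] [CharP F p] {q : ℕ}
    (hq : Fintype.card F = q) {r : ℕ} [Fact r.Prime] {i : ℕ} (hi : i = orderOf (q : ZMod r)) :
    r = p ∨ (r = 2 ∧ p ≠ 2 ∧ (2 : F) ≠ 0) ∨ (r ≠ p ∧ 2 < r ∧ Odd r ∧ Ctx F r i) := by
  by_cases h1 : r = p
  · exact Or.inl h1
  by_cases h2 : r = 2
  · exact Or.inr (Or.inl ⟨h2, by omega, two_ne_iff.2 (show p ≠ 2 by omega)⟩)
  have hr : r.Prime := Fact.out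
  refine Or.inr (Or.inr ⟨h1, by have := hr.two_le; omega, hr.odd_of_ne_two h2, hr, h2, ?_, by
    rw [hi, Nat.card_eq_fintype_card, hq]⟩)
  rw [Ne, CharP.cast_eq_zero_iff F p, Nat.prime_dvd_prime_iff_eq Fact.out hr]
  exact fun h => h1 h.symm

lemma odd_iff_two_ne {F : Type*} [Field F] [Fintype F] {q : ℕ} (hq : Fintype.card F = q) :
    q % 2 = 1 ↔ (2 : F) ≠ 0 := by
  have : (2 : F) = 0 ↔ ringChar F = 2 := by
    have := ringChar.spec F 2
    rw [Nat.cast_ofNat, Nat.dvd_prime Nat.prime_two] at this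
    rw [this]
    exact ⟨fun h => h.resolve_left CharP.ringChar_ne_one, Or.inr⟩
  rw [Ne, this, FiniteField.even_card_iff_char_two, hq]; omega

lemma eta {F : Type*} [Field F] [Fintype F] {q : ℕ} (hq : Fintype.card F = q) (h2 : (2 : F) ≠ 0) :
    q % 2 = 1 ∧ (IsSquare (-1 : F) ↔ q % 4 = 1) ∧ (IsSquare (2 : F) ↔ q % 8 = 1 ∨ q % 8 = 7) := by
  have := (odd_iff_two_ne hq).2 h2
  rw [FiniteField.isSquare_neg_one_iff, FiniteField.isSquare_two_iff, hq]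
  omega

variable {F V : Type*} [Field F] [AddCommGroup V] [Module F V] {Q : QuadraticForm F V}
  [Finite F] [FiniteDimensional F V]

lemma sts_ne (hQ : Nd Q) {m : ℕ} (h : 2 * m < finrank F V) : ∃ W, STS Q m W := by
  obtain ⟨U, -, a, b⟩ := (exists_ts_iff hQ.ndOn_top m).2 (by rw [finrank_top]; omega)
  exact ⟨U, b, a⟩

lemma ts_not_dvd (hQ : Nd Q) {p : ℕ} [Fact p.Prime] [CharP F p] {m : ℕ} (h : 2 * m < finrank F V) :
    ¬ p ∣ Nat.card {W // STS Q m W} := by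
  intro hd
  obtain ⟨U, a, b⟩ := sts_ne hQ h
  have := ts_modEq_char hQ (Fact.out : p.Prime) (CharP.cast_eq_zero F p) m ⊤ hQ.ndOn_top
    (by rwa [finrank_top]) ⟨U, le_top, a, b⟩
  rw [show TSs Q ⊤ m = {W | STS Q m W} from Set.ext fun W => by simp [TSs, STS]] at this
  have h1 : p ∣ 1 := (Nat.modEq_zero_iff_dvd.1 (this.symm.trans (Nat.modEq_zero_iff_dvd.2 hd)))
  exact (Fact.out : p.Prime).one_lt.ne' (Nat.dvd_one.1 h1)

lemma Ctx.t_pos {r i : ℕ} (H : Ctx F r i) : 1 ≤ (r - 1) / i :=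
  Nat.div_pos (Nat.le_of_dvd (by have := H.pr.two_le; omega) H.dvd_pred) H.pos

lemma fr_odd (d : ℕ) : finrank F (Unit ⊕ (Fin d ⊕ Fin d) → F) = 2 * d + 1 := by simp; omega
lemma fr_plus (d : ℕ) : finrank F (Fin d ⊕ Fin d → F) = 2 * d := by simp; omega
lemma fr_minus {d : ℕ} (h : 1 ≤ d) :
    finrank F ((Fin (d - 1) ⊕ Fin (d - 1)) ⊕ Fin 2 → F) = 2 * d := by simp; omega

end Cfsg.Agent.H2.Oel
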