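import Cfsg.Agent.H2.Oel12

/-! Orthogonal groups, prime order elements, part 13: involutions in characteristic two. -/

set_option autoImplicit false
set_option linter.unusedSectionVars false

namespace Cfsg.Agent.H2.Oel

open Module Cfsg.Agent.Orth Cfsg.Agent.H8

variable {F V : Type*} [Field F] [AddCommGroup V] [Module F V] {Q : QuadraticForm F V}

/-- the nilpotent part -/
def Nn (g : V ≃ₗ[F] V) : End F V := (g : V →ₗ[F] V) - 1

lemma Nn_apply (g : V ≃ₗ[F] V) (v : V) : Nn g v = g v - v := rfl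

lemma Inv.Nn {g : V ≃ₗ[F] V} {W : Submodule F V} (h : Inv g W) : ∀ v ∈ W, Nn g v ∈ W :=
  fun v hv => W.sub_mem (h v hv) hv

lemma Inv.Nn_pow {g : V ≃ₗ[F] V} {W : Submodule F V} (h : Inv g W) (k : ℕ) :
    ∀ v ∈ W, (Oel.Nn g ^ k) v ∈ W := by
  induction k with
  | zero => exact fun v hv => hv
  | succ k ih => exact fun v hv => by rw [pow_succ]; exact ih _ (h.Nn v hv)

/-- ranks of the powers of `g - 1` on `W` -/
noncomputable def rk (g : V ≃ₗ[F] V) (W : Submodule F V) (k : ℕ) : ℕ :=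
  finrank F (W.map (Nn g ^ k))

lemma rk_zero (g : V ≃ₗ[F] V) (W : Submodule F V) : rk g W 0 = finrank F W := by
  rw [rk, pow_zero, End.one_eq_id, Submodule.map_id]

lemma rk_of_fix {g : V ≃ₗ[F] V} {W : Submodule F V} (h : ∀ v ∈ W, g v = v) (k : ℕ) :
    rk g W (k + 1) = 0 := by
  have : W.map (Nn g ^ (k + 1)) = ⊥ := by
    rw [eq_bot_iff]
    rintro _ ⟨v, hv, rfl⟩
    rw [pow_succ, End.mul_apply, Nn_apply, h v hv, sub_self, map_zero]; exact zero_mem _
  rw [rk, this, finrank_bot]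

lemma rk_congr {g h : V ≃ₗ[F] V} {W : Submodule F V} (hg : Inv g W) (e : ∀ v ∈ W, g v = h v)
    (k : ℕ) : rk g W k = rk h W k := by
  have : ∀ v ∈ W, (Nn g ^ k) v = (Nn h ^ k) v := by
    induction k with
    | zero => exact fun _ _ => rfl
    | succ k ih =>
      intro v hv
      rw [pow_succ, pow_succ, End.mul_apply, End.mul_apply, ih _ (hg.Nn v hv), Nn_apply, Nn_apply,
        e v hv]
  have e : W.map (Nn g ^ k) = W.map (Nn h ^ k) := by
    ext x
    exact ⟨fun ⟨y, a, b⟩ => ⟨y, a, this y a ▸ b⟩, fun ⟨y, a, b⟩ => ⟨y, a, (this y a).symm ▸ b⟩⟩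
  rw [rk, rk, e]

variable [Finite F] [FiniteDimensional F V]

lemma rk_sup {g : V ≃ₗ[F] V} {A C : Submodule F V} (h : Disjoint A C) (hA : Inv g A)
    (hC : Inv g C) (k : ℕ) : rk g (A ⊔ C) k = rk g A k + rk g C k := by
  rw [rk, Submodule.map_sup, finrank_sup_of_disjoint (h.mono
    (Submodule.map_le_iff_le_comap.2 (hA.Nn_pow k)) (Submodule.map_le_iff_le_comap.2 (hC.Nn_pow k)))]
  rfl

variable (Q) in
/-- profile of an involution on `W`: `P` planes and `u` four-dimensional blocks -/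
structure Prof (g : V ≃ₗ[F] V) (W : Submodule F V) (P u : ℕ) : Prop where
  dim : finrank F W = 2 * P + 4 * u
  plus : P = 0 → Plus Q W
  sub : ∀ k ≤ P, ∀ l ≤ u, ∀ τ : Prop, (k = 0 → τ) → (k = P → (τ ↔ Plus Q W)) →
    ∃ X ≤ W, Inv g X ∧ NdOn Q X ∧ finrank F X = 2 * k + 4 * l ∧ (Plus Q X ↔ τ) ∧
      (k < P → ∃ y ∈ W ⊓ perp Q X, g y = y ∧ Q y ≠ 0)

lemma prof_triv {g : V ≃ₗ[F] V} {W : Submodule F V} (hW : NdOn Q W) {P : ℕ}
    (d : finrank F W = 2 * P) (h : ∀ v ∈ W, g v = v) : Prof Q g W P 0 := by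
  refine ⟨d, fun h0 => ?_, fun k hk l hl τ h1 h2 => ?_⟩
  · rw [h0, mul_zero, Submodule.finrank_eq_zero] at d
    rw [d]; exact plus_bot
  · obtain ⟨X, a, b, c, e⟩ := exists_type' hW τ (u := 2 * k) (by simp) (by omega)
      (fun h => h1 (by omega)) (fun h => h2 (by omega))
    refine ⟨X, a, inv_of_fix fun v hv => h v (a hv), b, by omega, e, fun h3 => ?_⟩
    have := hW.finrank_inf_perp a
    obtain ⟨y, hy, qy⟩ := NdOn.exists_nonsing' (hW.inf_perp b a) (by
      intro e; rw [e, finrank_bot] at this; omega)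
    exact ⟨y, hy, h y hy.1, qy⟩

lemma Prof.add_block {g : V ≃ₗ[F] V} {W A : Submodule F V} {P u : ℕ} (h : Prof Q g W P u)
    (hW : NdOn Q W) (hA : NdOn Q A) (hp : W ≤ perp Q A) (iA : Inv g A) (dA : finrank F A = 4)
    (pA : Plus Q A) : Prof Q g (A ⊔ W) P (u + 1) := by
  have e := Plus.sup_iff hA hW hp pA
  refine ⟨by rw [finrank_sup_of_perp hA hp, h.dim]; omega, fun h0 => e.2 (h.plus h0),
    fun k hk l hl τ h1 h2 => ?_⟩
  rw [e] at h2
  rcases l with _ | l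
  · obtain ⟨X, a1, a2, a3, a4, a5, a6⟩ := h.sub k hk 0 (by omega) τ h1 h2
    exact ⟨X, a1.trans le_sup_right, a2, a3, a4, a5, fun h3 =>
      let ⟨y, b1, b2⟩ := a6 h3; ⟨y, ⟨Submodule.mem_sup_right b1.1, b1.2⟩, b2⟩⟩
  · obtain ⟨X, a1, a2, a3, a4, a5, a6⟩ := h.sub k hk l (by omega) τ h1 h2
    refine ⟨A ⊔ X, sup_le_sup_left a1 _, iA.sup a2, ndOn_sup hA a3 (a1.trans hp),
      by rw [finrank_sup_of_perp hA (a1.trans hp)]; omega,
      by rw [Plus.sup_iff hA a3 (a1.trans hp) pA, a5], fun h3 => ?_⟩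
    obtain ⟨y, b1, b2⟩ := a6 h3
    exact ⟨y, ⟨Submodule.mem_sup_right b1.1, by rw [perp_sup]; exact ⟨hp b1.1, b1.2⟩⟩, b2⟩

lemma exists_sqrt (h2 : (2 : F) = 0) (b : F) : ∃ s, s * s = b :=
  (Finite.injective_iff_surjective.1 (show Function.Injective fun x : F => x * x from
    fun x y e => by
      have e' : x * x = y * y := e
      have : (x - y) * (x - y) = 0 := by linear_combination e' + (y * y - x * y) * h2
      exact sub_eq_zero.1 (mul_self_eq_zero.1 this))) b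

lemma D_two (h2 : (2 : F) = 0) {e f : V} (h : B Q e f ≠ 0) : 4 * Q e * Q f - B Q e f ^ 2 ≠ 0 :=
  fun h' => h (pow_eq_zero_iff two_ne_zero |>.1 (by linear_combination 2 * Q e * Q f * h2 - h'))

lemma exists_plane_type (h2 : (2 : F) = 0) {β : F} (hβ : β ≠ 0) (τ : Prop) :
    ∃ s : F, ∀ e f : V, Q e = s → Q f = s → B Q e f = β →
      (Plus Q (Submodule.span F {e, f}) ↔ τ) := by
  by_cases hτ : τ
  · exact ⟨0, fun e f a _ c => iff_of_true (H8.plus_of_sing (finrank_pair (D_two h2 (c ▸ hβ)))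
      (left_mem_pair e f) (by rintro rfl; simp at c; exact hβ c.symm) a) hτ⟩
  obtain ⟨c, hc⟩ := exists_as h2
  obtain ⟨t, ht⟩ := exists_sqrt h2 c
  have ht0 : t ≠ 0 := by rintro rfl; exact hc 0 (by simpa using ht)
  refine ⟨β * t, fun e f a b d => iff_of_false (Aniso.not_plus (fun x hx hq => ?_) fun h0 => ?_) hτ⟩
  · obtain ⟨x, y, rfl⟩ := mem_span_pair'.1 hx
    rw [Q_pair, a, b, d] at hq
    by_cases hy : y = 0
    · subst hy
      have : x = 0 := by simpa [hβ, ht0] using hq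
      simp [this]
    · refine absurd (show t * x / y * (t * x / y) + t * x / y = c from ?_) (hc _)
      rw [← ht]
      field_simp
      apply mul_left_cancel₀ hβ
      linear_combination hq - β * t * y * y * h2
  · have := finrank_pair (D_two h2 (d ▸ hβ : B Q e f ≠ 0))
    rw [h0] at this; simp at this

lemma Prof.add_plane (h2 : (2 : F) = 0) {g : V ≃ₗ[F] V} (hO : g ∈ O Q) {W : Submodule F V}
    {P u : ℕ} (h : Prof Q g W P u) (hW : NdOn Q W) {v : V} (hv : g (g v) = v)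
    (hb : B Q v (g v) ≠ 0) (hp : W ≤ perp Q (Submodule.span F {v, g v})) :
    Prof Q g (Submodule.span F {v, g v} ⊔ W) (P + 1) u := by
  have hD := D_two h2 hb
  have hA := H8.ndOn_pair hD
  have dA := finrank_pair hD
  have key : ∀ x, g (g x) = x → Inv g (Submodule.span F {x, g x}) := fun x hx => inv_span (by
    rintro _ (rfl | rfl)
    · exact right_mem_pair _ _
    · rw [hx]; exact left_mem_pair _ _)
  refine ⟨by rw [finrank_sup_of_perp hA hp, h.dim]; omega, by omega, fun k hk l hl τ h1 h3 => ?_⟩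
  rcases k with _ | k
  · obtain ⟨X, a1, a2, a3, a4, a5, -⟩ := h.sub 0 (by omega) l hl τ h1
      (fun e => iff_of_true (h1 rfl) (h.plus e.symm))
    refine ⟨X, a1.trans le_sup_right, a2, a3, a4, a5, fun _ => ⟨v + g v, ⟨Submodule.mem_sup_left
      (add_mem (left_mem_pair _ _) (right_mem_pair _ _)), le_perp_comm (a1.trans hp)
      (add_mem (left_mem_pair _ _) (right_mem_pair _ _))⟩, by rw [map_add, hv, add_comm], ?_⟩⟩
    rw [Q_add, hO v]
    intro e; exact hb (by linear_combination e - Q v * h2)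
  by_cases hk' : k = P
  · subst hk'
    obtain ⟨X, a1, a2, a3, a4, a5, -⟩ := h.sub k le_rfl l hl (Plus Q W) h.plus fun _ => Iff.rfl
    refine ⟨_ ⊔ X, sup_le_sup_left a1 _, (key v hv).sup a2, ndOn_sup hA a3 (a1.trans hp),
      by rw [finrank_sup_of_perp hA (a1.trans hp)]; omega, ?_, by omega⟩
    rw [h3 rfl, plus_sup_iff hA a3 (a1.trans hp) (by simp [dA]) ⟨k + 2 * l, by omega⟩,
      plus_sup_iff hA hW hp (by simp [dA]) ⟨k + 2 * u, by rw [h.dim]; omega⟩, a5]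
  obtain ⟨X, a1, a2, a3, a4, a5, a6⟩ := h.sub k (by omega) l hl True (fun _ => trivial)
    fun e => absurd e hk'
  obtain ⟨y, y1, y2, y3⟩ := a6 (by omega)
  obtain ⟨s, hs⟩ := exists_plane_type (Q := Q) h2 hb τ
  obtain ⟨c, hc⟩ := exists_sqrt h2 ((s - Q v) / Q y)
  obtain ⟨p1, p2⟩ := mem_perp_pair.1 (hp y1.1)
  have yy : B Q y y = 0 := by rw [B_self, h2, zero_mul]
  have e1 : g (v + c • y) = g v + c • y := by rw [map_add, map_smul, y2]
  have e2 : g (g (v + c • y)) = v + c • y := by rw [e1, map_add, map_smul, y2, hv]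
  have q1 : Q (v + c • y) = s := by
    rw [Q_add, Q_smul, hc, map_smul, p1]; field_simp; ring
  have b1 : B Q (v + c • y) (g (v + c • y)) = B Q v (g v) := by
    rw [e1]
    simp only [map_add, map_smul, LinearMap.add_apply, LinearMap.smul_apply, p1, yy,
      B_comm Q y (g v), p2]
    simp
  have hD' := D_two h2 (b1 ▸ hb)
  have hA' := H8.ndOn_pair hD'
  have m1 : ∀ z ∈ Submodule.span F {v, g v}, z + c • y ∈ perp Q X := fun z hz =>
    add_mem (le_perp_comm (a1.trans hp) hz) (Submodule.smul_mem _ _ y1.2)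
  have m2 : ∀ z ∈ Submodule.span F {v, g v}, z + c • y ∈ Submodule.span F {v, g v} ⊔ W :=
    fun z hz => Submodule.add_mem_sup hz (W.smul_mem _ y1.1)
  have hp' : X ≤ perp Q (Submodule.span F {v + c • y, g (v + c • y)}) :=
    le_perp_comm (span_pair_le (m1 _ (left_mem_pair _ _)) (e1 ▸ m1 _ (right_mem_pair _ _)))
  refine ⟨_ ⊔ X, sup_le (span_pair_le (m2 _ (left_mem_pair _ _)) (e1 ▸ m2 _ (right_mem_pair _ _)))
    (a1.trans le_sup_right), (key _ e2).sup a2, ndOn_sup hA' a3 hp',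
    by rw [finrank_sup_of_perp hA' hp', finrank_pair hD']; omega, ?_, fun _ =>
      ⟨y, ⟨Submodule.mem_sup_right y1.1, ?_⟩, y2, y3⟩⟩
  · rw [sup_comm, Plus.sup_iff a3 hA' (le_perp_comm hp') (a5.2 trivial)]
    exact hs _ _ q1 (by rw [hO, q1]) b1
  · rw [perp_sup]
    refine ⟨mem_perp_pair.2 ⟨?_, ?_⟩, y1.2⟩
    · rw [map_add, map_smul, LinearMap.add_apply, LinearMap.smul_apply, p1, yy]; simp
    · rw [e1, map_add, map_smul, LinearMap.add_apply, LinearMap.smul_apply, p2, yy]; simp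

variable (Q) in
/-- elements with `(g-1)^2 = 0` and alternating Wall form -/
def AT (g : V ≃ₗ[F] V) (W : Submodule F V) : Prop :=
  ∀ v ∈ W, g (g v - v) = g v - v ∧ B Q v (g v - v) = 0

lemma AT.skew {g : V ≃ₗ[F] V} {W : Submodule F V} (h : AT Q g W) {v w : V} (hv : v ∈ W)
    (hw : w ∈ W) : B Q v (g w - w) = -B Q w (g v - v) := by
  have := (h _ (W.add_mem hv hw)).2
  rw [map_add g, add_sub_add_comm] at this
  simp only [map_add, LinearMap.add_apply, (h v hv).2, (h w hw).2] at this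
  linear_combination this

lemma AT.sing {g : V ≃ₗ[F] V} (hO : g ∈ O Q) {W : Submodule F V} (h : AT Q g W) {v : V}
    (hv : v ∈ W) : Q (g v - v) = 0 := by
  have := (h v hv).2
  rw [map_sub, B_self] at this
  rw [Q_sub, hO v, B_comm]; linear_combination -this

lemma block4 {g : V ≃ₗ[F] V} {a w c x : V} (qa : Q a = 0) (qc : Q c = 0)
    (b1 : B Q a w = 1) (b2 : B Q c x = 1) (b3 : B Q a c = 0) (b4 : B Q w c = 0) (b5 : B Q a x = 0)
    (b6 : B Q w x = 0) (g1 : g a = a) (g2 : g c = c) (g3 : g w = w + c) (g4 : g x = x - a)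
    {A : Submodule F V} (hA : A = Submodule.span F {a, w} ⊔ Submodule.span F {c, x}) :
    NdOn Q A ∧ Inv g A ∧ finrank F A = 4 ∧ Plus Q A ∧ rk g A 1 = 2 := by
  have D1 := hyp_D qa b1
  have D2 := hyp_D qc b2
  have hp : Submodule.span F {c, x} ≤ perp Q (Submodule.span F {a, w}) :=
    span_pair_le (mem_perp_pair.2 ⟨b3, b4⟩) (mem_perp_pair.2 ⟨b5, b6⟩)
  have nA := ndOn_sup (H8.ndOn_pair D1) (H8.ndOn_pair D2) hp
  have dA := finrank_sup_of_perp (H8.ndOn_pair D1) hp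
  have pA := Plus.sup (H8.ndOn_pair D1) hp (plus_hyp qa b1) (plus_hyp qc b2)
  rw [finrank_pair D1, finrank_pair D2] at dA
  rw [← hA] at nA dA pA
  have m1 : a ∈ A := hA ▸ Submodule.mem_sup_left (left_mem_pair _ _)
  have m2 : w ∈ A := hA ▸ Submodule.mem_sup_left (right_mem_pair _ _)
  have m3 : c ∈ A := hA ▸ Submodule.mem_sup_right (left_mem_pair _ _)
  have m4 : x ∈ A := hA ▸ Submodule.mem_sup_right (right_mem_pair _ _)
  have key : ∀ y ∈ A, Nn g y ∈ (F ∙ a) ⊔ (F ∙ c) := fun y hy => by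
    rw [hA] at hy
    obtain ⟨_, h1, _, h2, rfl⟩ := Submodule.mem_sup.1 hy
    obtain ⟨s, t, rfl⟩ := mem_span_pair'.1 h1
    obtain ⟨s', t', rfl⟩ := mem_span_pair'.1 h2
    have : Nn g (s • a + t • w + (s' • c + t' • x)) = (-t') • a + t • c := by
      simp only [Nn_apply, map_add, map_smul, g1, g2, g3, g4]; module
    rw [this]
    exact Submodule.add_mem_sup (Submodule.smul_mem _ _ (Submodule.mem_span_singleton_self _))
      (Submodule.smul_mem _ _ (Submodule.mem_span_singleton_self _))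
  have hle : (F ∙ a) ⊔ (F ∙ c) ≤ A := sup_le ((Submodule.span_singleton_le_iff_mem _ _).2 m1)
    ((Submodule.span_singleton_le_iff_mem _ _).2 m3)
  refine ⟨nA, fun y hy => by simpa [Nn_apply] using add_mem (hle (key y hy)) hy, dA, pA, ?_⟩
  have e : A.map (Nn g) = (F ∙ a) ⊔ (F ∙ c) := le_antisymm (Submodule.map_le_iff_le_comap.2 key)
    (sup_le ((Submodule.span_singleton_le_iff_mem _ _).2 ⟨-x, neg_mem m4, by
      rw [map_neg, Nn_apply, g4]; abel⟩)
      ((Submodule.span_singleton_le_iff_mem _ _).2 ⟨w, m2, by rw [Nn_apply, g3]; abel⟩))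
  rw [rk, pow_one, e, Submodule.finrank_sup_span_singleton (fun hm => by
    obtain ⟨s, rfl⟩ := Submodule.mem_span_singleton.1 hm
    simp [b5] at b2), finrank_span_singleton (by rintro rfl; simp at b1)]

lemma AT.block {g : V ≃ₗ[F] V} (hO : g ∈ O Q) {W : Submodule F V} (h : AT Q g W) (hW : NdOn Q W)
    (iW : Inv g W) {v : V} (hv : v ∈ W) (h0 : g v ≠ v) : ∃ A ≤ W, NdOn Q A ∧ Inv g A ∧
      finrank F A = 4 ∧ Plus Q A ∧ rk g A 1 = 2 := by
  have m : ∀ x ∈ W, g x - x ∈ W := iW.Nn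
  obtain ⟨w0, hw0, b0⟩ := hW.exists_B_ne (m v hv) (sub_ne_zero.2 h0)
  obtain ⟨w, hw, b⟩ : ∃ w ∈ W, B Q (g v - v) w = 1 :=
    ⟨(B Q (g v - v) w0)⁻¹ • w0, W.smul_mem _ hw0, by rw [map_smul, smul_eq_mul, inv_mul_cancel₀ b0]⟩
  obtain ⟨x, hx, e1, e2⟩ : ∃ x ∈ W, g x - x = -(g v - v) ∧ B Q w x = 0 :=
    ⟨B Q w v • (g v - v) - v, sub_mem (W.smul_mem _ (m v hv)) hv, by
      rw [map_sub g, map_smul, (h v hv).1]; abel, by
      rw [map_sub, map_smul, B_comm Q w (g v - v), b]; simp⟩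
  refine ⟨_, sup_le (span_pair_le (m v hv) hw) (span_pair_le (m w hw) hx),
    block4 (h.sing hO hv) (h.sing hO hw) b ?_ ?_ (h w hw).2 ?_ e2 (h v hv).1 (h w hw).1
      (by abel) (by rw [sub_eq_iff_eq_add.1 e1]; abel) rfl⟩
  · rw [B_comm, ← neg_neg (B Q x _), ← h.skew hw hx, e1, map_neg, neg_neg, B_comm, b]
  · rw [h.skew (m v hv) hw, (h v hv).1, sub_self, map_zero, neg_zero]
  · rw [B_comm, ← neg_eq_zero, ← map_neg, ← e1, (h x hx).2]

theorem AT.prof (h2 : (2 : F) = 0) {g : V ≃ₗ[F] V} (hO : g ∈ O Q) (n : ℕ) :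
    ∀ W : Submodule F V, AT Q g W → NdOn Q W → Inv g W → finrank F W = n →
    ∃ P u, Prof Q g W P u ∧ rk g W 1 = 2 * u := by
  induction n using Nat.strong_induction_on with
  | _ n ih =>
  intro W h hW iW d
  by_cases h0 : ∀ v ∈ W, g v = v
  · obtain ⟨P, hP⟩ := even_finrank_of_char_two h2 _ W hW rfl
    exact ⟨P, 0, prof_triv hW (by omega) h0, rk_of_fix h0 0⟩
  push Not at h0
  obtain ⟨v, hv, h0⟩ := h0
  obtain ⟨A, a1, a2, a3, a4, a5, a6⟩ := h.block hO hW iW hv h0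
  have d1 := hW.finrank_inf_perp a1
  have i1 := iW.inf (a3.perp hO)
  obtain ⟨P, u, b1, b2⟩ := ih _ (by omega) (W ⊓ perp Q A) (fun x hx => h x hx.1)
    (hW.inf_perp a2 a1) i1 rfl
  refine ⟨P, u + 1, ?_, ?_⟩ <;> rw [← sup_inf_perp a2 a1]
  · exact b1.add_block (hW.inf_perp a2 a1) a2 inf_le_right a3 a4 a5
  · rw [rk_sup (disjoint_of_perp a2 inf_le_right) a3 i1]; omega

theorem exists_prof (h2 : (2 : F) = 0) {g : V ≃ₗ[F] V} (hO : g ∈ O Q) (hg : ∀ v, g (g v) = v)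
    (n : ℕ) : ∀ W : Submodule F V, NdOn Q W → Inv g W → finrank F W = n →
    ∃ P u, Prof Q g W P u := by
  induction n using Nat.strong_induction_on with
  | _ n ih =>
  intro W hW iW d
  by_cases h0 : ∀ v ∈ W, B Q v (g v) = 0
  · obtain ⟨P, u, h, -⟩ := AT.prof h2 hO _ W (fun v hv => ⟨by
      rw [map_sub, hg, sub_eq_sub_iff_add_eq_add, ← two_smul F, ← two_smul F, h2]; simp, by
      rw [map_sub, h0 v hv, B_self, h2]; simp⟩) hW iW rfl
    exact ⟨P, u, h⟩
  push Not at h0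
  obtain ⟨v, hv, h0⟩ := h0
  obtain ⟨s1, s2, s3⟩ := split_pair hW hv (iW v hv) (D_two h2 h0)
  obtain ⟨P, u, b⟩ := ih _ (by omega) _ s1 (iW.inf ((inv_span (by
    rintro _ (rfl | rfl)
    · exact right_mem_pair _ _
    · rw [hg]; exact left_mem_pair _ _)).perp hO)) rfl
  exact ⟨P + 1, u, s3 ▸ b.add_plane h2 hO s1 (hg v) h0 inf_le_right⟩

end Cfsg.Agent.H2.Oel
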