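import Cfsg.Agent.H2.Oel13

/-! Orthogonal groups, prime order elements, part 14: characteristic two, criteria. -/

set_option autoImplicit false
set_option linter.unusedSectionVars false

namespace Cfsg.Agent.H2.Oel

open Module Cfsg.Agent.Orth Cfsg.Agent.H8

variable {F V : Type*} [Field F] [AddCommGroup V] [Module F V] {Q : QuadraticForm F V}
  [Finite F] [FiniteDimensional F V]

lemma AT.sup {g : V ≃ₗ[F] V} {A C : Submodule F V} (hA : AT Q g A) (hC : AT Q g C)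
    (h : C ≤ perp Q A) (iA : Inv g A) (iC : Inv g C) : AT Q g (A ⊔ C) := by
  intro v hv
  obtain ⟨a, ha, c, hc, rfl⟩ := Submodule.mem_sup.1 hv
  rw [map_add g a, add_sub_add_comm]
  refine ⟨by rw [map_add, (hA a ha).1, (hC c hc).1], ?_⟩
  simp only [map_add, LinearMap.add_apply, (hA a ha).2, (hC c hc).2]
  rw [h (sub_mem (iC c hc) hc) a ha, B_comm, h hc _ (sub_mem (iA a ha) ha)]; simp

lemma AT.congr {g k : V ≃ₗ[F] V} {A : Submodule F V} (hA : AT Q g A) (iA : Inv g A)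
    (e : ∀ v ∈ A, k v = g v) : AT Q k A := fun v hv => by
  rw [e v hv, e _ (sub_mem (iA v hv) hv)]; exact hA v hv

lemma Inv.congr {g k : V ≃ₗ[F] V} {A : Submodule F V} (iA : Inv g A)
    (e : ∀ v ∈ A, k v = g v) : Inv k A := fun v hv => (e v hv).symm ▸ iA v hv

lemma exists_AT (hQ : Nd Q) (u : ℕ) : ∀ W : Submodule F V, NdOn Q W → finrank F W = 4 * u →
    Plus Q W → ∃ g ∈ OW Q W, g ∈ EO Q ∧ AT Q g W ∧ rk g W 1 = 2 * u := by
  induction u with
  | zero =>
    intro W _ d _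
    exact ⟨1, one_mem _, one_mem _, fun v _ => by simp, rk_of_fix (fun _ _ => rfl) 0⟩
  | succ u ih =>
    intro W hW d hp
    obtain ⟨a, ha, w, hw, qa, qw, b1⟩ := exists_hyp_in hW (by omega)
    obtain ⟨s1, s2, -⟩ := split_pair hW ha hw (hyp_D qa b1)
    have p1 := (plus_inf_perp hW (H8.ndOn_pair (hyp_D qa b1)) (span_pair_le ha hw)
      ⟨2 * u + 2, by omega⟩ (by simp [finrank_pair (hyp_D qa b1)])).1 hp |>.1 (plus_hyp qa b1)
    obtain ⟨c, hc, c0, qc⟩ := p1.exists_sing (by intro e; rw [e, finrank_bot] at s2; omega)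
    obtain ⟨x, hx, qx, b2⟩ := exists_hyp s1 hc c0 qc
    obtain ⟨b3, b4⟩ := mem_perp_pair.1 hc.2
    obtain ⟨b5, b6⟩ := mem_perp_pair.1 hx.2
    have e : ∀ y, eich Q a c y = y + B Q a y • c - B Q c y • a := fun y => by
      rw [eich_apply qa b3, qc, zero_mul, add_zero]
    obtain ⟨A, hA⟩ : ∃ A, A = Submodule.span F {a, w} ⊔ Submodule.span F {c, x} := ⟨_, rfl⟩
    obtain ⟨a1, a2, a3, a4, a5⟩ := block4 (g := eich Q a c) qa qc b1 b2 b3 b4 b5 b6
      (by rw [e, B_self_of_sing Q qa, B_comm, b3]; simp)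
      (by rw [e, B_self_of_sing Q qc, b3]; simp) (by rw [e, b1, B_comm, b4]; simp)
      (by rw [e, b2, b5]; simp) hA
    have hle : A ≤ W := hA ▸ sup_le (span_pair_le ha hw) (span_pair_le hc.1 hx.1)
    have hg : eich Q a c ∈ OW Q A := eich_mem_OW (hA ▸ Submodule.mem_sup_left (left_mem_pair _ _))
      (hA ▸ Submodule.mem_sup_right (left_mem_pair _ _))
    have at1 : AT Q (eich Q a c) A := fun y _ => by
      have : eich Q a c y - y = B Q a y • c - B Q c y • a := by rw [e]; abel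
      rw [this]
      refine ⟨eich_apply_of_perp (by simp [b3, B_self_of_sing Q qa])
        (by simp [B_comm Q c a, b3, B_self_of_sing Q qc]), ?_⟩
      rw [map_sub, map_smul, map_smul, B_comm Q y, B_comm Q y, smul_eq_mul, smul_eq_mul]; ring
    have d1 := hW.finrank_inf_perp hle
    obtain ⟨k, hk, k1, k2, k3⟩ := ih _ (hW.inf_perp a1 hle) (by omega)
      (((plus_inf_perp hW a1 hle ⟨2 * u + 2, by omega⟩ ⟨2, by omega⟩).1 hp).1 a4)
    have l := prod_left hQ inf_le_right hg hk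
    have r := prod_right hQ inf_le_right hg hk
    have i2 := OW.inv hQ hk
    refine ⟨eich Q a c * k, sup_inf_perp a1 hle ▸ prod_mem hQ inf_le_right hg hk,
      mul_mem (eich_mem_EO _ _) k1, ?_, ?_⟩ <;> rw [← sup_inf_perp a1 hle]
    · exact (at1.congr a2 l).sup (k2.congr i2 r) inf_le_right (a2.congr l) (i2.congr r)
    · rw [rk_sup (disjoint_of_perp a1 inf_le_right) (a2.congr l) (i2.congr r),
        rk_congr (a2.congr l) l, rk_congr (i2.congr r) r]
      omega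

lemma exists_AT_top (hQ : Nd Q) {u : ℕ} (h1 : 4 * u ≤ finrank F V)
    (h2 : 4 * u = finrank F V → Plus Q ⊤) : ∃ g ∈ EO Q, AT Q g ⊤ ∧ rk g ⊤ 1 = 2 * u := by
  obtain ⟨W, -, a, b, c⟩ := exists_type' hQ.ndOn_top True (u := 4 * u) ⟨2 * u, by omega⟩
    (by rwa [finrank_top]) (fun _ => trivial) (by rw [finrank_top]; exact fun h => by simp [h2 h])
  obtain ⟨g, hg, g1, g2, g3⟩ := exists_AT hQ u W a b (c.2 trivial)
  refine ⟨g, g1, ?_, ?_⟩ <;> rw [← a.isCompl.sup_eq_top]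
  · exact g2.sup (fun v hv => by simp [hg.2 v hv]) le_rfl (OW.inv hQ hg) (inv_of_fix hg.2)
  · rw [rk_sup a.isCompl.disjoint (OW.inv hQ hg) (inv_of_fix hg.2), g3, rk_of_fix hg.2, add_zero]

variable (Q) in
/-- all involutions of `Ω` -/
def AllI (P : (V ≃ₗ[F] V) → Prop) : Prop := ∀ g ∈ EO Q, (∀ v, g (g v) = v) → g ≠ 1 → P g

variable (hQ : Nd Q) (h2 : (2 : F) = 0)
include hQ h2

omit hQ in
lemma eq_one_of_sq {z : F} (h : z * z = 1) : z = 1 := by
  rcases mul_self_eq_one_iff.1 h with rfl | rfl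
  · rfl
  · linear_combination -h2

theorem pe_char_two (hd : 5 ≤ finrank F V) (P : (V ≃ₗ[F] V) → Prop) : PE Q 2 P ↔ AllI Q P := by
  constructor
  · refine fun H g hg h1 h3 => H g hg ⟨1, fun v => by rw [one_smul]; exact h1 v⟩ fun z hz => h3 ?_
    ext v
    rw [hz, eq_one_of_sq h2 (sq_eq_one_of_scalar hQ hd (EO_le_O hg) hz), one_smul]; rfl
  · rintro H g hg ⟨z, hz⟩ h
    refine H g hg (fun v => ?_) fun e => h 1 fun v => by rw [e, one_smul]; rfl
    have := hz v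
    rwa [eq_one_of_sq h2 (sq_eq_one_of_scalar hQ hd (pow_mem (EO_le_O hg) 2) hz), one_smul] at this

theorem two_bad {d : ℕ} (hn : finrank F V = 2 * d) (hd : 2 ≤ d) (hp : d % 2 = 0 → Plus Q ⊤) :
    ∃ g ∈ EO Q, (∀ v, g (g v) = v) ∧ g ≠ 1 ∧ (d % 2 = 0 → ∀ v, g v = v → Q v = 0) ∧
      ∀ W, NdOn Q W → Inv g W → ∃ P P' u, finrank F W = 2 * P + 4 * u ∧ P + P' = d % 2 ∧
        (P = 0 → Plus Q W) ∧ (P' = 0 → (Plus Q W ↔ Plus Q ⊤)) := by
  obtain ⟨g, g1, g2, g3⟩ := exists_AT_top hQ (u := d / 2) (by omega) fun _ => hp (by omega)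
  have hO := EO_le_O g1
  refine ⟨g, g1, fun v => ?_, ?_, fun h v hv => ?_, fun W hW iW => ?_⟩
  · have := (g2 v trivial).1
    rw [map_sub, sub_eq_iff_eq_add] at this
    rw [this, sub_add_eq_add_sub, ← two_smul F, h2, zero_smul, zero_sub, ← neg_one_smul F,
      show (-1 : F) = 1 by linear_combination -h2, one_smul]
  · rintro rfl
    rw [rk_of_fix (fun _ _ => rfl)] at g3; omega
  · have h1 := (Nn g).finrank_range_add_finrank_ker
    rw [rk, pow_one, Submodule.map_top] at g3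
    have : LinearMap.range (Nn g) = LinearMap.ker (Nn g) := Submodule.eq_of_le_of_finrank_eq
      (by rintro _ ⟨x, rfl⟩; exact sub_eq_zero.2 (g2 x trivial).1) (by omega)
    obtain ⟨x, rfl⟩ : v ∈ LinearMap.range (Nn g) := this ▸ sub_eq_zero.2 hv
    exact g2.sing hO trivial
  · obtain ⟨P, u, a1, a2⟩ := AT.prof h2 hO _ W (fun v _ => g2 v trivial) hW iW rfl
    obtain ⟨P', u', b1, b2⟩ := AT.prof h2 hO _ _ (fun v _ => g2 v trivial) (hW.perp hQ)
      (iW.perp hO) rfl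
    have d1 := hQ.finrank_perp W
    rw [← hW.isCompl.sup_eq_top, rk_sup hW.isCompl.disjoint iW (iW.perp hO)] at g3
    have d2 := a1.dim
    have d3 := b1.dim
    refine ⟨P, P', u, d2, by omega, a1.plus, fun h => ?_⟩
    rw [← hW.isCompl.sup_eq_top, sup_comm,
      Plus.sup_iff (hW.perp hQ) hW (le_perp_perp W) (b1.plus h)]

theorem two_fix {d j : ℕ} (hn : finrank F V = 2 * d) {τ : Prop}
    (h : ∀ P u, P + 2 * u = d → (P = 0 → Plus Q ⊤) → ∃ k ≤ P, ∃ l ≤ u, k + 2 * l = j ∧ (k = 0 → τ) ∧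
      (k = P → (τ ↔ Plus Q ⊤))) : AllI Q (FixIn (SND Q (2 * j) τ)) := by
  intro g hg h1 _
  obtain ⟨P, u, a⟩ := exists_prof h2 (EO_le_O hg) h1 _ ⊤ hQ.ndOn_top (inv_top g) rfl
  have d1 := a.dim
  rw [finrank_top] at d1
  obtain ⟨k, k1, l, l1, b1, b2, b3⟩ := h P u (by omega) a.plus
  obtain ⟨X, -, c1, c2, c3, c4, -⟩ := a.sub k k1 l l1 τ b2 b3
  exact ⟨X, ⟨by omega, c2, c4⟩, c1⟩

theorem two5974 {d m : ℕ} (hn : finrank F V = 2 * d) (hd : 2 ≤ d) (hp : Plus Q ⊤) (hm : Even m)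
    (hmd : m < 2 * d) : AllI Q (FixIn (SND Q m True)) ↔ (d % 2 = 1 ∨ m % 4 = 0) := by
  obtain ⟨j, rfl⟩ := hm
  constructor
  · intro H
    obtain ⟨g, a1, a2, a3, -, a5⟩ := two_bad hQ h2 hn hd fun _ => hp
    obtain ⟨W, ⟨b1, b2, -⟩, b3⟩ := H g a1 a2 a3
    obtain ⟨P, P', u, c1, c2, -⟩ := a5 W b2 b3
    omega
  · intro H
    rw [← two_mul]
    refine two_fix hQ h2 hn fun P u e _ => ?_
    simp only [hp, implies_true, and_true]
    by_cases h : j ≤ 2 * u
    · exact ⟨j % 2, by omega, j / 2, by omega, by omega⟩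
    · exact ⟨j - 2 * u, by omega, u, le_rfl, by omega⟩

theorem two5988 {d m : ℕ} (hn : finrank F V = 2 * d) (hd : 2 ≤ d) (hp : Plus Q ⊤) :
    ¬ AllI Q (FixIn (SND Q m False)) := by
  intro H
  obtain ⟨g, a1, a2, a3, -, a5⟩ := two_bad hQ h2 hn hd fun _ => hp
  obtain ⟨W, ⟨b1, b2, b4⟩, b3⟩ := H g a1 a2 a3
  obtain ⟨P, P', u, c1, c2, c3, c4⟩ := a5 W b2 b3
  by_cases h : P = 0
  · exact b4.1 (c3 h)
  · exact b4.1 ((c4 (by omega)).2 hp)

theorem two5990 {d m : ℕ} (hn : finrank F V = 2 * d) (hd : 2 ≤ d) (hp : ¬ Plus Q ⊤) (hm : Even m)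
    (h0 : 0 < m) (hmd : m < 2 * d) :
    AllI Q (FixIn (SND Q m False)) ↔ (d % 2 = 0 ∨ m % 4 = 2) := by
  obtain ⟨j, rfl⟩ := hm
  constructor
  · intro H
    by_contra h
    obtain ⟨g, a1, a2, a3, -, a5⟩ := two_bad hQ h2 hn hd (by omega)
    obtain ⟨W, ⟨b1, b2, b4⟩, b3⟩ := H g a1 a2 a3
    obtain ⟨P, P', u, c1, c2, c3, -⟩ := a5 W b2 b3
    exact b4.1 (c3 (by omega))
  · intro H
    rw [← two_mul]
    refine two_fix hQ h2 hn fun P u e h => ?_
    simp only [hp, implies_true, and_true, imp_false] at h ⊢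
    by_cases h : j ≤ 2 * u + 1
    · exact ⟨2 - j % 2, by omega, (j - 1) / 2, by omega, by omega, by omega⟩
    · exact ⟨j - 2 * u, by omega, u, le_rfl, by omega, by omega⟩

omit hQ h2 in
variable (Q) in
/-- non-singular points -/
def SNS (W : Submodule F V) : Prop := finrank F W = 1 ∧ ∃ v ∈ W, Q v ≠ 0

omit hQ in
lemma fix_sns {g : V ≃ₗ[F] V} (hO : g ∈ O Q) : FixIn (SNS Q) g ↔ ∃ v, g v = v ∧ Q v ≠ 0 := by
  constructor
  · rintro ⟨W, ⟨a, v, hv, qv⟩, b⟩
    have e : (F ∙ v) = W := Submodule.eq_of_le_of_finrank_eq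
      ((Submodule.span_singleton_le_iff_mem _ _).2 hv)
      (by rw [a, finrank_span_singleton (ne_zero_of_Q_ne qv)])
    obtain ⟨c, hc⟩ := Submodule.mem_span_singleton.1 (e ▸ b v hv : g v ∈ F ∙ v)
    have := hO v
    rw [← hc, Q_smul] at this
    exact ⟨v, by rw [← hc, eq_one_of_sq h2 ((mul_eq_right₀ qv).1 this), one_smul], qv⟩
  · rintro ⟨v, a, b⟩
    exact ⟨F ∙ v, ⟨finrank_span_singleton (ne_zero_of_Q_ne b), v,
      Submodule.mem_span_singleton_self v, b⟩, inv_of_fix (fix_span (by simpa using a))⟩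

theorem two_sns {d : ℕ} (hn : finrank F V = 2 * d) (hd : 2 ≤ d) :
    AllI Q (FixIn (SNS Q)) ↔ (d % 2 = 1 ∨ ¬ Plus Q ⊤) := by
  constructor
  · intro H
    by_contra h
    push Not at h
    obtain ⟨g, a1, a2, a3, a4, -⟩ := two_bad hQ h2 hn hd fun _ => h.2
    obtain ⟨v, b1, b2⟩ := (fix_sns h2 (EO_le_O a1)).1 (H g a1 a2 a3)
    exact b2 (a4 (by omega) v b1)
  · intro H g hg h1 _
    obtain ⟨P, u, a⟩ := exists_prof h2 (EO_le_O hg) h1 _ ⊤ hQ.ndOn_top (inv_top g) rfl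
    have d1 := a.dim
    rw [finrank_top] at d1
    have hP : P ≠ 0 := fun h => H.elim (by omega) fun h' => h' (a.plus h)
    obtain ⟨X, -, -, -, -, -, c⟩ := a.sub 0 (by omega) 0 (by omega) True (fun _ => trivial)
      fun e => absurd e.symm hP
    obtain ⟨y, -, c1⟩ := c (by omega)
    exact (fix_sns h2 (EO_le_O hg)).2 ⟨y, c1⟩

omit hQ in
lemma card_sns : Nat.card {W // SNS Q W} = N Q ⊤ 1 := by
  rw [N, ← Nat.card_coe_set_eq]
  symm
  refine Nat.card_eq_of_bijective (fun v => ⟨F ∙ v.1, finrank_span_singleton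
    (ne_zero_of_Q_ne (Q := Q) (by rw [v.2.2]; simp)), v.1, Submodule.mem_span_singleton_self _,
      by rw [v.2.2]; simp⟩) ⟨?_, ?_⟩
  · rintro ⟨v, hv0, hv⟩ ⟨w, hw0, hw⟩ e
    have e' : (F ∙ v) = F ∙ w := congrArg Subtype.val e
    obtain ⟨c, rfl⟩ := Submodule.mem_span_singleton.1
      (e' ▸ Submodule.mem_span_singleton_self v : v ∈ F ∙ w)
    have := hv
    rw [Q_smul, hw, mul_one] at this
    simp [eq_one_of_sq h2 this]
  · rintro ⟨W, a, v, hv, qv⟩
    obtain ⟨s, hs⟩ := exists_sqrt h2 (Q v)⁻¹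
    have q1 : Q (s • v) = 1 := by rw [Q_smul, hs, inv_mul_cancel₀ qv]
    exact ⟨⟨s • v, trivial, q1⟩, Subtype.ext (Submodule.eq_of_le_of_finrank_eq
      ((Submodule.span_singleton_le_iff_mem _ _).2 (W.smul_mem _ hv))
      (by rw [a, finrank_span_singleton (ne_zero_of_Q_ne (Q := Q) (by simp [q1]))]))⟩

omit hQ in
lemma N_total : N Q ⊤ 0 + (Nat.card F - 1) * N Q ⊤ 1 = Nat.card F ^ finrank F V := by
  have := finV (F := F) (V := V)
  rw [← Module.natCard_eq_pow_finrank (K := F), ← Set.ncard_add_ncard_compl 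
    {v | v ∈ (⊤ : Submodule F V) ∧ Q v = 0},
    ← Nat.card_units, N, N, add_right_inj, ← Nat.card_coe_set_eq, ← Nat.card_coe_set_eq,
    ← Nat.card_prod]
  refine Nat.card_eq_of_bijective (fun p => ⟨(p.1 : F) • p.2.1, fun h => by
    have := h.2
    rw [Q_smul, p.2.2.2] at this
    simp at this⟩) ⟨?_, ?_⟩
  · rintro ⟨c, v, hv0, hv⟩ ⟨c', w, hw0, hw⟩ e
    have e' : (c : F) • v = (c' : F) • w := congrArg Subtype.val e
    have h1 := congrArg Q e'
    rw [Q_smul, Q_smul, hv, hw] at h1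
    have h3 : (c : F) = c' := by
      have : ((c : F) - c') * (c - c') = 0 := by linear_combination h1 + ((c' : F) * c' - c * c') * h2
      exact sub_eq_zero.1 (mul_self_eq_zero.1 this)
    obtain rfl : c = c' := Units.ext h3
    obtain rfl : v = w := smul_right_injective V c.ne_zero e'
    rfl
  · rintro ⟨v, hv⟩
    have qv : Q v ≠ 0 := fun h => hv ⟨trivial, h⟩
    obtain ⟨s, hs⟩ := exists_sqrt h2 (Q v)
    have hs0 : s ≠ 0 := by rintro rfl; exact qv (by simpa using hs.symm)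
    exact ⟨⟨Units.mk0 s hs0, s⁻¹ • v, trivial, by rw [Q_smul, ← hs]; field_simp⟩,
      Subtype.ext (by simp [smul_smul, hs0])⟩

theorem Ctx.sns {r i : ℕ} (H : Ctx F r i) {d : ℕ} (hn : finrank F V = 2 * d) (hd : 1 ≤ d)
    (h : r ∣ Nat.card {W // SNS Q W}) : ¬ AllR Q r (FixIn (SNS Q)) := by
  have := Fact.mk H.pr
  rw [card_sns h2] at h
  have t := N_total (Q := Q) h2
  have hq : 2 ≤ Nat.card F := Finite.one_lt_card
  obtain ⟨k, rfl⟩ : ∃ k, d = k + 1 := ⟨d - 1, by omega⟩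
  rw [hn] at t
  zify [show 1 ≤ Nat.card F by omega] at t
  have hq1 : ((Nat.card F : ℕ) : ℤ) - 1 ≠ 0 := by omega
  have hz : ((N Q ⊤ 1 : ℕ) : ZMod r) = 0 := (ZMod.natCast_eq_zero_iff _ _).2 h
  have hu := H.q_ne
  obtain ⟨a, a1, a2⟩ : ∃ a, cc i * a = 2 * (k + 1) ∧ (Plus Q ⊤ ↔ bt i a) := by
    by_cases hp : Plus Q ⊤
    · have e := N_plus (k + 1) ⊤ hQ.ndOn_top (by rwa [finrank_top]) hp
      zify at e
      have e2 : ((Nat.card F : ℕ) : ℤ) * N Q ⊤ 1 =
          (Nat.card F : ℕ) ^ (k + 1) * ((Nat.card F : ℕ) ^ (k + 1) - 1) :=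
        mul_left_cancel₀ hq1 (by linear_combination (Nat.card F : ℤ) * t - e)
      have e3 := congrArg (Int.cast : ℤ → ZMod r) e2
      push_cast at e3
      rw [hz, mul_zero, eq_comm, mul_eq_zero, sub_eq_zero] at e3
      obtain ⟨b, hb⟩ := (H.dvd_iff' _).2 (e3.resolve_left (pow_ne_zero _ hu))
      rcases Nat.even_or_odd i with he | he
      · exact ⟨2 * b, by rw [cc_even he, hb]; ring, iff_of_true hp (Or.inr (by simp))⟩
      · exact ⟨b, by rw [cc_odd he, hb]; ring, iff_of_true hp (Or.inl he)⟩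
    · have e := N_minus k ⊤ hQ.ndOn_top (by rwa [finrank_top]) hp
      zify at e
      have e2 : ((Nat.card F : ℕ) : ℤ) * N Q ⊤ 1 =
          (Nat.card F : ℕ) ^ (k + 1) * ((Nat.card F : ℕ) ^ (k + 1) + 1) :=
        mul_left_cancel₀ hq1 (by linear_combination (Nat.card F : ℤ) * t - e)
      have e3 := congrArg (Int.cast : ℤ → ZMod r) e2
      push_cast at e3
      rw [hz, mul_zero, eq_comm, mul_eq_zero] at e3
      have e4 := eq_neg_of_add_eq_zero_left (e3.resolve_left (pow_ne_zero _ hu))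
      obtain ⟨b, hb⟩ := (H.dvd_iff' (2 * (k + 1))).2 (by rw [mul_comm, pow_mul, e4]; simp)
      have e5 : ¬ i ∣ k + 1 := fun h => by
        rw [(H.dvd_iff' _).1 h] at e4
        have : ((2 : ℕ) : ZMod r) = 0 := by push_cast; linear_combination e4
        exact H.ne2 ((Nat.prime_dvd_prime_iff_eq H.pr Nat.prime_two).1
          ((ZMod.natCast_eq_zero_iff _ _).1 this))
      have e6 : ¬ Even b := by
        rintro ⟨c, rfl⟩
        exact e5 ⟨c, by rw [mul_add i] at hb; omega⟩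
      have he : Even i := by
        have : Even (i * b) := ⟨k + 1, by omega⟩
        exact (Nat.even_mul.1 this).resolve_right e6
      exact ⟨b, by rw [cc_even he, hb], iff_of_false hp (by rwa [bt_even he])⟩
  obtain ⟨g, hO, hg, d1, -⟩ := H.exists_elt hQ (a := a) (h := if Even i then a / 2 else a)
    (by omega) (fun _ => a2) (fun h => if_neg (Nat.not_even_iff_odd.2 h))
    (fun h => by have := H.t_pos; rw [if_pos h]; omega)
  have d2 := hQ.finrank_perp (Fx g)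
  have e : Fx g = ⊥ := Submodule.finrank_eq_zero.1 (by omega)
  intro L
  obtain ⟨v, b1, b2⟩ := (fix_sns h2 hO).1 (L g hO hg (by
    rintro rfl
    rw [show Fx (1 : V ≃ₗ[F] V) = ⊤ from eq_top_iff.2 fun _ _ => rfl] at e
    have := finrank_top F V
    rw [e, finrank_bot] at this; omega))
  have : v ∈ Fx g := b1
  rw [e] at this
  exact ne_zero_of_Q_ne b2 this

end Cfsg.Agent.H2.Oel
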