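import Cfsg.Agent.H2.Oel14

/-! Orthogonal groups, prime order elements, part 15: unipotent elements, Jordan types. -/

set_option autoImplicit false
set_option linter.unusedSectionVars false

namespace Cfsg.Agent.H2.Oel

open Module Cfsg.Agent.Orth Cfsg.Agent.H8

variable {F V : Type*} [Field F] [AddCommGroup V] [Module F V] {Q : QuadraticForm F V}

/-- `g` has Jordan type `μ` on `W` -/
def JT (g : V ≃ₗ[F] V) (W : Submodule F V) (μ : Multiset ℕ) : Prop :=
  (∀ a ∈ μ, 0 < a) ∧ ∀ k, rk g W k = (μ.map (· - k)).sum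

/-- even parts have even multiplicity -/
def Good (μ : Multiset ℕ) : Prop := ∀ e : ℕ, Even e → Even (μ.count e)

lemma sum_sub_succ (μ : Multiset ℕ) (k : ℕ) : (μ.map (· - (k + 2))).sum + (μ.map (· - k)).sum =
    2 * (μ.map (· - (k + 1))).sum + μ.count (k + 1) := by
  induction μ using Multiset.induction_on with
  | empty => simp
  | cons a s ih =>
    simp only [Multiset.map_cons, Multiset.sum_cons, Multiset.count_cons]
    split_ifs <;> omega

lemma JT.unique {g : V ≃ₗ[F] V} {W : Submodule F V} {μ ν : Multiset ℕ} (h : JT g W μ)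
    (h' : JT g W ν) : μ = ν := by
  ext k
  rcases k with _ | k
  · rw [Multiset.count_eq_zero.2 fun h1 => by simpa using h.1 _ h1,
      Multiset.count_eq_zero.2 fun h1 => by simpa using h'.1 _ h1]
  · have h1 := sum_sub_succ μ k
    have h2 := sum_sub_succ ν k
    simp only [← h.2] at h1
    simp only [← h'.2] at h2
    omega

lemma JT.dim {g : V ≃ₗ[F] V} {W : Submodule F V} {μ : Multiset ℕ} (h : JT g W μ) :
    finrank F W = μ.sum := by
  rw [← rk_zero g, h.2]; simp

lemma jt_bot (g : V ≃ₗ[F] V) : JT g ⊥ 0 := ⟨by simp, fun k => by simp [rk]⟩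

lemma JT.congr {g h : V ≃ₗ[F] V} {W : Submodule F V} {μ : Multiset ℕ} (H : JT g W μ)
    (hg : Inv g W) (e : ∀ v ∈ W, h v = g v) : JT h W μ :=
  ⟨H.1, fun k => by rw [← H.2, rk_congr hg fun v hv => (e v hv).symm]⟩

/-- the span of the first images of `S` -/
def gen (N : End F V) (S : Submodule F V) : ℕ → Submodule F V
  | 0 => ⊥
  | j + 1 => S ⊔ (gen N S j).map N

lemma gen_le {N : End F V} {A S : Submodule F V} (hA : ∀ v ∈ A, N v ∈ A) (hS : S ≤ A) (j : ℕ) :
    gen N S j ≤ A := by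
  induction j with
  | zero => exact bot_le
  | succ j ih =>
    exact sup_le hS ((Submodule.map_mono ih).trans (Submodule.map_le_iff_le_comap.2 hA))

lemma gen_succ_le (N : End F V) (S : Submodule F V) (j : ℕ) :
    gen N S (j + 1) ≤ gen N S j ⊔ S.map (N ^ j) := by
  induction j with
  | zero => simp [gen, End.one_eq_id]
  | succ j ih =>
    refine sup_le (le_sup_left.trans le_sup_left) ((Submodule.map_mono ih).trans ?_)
    rw [Submodule.map_sup, ← Submodule.map_comp, ← End.mul_eq_comp, ← pow_succ']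
    exact sup_le_sup_right le_sup_right _

lemma inv_gen {g : V ≃ₗ[F] V} {S : Submodule F V} {k : ℕ} (h : ∀ s ∈ S, (Nn g ^ k) s = 0) :
    Inv g (gen (Nn g) S k) := fun v hv => by
  have : Nn g v ∈ gen (Nn g) S k := Submodule.map_le_iff_le_comap.1 (le_sup_right.trans
    ((gen_succ_le (Nn g) S k).trans (sup_le le_rfl (by
      rintro _ ⟨s, hs, rfl⟩; rw [h s hs]; exact zero_mem _)))) hv
  simpa [Nn_apply] using add_mem this hv

lemma Nn_comm (g : V ≃ₗ[F] V) (j k : ℕ) (v : V) : (Nn g ^ k) ((g ^ j) v) = (g ^ j) ((Nn g ^ k) v) := by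
  induction k generalizing v with
  | zero => rfl
  | succ k ih =>
    rw [pow_succ, End.mul_apply, End.mul_apply, ← ih, Nn_apply, Nn_apply, map_sub (g ^ j),
      ← mul_app, ← mul_app, pow_mul_comm']

lemma adj_aux {g : V ≃ₗ[F] V} (hO : g ∈ O Q) (j : ℕ) : ∀ u v,
    B Q ((Nn g ^ j) u) ((g ^ j) v) = (-1) ^ j * B Q u ((Nn g ^ j) v) := by
  have h1 : ∀ x y, B Q (Nn g x) (g y) = -B Q x (Nn g y) := fun x y => by
    simp [Nn_apply, O_B hO]
  induction j with
  | zero => simp
  | succ j ih =>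
    intro u v
    have := Nn_comm g j 1 v
    rw [pow_one] at this
    rw [pow_succ' (Nn g), pow_succ' g, End.mul_apply, mul_app, h1, this, ih, ← End.mul_apply,
      ← pow_succ, ← pow_succ']
    ring

lemma adj_unip {g : V ≃ₗ[F] V} (hO : g ∈ O Q) {k : ℕ} {u : V} (h0 : (Nn g ^ (k + 1)) u = 0)
    (v : V) : B Q ((Nn g ^ k) u) v = (-1) ^ k * B Q u ((Nn g ^ k) v) := by
  rw [← adj_aux hO, ← O_B (pow_mem hO k) _ v, pow_fix]
  rw [pow_succ', End.mul_apply, Nn_apply, sub_eq_zero] at h0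
  exact h0

variable [Finite F] [FiniteDimensional F V]

lemma JT.sup {g : V ≃ₗ[F] V} {A C : Submodule F V} {μ ν : Multiset ℕ} (h1 : JT g A μ)
    (h2 : JT g C ν) (h : Disjoint A C) (hA : Inv g A) (hC : Inv g C) : JT g (A ⊔ C) (μ + ν) :=
  ⟨fun a ha => (Multiset.mem_add.1 ha).elim (h1.1 a) (h2.1 a), fun k => by
    rw [rk_sup h hA hC, h1.2, h2.2, Multiset.map_add, Multiset.sum_add]⟩

lemma finrank_gen (N : End F V) (S : Submodule F V) (j : ℕ) :
    finrank F (gen N S j) ≤ j * finrank F S := by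
  induction j with
  | zero => exact (finrank_bot F V).trans_le (Nat.zero_le _)
  | succ j ih =>
    have h1 := Submodule.finrank_add_le_finrank_add_finrank S ((gen N S j).map N)
    have h2 := Submodule.finrank_map_le N (gen N S j)
    rw [add_mul]
    change finrank F ↥(S ⊔ _) ≤ _
    omega

lemma nd_gen {g : V ≃ₗ[F] V} (hO : g ∈ O Q) {A S : Submodule F V} (hA : Inv g A) (hS : S ≤ A)
    {k : ℕ} (h0 : ∀ v ∈ A, (Nn g ^ (k + 1)) v = 0)
    (h1 : ∀ s ∈ S, s ≠ 0 → ∃ t ∈ S, B Q t ((Nn g ^ k) s) ≠ 0) :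
    NdOn Q (gen (Nn g) S (k + 1)) := by
  have h2 := inv_gen fun s hs => h0 s (hS hs)
  have key : ∀ j i, i + j = k + 1 → ∀ w ∈ gen (Nn g) S j, (Nn g ^ i) w ≠ 0 →
      (Nn g ^ i) w ∉ perp Q (gen (Nn g) S (k + 1)) := by
    intro j
    induction j with
    | zero => intro i _ w hw h; simp [show w = 0 from hw] at h
    | succ j ih =>
      intro i hi w hw h
      obtain ⟨s, hs, _, ⟨w, hw', rfl⟩, rfl⟩ := Submodule.mem_sup.1 hw
      by_cases h3 : s = 0
      · subst h3
        rw [zero_add, ← End.mul_apply, ← pow_succ] at h ⊢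
        exact ih _ (by omega) w hw' h
      intro h4
      obtain ⟨t, ht, h5⟩ := h1 s hs h3
      have h6 := (h2.perp hO).Nn_pow j _ h4 t (Submodule.mem_sup_left ht)
      rw [← End.mul_apply, ← pow_add, show j + i = k by omega, map_add, ← End.mul_apply,
        ← pow_succ, h0 w (gen_le hA.Nn hS j hw'), add_zero] at h6
      exact h5 h6
  intro w hw h
  by_contra h3
  exact key (k + 1) 0 (by simp) w hw h3 h

lemma jt_gen {g : V ≃ₗ[F] V} {A S : Submodule F V} (hA : Inv g A) (hS : S ≤ A)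
    {k : ℕ} (h0 : ∀ v ∈ A, (Nn g ^ (k + 1)) v = 0) (h1 : ∀ s ∈ S, (Nn g ^ k) s = 0 → s = 0) :
    JT g (gen (Nn g) S (k + 1)) (Multiset.replicate (finrank F S) (k + 1)) := by
  have h2 := inv_gen fun s hs => h0 s (hS hs)
  have h3 := gen_le hA.Nn hS (k + 1)
  have h4 := finrank_gen (Nn g) S (k + 1)
  have h5 : S ≤ gen (Nn g) S (k + 1) := le_sup_left
  generalize gen (Nn g) S (k + 1) = W at *
  have step : ∀ i ≤ k, rk g W (i + 1) + finrank F S ≤ rk g W i := fun i hi => by
    obtain ⟨j, rfl⟩ := Nat.exists_eq_add_of_le' hi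
    have inj : ∀ s ∈ S, (Nn g ^ j) ((Nn g ^ i) s) = 0 → s = 0 := fun s hs e =>
      h1 s hs (by rw [pow_add]; exact e)
    rw [rk, ← finrank_map_of_inj (f := Nn g ^ i) fun s hs e => inj s hs (by rw [e, map_zero]),
      ← finrank_sup_of_disjoint]
    · refine Submodule.finrank_mono (sup_le ?_ (Submodule.map_mono h5))
      rintro _ ⟨w, hw, rfl⟩
      exact ⟨Nn g w, h2.Nn w hw, by rw [pow_succ]; rfl⟩
    · rw [Submodule.disjoint_def]
      rintro _ ⟨w, hw, rfl⟩ ⟨s, hs, e⟩
      rw [← e, inj s hs (by rw [e, ← End.mul_apply, ← pow_add]; exact h0 w (h3 hw)), map_zero]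
  have top : ∀ i, k + 1 ≤ i → rk g W i = 0 := fun i hi => by
    obtain ⟨j, rfl⟩ := Nat.exists_eq_add_of_le' hi
    have : W.map (Nn g ^ (j + (k + 1))) = ⊥ := by
      rw [eq_bot_iff]
      rintro _ ⟨w, hw, rfl⟩
      rw [pow_add, End.mul_apply, h0 w (h3 hw), map_zero]; exact zero_mem _
    rw [rk, this, finrank_bot]
  have up : ∀ i ≤ k + 1, rk g W i + i * finrank F S ≤ rk g W 0 := fun i hi => by
    induction i with
    | zero => simp
    | succ i ih => have := step i (by omega); have := ih (by omega); rw [add_mul]; omega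
  have down : ∀ j i, i + j = k + 1 → j * finrank F S ≤ rk g W i := fun j => by
    induction j with
    | zero => simp
    | succ j ih =>
      intro i hi
      have := step i (by omega); have := ih (i + 1) (by omega); rw [add_mul]; omega
  refine ⟨fun a ha => by rw [Multiset.eq_of_mem_replicate ha]; omega, fun i => ?_⟩
  rw [Multiset.map_replicate, Multiset.sum_replicate, smul_eq_mul]
  rcases Nat.lt_or_ge i (k + 1) with hi | hi
  · obtain ⟨j, hj⟩ := Nat.exists_eq_add_of_le hi.le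
    have a1 := up i hi.le
    have a2 := down j i hj.symm
    rw [rk_zero] at a1
    rw [hj, add_mul] at h4
    rw [hj, Nat.add_sub_cancel_left, mul_comm]; omega
  · rw [top i hi, Nat.sub_eq_zero_of_le hi, mul_zero]

/-- the Jordan type of an indecomposable piece -/
def jv (e : ℕ) : Multiset ℕ := Multiset.replicate (if Even e then 2 else 1) e

lemma exists_jblock (h2 : (2 : F) ≠ 0) {g : V ≃ₗ[F] V} (hO : g ∈ O Q) {A : Submodule F V}
    (nA : NdOn Q A) (hA : Inv g A) {k : ℕ} (h0 : ∀ v ∈ A, (Nn g ^ (k + 1)) v = 0) {u : V}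
    (hu : u ∈ A) (h1 : (Nn g ^ k) u ≠ 0) : ∃ W ≤ A, NdOn Q W ∧ Inv g W ∧ JT g W (jv (k + 1)) ∧
      (Even (k + 1) → Plus Q W) := by
  obtain ⟨v, hv, h3⟩ := nA.exists_B_ne (hA.Nn_pow k u hu) h1
  have h4 : ∀ x ∈ A, ∀ y, B Q y ((Nn g ^ k) x) = (-1) ^ k * B Q x ((Nn g ^ k) y) :=
    fun x hx y => by rw [B_comm, adj_unip hO (h0 x hx)]
  rw [B_comm] at h3
  obtain ⟨S, k1, k2, k3⟩ : ∃ S ≤ A, finrank F S = (if Even (k + 1) then 2 else 1) ∧
      ∀ s ∈ S, s ≠ 0 → ∃ t ∈ S, B Q t ((Nn g ^ k) s) ≠ 0 := by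
    split_ifs with he
    · rw [Nat.even_add_one, Nat.not_even_iff_odd] at he
      have h5 : ∀ x ∈ A, B Q x ((Nn g ^ k) x) = 0 := fun x hx => mul_left_cancel₀ h2 (by
        have := h4 x hx x
        rw [he.neg_one_pow] at this
        linear_combination this)
      refine ⟨_, span_pair_le hu hv, ?_, fun s hs h => ?_⟩
      · rw [← span_sup_pair, Submodule.finrank_sup_span_singleton,
          finrank_span_singleton (by rintro rfl; simp at h3)]
        intro h
        obtain ⟨c, rfl⟩ := Submodule.mem_span_singleton.1 h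
        simp [h5 u hu] at h3
      · obtain ⟨a, b, rfl⟩ := mem_span_pair'.1 hs
        by_cases ha : a = 0
        · refine ⟨u, left_mem_pair _ _, ?_⟩
          simpa [ha, h4 v hv u, h3] using show b ≠ 0 by rintro rfl; simp [ha] at h
        · exact ⟨v, right_mem_pair _ _, by simp [h5 v hv, ha, h3]⟩
    · rw [Nat.even_add_one, not_not] at he
      obtain ⟨w, hw, h5⟩ : ∃ w ∈ A, B Q w ((Nn g ^ k) w) ≠ 0 := by
        by_contra! h5
        have := h5 _ (add_mem hu hv)
        simp only [map_add, LinearMap.add_apply, h5 u hu, h5 v hv, h4 v hv u, he.neg_one_pow] at this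
        exact h3 (mul_left_cancel₀ h2 (by linear_combination this))
      refine ⟨_, (Submodule.span_singleton_le_iff_mem _ _).2 hw,
        finrank_span_singleton (by rintro rfl; simp at h5), fun s hs h => ?_⟩
      obtain ⟨c, rfl⟩ := Submodule.mem_span_singleton.1 hs
      exact ⟨w, Submodule.mem_span_singleton_self _, by
        simpa [h5] using (smul_ne_zero_iff.1 h).1⟩
  have k4 := jt_gen hA k1 h0 (fun s hs h => by
    by_contra h5
    obtain ⟨t, -, h6⟩ := k3 s hs h5
    simp [h] at h6)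
  have k5 := inv_gen fun s hs => h0 s (k1 hs)
  have k6 := gen_le hA.Nn k1 (k + 1)
  rw [k2] at k4
  refine ⟨_, k6, nd_gen hO hA k1 h0 k3, k5, k4, fun he => ?_⟩
  generalize gen (Nn g) S (k + 1) = W at *
  obtain ⟨j, hj⟩ := he
  refine ⟨W.map (Nn g ^ j), Submodule.map_le_iff_le_comap.2 (k5.Nn_pow j), ?_, ?_⟩
  · rintro _ ⟨x, hx, rfl⟩
    have e : x = (g ^ j) ((g ^ j)⁻¹ x) := (apply_inv_apply _ _).symm
    have := adj_aux hO j x ((Nn g ^ j) ((g ^ j)⁻¹ x))
    rw [← Nn_comm, ← e, ← End.mul_apply, ← pow_add, ← hj, h0 _ (k6 ((k5.pow j).inv x hx)),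
      map_zero, mul_zero, B_self] at this
    exact (mul_eq_zero.1 this).resolve_left h2
  · have a1 := k4.2 j
    have a2 := k4.dim
    rw [if_pos ⟨j, hj⟩] at a1 a2
    simp only [Multiset.map_replicate, Multiset.sum_replicate, smul_eq_mul, rk] at a1 a2
    omega

lemma good_jv (e : ℕ) : Good (jv e) := fun a ha => by
  rw [jv, Multiset.count_replicate]
  split_ifs with h1 h2
  · simp
  · exact absurd (h1 ▸ ha) h2
  · simp

lemma Good.add {μ ν : Multiset ℕ} (h : Good μ) (h' : Good ν) : Good (μ + ν) := fun a ha => by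
  rw [Multiset.count_add]; exact (h a ha).add (h' a ha)

lemma mem_jv (e : ℕ) : e ∈ jv e := by rw [jv]; split_ifs <;> simp

theorem exists_JT (h2 : (2 : F) ≠ 0) {g : V ≃ₗ[F] V} (hO : g ∈ O Q) {p : ℕ}
    (hp : ∀ v, (Nn g ^ p) v = 0) (n : ℕ) : ∀ W : Submodule F V, NdOn Q W → Inv g W →
    finrank F W = n → ∃ ν, JT g W ν ∧ Good ν ∧ ((∀ a ∈ ν, Even a) → Plus Q W) ∧
      (1 ∈ ν → ∃ y ∈ W, g y = y ∧ Q y ≠ 0) := by
  classical
  induction n using Nat.strong_induction_on with
  | _ n ih =>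
  intro W hW iW d
  by_cases h0 : W = ⊥
  · subst h0
    exact ⟨0, jt_bot g, fun _ _ => by simp, fun _ => plus_bot, by simp⟩
  have hex : ∃ k : ℕ, ∀ v ∈ W, (Nn g ^ k) v = 0 := ⟨p, fun v _ => hp v⟩
  have h4 := Nat.find_spec hex
  rcases h6 : Nat.find hex with _ | k
  · exact absurd ((Submodule.eq_bot_iff _).2 (by simpa [h6] using h4)) h0
  have h7 := Nat.find_min hex (m := k) (by omega)
  push Not at h7
  obtain ⟨u, hu, h7⟩ := h7
  rw [h6] at h4
  obtain ⟨A, a1, a2, a3, a4, a5⟩ := exists_jblock h2 hO hW iW h4 hu h7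
  have d1 := hW.finrank_inf_perp a1
  have d2 := a4.dim
  have d3 := Multiset.single_le_sum (fun _ _ => Nat.zero_le _) _ (mem_jv (k + 1))
  have i1 := iW.inf (a3.perp hO)
  obtain ⟨ν, b1, b2, b3, b4⟩ := ih _ (by omega) _ (hW.inf_perp a2 a1) i1 rfl
  refine ⟨jv (k + 1) + ν, sup_inf_perp a2 a1 ▸ a4.sup b1 (disjoint_of_perp a2 inf_le_right) a3 i1,
    (good_jv _).add b2, fun h => sup_inf_perp a2 a1 ▸ Plus.sup a2 inf_le_right
      (a5 (h _ (Multiset.mem_add.2 (Or.inl (mem_jv _)))))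
      (b3 fun a ha => h a (Multiset.mem_add.2 (Or.inr ha))), fun h => ?_⟩
  rcases Multiset.mem_add.1 h with h | h
  · obtain rfl : k = 0 := by have := Multiset.eq_of_mem_replicate h; omega
    obtain ⟨y, hy, qy⟩ := NdOn.exists_nonsing' hW h0
    exact ⟨y, hy, sub_eq_zero.1 (h4 y hy), qy⟩
  · obtain ⟨y, hy, c⟩ := b4 h
    exact ⟨y, hy.1, c⟩

end Cfsg.Agent.H2.Oel
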