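import Cfsg.Agent.H2.Oel15

/-! Orthogonal groups, prime order elements, part 16: existence of unipotent elements. -/

set_option autoImplicit false
set_option linter.unusedSectionVars false

namespace Cfsg.Agent.H2.Oel

open Module Cfsg.Agent.Orth Cfsg.Agent.H8 Polynomial

variable {F V : Type*} [Field F] [AddCommGroup V] [Module F V] {Q : QuadraticForm F V}
  [Finite F] [FiniteDimensional F V]

section
variable {V' : Type*} [AddCommGroup V'] [Module F V'] [FiniteDimensional F V']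
  {Q' : QuadraticForm F V'}

lemma transport_JT (hQ : Nd Q) {X : Submodule F V'} {W : Submodule F V} (hX : NdOn Q' X)
    (h : Iso Q' X Q W) {g' : V' ≃ₗ[F] V'} (iX : Inv g' X) (hO : ∀ x, Q' (g' x) = Q' x) {r : ℕ}
    (hr : g' ^ r = 1) {μ : Multiset ℕ} (hμ : JT g' X μ) : ∃ g ∈ OW Q W, g ^ r = 1 ∧ JT g W μ := by
  have hW := h.ndOn hX
  obtain ⟨f, rfl, hq⟩ := h
  have inj := inj_of_iso hX hq
  obtain ⟨s, hs⟩ := (f.domRestrict X).exists_leftInverse_of_injective (by
    rw [eq_bot_iff]; exact fun x hx => Subtype.ext (inj x x.2 hx))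
  have hs' : ∀ x ∈ X, (s (f x) : V') = x := fun x hx =>
    congrArg Subtype.val (LinearMap.congr_fun hs ⟨x, hx⟩)
  obtain ⟨g, hg, e⟩ := exists_OW_ext hQ hW (f ∘ₗ (g' : V' →ₗ[F] V') ∘ₗ X.subtype ∘ₗ s)
    (fun x _ => ⟨_, iX _ (s x).2, rfl⟩) (by
      rintro _ ⟨x, hx, rfl⟩
      show Q (f (g' (s (f x)))) = _
      rw [hs' x hx, hq _ (iX x hx), hO, hq x hx])
  have e1 : ∀ x ∈ X, g (f x) = f (g' x) := fun x hx => by
    rw [e _ ⟨x, hx, rfl⟩]
    show f (g' (s (f x))) = _
    rw [hs' x hx]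
  have e2 : ∀ (k : ℕ), ∀ x ∈ X, (g ^ k) (f x) = f ((g' ^ k) x) := fun k => by
    induction k with
    | zero => exact fun _ _ => rfl
    | succ k ih => intro x hx; rw [pow_succ, pow_succ, mul_app, mul_app, e1 x hx, ih _ (iX x hx)]
  have e3 : ∀ (k : ℕ), ∀ x ∈ X, (Nn g ^ k) (f x) = f ((Nn g' ^ k) x) := fun k => by
    induction k with
    | zero => exact fun _ _ => rfl
    | succ k ih =>
      intro x hx
      rw [pow_succ, pow_succ, End.mul_apply, End.mul_apply, ← ih _ (iX.Nn x hx), Nn_apply, Nn_apply,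
        e1 x hx, map_sub f]
  refine ⟨g, hg, eq_one_of_OW hW (pow_mem hg r) ?_, hμ.1, fun k => ?_⟩
  · rintro _ ⟨x, hx, rfl⟩
    rw [e2 r x hx, hr]; rfl
  · have : (X.map f).map (Nn g ^ k) = (X.map (Nn g' ^ k)).map f := by
      apply le_antisymm
      · rintro _ ⟨_, ⟨x, hx, rfl⟩, rfl⟩
        exact ⟨_, ⟨x, hx, rfl⟩, (e3 k x hx).symm⟩
      · rintro _ ⟨_, ⟨x, hx, rfl⟩, rfl⟩
        exact ⟨_, ⟨x, hx, rfl⟩, e3 k x hx⟩
    rw [← hμ.2, rk, rk, this, finrank_map_of_inj]
    rintro _ ⟨x, hx, rfl⟩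
    exact inj _ (iX.Nn_pow k x hx)

omit [Finite F] [FiniteDimensional F V] in
lemma B_smul' (c : F) (x y : V) : B (c • Q) x y = c * B Q x y := by
  have h1 := Q_add (c • Q) x y
  have h2 := Q_add Q x y
  simp only [QuadraticMap.smul_apply, smul_eq_mul] at h1
  linear_combination c * h2 - h1

omit [Finite F] [FiniteDimensional F V] in
lemma ndOn_smul {c : F} (hc : c ≠ 0) {X : Submodule F V} (h : NdOn Q X) : NdOn (c • Q) X :=
  fun v hv e => h v hv fun x hx => by simpa [B_smul', hc] using e x hx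

lemma iso_odd {X : Submodule F V'} {W : Submodule F V} (hX : NdOn Q' X) (hW : NdOn Q W) {j : ℕ}
    (dX : finrank F X = 2 * j + 1) (dW : finrank F W = 2 * j + 1) :
    ∃ c : F, c ≠ 0 ∧ Iso (c • Q') X Q W := by
  have h2 := two_ne_zero_of_odd_finrank hW ⟨j, dW⟩
  obtain ⟨A, a1, a2, a3, a4⟩ := exists_type' hX True (u := 2 * j) (by simp) (by omega)
    (fun _ => trivial) (by omega)
  obtain ⟨C, c1, c2, c3, c4⟩ := exists_type' hW True (u := 2 * j) (by simp) (by omega)
    (fun _ => trivial) (by omega)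
  have d1 := hX.finrank_inf_perp a1
  have d2 := hW.finrank_inf_perp c1
  obtain ⟨x, qx, ex⟩ := exists_eq_span_singleton (hX.inf_perp a2 a1) (by omega)
  obtain ⟨w, qw, ew⟩ := exists_eq_span_singleton (hW.inf_perp c2 c1) (by omega)
  have hc : Q w / Q' x ≠ 0 := div_ne_zero qw qx
  refine ⟨_, hc, ?_⟩
  rw [← sup_inf_perp a2 a1, ← sup_inf_perp c2 c1]
  refine Iso.sup (ndOn_smul hc a2) (fun y hy z hz => ?_) inf_le_right
    (iso_of_type j _ _ (ndOn_smul hc a2) c2 a3 c3 (iff_of_true ?_ (c4.2 trivial))) ?_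
  · show B _ z y = 0
    rw [B_smul', hy.2 z hz, mul_zero]
  · obtain ⟨U, u1, u2, u3⟩ := a4.2 trivial
    exact ⟨U, u1, fun v hv => by simp [u2 v hv], u3⟩
  · rw [ex, ew]
    exact iso_line h2 (by simp [qw, qx]) (by simp [qx])

end

variable {p : ℕ} [hp : Fact p.Prime] [CharP F p]

lemma exists_unip_block (hQ : Nd Q) (h2 : (2 : F) ≠ 0) {e : ℕ} (h0 : 0 < e) (he : e ≤ p)
    {W : Submodule F V} (hW : NdOn Q W) (d : finrank F W = (jv e).sum) (hpl : Even e → Plus Q W) :
    ∃ g ∈ OW Q W, g ^ p = 1 ∧ JT g W (jv e) := by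
  obtain ⟨k, rfl⟩ : ∃ k, e = k + 1 := ⟨e - 1, by omega⟩
  have hm : (X ^ (k + 1) : F[X]).Monic := monic_X_pow _
  have := hm.finite_adjoinRoot
  let R := AdjoinRoot (X ^ (k + 1) : F[X])
  let t : R := AdjoinRoot.root _
  have t1 : t ^ (k + 1) = 0 := by
    have := AdjoinRoot.mk_self (f := (X ^ (k + 1) : F[X]))
    rwa [map_pow, AdjoinRoot.mk_X] at this
  have t2 : t ^ k ≠ 0 := by
    intro h
    have : AdjoinRoot.mk (X ^ (k + 1) : F[X]) (X ^ k) = 0 := by rwa [map_pow, AdjoinRoot.mk_X]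
    have := natDegree_le_of_dvd (AdjoinRoot.mk_eq_zero.1 this) (pow_ne_zero _ X_ne_zero)
    simp at this
  have : Nontrivial R := ⟨_, _, t2⟩
  have : CharP R p := charP_of_injective_algebraMap (algebraMap F R).injective p
  have z1 : (1 + t) ^ p = 1 := by
    rw [add_pow_char, one_pow, pow_eq_zero_of_le he t1, add_zero]
  obtain ⟨ξ, z2⟩ : ∃ ξ : R, ξ * (1 + t) = 1 :=
    ⟨(1 + t) ^ (p - 1), by rw [← pow_succ, Nat.sub_add_cancel hp.out.one_le, z1]⟩
  have z3 : ξ ^ p = 1 := by rw [← mul_one (ξ ^ p), ← z1, ← mul_pow, z2, one_pow, z1]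
  let b : LinearMap.BilinMap F (R × Dual F R) F :=
    (LinearMap.id : Dual F R →ₗ[F] Dual F R).compl₁₂ (LinearMap.snd F _ _) (LinearMap.fst F _ _)
  let Q' : QuadraticForm F (R × Dual F R) := b.toQuadraticMap
  have hQ'v : ∀ x, Q' x = x.2 x.1 := fun x => rfl
  have hB : ∀ x y, B Q' x y = x.2 y.1 + y.2 x.1 := fun x y =>
    LinearMap.BilinMap.polar_toQuadraticMap x y
  have hQ' : Nd Q' := fun v hv => Prod.ext
    ((Module.forall_dual_apply_eq_zero_iff F v.1).1 fun φ => by simpa [hB] using hv (0, φ))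
    (LinearMap.ext fun u => by simpa [hB] using hv (u, 0))
  obtain ⟨g', hO, hg'⟩ := exists_O_of_lin hQ'
    ((LinearMap.mul F R (1 + t)).prodMap (LinearMap.mul F R ξ).dualMap) fun v => by
      rw [hQ'v, hQ'v]
      show v.2 (ξ * ((1 + t) * v.1)) = _
      rw [← mul_assoc, z2, one_mul]
  have hg : ∀ v, g' v = ((1 + t) * v.1, v.2 ∘ₗ LinearMap.mul F R ξ) := hg'
  have hk : ∀ (n : ℕ) v, (g' ^ n) v = ((1 + t) ^ n * v.1, v.2 ∘ₗ LinearMap.mul F R (ξ ^ n)) :=
    fun n v => by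
      induction n with
      | zero => exact Prod.ext (by simp) (LinearMap.ext fun u => by simp)
      | succ n ih =>
        rw [pow_succ' g', mul_app, ih, hg]
        exact Prod.ext (by simp only [pow_succ', mul_assoc])
          (LinearMap.ext fun u => by simp [pow_succ, mul_assoc])
  have hN : ∀ (n : ℕ) v, (Nn g' ^ n) v = (t ^ n * v.1, v.2 ∘ₗ LinearMap.mul F R ((-ξ * t) ^ n)) :=
    fun n v => by
      induction n with
      | zero => exact Prod.ext (by simp) (LinearMap.ext fun u => by simp)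
      | succ n ih =>
        rw [pow_succ' (Nn g'), End.mul_apply, ih, Nn_apply, hg]
        refine Prod.ext (by simp only [Prod.fst_sub]; ring) (LinearMap.ext fun u => ?_)
        simp only [Prod.snd_sub, LinearMap.sub_apply, LinearMap.comp_apply, LinearMap.mul_apply']
        rw [← map_sub]
        congr 1
        linear_combination (-ξ * t) ^ n * u * z2
  have hr : g' ^ p = 1 := LinearEquiv.ext fun v => by
    rw [hk, z1, z3]
    exact Prod.ext (by simp) (LinearMap.ext fun u => by simp)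
  obtain ⟨A, -, a2, a3, a4, a5⟩ := exists_jblock h2 hO hQ'.ndOn_top (inv_top g') (k := k)
    (fun v _ => by
      rw [hN, mul_pow, t1]
      exact Prod.ext (by simp) (LinearMap.ext fun u => by simp)) (u := (1, 0)) trivial (by
      rw [hN]; exact fun h => t2 (by simpa using congrArg Prod.fst h))
  have d1 := a4.dim
  rcases Nat.even_or_odd (k + 1) with h | h
  · exact transport_JT hQ a2 (iso_of_type (k + 1) _ _ a2 hW (by simp [d1, jv, h, two_mul])
      (by simp [d, jv, h, two_mul]) (iff_of_true (a5 h) (hpl h))) a3 hO hr a4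
  · obtain ⟨j, hj⟩ := h
    have h' : ¬ Even (k + 1) := by rw [hj]; simp
    obtain ⟨c, hc, i⟩ := iso_odd a2 hW (j := j) (by simp [d1, jv, h', ← hj])
      (by simp [d, jv, h', ← hj])
    exact transport_JT hQ (ndOn_smul hc a2) i a3 (fun x => by simp [hO x]) hr a4

lemma Good.sub {μ ν : Multiset ℕ} (h : Good (μ + ν)) (h' : Good μ) : Good ν := fun a ha => by
  have h1 := h a ha
  have h2 := h' a ha
  rw [Multiset.count_add] at h1
  exact (Nat.even_add.1 h1).1 h2

lemma even_sum {μ : Multiset ℕ} (h : ∀ a ∈ μ, Even a) : Even μ.sum :=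
  Multiset.sum_induction _ _ (fun _ _ => Even.add) (by simp) h

theorem exists_unip (hQ : Nd Q) (h2 : (2 : F) ≠ 0) (n : ℕ) : ∀ μ : Multiset ℕ, μ.card = n →
    (∀ a ∈ μ, 0 < a ∧ a ≤ p) → Good μ → ∀ W : Submodule F V, NdOn Q W → finrank F W = μ.sum →
    ((∀ a ∈ μ, Even a) → Plus Q W) → ∃ g ∈ OW Q W, g ^ p = 1 ∧ JT g W μ := by
  induction n using Nat.strong_induction_on with
  | _ n ih =>
  intro μ hn h1 hg W hW d hpl
  by_cases h0 : μ = 0
  · subst h0
    obtain rfl : W = ⊥ := Submodule.finrank_eq_zero.1 d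
    exact ⟨1, one_mem _, one_pow _, jt_bot 1⟩
  obtain ⟨e, ν, rfl, A, a1, a2, a3, a4, a5⟩ : ∃ e ν, μ = jv e + ν ∧ ∃ A ≤ W, NdOn Q A ∧
      finrank F A = (jv e).sum ∧ (Even e → Plus Q A) ∧
      ((∀ a ∈ ν, Even a) → Plus Q (W ⊓ perp Q A)) := by
    by_cases he : ∃ e ∈ μ, Even e
    · obtain ⟨e, h3, he⟩ := he
      obtain ⟨ν, rfl⟩ := Multiset.le_iff_exists_add.1 (Multiset.le_count_iff_replicate_le.1
        (show 2 ≤ μ.count e by
          have := Multiset.count_pos.2 h3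
          have := Nat.even_iff.1 (hg e he)
          omega))
      have k1 : (∀ a ∈ ν, Even a) → Plus Q W := fun h => hpl fun a ha =>
        (Multiset.mem_add.1 ha).elim (fun h' => Multiset.eq_of_mem_replicate h' ▸ he) (h a)
      simp only [Multiset.sum_add, Multiset.sum_replicate, smul_eq_mul] at d
      obtain ⟨A, a1, a2, a3, a4⟩ := exists_type' hW True (u := 2 * e) (by simp) (by omega)
        (fun _ => trivial) fun h => iff_of_true trivial (k1 fun a ha => by
          have := (h1 a (Multiset.mem_add.2 (Or.inr ha))).1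
          have := Multiset.single_le_sum (fun _ _ => Nat.zero_le _) _ ha
          omega)
      refine ⟨e, ν, by rw [jv, if_pos he], A, a1, a2, by simp [jv, he, a3, two_mul],
        fun _ => a4.2 trivial, fun h => ((plus_inf_perp hW a2 a1 ?_ (by simp [a3])).1 (k1 h)).1
          (a4.2 trivial)⟩
      rw [d]; exact Even.add (by simp) (even_sum h)
    · push Not at he
      obtain ⟨e, h3⟩ := Multiset.exists_mem_of_ne_zero h0
      obtain ⟨ν, rfl⟩ := Multiset.exists_cons_of_mem h3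
      rw [Multiset.sum_cons] at d
      obtain ⟨A, a1, a2, a3⟩ := exists_nd h2 hW (u := e) (by omega)
      refine ⟨e, ν, by simp [jv, he e h3], A, a1, a2, by simp [jv, he e h3, a3],
        fun h => absurd h (he e h3), fun h => ?_⟩
      obtain rfl : ν = 0 := Multiset.eq_zero_of_forall_notMem fun a ha =>
        he a (Multiset.mem_cons_of_mem ha) (h a ha)
      have := hW.finrank_inf_perp a1
      rw [Submodule.finrank_eq_zero.1 (show finrank F (W ⊓ perp Q A : Submodule F V) = 0 by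
        simp at d; omega)]
      exact plus_bot
  have k1 := h1 e (Multiset.mem_add.2 (Or.inl (mem_jv e)))
  obtain ⟨g, hg1, g2, g3⟩ := exists_unip_block hQ h2 k1.1 k1.2 a2 a3 a4
  have d1 := hW.finrank_inf_perp a1
  obtain ⟨k, hk, k2, k3⟩ := ih ν.card (by
      have := Multiset.card_pos_iff_exists_mem.2 ⟨e, mem_jv e⟩
      rw [Multiset.card_add] at hn; omega) ν rfl
    (fun a ha => h1 a (Multiset.mem_add.2 (Or.inr ha))) (hg.sub (good_jv e)) _
    (hW.inf_perp a2 a1) (by rw [Multiset.sum_add] at d; omega) a5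
  have l := prod_left hQ inf_le_right hg1 hk
  have r := prod_right hQ inf_le_right hg1 hk
  have i1 := OW.inv hQ hg1
  have i2 := OW.inv hQ hk
  exact ⟨g * k, sup_inf_perp a2 a1 ▸ prod_mem hQ inf_le_right hg1 hk,
    prod_pow hQ a2 inf_le_right hg1 hk g2 k2, sup_inf_perp a2 a1 ▸ (g3.congr i1 l).sup
      (k3.congr i2 r) (disjoint_of_perp a2 inf_le_right) (i1.congr l) (i2.congr r)⟩

lemma nilp_of_pow {g : V ≃ₗ[F] V} (hg : g ^ p = 1) (v : V) : (Nn g ^ p) v = 0 := by
  nontriviality V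
  have : CharP (End F V) p := charP_of_injective_algebraMap (algebraMap F (End F V)).injective p
  rw [Nn, sub_pow_char_of_commute _ (Commute.one_right _), one_pow, LinearMap.sub_apply,
    ← toEnd_pow, hg]
  simp

/-- Jordan types of invariant non-degenerate subspaces -/
theorem JT.sub (hQ : Nd Q) (h2 : (2 : F) ≠ 0) {g : V ≃ₗ[F] V} (hO : g ∈ O Q) (hg : g ^ p = 1)
    {X W : Submodule F V} {μ : Multiset ℕ} (h : JT g X μ) (hX : NdOn Q X) (iX : Inv g X)
    (hW : NdOn Q W) (iW : Inv g W) (hle : W ≤ X) : ∃ ν ν', μ = ν + ν' ∧ Good ν ∧ Good ν' ∧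
      finrank F W = ν.sum ∧ JT g W ν ∧ ((∀ a ∈ ν, Even a) → Plus Q W) ∧
      ((∀ a ∈ ν', Even a) → Plus Q (X ⊓ perp Q W)) ∧ (1 ∈ ν → ∃ y ∈ W, g y = y ∧ Q y ≠ 0) := by
  obtain ⟨ν, a1, a2, a3, a4⟩ := exists_JT h2 hO (nilp_of_pow hg) _ W hW iW rfl
  have i1 := iX.inf (iW.perp hO)
  obtain ⟨ν', b1, b2, b3, -⟩ := exists_JT h2 hO (nilp_of_pow hg) _ _ (hX.inf_perp hW hle) i1 rfl
  exact ⟨ν, ν', h.unique (sup_inf_perp hW hle ▸ a1.sup b1 (disjoint_of_perp hW inf_le_right) iW i1),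
    a2, b2, a1.dim, a1, a3, b3, a4⟩

end Cfsg.Agent.H2.Oel
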