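import Cfsg.Agent.H2.Oel16

/-! Orthogonal groups, prime order elements, part 17: unipotent elements without fixed spaces. -/

set_option autoImplicit false
set_option linter.unusedSectionVars false

namespace Cfsg.Agent.H2.Oel

open Module Cfsg.Agent.Orth Cfsg.Agent.H8

def m3 (a b c : ℕ) : Multiset ℕ :=
  Multiset.replicate a 1 + Multiset.replicate b 2 + Multiset.replicate c 3

lemma m3_sum (a b c : ℕ) : (m3 a b c).sum = a + 2 * b + 3 * c := by
  simp [m3, mul_comm]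

lemma m3_count (a b c x : ℕ) : (m3 a b c).count x =
    (if 1 = x then a else 0) + (if 2 = x then b else 0) + (if 3 = x then c else 0) := by
  simp only [m3, Multiset.count_add, Multiset.count_replicate]

lemma mem_m3 {a b c x : ℕ} : x ∈ m3 a b c ↔ (x = 1 ∧ 0 < a) ∨ (x = 2 ∧ 0 < b) ∨ (x = 3 ∧ 0 < c) := by
  simp only [m3, Multiset.mem_add, Multiset.mem_replicate]
  omega

lemma good_m3 {a b c : ℕ} : Good (m3 a b c) ↔ Even b :=
  ⟨fun h => by simpa [m3_count] using h 2 (by simp), fun h e he => by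
    rw [Nat.even_iff] at *
    rw [m3_count]
    split_ifs <;> omega⟩

lemma even_m3 {a b c : ℕ} : (∀ x ∈ m3 a b c, Even x) ↔ a = 0 ∧ c = 0 :=
  ⟨fun h => by
    have h1 := h 1
    have h3 := h 3
    simp [mem_m3, Nat.even_iff] at h1 h3
    exact ⟨h1, h3⟩, fun h x hx => by
    rw [mem_m3] at hx
    rw [Nat.even_iff]
    omega⟩

lemma eq_m3 {a b c : ℕ} {ν : Multiset ℕ} (h : ν ≤ m3 a b c) :
    ν = m3 (ν.count 1) (ν.count 2) (ν.count 3) := Multiset.ext.2 fun x => by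
  have := Multiset.count_le_of_le x h
  rw [m3_count] at this ⊢
  split_ifs at this ⊢ <;> first | omega | (subst_vars; simp)

lemma m3_split {a b c : ℕ} {ν ν' : Multiset ℕ} (h : m3 a b c = ν + ν') :
    ∃ a' b' c' a'' b'' c'', ν = m3 a' b' c' ∧ ν' = m3 a'' b'' c'' ∧ a = a' + a'' ∧ b = b' + b'' ∧
      c = c' + c'' := by
  have e := fun x => congrArg (Multiset.count x) h
  simp only [m3_count, Multiset.count_add] at e
  exact ⟨_, _, _, _, _, _, eq_m3 (h ▸ Multiset.le_add_right _ _),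
    eq_m3 (h ▸ Multiset.le_add_left _ _), by simpa using e 1, by simpa using e 2, by simpa using e 3⟩

variable {F V : Type*} [Field F] [AddCommGroup V] [Module F V] {Q : QuadraticForm F V}
  [Finite F] [FiniteDimensional F V]

lemma JT.ne_one {g : V ≃ₗ[F] V} {W : Submodule F V} {μ : Multiset ℕ} (h : JT g W μ) {a : ℕ}
    (ha : a ∈ μ) (h1 : 1 < a) : g ≠ 1 := by
  rintro rfl
  have e := h.2 1
  rw [rk_of_fix (fun _ _ => rfl) 0] at e
  have := Multiset.single_le_sum (fun _ _ => Nat.zero_le _) _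
    (Multiset.mem_map_of_mem (· - 1) ha)
  omega

lemma jt_line {g : V ≃ₗ[F] V} {y : V} (h : g y = y) (h0 : y ≠ 0) : JT g (F ∙ y) {1} :=
  ⟨by simp, fun k => by
    cases k with
    | zero => simp [rk_zero, finrank_span_singleton h0]
    | succ k =>
      rw [rk_of_fix fun v hv => by
        obtain ⟨c, rfl⟩ := Submodule.mem_span_singleton.1 hv
        rw [map_smul, h]]
      simp⟩

lemma plus_sup_line (h2 : (2 : F) ≠ 0) {Z : Submodule F V} (hZ : NdOn Q Z)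
    (ho : Odd (finrank F Z)) {z v : V} (hz : z ∈ Z) (qz : Q z ≠ 0) (qv : Q v ≠ 0)
    (hv : v ∈ perp Q Z) :
    Plus Q (Z ⊔ (F ∙ v)) ↔ (Plus Q (Z ⊓ perp Q (F ∙ z)) ↔ IsSquare (-(Q z * Q v))) := by
  obtain ⟨s1, s2, s3⟩ := split_line h2 hZ hz qz
  have hb : B Q z v = 0 := hv z hz
  have hD := D_orth h2 qz qv hb
  have e : Z ⊔ (F ∙ v) = (Z ⊓ perp Q (F ∙ z)) ⊔ Submodule.span F {z, v} := by
    nth_rewrite 1 [← s3]
    rw [← span_sup_pair, sup_comm (F ∙ z), sup_assoc]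
  rw [e, plus_sup_iff s1 (H8.ndOn_pair hD)
    (span_pair_le (le_perp_comm inf_le_right (Submodule.mem_span_singleton_self z))
      (perp_anti inf_le_left hv)) (by rw [Nat.odd_iff] at ho; rw [Nat.even_iff]; omega)
    (by rw [finrank_pair hD]; simp), plus_pair_iff h2 qz qv hb]

variable (Q) in
/-- the class of an odd-dimensional space -/
def Cl (W : Submodule F V) (δ : F) : Prop := ∃ y ∈ W, Q y = δ ∧ Plus Q (W ⊓ perp Q (F ∙ y))

lemma Cl.iso (h2 : (2 : F) ≠ 0) {W W' : Submodule F V} (hW : NdOn Q W) (h : Iso Q W Q W') {δ : F}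
    (h0 : δ ≠ 0) (c : Cl Q W δ) : Cl Q W' δ := by
  obtain ⟨f, rfl, hq⟩ := h
  obtain ⟨y, hy, rfl, hp⟩ := c
  refine ⟨f y, ⟨y, hy, rfl⟩, hq y hy, ?_⟩
  have := iso_inf_perp ((Submodule.span_singleton_le_iff_mem _ _).2 hy) hq
  rw [Submodule.map_span, Set.image_singleton] at this
  exact this.plus (split_line h2 hW hy h0).1 hp

lemma Cl.unique (hQ : Nd Q) (h2 : (2 : F) ≠ 0) {W : Submodule F V} (hW : NdOn Q W)
    (ho : Odd (finrank F W)) (hd : finrank F W < finrank F V) {δ δ' : F} (h0 : δ ≠ 0)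
    (h0' : δ' ≠ 0) (c : Cl Q W δ) (c' : Cl Q W δ') : IsSquare (δ * δ') := by
  have d := hQ.ndOn_top.finrank_inf_perp (le_top (a := W))
  obtain ⟨v, hv, qv⟩ := NdOn.exists_nonsing' (hQ.ndOn_top.inf_perp hW le_top) (fun h => by
    rw [h] at d; simp at d; omega)
  obtain ⟨y, hy, rfl, hp⟩ := c
  obtain ⟨y', hy', rfl, hp'⟩ := c'
  have e := (plus_sup_line h2 hW ho hy h0 qv hv.2).symm.trans
    (plus_sup_line h2 hW ho hy' h0' qv hv.2)
  simp only [hp, hp', true_iff] at e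
  have := (isSquare_mul_iff (by simp [h0, qv]) (by simp [h0', qv])).2 e
  rw [show -(Q y * Q v) * -(Q y' * Q v) = (Q v * Q v) * (Q y * Q y') by ring,
    isSquare_mul_iff (mul_ne_zero qv qv) (mul_ne_zero h0 h0')] at this
  simpa using this

lemma sis_perp (hQ : Nd Q) {r m m' : ℕ} {W₀ : Submodule F V} (hm : m + m' = finrank F V)
    (L : AllR Q r (FixIn (SIS Q m W₀))) : AllR Q r (FixIn (SIS Q m' (⊤ ⊓ perp Q W₀))) :=
  fun g hO h1 h2 => by
    obtain ⟨W, ⟨a1, a2, a3⟩, a4⟩ := L g hO h1 h2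
    obtain ⟨k, hk, rfl⟩ := nd_trans hQ hQ.ndOn_top le_top le_top a2 a3
    have d := hQ.ndOn_top.finrank_inf_perp (le_top (a := W))
    have := iso_inf_perp (le_top (a := W)) (f := (k : V →ₗ[F] V)) fun w _ => hk.1 w
    rw [Submodule.map_top, LinearEquiv.range] at this
    exact ⟨⊤ ⊓ perp Q W, ⟨by simp only [finrank_top] at d; omega, hQ.ndOn_top.inf_perp a2 le_top,
      this⟩, (inv_top g).inf (a4.perp hO)⟩

variable {p : ℕ} [hp : Fact p.Prime] [CharP F p] (hQ : Nd Q) (h2 : (2 : F) ≠ 0)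
include hQ h2

omit hQ in
lemma three_le : 3 ≤ p := by
  have := (two_ne_iff (F := F) (p := p)).1 h2
  have := hp.out.two_le
  omega

lemma JT.one {g : V ≃ₗ[F] V} (hO : g ∈ O Q) (hg : g ^ p = 1) {X : Submodule F V}
    {μ : Multiset ℕ} (h : JT g X μ) (hX : NdOn Q X) (iX : Inv g X) {y : V} (hy : y ∈ X)
    (h1 : g y = y) (qy : Q y ≠ 0) :
    ∃ ν, μ = {1} + ν ∧ ((∀ a ∈ ν, Even a) → Plus Q (X ⊓ perp Q (F ∙ y))) := by
  obtain ⟨ν, ν', a1, -, -, -, a2, -, a3, -⟩ := h.sub hQ h2 hO hg hX iX (NdOn.span_singleton h2 qy)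
    (inv_of_le_Fx ((Submodule.span_singleton_le_iff_mem _ _).2 (mem_Fx.2 h1)))
    ((Submodule.span_singleton_le_iff_mem _ _).2 hy)
  exact ⟨ν', a2.unique (jt_line h1 (ne_zero_of_Q_ne qy)) ▸ a1, a3⟩

theorem allR_sub {S : Submodule F V → Prop} (hS : ∀ W, S W → NdOn Q W)
    (L : AllR Q p (FixIn S)) {μ : Multiset ℕ} (h1 : ∀ a ∈ μ, 0 < a ∧ a ≤ p) (hg : Good μ)
    (d : finrank F V = μ.sum) (hpl : (∀ a ∈ μ, Even a) → Plus Q ⊤) {a : ℕ} (ha : a ∈ μ)
    (h : 1 < a) : ∃ W ν ν', S W ∧ μ = ν + ν' ∧ Good ν ∧ finrank F W = ν.sum ∧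
      ((∀ a ∈ ν, Even a) → Plus Q W) ∧ ((∀ a ∈ ν', Even a) → Plus Q (⊤ ⊓ perp Q W)) := by
  obtain ⟨g, hO, g1, g2⟩ := exists_unip hQ h2 _ μ rfl h1 hg ⊤ hQ.ndOn_top (by simpa using d) hpl
  obtain ⟨W, s, i⟩ := L g hO.1 g1 (g2.ne_one ha h)
  obtain ⟨ν, ν', a1, a2, -, a3, -, a4, a5, -⟩ :=
    g2.sub hQ h2 hO.1 g1 hQ.ndOn_top (inv_top g) (hS W s) i le_top
  exact ⟨W, ν, ν', s, a1, a2, a3, a4, a5⟩

theorem allR_m3 {S : Submodule F V → Prop} (hS : ∀ W, S W → NdOn Q W)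
    (L : AllR Q p (FixIn S)) (a b c : ℕ) (hb : b % 2 = 0) (d : finrank F V = a + 2 * b + 3 * c)
    (hpl : a = 0 → c = 0 → Plus Q ⊤) (h : 0 < b) : ∃ W, S W ∧ ∃ a' ≤ a, ∃ c' ≤ c, ∃ b',
      finrank F W = a' + 4 * b' + 3 * c' ∧ (a' = 0 → c' = 0 → Plus Q W) ∧
      (a' = a → c' = c → Plus Q (⊤ ⊓ perp Q W)) := by
  have := three_le (p := p) h2
  obtain ⟨W, ν, ν', s, a1, a2, a3, a4, a5⟩ := allR_sub hQ h2 hS L (μ := m3 a b c)
    (fun x hx => by rw [mem_m3] at hx; omega) (good_m3.2 (Nat.even_iff.2 hb)) (by rw [m3_sum, d])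
    (fun h => hpl (even_m3.1 h).1 (even_m3.1 h).2) (a := 2) (by simp [mem_m3, h]) one_lt_two
  obtain ⟨a', b', c', a'', b'', c'', rfl, rfl, rfl, rfl, rfl⟩ := m3_split a1
  obtain ⟨j, rfl⟩ := good_m3.1 a2
  exact ⟨W, s, a', by omega, c', by omega, j, by rw [a3, m3_sum]; omega,
    fun h h' => a4 (even_m3.2 ⟨h, h'⟩), fun h h' => a5 (even_m3.2 ⟨by omega, by omega⟩)⟩

theorem odd5988 {d m : ℕ} (hn : finrank F V = 2 * d) (hd : 2 ≤ d) (hpl : Plus Q ⊤) (hm : Even m) :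
    ¬ AllR Q p (FixIn (SND Q m False)) := fun L => by
  rw [Nat.even_iff] at hm
  rcases Nat.mod_two_eq_zero_or_one d with h | h
  · obtain ⟨W, s, a, ha, c, hc, b, -, e, -⟩ := allR_m3 hQ h2 (fun W h => h.2.1) L 0 d 0 h
      (by omega) (fun _ _ => hpl) (by omega)
    exact s.2.2.1 (e (by omega) (by omega))
  · obtain ⟨W, ⟨s1, s2, s3⟩, a, ha, c, hc, b, e1, e2, e3⟩ := allR_m3 hQ h2 (fun W h => h.2.1) L
      2 (d - 1) 0 (by omega) (by omega) (fun _ _ => hpl) (by omega)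
    by_cases h0 : a = 0
    · exact s3.1 (e2 h0 (by omega))
    · exact s3.1 (((plus_inf_perp hQ.ndOn_top s2 le_top (by simp [hn])
        (by rw [s1, Nat.even_iff]; exact hm)).1 hpl).2 (e3 (by omega) (by omega)))

theorem odd_dim {d m : ℕ} (hn : finrank F V = 2 * d + 1) (hd : 2 ≤ d) (hm : Even m) {τ : Prop}
    (L : AllR Q p (FixIn (SND Q m τ))) : τ ∧ m % 4 = 0 := by
  rw [Nat.even_iff] at hm
  rcases Nat.mod_two_eq_zero_or_one d with h | h
  · obtain ⟨W, ⟨s1, s2, s3⟩, a, ha, c, hc, b, e1, e, -⟩ := allR_m3 hQ h2 (fun W h => h.2.1) L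
      1 d 0 h (by omega) (by omega) (by omega)
    exact ⟨s3.1 (e (by omega) (by omega)), by omega⟩
  · obtain ⟨W, ⟨s1, s2, s3⟩, a, ha, c, hc, b, e1, e, -⟩ := allR_m3 hQ h2 (fun W h => h.2.1) L
      0 (d - 1) 1 (by omega) (by omega) (by omega) (by omega)
    exact ⟨s3.1 (e (by omega) (by omega)), by omega⟩

theorem odd5994 {d m : ℕ} (hn : finrank F V = 2 * d) (hd : 3 ≤ d) (hm : Even m)
    (L : AllR Q p (FixIn (SND Q m False))) : 2 * d % 4 = m % 4 := by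
  rw [Nat.even_iff] at hm
  rcases Nat.mod_two_eq_zero_or_one d with h | h
  · obtain ⟨W, ⟨s1, s2, s3⟩, a, ha, c, hc, b, e1, e, -⟩ := allR_m3 hQ h2 (fun W h => h.2.1) L
      1 (d - 2) 1 (by omega) (by omega) (by omega) (by omega)
    interval_cases a <;> interval_cases c <;> omega
  · obtain ⟨W, ⟨s1, s2, s3⟩, a, ha, c, hc, b, e1, e, -⟩ := allR_m3 hQ h2 (fun W h => h.2.1) L
      2 (d - 1) 0 (by omega) (by omega) (by omega) (by omega)
    have : a ≠ 0 := fun h => s3.1 (e h (by omega))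
    omega

theorem part_sub {m : ℕ} (hm : m ≤ finrank F V) (he : Even m) {τ : Prop}
    (hτ : τ → Odd (finrank F V) ∨ Plus Q ⊤) (L : AllR Q p (FixIn (SND Q m τ)))
    (μ : Multiset ℕ) (h1 : ∀ a ∈ μ, 0 < a ∧ a ≤ p) (hg : Good μ) (d : μ.sum = finrank F V) :
    ∃ ν ≤ μ, ν.sum = m ∧ Good ν := by
  by_cases h : ∃ a ∈ μ, 1 < a
  swap
  · have e : μ = Multiset.replicate μ.card 1 := Multiset.eq_replicate_card.2 fun a ha => by
      have := h1 a ha
      have : ¬ 1 < a := fun h' => h ⟨a, ha, h'⟩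
      omega
    rw [e] at d ⊢
    simp only [Multiset.sum_replicate, smul_eq_mul, mul_one] at d
    refine ⟨Multiset.replicate m 1, (Multiset.replicate_le_replicate _).2 (by omega), by simp,
      fun a ha => ?_⟩
    rw [Multiset.count_replicate, if_neg (by rintro rfl; simp at ha)]
    simp
  obtain ⟨a, ha, h⟩ := h
  by_cases hpl : (∀ a ∈ μ, Even a) → Plus Q ⊤
  · obtain ⟨W, ν, ν', s, rfl, a2, a3, -⟩ := allR_sub hQ h2 (fun W h => h.2.1) L h1 hg d.symm hpl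
      ha h
    exact ⟨ν, Multiset.le_add_right _ _, by rw [← a3, s.1], a2⟩
  push Not at hpl
  obtain ⟨hev, hnp⟩ := hpl
  have hτ' : ¬ τ := fun t => (hτ t).elim
    (fun h => Nat.not_even_iff_odd.2 h (d ▸ even_sum hev)) hnp
  have ea := Nat.even_iff.1 (hev a ha)
  obtain ⟨μ₀, rfl⟩ := Multiset.le_iff_exists_add.1 (Multiset.le_count_iff_replicate_le.1
    (show 2 ≤ μ.count a by
      have := Multiset.count_pos.2 ha
      have := Nat.even_iff.1 (hg a (hev a ha))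
      omega))
  have hp2 := Nat.odd_iff.1 (hp.out.odd_of_ne_two (two_ne_iff.1 h2))
  have k1 := h1 a ha
  have g0 : Good (Multiset.replicate 2 a) := by simpa [jv, hev a ha] using good_jv a
  have g1 : ∀ e, Even e → ({a - 1, a + 1} : Multiset ℕ).count e = 0 := fun e h =>
    Multiset.count_eq_zero.2 (by rw [Nat.even_iff] at h; simp; omega)
  simp only [Multiset.sum_add, Multiset.sum_replicate, smul_eq_mul] at d
  obtain ⟨W, ν, ν', s, a1, a2, a3, a4, -⟩ := allR_sub hQ h2 (fun W h => h.2.1) L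
    (μ := {a - 1, a + 1} + μ₀) (fun x hx => (Multiset.mem_add.1 hx).elim
      (fun h => by simp at h; omega) fun h => h1 x (Multiset.mem_add.2 (Or.inr h)))
    (Good.add (fun e h => by rw [g1 e h]; simp) (hg.sub g0)) (by simp; omega)
    (fun h => by have := Nat.even_iff.1 (h (a + 1) (by simp)); omega) (a := a + 1) (by simp)
    (by omega)
  have f0 : μ₀.filter Even = μ₀ :=
    Multiset.filter_eq_self.2 fun x hx => hev x (Multiset.mem_add.2 (Or.inr hx))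
  have f1 : μ₀.filter (¬ Even ·) = 0 :=
    Multiset.filter_eq_nil.2 fun x hx => not_not.2 (hev x (Multiset.mem_add.2 (Or.inr hx)))
  have f2 : ∀ x ∈ ({a - 1, a + 1} : Multiset ℕ), ¬ Even x := fun x hx h =>
    Multiset.count_eq_zero.1 (g1 x h) hx
  have l : ν ≤ {a - 1, a + 1} + μ₀ := a1 ▸ Multiset.le_add_right _ _
  have l0 := Multiset.filter_le_filter Even l
  have l1 := Multiset.filter_le_filter (¬ Even ·) l
  rw [Multiset.filter_add, f0, Multiset.filter_eq_nil.2 f2, zero_add] at l0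
  rw [Multiset.filter_add, f1, Multiset.filter_eq_self.2 f2, add_zero] at l1
  have e := congrArg Multiset.sum (Multiset.filter_add_not Even ν)
  rw [Multiset.sum_add, ← a3, s.1] at e
  have e0 := Nat.even_iff.1 (even_sum (μ := ν.filter Even) fun x hx => (Multiset.mem_filter.1 hx).2)
  have e1 : ν.filter (¬ Even ·) = {a - 1, a + 1} := by
    refine Multiset.eq_of_le_of_card_le l1 ?_
    by_contra hc
    have hc : (ν.filter (¬ Even ·)).card = 0 ∨ (ν.filter (¬ Even ·)).card = 1 := by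
      rw [show ({a - 1, a + 1} : Multiset ℕ).card = 2 from rfl] at hc; omega
    rcases hc with hc | hc
    · exact hτ' (s.2.2.1 (a4 fun x hx => not_not.1
        (Multiset.filter_eq_nil.1 (Multiset.card_eq_zero.1 hc) x hx)))
    · obtain ⟨x, hx⟩ := Multiset.card_eq_one.1 hc
      have := (Multiset.mem_filter.1 (hx ▸ Multiset.mem_singleton_self x)).2
      rw [hx, Multiset.sum_singleton] at e
      rw [Nat.even_iff] at this he
      omega
  rw [e1] at e
  refine ⟨Multiset.replicate 2 a + ν.filter Even, add_le_add_right l0 _, by simp at e ⊢; omega,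
    g0.add fun x hx => ?_⟩
  rw [Multiset.count_filter_of_pos hx]
  exact a2 x hx

theorem odd_is_one {d m : ℕ} (hn : finrank F V = 2 * d) (hd : 3 ≤ d) (he : d % 2 = 0)
    (hm : m % 4 = 1) (hmn : m < 2 * d) {W₀ : Submodule F V} (h0 : NdOn Q W₀)
    (d0 : finrank F W₀ = m) : ¬ AllR Q p (FixIn (SIS Q m W₀)) := fun L => by
  have := three_le (p := p) h2
  obtain ⟨δ, hδ, hδ'⟩ : ∃ δ : F, δ ≠ 0 ∧ ∀ c ≠ 0, ¬ Cl Q W₀ (c * c * δ) := by
    by_cases h : ∃ δ ≠ 0, Cl Q W₀ δ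
    · obtain ⟨δ, d1, d2⟩ := h
      obtain ⟨ε, e1, e2⟩ := exists_nonsquare h2
      refine ⟨ε * δ, mul_ne_zero e1 d1, fun c hc h => e2 ?_⟩
      have := d2.unique hQ h2 h0 (by rw [Nat.odd_iff]; omega) (by omega) d1
        (by simp [hc, e1, d1]) h
      rw [show δ * (c * c * (ε * δ)) = (c * δ) * (c * δ) * ε by ring,
        isSquare_mul_iff (by simp [hc, d1]) e1] at this
      simpa using this
    · exact ⟨1, one_ne_zero, fun c hc h' => h ⟨_, by simp [hc], h'⟩⟩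
  obtain ⟨x, -, rfl⟩ := hQ.ndOn_top.exists_Q_eq le_rfl (by simp; omega) δ
  obtain ⟨s1, s2, s3⟩ := split_line h2 hQ.ndOn_top (v := x) trivial hδ
  rw [finrank_top] at s2
  obtain ⟨g, hO, g1, g2⟩ := exists_unip (p := p) hQ h2 _ (m3 0 (d - 2) 1) rfl
    (fun x hx => by rw [mem_m3] at hx; omega) (good_m3.2 (by rw [Nat.even_iff]; omega)) _ s1
    (by rw [m3_sum]; omega) (fun h => by simpa using (even_m3.1 h).2)
  have gx : g x = x := hO.2 x (le_perp_comm inf_le_right (Submodule.mem_span_singleton_self x))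
  have iY := OW.inv hQ hO
  have g3 := (jt_line gx (ne_zero_of_Q_ne hδ)).sup g2
    (disjoint_of_perp (NdOn.span_singleton h2 hδ) inf_le_right)
    (inv_of_le_Fx ((Submodule.span_singleton_le_iff_mem _ _).2 (mem_Fx.2 gx))) iY
  rw [s3, show ({1} : Multiset ℕ) + m3 0 (d - 2) 1 = m3 1 (d - 2) 1 by simp [m3, add_assoc]] at g3
  obtain ⟨W, ⟨w1, w2, w3⟩, iW⟩ := L g hO.1 g1 (g2.ne_one (a := 3) (by simp [mem_m3]) (by omega))
  obtain ⟨ν, ν', a1, a2, -, a3, a4, -, -, a5⟩ :=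
    g3.sub hQ h2 hO.1 g1 hQ.ndOn_top (inv_top g) w2 iW le_top
  obtain ⟨a', b', c', a'', b'', c'', rfl, rfl, k1, k2, k3⟩ := m3_split a1
  have := Nat.even_iff.1 (good_m3.1 a2)
  rw [m3_sum] at a3
  obtain ⟨y, hy, gy, qy⟩ := a5 (by rw [mem_m3]; omega)
  obtain ⟨ν, b1, b2⟩ := a4.one hQ h2 hO.1 g1 w2 iW hy gy qy
  obtain ⟨a1, b1, c1, a2, b2, c2, j1, rfl, j2, j3, j4⟩ := m3_split b1
  have j5 := congrArg (Multiset.count 1) j1
  simp only [m3_count, Multiset.count_singleton_self] at j5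
  have cl : Cl Q W₀ (Q y) := Cl.iso h2 w2 w3 qy ⟨y, hy, rfl, b2 (even_m3.2 (by simp at j5; omega))⟩
  obtain ⟨u, hu, z, hz, rfl⟩ := Submodule.mem_sup.1 (s3 ▸ Submodule.mem_top (x := y))
  obtain ⟨c, rfl⟩ := Submodule.mem_span_singleton.1 hu
  have gz : g z = z := by simpa [gx] using gy
  have qz : Q z = 0 := by
    by_contra h
    obtain ⟨ν, b1, -⟩ := g2.one hQ h2 hO.1 g1 s1 iY hz gz h
    have : 1 ∈ m3 0 (d - 2) 1 := by simp [b1]
    simp [mem_m3] at this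
  have e : Q (c • x + z) = c * c * Q x := by
    simp [Q_add, Q_smul, qz, mem_perp_span_singleton.1 hz.2]
  rw [e] at cl qy
  exact hδ' c (by rintro rfl; simp at qy) cl

theorem odd_is {d m : ℕ} (hn : finrank F V = 2 * d) (hd : 4 ≤ d) (hm : Odd m) (hmn : m < 2 * d)
    {W₀ : Submodule F V} (h0 : NdOn Q W₀) (d0 : finrank F W₀ = m) :
    ¬ AllR Q p (FixIn (SIS Q m W₀)) := fun L => by
  rw [Nat.odd_iff] at hm
  rcases Nat.mod_two_eq_zero_or_one d with h | h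
  · by_cases h1 : m % 4 = 1
    · exact odd_is_one hQ h2 hn (by omega) h h1 hmn h0 d0 L
    · have e := hQ.ndOn_top.finrank_inf_perp (le_top (a := W₀))
      rw [finrank_top] at e
      exact odd_is_one hQ h2 hn (by omega) h (m := 2 * d - m) (by omega) (by omega)
        (hQ.ndOn_top.inf_perp h0 le_top) (by omega) (sis_perp hQ (by omega) L)
  · obtain ⟨W, ⟨s1, -⟩, a, ha, c, hc, b, e1, -⟩ := allR_m3 hQ h2 (fun W h => h.2.1) L
      2 (d - 1) 0 (by omega) (by omega) (by omega) (by omega)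
    obtain ⟨W', ⟨s2, -⟩, a', ha', c', hc', b', e2, -⟩ := allR_m3 hQ h2 (fun W h => h.2.1) L
      0 (d - 3) 2 (by omega) (by omega) (by omega) (by omega)
    omega

end Cfsg.Agent.H2.Oel
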