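import Cfsg.Agent.H2.Oel17

/-! Orthogonal groups, prime order elements, part 18: self-adjoint square roots of `δ`. -/

set_option autoImplicit false
set_option linter.unusedSectionVars false

namespace Cfsg.Agent.H2.Oel

open Module Cfsg.Agent.Orth Cfsg.Agent.H8 Polynomial

lemma exists_binary {K : Type*} [Field K] [Finite K] (h2 : (2 : K) ≠ 0) {a b : K} (ha : a ≠ 0)
    (hb : b ≠ 0) (c : K) : ∃ s t : K, s * s * a + t * t * b = c := by
  have := Fintype.ofFinite K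
  obtain ⟨s, t, h⟩ := FiniteField.exists_root_sum_quadratic
    (f := C a * X ^ 2) (g := C b * X ^ 2 + C 0 * X + C (-c)) (degree_C_mul_X_pow 2 ha)
    (degree_quadratic hb) ((odd_iff_two_ne rfl).2 h2)
  exact ⟨s, t, by simp at h; linear_combination h⟩

variable {F V : Type*} [Field F] [AddCommGroup V] [Module F V] {Q : QuadraticForm F V}
  [Finite F] [FiniteDimensional F V]

lemma exists_pair_map {V' : Type*} [AddCommGroup V'] [Module F V'] {e f : V}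
    (hD : 4 * Q e * Q f - B Q e f ^ 2 ≠ 0) (e' f' : V') : ∃ k : V →ₗ[F] V', k e = e' ∧ k f = f' := by
  set D := 4 * Q e * Q f - B Q e f ^ 2 with hDdef
  let α : V →ₗ[F] F := D⁻¹ • ((2 * Q f) • B Q e - B Q e f • B Q f)
  let β : V →ₗ[F] F := D⁻¹ • ((2 * Q e) • B Q f - B Q e f • B Q e)
  have a1 : α e = 1 := by
    simp only [α, LinearMap.smul_apply, LinearMap.sub_apply, smul_eq_mul, B_self, B_comm Q f e]
    field_simp
    ring
  have a2 : β e = 0 := by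
    simp only [β, LinearMap.smul_apply, LinearMap.sub_apply, smul_eq_mul, B_self, B_comm Q f e]
    ring
  have a3 : α f = 0 := by
    simp only [α, LinearMap.smul_apply, LinearMap.sub_apply, smul_eq_mul, B_self]
    ring
  have a4 : β f = 1 := by
    simp only [β, LinearMap.smul_apply, LinearMap.sub_apply, smul_eq_mul, B_self]
    field_simp
    ring
  exact ⟨α.smulRight e' + β.smulRight f', by simp [a1, a2], by simp [a3, a4]⟩

variable (Q) in
/-- `κ` is a self-adjoint square root of `δ` on `W` -/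
structure Kap (δ : F) (W : Submodule F V) (κ : End F V) : Prop where
  mem : ∀ v ∈ W, κ v ∈ W
  adj : ∀ u ∈ W, ∀ v ∈ W, B Q (κ u) v = B Q u (κ v)
  sq : ∀ v ∈ W, κ (κ v) = δ • v

variable {δ : F} {W : Submodule F V} {κ : End F V}

lemma Kap.mono (h : Kap Q δ W κ) {A : Submodule F V} (hA : A ≤ W) (i : ∀ v ∈ A, κ v ∈ A) :
    Kap Q δ A κ := ⟨i, fun u hu v hv => h.adj u (hA hu) v (hA hv), fun v hv => h.sq v (hA hv)⟩

lemma Kap.prp (h : Kap Q δ W κ) {A : Submodule F V} (hA : A ≤ W) (i : ∀ v ∈ A, κ v ∈ A) :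
    Kap Q δ (W ⊓ perp Q A) κ := h.mono inf_le_left fun v hv => ⟨h.mem v hv.1, fun a ha => by
      rw [← h.adj a (hA ha) v hv.1]; exact hv.2 _ (i a ha)⟩

lemma Kap.glue {A C : Submodule F V} (hA : NdOn Q A) (hC : C ≤ perp Q A) {κ₁ κ₂ : End F V}
    (h1 : Kap Q δ A κ₁) (h2 : Kap Q δ C κ₂) :
    ∃ κ, Kap Q δ (A ⊔ C) κ ∧ (∀ a ∈ A, κ a = κ₁ a) ∧ ∀ c ∈ C, κ c = κ₂ c := by
  obtain ⟨κ, e1, e2⟩ := exists_lin hA κ₁ κ₂
  have e3 : ∀ c ∈ C, κ c = κ₂ c := fun c hc => e2 c (hC hc)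
  have b : ∀ a ∈ A, ∀ c ∈ C, B Q a c = 0 := fun a ha c hc => hC hc a ha
  have b' : ∀ c ∈ C, ∀ a ∈ A, B Q c a = 0 := fun c hc a ha => by rw [B_comm, b a ha c hc]
  refine ⟨κ, ⟨fun v hv => ?_, fun u hu v hv => ?_, fun v hv => ?_⟩, e1, e3⟩
  · obtain ⟨a, ha, c, hc, rfl⟩ := Submodule.mem_sup.1 hv
    rw [map_add, e1 a ha, e3 c hc]
    exact Submodule.add_mem_sup (h1.mem a ha) (h2.mem c hc)
  · obtain ⟨a, ha, c, hc, rfl⟩ := Submodule.mem_sup.1 hu
    obtain ⟨a', ha', c', hc', rfl⟩ := Submodule.mem_sup.1 hv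
    simp only [map_add, LinearMap.add_apply, e1 _ ha, e1 _ ha', e3 _ hc, e3 _ hc', h1.adj _ ha _ ha',
      h2.adj _ hc _ hc', b _ (h1.mem _ ha) _ hc', b' _ (h2.mem _ hc) _ ha', b _ ha _ (h2.mem _ hc'),
      b' _ hc _ (h1.mem _ ha')]
  · obtain ⟨a, ha, c, hc, rfl⟩ := Submodule.mem_sup.1 hv
    rw [map_add, e1 a ha, e3 c hc, map_add, e1 _ (h1.mem a ha), e3 _ (h2.mem c hc), h1.sq a ha,
      h2.sq c hc, smul_add]

/-- conjugate of an endomorphism -/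
def cj (g : V ≃ₗ[F] V) (κ : End F V) : End F V :=
  (g : V →ₗ[F] V) ∘ₗ κ ∘ₗ ((g⁻¹ : V ≃ₗ[F] V) : V →ₗ[F] V)

lemma cj_apply (g : V ≃ₗ[F] V) (κ : End F V) (v : V) : cj g κ v = g (κ (g⁻¹ v)) := rfl

lemma Kap.cj (h : Kap Q δ ⊤ κ) {g : V ≃ₗ[F] V} (hg : g ∈ O Q) : Kap Q δ ⊤ (cj g κ) :=
  ⟨fun _ _ => trivial, fun u _ v _ => by
    rw [cj_apply, cj_apply, O_B_inv hg, h.adj _ trivial _ trivial, ← O_B hg, apply_inv_apply],
    fun v _ => by rw [cj_apply, cj_apply, inv_apply_apply, h.sq _ trivial, map_smul, apply_inv_apply]⟩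

lemma Kap.pl_mem (h : Kap Q δ W κ) {v : V} (hv : v ∈ W) :
    ∀ x ∈ Submodule.span F {v, κ v}, κ x ∈ Submodule.span F {v, κ v} := fun x hx => by
  obtain ⟨a, b, rfl⟩ := mem_span_pair'.1 hx
  exact mem_span_pair'.2 ⟨b * δ, a, by rw [map_add, map_smul, map_smul, h.sq v hv, smul_smul, add_comm]⟩

variable (h2 : (2 : F) ≠ 0)
include h2

lemma Kap.Qκ (h : Kap Q δ W κ) {v : V} (hv : v ∈ W) : Q (κ v) = δ * Q v := by
  have := h.adj v hv _ (h.mem v hv)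
  rw [h.sq v hv, map_smul, B_self, B_self, smul_eq_mul] at this
  exact mul_left_cancel₀ h2 (by linear_combination this)

lemma exists_kap_pair (hδ : δ ≠ 0) {v w : V} (qv : Q v ≠ 0) (qw : Q w ≠ 0) (b : B Q v w = 0) :
    ∃ (κ : End F V) (s t : F), Kap Q δ (Submodule.span F {v, w}) κ ∧ κ v = s • v + (t * Q v) • w ∧
      κ w = (t * Q w) • v - s • w := by
  obtain ⟨s, t, h⟩ := exists_binary h2 one_ne_zero (mul_ne_zero qv qw) δ
  obtain ⟨κ, k1, k2⟩ := exists_pair_map (D_orth h2 qv qw b) (s • v + (t * Q v) • w)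
    ((t * Q w) • v - s • w)
  refine ⟨κ, s, t, ⟨fun x hx => ?_, fun x hx y hy => ?_, fun x hx => ?_⟩, k1, k2⟩
  · obtain ⟨a, c, rfl⟩ := mem_span_pair'.1 hx
    exact mem_span_pair'.2 ⟨a * s + c * (t * Q w), a * (t * Q v) - c * s, by
      rw [map_add, map_smul, map_smul, k1, k2]; module⟩
  · obtain ⟨a, c, rfl⟩ := mem_span_pair'.1 hx
    obtain ⟨a', c', rfl⟩ := mem_span_pair'.1 hy
    simp only [map_add, map_smul, map_sub, k1, k2, LinearMap.add_apply, LinearMap.smul_apply,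
      LinearMap.sub_apply, smul_eq_mul, B_self, b, B_comm Q w v]
    ring
  · obtain ⟨a, c, rfl⟩ := mem_span_pair'.1 hx
    simp only [map_add, map_smul, map_sub, k1, k2, ← h]
    module

lemma exists_kap (hδ : δ ≠ 0) (j : ℕ) : ∀ W : Submodule F V, NdOn Q W → finrank F W = 2 * j →
    ∃ κ, Kap Q δ W κ := by
  induction j with
  | zero =>
    intro W _ d
    obtain rfl : W = ⊥ := Submodule.finrank_eq_zero.1 d
    exact ⟨0, by simp, by simp, by simp⟩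
  | succ j ih =>
    intro W hW d
    obtain ⟨v, hv, qv⟩ := NdOn.exists_nonsing' hW (by rintro rfl; simp at d)
    obtain ⟨s1, s2, -⟩ := split_line h2 hW hv qv
    obtain ⟨w, hw, qw⟩ := NdOn.exists_nonsing' s1 (fun h => by rw [h] at s2; simp at s2; omega)
    have b := mem_perp_span_singleton.1 hw.2
    have hD := D_orth h2 qv qw b
    obtain ⟨t1, t2, t3⟩ := split_pair hW hv hw.1 hD
    obtain ⟨κ₁, -, -, k1, -⟩ := exists_kap_pair h2 hδ qv qw b
    obtain ⟨κ₂, k2⟩ := ih _ t1 (by omega)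
    obtain ⟨κ, k, -⟩ := Kap.glue (H8.ndOn_pair hD) inf_le_right k1 k2
    exact ⟨κ, t3 ▸ k⟩

lemma exists_kap_anti (hδ : δ ≠ 0) {g : V ≃ₗ[F] V} (hg : g ∈ O Q) (hn : ∀ v, g (g v) = -v)
    (n : ℕ) : ∀ W : Submodule F V, NdOn Q W → Inv g W → finrank F W = n →
    ∃ κ, Kap Q δ W κ ∧ ∀ v ∈ W, g (κ v) = -κ (g v) := by
  induction n using Nat.strong_induction_on with
  | _ n ih =>
  intro W hW iW d
  by_cases h0 : W = ⊥
  · subst h0
    exact ⟨0, ⟨by simp, by simp, by simp⟩, by simp⟩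
  obtain ⟨v, hv, qv⟩ := NdOn.exists_nonsing' hW h0
  have e : Q (g v) = Q v := hg v
  have b := J_perp h2 hg (hn v)
  have hD := D_orth h2 qv (e ▸ qv) b
  obtain ⟨t1, t2, t3⟩ := split_pair hW hv (iW v hv) hD
  have i1 := J_inv (hn v)
  have i2 := iW.inf (i1.perp hg)
  obtain ⟨κ₁, s, t, k1, k3, k4⟩ := exists_kap_pair h2 hδ qv (e ▸ qv) b
  obtain ⟨κ₂, k2, k5⟩ := ih _ (by omega) _ t1 i2 rfl
  obtain ⟨κ, k, e1, e2⟩ := Kap.glue (H8.ndOn_pair hD) inf_le_right k1 k2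
  refine ⟨κ, t3 ▸ k, fun x hx => ?_⟩
  obtain ⟨a, ha, c, hc, rfl⟩ := Submodule.mem_sup.1 (t3.symm ▸ hx :)
  rw [map_add, map_add g a, map_add, map_add, e1 a ha, e2 c hc, e1 _ (i1 a ha), e2 _ (i2 c hc),
    k5 c hc, neg_add]
  congr 1
  obtain ⟨x, y, rfl⟩ := mem_span_pair'.1 ha
  simp only [map_add, map_smul, map_sub, map_neg, k3, k4, hn, e]
  module

/-- the quadratic extension -/
abbrev KK (δ : F) := QuadraticAlgebra F δ 0

omit h2 in
instance : Finite (KK δ) := Module.finite_of_finite F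

variable (Q) in
/-- value of the form over the extension field -/
noncomputable def val (δ : F) (κ : End F V) (v : V) : KK δ := ⟨2 * δ * Q v, B Q v (κ v)⟩

/-- action of the extension field -/
def kact (κ : End F V) (x : KK δ) (v : V) : V := x.re • v + x.im • κ v

lemma Kap.val_act (h : Kap Q δ W κ) {v : V} (hv : v ∈ W) (x : KK δ) :
    val Q δ κ (kact κ x v) = x * x * val Q δ κ v := by
  have q := h.Qκ h2 hv
  ext
  · simp [val, kact, Q_pair, q]; ring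
  · simp [val, kact, h.sq v hv, B_self, q, B_comm Q (κ v) v]; ring

omit h2 in
lemma Kap.act_mem (h : Kap Q δ W κ) {v : V} (hv : v ∈ W) (x : KK δ) : kact κ x v ∈ W :=
  add_mem (W.smul_mem _ hv) (W.smul_mem _ (h.mem v hv))

omit h2 in
lemma Kap.val_add (h : Kap Q δ W κ) {u w : V} (hu : u ∈ W) (hw : w ∈ W) (b1 : B Q u w = 0)
    (b2 : B Q u (κ w) = 0) : val Q δ κ (u + w) = val Q δ κ u + val Q δ κ w := by
  ext
  · simp [val, Q_add, b1]; ring
  · simp [val, b2, B_comm Q w (κ u), h.adj u hu w hw]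

variable [hδ : Fact (∀ r : F, r ^ 2 ≠ δ + 0 * r)]

omit h2 in
lemma del_ne : δ ≠ 0 := fun h => hδ.out 0 (by simp [h])

omit h2 in
lemma del_nsq : ¬ IsSquare δ := fun ⟨r, h⟩ => hδ.out r (by simp [h, sq])

lemma twoK : (2 : KK δ) ≠ 0 := fun h => h2 (congrArg QuadraticAlgebra.re h)

lemma val_ne {v : V} (h : Q v ≠ 0) : val Q δ κ v ≠ 0 := fun e => by
  simpa [val, h, h2, del_ne] using congrArg QuadraticAlgebra.re e

lemma Kap.D (h : Kap Q δ W κ) {v : V} (hv : v ∈ W) (h0 : val Q δ κ v ≠ 0) :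
    4 * Q v * Q (κ v) - B Q v (κ v) ^ 2 ≠ 0 := fun e => h0 (by
  rw [h.Qκ h2 hv] at e
  rw [← QuadraticAlgebra.norm_eq_zero_iff_eq_zero, QuadraticAlgebra.norm_def]
  simp only [val]
  linear_combination δ * e)

theorem Kap.univ (h : Kap Q δ W κ) (hW : NdOn Q W) (d : 3 ≤ finrank F W) (γ : KK δ) :
    ∃ v ∈ W, val Q δ κ v = γ := by
  obtain ⟨u, hu, qu⟩ := NdOn.exists_nonsing' hW (by rintro rfl; simp at d)
  have hD := h.D h2 hu (val_ne h2 qu)
  obtain ⟨t1, t2, -⟩ := split_pair hW hu (h.mem u hu) hD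
  obtain ⟨w, hw, qw⟩ := NdOn.exists_nonsing' t1 (fun h => by rw [h] at t2; simp at t2; omega)
  obtain ⟨s, t, e⟩ := exists_binary (twoK h2) (val_ne (κ := κ) h2 qu) (val_ne (κ := κ) h2 qw) γ
  have i1 := h.pl_mem hu
  have k1 := h.mono (span_pair_le hu (h.mem u hu)) i1
  have k2 := h.prp (span_pair_le hu (h.mem u hu)) i1
  have m1 := k1.act_mem (left_mem_pair _ _) s
  have m2 := k2.act_mem hw t
  exact ⟨_, add_mem (h.act_mem hu s) m2.1, by
    rw [h.val_add (h.act_mem hu s) m2.1 (m2.2 _ m1) ((k2.mem _ m2).2 _ m1), h.val_act h2 hu,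
      h.val_act h2 hw.1, e]⟩

omit h2 in
lemma isSquare_mk (c : F) : IsSquare (⟨c, 0⟩ : KK δ) := by
  by_cases h : IsSquare c
  · obtain ⟨s, rfl⟩ := h
    exact ⟨⟨s, 0⟩, by ext <;> simp⟩
  · obtain ⟨s, hs⟩ := isSquare_mul_of_not' h (del_nsq (δ := δ))
    have := del_ne (δ := δ)
    exact ⟨⟨0, s / δ⟩, by
      ext
      · simp; field_simp; linear_combination hs
      · simp⟩

lemma Kap.plus_pl (h : Kap Q δ W κ) {v : V} (hv : v ∈ W) (h0 : val Q δ κ v ≠ 0) :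
    Plus Q (Submodule.span F {v, κ v}) ↔ IsSquare (val Q δ κ v * ⟨0, 1⟩) := by
  have hD := h.D h2 hv h0
  have hw : (⟨0, 1⟩ : KK δ) ≠ 0 := fun e => by simpa using congrArg QuadraticAlgebra.im e
  constructor
  · intro hp
    obtain ⟨e, he, h1, qe⟩ := hp.exists_sing (fun e => by
      have := finrank_pair hD; rw [e] at this; simp at this)
    obtain ⟨a, b, rfl⟩ := mem_span_pair'.1 he
    have x0 : (⟨a, b⟩ : KK δ) ≠ 0 := fun e => h1 (by
      obtain ⟨rfl, rfl⟩ : a = 0 ∧ b = 0 :=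
        ⟨congrArg QuadraticAlgebra.re e, congrArg QuadraticAlgebra.im e⟩
      simp)
    have e1 := h.val_act h2 hv ⟨a, b⟩
    have e2 : val Q δ κ (kact κ (⟨a, b⟩ : KK δ) v) * ⟨0, 1⟩ =
        ⟨δ * (val Q δ κ (kact κ (⟨a, b⟩ : KK δ) v)).im, 0⟩ := by
      ext
      · simp
      · simp [val, kact, qe]
    have := isSquare_mk (δ := δ) (δ * (val Q δ κ (kact κ (⟨a, b⟩ : KK δ) v)).im)
    rw [← e2, e1, mul_assoc, isSquare_mul_iff (mul_ne_zero x0 x0) (mul_ne_zero h0 hw)] at this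
    exact this.1 ⟨_, rfl⟩
  · rintro ⟨y, hy⟩
    have y0 : y ≠ 0 := by rintro rfl; simp [h0, hw] at hy
    have e1 := h.val_act h2 hv (⟨0, 1⟩ / y)
    rw [show (⟨0, 1⟩ / y * (⟨0, 1⟩ / y) * val Q δ κ v : KK δ) = ⟨0, 1⟩ by
      field_simp; linear_combination hy] at e1
    refine H8.plus_of_sing (finrank_pair hD) (s := kact κ (⟨0, 1⟩ / y) v) (mem_span_pair'.2 ⟨_, _, rfl⟩)
      (fun e => hw (by rw [← e1, e]; ext <;> simp [val])) ?_
    simpa [val, h2, del_ne] using congrArg QuadraticAlgebra.re e1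

lemma Kap.matching {W' : Submodule F V} {κ' : End F V} (h : Kap Q δ W κ) (h' : Kap Q δ W' κ')
    (hW : NdOn Q W) (hW' : NdOn Q W') (d : finrank F W = finrank F W') (h0 : W ≠ ⊥)
    (hp : Plus Q W ↔ Plus Q W') :
    ∃ v ∈ W, ∃ v' ∈ W', val Q δ κ v ≠ 0 ∧ val Q δ κ' v' = val Q δ κ v := by
  by_cases h3 : 3 ≤ finrank F W
  · obtain ⟨v, hv, e⟩ := h.univ h2 hW h3 1
    obtain ⟨v', hv', e'⟩ := h'.univ h2 hW' (d ▸ h3) 1
    exact ⟨v, hv, v', hv', by simp [e], by rw [e, e']⟩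
  obtain ⟨v, hv, qv⟩ := NdOn.exists_nonsing' hW h0
  obtain ⟨v', hv', qv'⟩ := NdOn.exists_nonsing' hW' (by
    rintro rfl; exact h0 (Submodule.finrank_eq_zero.1 (by simpa using d)))
  have n1 := val_ne (κ := κ) (δ := δ) h2 qv
  have n2 := val_ne (κ := κ') (δ := δ) h2 qv'
  have d1 := (split_pair hW hv (h.mem v hv) (h.D h2 hv n1)).2.1
  rw [eq_span_pair (by omega) hv (h.mem v hv) (h.D h2 hv n1), h.plus_pl h2 hv n1,
    eq_span_pair (W := W') (by omega) hv' (h'.mem v' hv') (h'.D h2 hv' n2), h'.plus_pl h2 hv' n2] at hp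
  have hw : (⟨0, 1⟩ : KK δ) ≠ 0 := fun e => by simpa using congrArg QuadraticAlgebra.im e
  obtain ⟨z, hz⟩ := (isSquare_mul_iff (mul_ne_zero n1 hw) (mul_ne_zero n2 hw)).2 hp
  refine ⟨v, hv, _, h'.act_mem hv' (z / (val Q δ κ' v' * ⟨0, 1⟩)), n1, ?_⟩
  rw [h'.val_act h2 hv', div_mul_div_comm, ← hz]
  field_simp

theorem Kap.iso {κ' : End F V} (j : ℕ) : ∀ W W' : Submodule F V, Kap Q δ W κ → Kap Q δ W' κ' →
    NdOn Q W → NdOn Q W' → finrank F W = 2 * j → finrank F W' = 2 * j → (Plus Q W ↔ Plus Q W') →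
    ∃ f : V →ₗ[F] V, ∀ v ∈ W, f v ∈ W' ∧ Q (f v) = Q v ∧ f (κ v) = κ' (f v) := by
  induction j with
  | zero =>
    intro W W' _ _ _ _ d _ _
    obtain rfl : W = ⊥ := Submodule.finrank_eq_zero.1 d
    exact ⟨0, by simp⟩
  | succ j ih =>
    intro W W' h h' hW hW' d d' hp
    obtain ⟨v, hv, v', hv', n, e⟩ := h.matching h2 h' hW hW' (by omega) (by rintro rfl; simp at d) hp
    have hD := h.D h2 hv n
    have hD' := h'.D h2 hv' (e ▸ n)
    obtain ⟨t1, t2, t3⟩ := split_pair hW hv (h.mem v hv) hD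
    obtain ⟨t1', t2', -⟩ := split_pair hW' hv' (h'.mem v' hv') hD'
    have l := span_pair_le hv (h.mem v hv)
    have l' := span_pair_le hv' (h'.mem v' hv')
    have p := plus_inf_perp hW (H8.ndOn_pair hD) l ⟨j + 1, by omega⟩ (by simp [finrank_pair hD])
    have p' := plus_inf_perp hW' (H8.ndOn_pair hD') l' ⟨j + 1, by omega⟩ (by simp [finrank_pair hD'])
    rw [h.plus_pl h2 hv n] at p
    rw [h'.plus_pl h2 hv' (e ▸ n), e] at p'
    obtain ⟨f₂, f2⟩ := ih _ _ (h.prp l (h.pl_mem hv)) (h'.prp l' (h'.pl_mem hv')) t1 t1'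
      (by omega) (by omega) (by tauto)
    obtain ⟨f₁, a1, a2⟩ := exists_pair_map hD v' (κ' v')
    obtain ⟨f, e1, e2⟩ := exists_lin (H8.ndOn_pair hD) f₁ f₂
    have q1 : Q v' = Q v := by simpa [val, h2, del_ne] using congrArg QuadraticAlgebra.re e
    have q2 : B Q v' (κ' v') = B Q v (κ v) := congrArg QuadraticAlgebra.im e
    refine ⟨f, fun x hx => ?_⟩
    obtain ⟨a, ha, c, hc, rfl⟩ := Submodule.mem_sup.1 (t3.symm ▸ hx :)
    obtain ⟨c1, c2, c3⟩ := f2 c hc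
    rw [map_add f, map_add κ, map_add f, e1 a ha, e2 c hc.2, e1 _ (h.pl_mem hv a ha),
      e2 _ ((h.prp l (h.pl_mem hv)).mem c hc).2, c3]
    obtain ⟨x, y, rfl⟩ := mem_span_pair'.1 ha
    have m : x • v' + y • κ' v' ∈ Submodule.span F {v', κ' v'} := mem_span_pair'.2 ⟨_, _, rfl⟩
    simp only [map_add, map_smul, a1, a2, h.sq v hv, h'.sq v' hv']
    exact ⟨add_mem (l' m) c1.1, by rw [Q_add, Q_add Q _ c, c1.2 _ m, hc.2 _ ha, c2, Q_pair, Q_pair,
      h.Qκ h2 hv, h'.Qκ h2 hv', q1, q2], trivial⟩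

theorem Kap.conj (hQ : Nd Q) (he : Even (finrank F V)) {κ' : End F V} (h : Kap Q δ ⊤ κ)
    (h' : Kap Q δ ⊤ κ') : ∃ g ∈ O Q, ∀ v, g (κ v) = κ' (g v) := by
  obtain ⟨j, hj⟩ := he
  obtain ⟨f, hf⟩ := Kap.iso h2 j ⊤ ⊤ h h' hQ.ndOn_top hQ.ndOn_top (by simp; omega) (by simp; omega)
    Iff.rfl
  obtain ⟨g, hg, e⟩ := exists_O_of_lin hQ f fun v => (hf v trivial).2.1
  exact ⟨g, hg, fun v => by rw [e, e, (hf v trivial).2.2]⟩

end Cfsg.Agent.H2.Oel
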