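import Cfsg.Agent.H2.Oel18
import Cfsg.Agent.Orth.FieldBridge

/-! Orthogonal groups, prime order elements, part 19: quadratic field extension subgroups. -/

set_option autoImplicit false
set_option linter.unusedSectionVars false

namespace Cfsg.Agent.H2.Oel

open Module Cfsg.Agent.Orth Cfsg.Agent.H8 Polynomial

lemma exists_central {G : Type*} [Group G] [Finite G] {r : ℕ} [Fact r.Prime] (hG : IsPGroup r G)
    (N : Subgroup G) [N.Normal] (h : N ≠ ⊤) :
    ∃ z ∉ N, z ^ r ∈ N ∧ ∀ g, (g * z)⁻¹ * (z * g) ∈ N := by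
  have : Nontrivial (G ⧸ N) := QuotientGroup.nontrivial_iff.2 h
  have h1 := hG.to_quotient N
  have := h1.center_nontrivial
  obtain ⟨y, hy⟩ := exists_prime_orderOf_dvd_card' r
    ((h1.to_subgroup (Subgroup.center _)).card_eq_or_dvd.resolve_left Finite.one_lt_card.ne')
  obtain ⟨z, hz⟩ := QuotientGroup.mk_surjective y.1
  refine ⟨z, fun h => ?_, ?_, fun g => QuotientGroup.eq.1 ?_⟩
  · rw [show y = 1 from Subtype.ext (hz ▸ (QuotientGroup.eq_one_iff z).2 h), orderOf_one] at hy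
    exact (Fact.out : r.Prime).one_lt.ne hy
  · rw [← QuotientGroup.eq_one_iff, QuotientGroup.mk_pow, hz, ← hy]
    exact congrArg Subtype.val (pow_orderOf_eq_one y)
  · rw [QuotientGroup.mk_mul, QuotientGroup.mk_mul, hz]
    exact Subgroup.mem_center_iff.1 y.2 _

lemma pow_half {F : Type*} [Field F] [Fintype F] (h2 : (2 : F) ≠ 0) {δ : F} (h0 : δ ≠ 0) (j : ℕ) :
    δ ^ (Fintype.card F ^ (2 * j) / 2) = 1 := by
  obtain ⟨a, ha⟩ := Nat.odd_iff.2 ((odd_iff_two_ne rfl).2 h2)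
  obtain ⟨t, ht⟩ : ∃ t, Fintype.card F ^ (2 * j) = 2 * (2 * a * t) + 1 := by
    induction j with
    | zero => exact ⟨0, by simp⟩
    | succ j ih =>
      obtain ⟨t, ht⟩ := ih
      exact ⟨t * (2 * a + 1) ^ 2 + (a + 1), by rw [mul_add, pow_add, ht, ha]; ring⟩
  rw [ht, show (2 * (2 * a * t) + 1) / 2 = (Fintype.card F - 1) * t by rw [ha]; simp; omega,
    pow_mul, FiniteField.pow_card_sub_one_eq_one δ h0, one_pow]

variable {F V : Type*} [Field F] [AddCommGroup V] [Module F V] {Q : QuadraticForm F V}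
  [Finite F] [FiniteDimensional F V] {δ : F} {κ : End F V}

/-- `y` normalises the field generated by `κ` -/
def Nm (κ : End F V) (y : V ≃ₗ[F] V) : Prop := ∃ e : F, ∀ v, y (κ v) = e • κ (y v)

variable (Q) in
/-- `x` is conjugate in `Ω` into the normaliser of the field generated by `κ` -/
def CN (κ : End F V) (x : V ≃ₗ[F] V) : Prop := ∃ h ∈ EO Q, Nm κ (h⁻¹ * x * h)

lemma Nm.conj {κ' : End F V} {h x : V ≃ₗ[F] V} (e : ∀ v, h (κ v) = κ' (h v)) (H : Nm κ' x) :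
    Nm κ (h⁻¹ * x * h) := by
  obtain ⟨c, hc⟩ := H
  exact ⟨c, fun v => h.injective (by
    simp only [mul_app, apply_inv_apply, map_smul, e, hc])⟩

lemma ev_local {g z : V ≃ₗ[F] V} {W : Submodule F V} (iz : Inv z W)
    (h : ∀ v ∈ W, z (g v) = g (z v)) (P : F[X]) : ∀ v ∈ W, ev z P (g v) = g (ev z P v) := by
  have e : ∀ k : ℕ, ∀ v ∈ W, (z ^ k) (g v) = g ((z ^ k) v) := fun k => by
    induction k with
    | zero => exact fun _ _ => rfl
    | succ k ih => intro v hv; rw [pow_succ', mul_app, mul_app, ih v hv, h _ (iz.pow k v hv)]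
  induction P using Polynomial.induction_on' with
  | add P P' h1 h2 => intro v hv; rw [ev_add, ev_add, h1 v hv, h2 v hv, map_add]
  | monomial k c => intro v hv; rw [ev_monomial, ev_monomial, e k v hv, map_smul]

lemma PE.allR (hQ : Nd Q) (hd : 5 ≤ finrank F V) {r : ℕ} (hr : Odd r)
    {P : (V ≃ₗ[F] V) → Prop} (H : PE Q r P) : AllR Q r P := by
  intro g hO hg h1
  refine H g (mem_EO_of_odd hQ hd hr hO hg) ⟨1, fun v => by rw [hg, one_smul]; rfl⟩ fun z hz => ?_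
  have h2 := sq_eq_one_of_scalar hQ hd hO hz
  have h3 : ∀ (k : ℕ) v, (g ^ k) v = z ^ k • v := fun k => by
    induction k with
    | zero => intro v; simp
    | succ k ih => intro v; rw [pow_succ, mul_app, hz, map_smul, ih, smul_smul, pow_succ']
  obtain ⟨k, rfl⟩ := hr
  apply h1
  ext v
  have := h3 (2 * k + 1) v
  rw [hg, pow_succ, pow_mul, sq, h2, one_pow, one_mul] at this
  rw [hz, ← this]

variable [hδ : Fact (∀ r : F, r ^ 2 ≠ δ + 0 * r)]

lemma Nm.comm (K : Kap Q δ ⊤ κ) {y : V ≃ₗ[F] V} (H : Nm κ y) {r : ℕ} (hr : Odd r)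
    (hy : y ^ r = 1) (v : V) : y (κ v) = κ (y v) := by
  obtain ⟨e, he⟩ := H
  have h1 : ∀ (k : ℕ) v, (y ^ k) (κ v) = e ^ k • κ ((y ^ k) v) := fun k => by
    induction k with
    | zero => intro v; simp
    | succ k ih => intro v; rw [pow_succ', mul_app, mul_app, ih, map_smul, he, smul_smul, pow_succ]
  have h2 : ∀ u : V, (e * e) • u = u := fun u => by
    obtain ⟨u, rfl⟩ := y.surjective u
    have := he (κ u)
    rw [K.sq _ trivial, he, map_smul, map_smul, K.sq _ trivial, smul_smul, smul_comm] at this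
    exact (smul_right_injective V del_ne this).symm
  have h3 : ∀ (k : ℕ) (u : V), ((e * e) ^ k) • u = u := fun k => by
    induction k with
    | zero => simp
    | succ k ih => intro u; rw [pow_succ, mul_smul, h2, ih]
  obtain ⟨k, rfl⟩ := hr
  have := h1 (2 * k + 1) (y v)
  rw [hy, pow_succ', pow_mul, sq, mul_smul, h3] at this
  rw [he]
  exact this.symm

lemma CN.comm (K : Kap Q δ ⊤ κ) {x : V ≃ₗ[F] V} (H : CN Q κ x) {r : ℕ} (hr : Odd r)
    (hx : x ^ r = 1) : ∃ κ', Kap Q δ ⊤ κ' ∧ ∀ v, x (κ' v) = κ' (x v) := by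
  obtain ⟨h, hh, H⟩ := H
  refine ⟨_, K.cj (EO_le_O hh), fun v => ?_⟩
  have := H.comm K hr (by
    rw [show h⁻¹ * x * h = h⁻¹ * x * h⁻¹⁻¹ by simp, conj_pow, hx]; simp) (h⁻¹ v)
  simp only [mul_app, apply_inv_apply] at this
  rw [cj_apply, cj_apply, ← this, apply_inv_apply]

lemma four_dvd (h2 : (2 : F) ≠ 0) (K : Kap Q δ ⊤ κ) (A : End F V)
    (hA : ∀ u v, B Q u (A v) = -B Q v (A u)) (hc : ∀ v, A (κ v) = κ (A v)) {X : Submodule F V}
    (hX : ∀ v ∈ X, κ v ∈ X) (nd : ∀ v ∈ X, (∀ x ∈ X, B Q x (A v) = 0) → v = 0) :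
    4 ∣ finrank F X := by
  let φ : KK δ →ₐ[F] End F V := QuadraticAlgebra.lift ⟨κ, by ext v; simp [K.sq]⟩
  letI : Module (KK δ) V := Module.compHom V φ.toRingHom
  have hs : ∀ (a : KK δ) (v : V), a • v = a.re • v + a.im • κ v := fun a v => rfl
  have : IsScalarTower F (KK δ) V := ⟨fun c a v => by simp [hs, smul_smul]⟩
  have : FiniteDimensional (KK δ) V := Module.Finite.of_restrictScalars_finite F _ _
  let X' : Submodule (KK δ) V :=
    { X.toAddSubmonoid with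
      smul_mem' := fun a v hv => add_mem (X.smul_mem _ hv) (X.smul_mem _ (hX v hv)) }
  have ad : ∀ u v, B Q (κ u) v = B Q u (κ v) := fun u v => K.adj u trivial v trivial
  have sq : ∀ v, κ (κ v) = δ • v := fun v => K.sq v trivial
  let ω : V →ₗ[KK δ] V →ₗ[KK δ] KK δ := LinearMap.mk₂ _
    (fun u v => ⟨δ * B Q u (A v), B Q u (κ (A v))⟩)
    (fun _ _ _ => by ext <;> simp [mul_add])
    (fun _ _ _ => by ext <;> simp [hs, ad, sq] <;> ring)
    (fun _ _ _ => by ext <;> simp [mul_add])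
    (fun _ _ _ => by ext <;> simp [hs, hc, sq] <;> ring)
  have z : ∀ {x : F}, x = -x → x = 0 := fun h => by
    simpa [h2] using (two_mul _).trans (add_eq_zero_iff_eq_neg.2 h)
  obtain ⟨j, hj⟩ := even_of_alt ω _ X' (fun v _ => by
      ext
      · simp [ω, z (hA v v)]
      · exact z (by
          show B Q v (κ (A v)) = -B Q v (κ (A v))
          nth_rewrite 1 [← hc, hA, ad]; rfl))
    (fun v hv h => nd v hv fun x hx => by
      simpa [ω, del_ne] using congrArg QuadraticAlgebra.re (h x hx)) rfl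
  have e1 := Module.natCard_eq_pow_finrank (K := F) (V := X)
  have e2 := Module.natCard_eq_pow_finrank (K := KK δ) (V := X')
  rw [Module.natCard_eq_pow_finrank (K := F) (V := KK δ), QuadraticAlgebra.finrank_eq_two,
    ← pow_mul, show Nat.card X' = Nat.card X from rfl, e1] at e2
  exact ⟨j, by have := Nat.pow_right_injective Finite.one_lt_card e2; omega⟩

variable (hQ : Nd Q) (h2 : (2 : F) ≠ 0)
include hQ h2

lemma CN.of_refl (hd : 5 ≤ finrank F V) (he : Even (finrank F V)) (K : Kap Q δ ⊤ κ)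
    {x : V ≃ₗ[F] V} {κ' : End F V} (K' : Kap Q δ ⊤ κ') {a : V} (qa : Q a ≠ 0) (h1 : Nm κ' x)
    (h3 : Nm (cj (refl Q a) κ') x) : CN Q κ x := by
  obtain ⟨D, θ, S⟩ := exists_spin hQ hd h2
  obtain ⟨s, hs, s1, s2, s3⟩ : ∃ s ∈ O Q, D s ∧ ¬ θ s ∧ ∀ v, s (κ v) = κ (s v) := by
    have hw : (⟨0, 1⟩ : KK δ) ≠ 0 := fun e => by simpa using congrArg QuadraticAlgebra.im e
    obtain ⟨ε, e0, e1⟩ : ∃ ε : KK δ, ε ≠ 0 ∧ (IsSquare ε ↔ ¬ IsSquare (-1 : F)) := by
      by_cases h : IsSquare (-1 : F)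
      · obtain ⟨ε, e0, e1⟩ := exists_nonsquare (twoK (δ := δ) h2)
        exact ⟨ε, e0, iff_of_false e1 (not_not.2 h)⟩
      · exact ⟨1, one_ne_zero, iff_of_true IsSquare.one h⟩
    obtain ⟨v, -, hv⟩ := K.univ h2 hQ.ndOn_top (by simp; omega) (ε * ⟨0, 1⟩)
    have n : val Q δ κ v ≠ 0 := hv ▸ mul_ne_zero e0 hw
    have hD := K.D h2 trivial n
    have p := K.plus_pl h2 trivial n
    rw [hv, mul_assoc, isSquare_mul_iff e0 (mul_ne_zero hw hw), e1,
      iff_true_intro (IsSquare.mul_self _), iff_true] at p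
    have nA := H8.ndOn_pair hD
    obtain ⟨s, hs, e⟩ := exists_OW_ext hQ nA (-LinearMap.id) (fun x hx => neg_mem hx)
      fun x _ => Q_neg Q x
    refine ⟨s, hs.1, (S.neg_D hQ h2 _ _ s nA (finrank_pair hD) hs e).2 even_two, by
      rw [S.neg_θ hQ h2 1 _ s nA (finrank_pair hD) hs e, p]; simp, fun x => ?_⟩
    obtain ⟨a, ha, c, hc, rfl⟩ := nA.exists_decomp x
    rw [map_add, map_add, map_add, e _ (K.pl_mem trivial a ha), e a ha, hs.2 c hc,
      hs.2 _ ((K.prp le_top (K.pl_mem trivial)).mem c ⟨trivial, hc⟩).2]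
    simp
  obtain ⟨h, hh, κ'', e, hD, H⟩ : ∃ h ∈ O Q, ∃ κ'' : End F V, (∀ v, h (κ v) = κ'' (h v)) ∧ D h ∧
      Nm κ'' x := by
    obtain ⟨h, hh, e⟩ := K.conj h2 hQ he K'
    by_cases hD : D h
    · exact ⟨h, hh, κ', e, hD, h1⟩
    · exact ⟨_, mul_mem (refl_mem_O Q a) hh, _, fun v => by
        rw [cj_apply, mul_app, mul_app, inv_apply_apply, e],
        (S.mD _ (refl_mem_O Q a) _ hh).2 (iff_of_false (S.D_refl a qa) hD), h3⟩
  by_cases hθ : θ h
  · exact ⟨h, (S.mem h hh).2 ⟨hD, hθ⟩, H.conj e⟩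
  · exact ⟨h * s, (S.mem _ (mul_mem hh hs)).2 ⟨(S.mD _ hh _ hs).2 (iff_of_true hD s1),
      (S.mθ _ hh _ hs).2 (iff_of_false hθ s2)⟩, H.conj fun v => by rw [mul_app, mul_app, s3, e]⟩

theorem kap_two (hd : 5 ≤ finrank F V) (he : Even (finrank F V)) (K : Kap Q δ ⊤ κ) :
    PE Q 2 (CN Q κ) := by
  refine (pe_two hQ hd h2 _).2 ⟨fun g hg h1 h3 h4 => ?_, fun g hg hn => ?_⟩
  · have hO := EO_le_O hg
    obtain ⟨j, j1, j2, j3, -⟩ := D_data hQ hd h2 hg h1 h3 h4
    have nX := nd_Fx hQ hO h1 (by exact_mod_cast h2)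
    have d := hQ.finrank_perp (Fx g)
    obtain ⟨u, hu⟩ := he
    obtain ⟨κ₁, k1⟩ := exists_kap h2 (del_ne (δ := δ)) (u - j) _ nX (by omega)
    obtain ⟨κ₂, k2⟩ := exists_kap h2 (del_ne (δ := δ)) j _ (nX.perp hQ) j3
    obtain ⟨κ', k, e1, e2⟩ := Kap.glue nX le_rfl k1 k2
    rw [nX.isCompl.sup_eq_top] at k
    obtain ⟨a, ha, qa⟩ := NdOn.exists_nonsing' (nX.perp hQ) (fun h => by
      rw [h] at j3; simp at j3; omega)
    have ng := neg_on_perp hQ h2 hO h1
    have c : ∀ v, g (κ' v) = κ' (g v) := fun v => by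
      obtain ⟨x, hx, y, hy, rfl⟩ := nX.exists_decomp v
      rw [map_add, map_add, map_add, map_add, e1 x hx, e2 y hy, mem_Fx.1 hx, ng y hy, e1 x hx,
        mem_Fx.1 (k1.mem x hx), ng _ (k2.mem y hy), map_neg, e2 y hy]
    have c' : ∀ v, g (refl Q a v) = refl Q a (g v) := fun v => by
      have := conj_refl hO a
      rw [ng a ha, refl_neg] at this
      nth_rewrite 2 [← this]
      simp [mul_app]
    exact CN.of_refl hQ h2 hd ⟨u, hu⟩ K k qa ⟨1, fun v => by rw [c, one_smul]⟩ ⟨1, fun v => by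
      rw [cj_apply, cj_apply, refl_inv, c', c, c', one_smul]⟩
  · have hO := EO_le_O hg
    obtain ⟨a, -, qa⟩ := NdOn.exists_nonsing' hQ.ndOn_top (fun h => by
      have := finrank_top F V; rw [h] at this; simp at this; omega)
    have b := J_perp h2 hO (hn a)
    have nA := H8.ndOn_pair (D_orth h2 qa ((hO a).symm ▸ qa) b)
    have i1 := J_inv (hn a)
    have i2 := i1.perp hO
    obtain ⟨κ₁, k1, c1⟩ := exists_kap_anti h2 (del_ne (δ := δ)) hO hn _ _ nA i1 rfl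
    obtain ⟨κ₂, k2, c2⟩ := exists_kap_anti h2 (del_ne (δ := δ)) hO hn _ _ (nA.perp hQ) i2 rfl
    obtain ⟨κ', k, e1, e2⟩ := Kap.glue nA le_rfl k1 k2
    rw [nA.isCompl.sup_eq_top] at k
    have r1 : ∀ x ∈ Submodule.span F {a, g a}, refl Q a x ∈ Submodule.span F {a, g a} :=
      fun x hx => refl_mem (left_mem_pair _ _) hx
    have r2 : ∀ y ∈ perp Q (Submodule.span F {a, g a}), refl Q a y = y := fun y hy =>
      refl_of_perp (hy a (left_mem_pair _ _))
    have r3 : ∀ x ∈ Submodule.span F {a, g a}, g (refl Q a x) = -refl Q a (g x) := fun x hx => by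
      obtain ⟨s, t, rfl⟩ := mem_span_pair'.1 hx
      simp only [map_add, map_smul, map_neg, refl_self qa, refl_of_perp b, hn]
      module
    refine CN.of_refl hQ h2 hd he K k qa ⟨-1, fun v => ?_⟩ ⟨-1, fun v => ?_⟩
    · obtain ⟨x, hx, y, hy, rfl⟩ := nA.exists_decomp v
      simp only [map_add, e1 x hx, e2 y hy, e1 _ (i1 x hx), e2 _ (i2 y hy), c1 x hx, c2 y hy]
      module
    · obtain ⟨x, hx, y, hy, rfl⟩ := nA.exists_decomp v
      simp only [map_add, cj_apply, refl_inv, r2 y hy, r2 _ (i2 y hy), e2 y hy, e2 _ (i2 y hy),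
        e1 _ (r1 x hx), e1 _ (r1 _ (i1 x hx)), r2 _ (k2.mem y hy), r2 _ (k2.mem _ (i2 y hy)),
        r3 _ (k1.mem _ (r1 x hx)), c1 _ (r1 x hx), r3 x hx, c2 y hy, map_neg]
      module

theorem kap_char {p : ℕ} [Fact p.Prime] [CharP F p] (hd : 5 ≤ finrank F V) (K : Kap Q δ ⊤ κ) :
    ¬ PE Q p (CN Q κ) := fun H => by
  have := three_le (p := p) h2
  have hp := (Fact.out : p.Prime).odd_of_ne_two (two_ne_iff.1 h2)
  obtain ⟨g, hO, g1, g2⟩ := exists_unip (p := p) hQ h2 _ (m3 (finrank F V - 3) 0 1) rfl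
    (fun x hx => by rw [mem_m3] at hx; omega) (good_m3.2 (by simp)) _ hQ.ndOn_top
    (by rw [m3_sum, finrank_top]; omega) (fun h => by simpa using (even_m3.1 h).2)
  obtain ⟨κ', k, c⟩ := (H.allR hQ hd hp g hO.1 g1
    (g2.ne_one (a := 3) (by simp [mem_m3]) (by omega))).comm K hp g1
  have e : finrank F (Submodule.map (Nn g ^ 2) ⊤) = 1 := (g2.2 2).trans (by simp [m3])
  obtain ⟨⟨u, hu⟩, h0, h1⟩ := finrank_eq_one_iff'.1 e
  obtain ⟨w, -, rfl⟩ := id hu
  have c' : ∀ v, (Nn g ^ 2) (κ' v) = κ' ((Nn g ^ 2) v) := fun v => by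
    simp [sq, Nn_apply, c]
  obtain ⟨t, ht⟩ := h1 ⟨_, κ' w, trivial, rfl⟩
  have ht : t • (Nn g ^ 2) w = κ' ((Nn g ^ 2) w) := (congrArg Subtype.val ht).trans (c' w)
  have := k.sq ((Nn g ^ 2) w) trivial
  rw [← ht, map_smul, ← ht, smul_smul] at this
  exact del_nsq ⟨t, (smul_left_injective F (fun h => h0 (Subtype.ext h)) this).symm⟩

variable {r i : ℕ} (H : Ctx F r i)
include H

omit h2 in
lemma Ctx.restrict {g : V ≃ₗ[F] V} (hO : g ∈ O Q) {X : Submodule F V} (nX : NdOn Q X)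
    (iX : Inv g X) (hg : ∀ v ∈ X, (g ^ r) v = v) :
    ∃ x ∈ OW Q X, x ^ r = 1 ∧ ∀ v ∈ X, x v = g v := by
  obtain ⟨x, hx, e⟩ := exists_OW_ext hQ nX g iX fun v _ => hO v
  exact ⟨x, hx, eq_one_of_OW nX (pow_mem hx r) fun v hv => by
    rw [pow_congr (OW.inv hQ hx) e r v hv, hg v hv], e⟩

theorem kap_not_four (hd : 5 ≤ finrank F V) (K : Kap Q δ ⊤ κ) (h4 : ¬ 4 ∣ i) {g : V ≃ₗ[F] V}
    (hO : g ∈ O Q) (hg : g ^ r = 1) (h1 : g ≠ 1) : ¬ PE Q r (CN Q κ) := fun L => by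
  have hr := H.pr.odd_of_ne_two H.ne2
  have nF := nd_Fx hQ hO hg H.neF
  have fp := fpf_perp_Fx hQ hO hg H.neF
  obtain ⟨X, hX, iX, nX, dX⟩ := H.exists_block hO hg fp (nF.perp hQ)
    fun h => h1 (LinearEquiv.ext fun v => mem_Fx.1 (by
      rw [← hQ.perp_perp (Fx g), h]; exact fun _ h => by simp [(Submodule.mem_bot F).1 h]))
  obtain ⟨x, hx, x1, e⟩ := H.restrict hQ hO nX iX fun v _ => by rw [hg]; rfl
  have fx : FPF x X := ⟨OW.inv hQ hx, fun v hv h => fp.fpf v (hX hv) (e v hv ▸ h)⟩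
  have := cc_pos H.pos
  obtain ⟨κ', k, c⟩ := (L.allR hQ hd hr x hx.1 x1 (by
    rintro rfl
    rw [(Submodule.eq_bot_iff X).2 fun v hv => fx.fpf v hv rfl] at dX
    simp at dX; omega)).comm K hr x1
  have := four_dvd h2 k ((x : V →ₗ[F] V) - (x⁻¹ : V ≃ₗ[F] V)) (fun u v => by
      simp only [LinearMap.sub_apply, LinearEquiv.coe_coe, map_sub, ← O_B_inv hx.1,
        B_comm Q (x u), B_comm Q (x v), neg_sub])
    (fun v => by
      simp only [LinearMap.sub_apply, LinearEquiv.coe_coe, map_sub, c]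
      congr 1
      apply x.injective
      rw [c, apply_inv_apply, apply_inv_apply]) (X := X) (fun v hv => by
      rw [← Fx_eq_perp hQ nX hx fx] at hv ⊢
      exact ((k.prp le_top fun u hu => mem_Fx.2 (by rw [c, mem_Fx.1 hu])).mem v ⟨trivial, hv⟩).2)
    fun v hv h => fx.fpf v hv (by
      have e1 : x v = x⁻¹ v := sub_eq_zero.1 (nX _ (sub_mem (fx.inv v hv) (fx.inv.inv v hv)) h)
      have e2 : (x ^ 2) v = v := by rw [sq, mul_app, e1, apply_inv_apply]
      obtain ⟨j, rfl⟩ := hr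
      have := pow_fix e2 j
      rw [← pow_mul] at this
      nth_rewrite 1 [← this]
      rw [← mul_app, ← pow_succ', x1]; rfl)
  rw [dX, cc] at this
  split_ifs at this with h
  · exact h4 this
  · rw [Nat.even_iff] at h; omega

omit hQ in
lemma Ctx.exists_root (h4 : 4 ∣ i) {f : F[X]} (hf : Fac r f) : ∃ s : F[X], f ∣ s * s - C δ := by
  have := Fact.mk hf.irr
  have := hf.monic.finite_adjoinRoot
  have := Fintype.ofFinite F
  have : Finite (AdjoinRoot f) := Module.finite_of_finite F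
  have := Fintype.ofFinite (AdjoinRoot f)
  have dK : finrank F (AdjoinRoot f) = i := by
    rw [(AdjoinRoot.powerBasis' hf.monic).finrank]; exact H.natDegree hf
  obtain ⟨j, rfl⟩ := h4
  obtain ⟨y, hy⟩ : IsSquare (algebraMap F (AdjoinRoot f) δ) := by
    rw [FiniteField.isSquare_iff (by
      rw [← Algebra.ringChar_eq F]
      exact fun h => h2 (by exact_mod_cast (ringChar.spec F 2).2 (by rw [h]))) (by simpa using del_ne),
      Module.card_eq_pow_finrank (K := F), dK, ← map_pow, show 4 * j = 2 * (2 * j) by ring,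
      pow_half h2 del_ne, map_one]
  obtain ⟨s, rfl⟩ := AdjoinRoot.mk_surjective y
  exact ⟨s, AdjoinRoot.mk_eq_mk.1 (by rw [map_mul, ← hy]; rfl)⟩

omit hQ in
lemma Ctx.kap_ev (h4 : 4 ∣ i) {g : V ≃ₗ[F] V} (hO : g ∈ O Q) (hg : g ^ r = 1) {f s : F[X]}
    (hs : f ∣ s * s - C δ) {Y : Submodule F V} (iY : Inv g Y) (hY : Y ≤ Kr g f) :
    Kap Q δ Y (ev g s) := by
  have z : ∀ P, f ∣ P → ∀ v ∈ Y, ev g P v = 0 := by
    rintro _ ⟨P, rfl⟩ v hv
    rw [mul_comm, ev_mul, mem_Kr.1 (hY hv), map_zero]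
  refine ⟨iY.ev s, fun u hu v hv => ?_, fun v hv => ?_⟩
  swap
  · have := z _ hs v hv
    rwa [ev_sub, ev_mul, ev_C, sub_eq_zero] at this
  obtain ⟨j, hj⟩ := h4
  have := Fact.mk H.pr
  have hpos := H.pos
  have h1 : ((Nat.card F : ℕ) : ZMod r) ^ (2 * j) = -1 := by
    have h2 := (H.dvd_iff' (2 * j + 2 * j)).1 ⟨1, by omega⟩
    rw [pow_add] at h2
    refine (mul_self_eq_one_iff.1 h2).resolve_left fun h3 => ?_
    have := Nat.le_of_dvd (by omega) ((H.dvd_iff' _).2 h3)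
    omega
  have h3 : g⁻¹ = g ^ (Nat.card F ^ (2 * j)) := by
    rw [inv_eq_iff_mul_eq_one, ← pow_succ']
    obtain ⟨c, hc⟩ : r ∣ Nat.card F ^ (2 * j) + 1 := by
      rw [← ZMod.natCast_eq_zero_iff]; push_cast; rw [h1]; simp
    rw [hc, pow_mul, hg, one_pow]
  have := Fintype.ofFinite F
  have h5 : ∀ k : ℕ, expand F (Nat.card F ^ k) s = s ^ (Nat.card F ^ k) := by
    intro k
    induction k with
    | zero => simp
    | succ k ih =>
      rw [pow_succ', expand_mul, ih, map_pow, Nat.card_eq_fintype_card, FiniteField.expand_card,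
        ← pow_mul]
  rw [B_ev hO, h3, ev, ev, toEnd_pow, ← expand_aeval, h5, Nat.card_eq_fintype_card]
  have h6 := pow_half h2 (del_ne (δ := δ)) j
  have h7 := Nat.odd_iff.1 ((Nat.odd_iff.2 ((odd_iff_two_ne rfl).2 h2)).pow (n := 2 * j))
  have := z _ ((hs.trans (sub_dvd_pow_sub_pow _ _ (Fintype.card F ^ (2 * j) / 2))).mul_right s) u hu
  rw [← C_pow, h6, C_1, sub_mul, one_mul, ← sq, ← pow_mul, ← pow_succ, Nat.two_mul_div_two_add_one_of_odd
    (Nat.odd_iff.2 h7), ev_sub, sub_eq_zero, ev, ev] at this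
  rw [this]

theorem Ctx.kap_pgroup (h4 : 4 ∣ i) {P : Subgroup (V ≃ₗ[F] V)} (hP : IsPGroup r P) (hO : P ≤ O Q)
    (n : ℕ) : ∀ W : Submodule F V, NdOn Q W → finrank F W = n → Even n → (∀ g ∈ P, Inv g W) →
    ∃ κ, Kap Q δ W κ ∧ ∀ g ∈ P, ∀ v ∈ W, g (κ v) = κ (g v) := by
  induction n using Nat.strong_induction_on with
  | _ n ih =>
  intro W hW d he iW
  let N : Subgroup P :=
    { carrier := {g | ∀ v ∈ W, g.1 v = v}
      mul_mem' := fun {a b} ha hb v hv => by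
        rw [Subgroup.coe_mul, mul_app, hb v hv, ha v hv]
      one_mem' := fun _ _ => rfl
      inv_mem' := fun {a} ha v hv => by
        rw [Subgroup.coe_inv]; nth_rewrite 1 [← ha v hv]; rw [inv_apply_apply] }
  by_cases hN : N = ⊤
  · obtain ⟨j, hj⟩ := he
    obtain ⟨κ, k⟩ := exists_kap h2 (del_ne (δ := δ)) j W hW (by omega)
    have : ∀ g ∈ P, ∀ v ∈ W, g v = v := fun g hg => (show (⟨g, hg⟩ : P) ∈ N from hN ▸ trivial)
    exact ⟨κ, k, fun g hg v hv => by rw [this g hg v hv, this g hg _ (k.mem v hv)]⟩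
  have : N.Normal := ⟨fun a ha g v hv => by
    rw [Subgroup.coe_mul, Subgroup.coe_mul, mul_app, mul_app, ha _ (iW _ g⁻¹.2 v hv),
      Subgroup.coe_inv, apply_inv_apply]⟩
  have := Fact.mk H.pr
  have := finE (F := F) (V := V)
  obtain ⟨z₀, z1, z2, z3⟩ := exists_central hP N hN
  obtain ⟨z, hz, zr, e⟩ := H.restrict hQ (hO z₀.2) hW (iW _ z₀.2) z2
  have iz := OW.inv hQ hz
  have c : ∀ g ∈ P, ∀ v ∈ W, z (g v) = g (z v) := fun g hg v hv => by
    have := congrArg (g * z₀.1) (z3 ⟨g, hg⟩ v hv)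
    simp only [Subgroup.coe_mul, Subgroup.coe_inv, mul_app, mul_inv_rev, apply_inv_apply] at this
    rw [e _ (iW g hg v hv), e v hv, this]
  have nX := (spl_Fx hz.1 zr H.neF iz).nd_left hW
  have iX : ∀ g ∈ P, Inv g (W ⊓ Fx z) := fun g hg v hv =>
    ⟨iW g hg v hv.1, mem_Fx.2 (by rw [c g hg v hv.1, mem_Fx.1 hv.2])⟩
  have fp : FPF z (W ⊓ perp Q (W ⊓ Fx z)) := ⟨iz.inf ((inv_of_le_Fx inf_le_right).perp hz.1),
    fun v hv h => nX v ⟨hv.1, h⟩ hv.2⟩
  obtain ⟨f, hf, X, x1, -, x2, x3⟩ := H.exists_min zr fp fun h => z1 fun v hv => by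
    have := sup_inf_perp nX inf_le_left
    rw [h, sup_bot_eq] at this
    rw [← e v hv]; exact (this.symm ▸ hv :).2
  have nY := H.nd_Kr hz.1 zr (even_iff_two_dvd.2 (Dvd.dvd.trans ⟨2, rfl⟩ h4)) fp
    (hW.inf_perp nX inf_le_left) hf
  have lY : W ⊓ perp Q (W ⊓ Fx z) ⊓ Kr z f ≤ W := inf_le_left.trans inf_le_left
  have iY : ∀ g ∈ P, Inv g (W ⊓ perp Q (W ⊓ Fx z) ⊓ Kr z f) := fun g hg v hv =>
    ⟨(iW g hg).inf ((iX g hg).perp (hO hg)) v hv.1, mem_Kr.2 (by
      rw [ev_local iz (c g hg) f v hv.1.1, mem_Kr.1 hv.2, map_zero])⟩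
  have iz' := fp.inv.inf (inv_Kr z f)
  have d1 := Submodule.finrank_mono (le_inf x1 x3)
  have d2 := hW.finrank_inf_perp lY
  have d3 := Nat.even_iff.1 (H.even_finrank hz.1 zr (fp.mono inf_le_left iz') nY)
  have := H.pos
  obtain ⟨s, hs⟩ := H.exists_root (δ := δ) h2 h4 hf
  have k1 := H.kap_ev h2 h4 hz.1 zr hs iz' inf_le_right
  generalize W ⊓ perp Q (W ⊓ Fx z) ⊓ Kr z f = Y at *
  have iC := fun g hg => (iW g hg).inf ((iY g hg).perp (hO hg))
  obtain ⟨κ₂, k2, c2⟩ := ih _ (by omega) _ (hW.inf_perp nY lY) rfl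
    (by rw [Nat.even_iff] at he ⊢; omega) iC
  obtain ⟨κ, k, e1, e2⟩ := Kap.glue nY inf_le_right k1 k2
  rw [sup_inf_perp nY lY] at k
  refine ⟨κ, k, fun g hg v hv => ?_⟩
  obtain ⟨a, ha, b, hb, rfl⟩ := Submodule.mem_sup.1 ((sup_inf_perp nY lY).symm ▸ hv :)
  rw [map_add, map_add, map_add, map_add, e1 a ha, e2 b hb, e1 _ (iY g hg a ha),
    e2 _ (iC g hg b hb), c2 g hg b hb, ev_local iz (c g hg) s a (lY ha)]

theorem kap_four (he : Even (finrank F V)) (K : Kap Q δ ⊤ κ) (h4 : 4 ∣ i)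
    {N : Subgroup (V ≃ₗ[F] V)} (hN : ∀ y, Nm κ y → y ∈ N) : ¬ r ∣ N.relIndex (EO Q) := fun hr => by
  have := Fact.mk H.pr
  have := finE (F := F) (V := V)
  obtain ⟨P⟩ : Nonempty (Sylow r (EO Q)) := inferInstance
  obtain ⟨κ', k, c⟩ := H.kap_pgroup (δ := δ) hQ h2 h4 (P.isPGroup'.map (EO Q).subtype)
    ((Subgroup.map_subtype_le _).trans EO_le_O) _ ⊤ hQ.ndOn_top (finrank_top F V) he
    fun g _ => inv_top g
  obtain ⟨h, hh, e⟩ := K.conj h2 hQ he k
  let φ : EO Q →* EO Q :=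
    { toFun := fun g => ⟨h⁻¹ * g * h, by simpa using conj_mem_EO (inv_mem hh) g.2⟩
      map_one' := Subtype.ext (by simp)
      map_mul' := fun a b => Subtype.ext (by simp [mul_assoc]) }
  have inj : Function.Injective φ := fun a b h => Subtype.ext (by
    simpa [φ] using congrArg Subtype.val h)
  have l : P.1.map φ ≤ N.subgroupOf (EO Q) := by
    rintro _ ⟨g, hg, rfl⟩
    exact hN _ (Nm.conj e ⟨1, fun v => by rw [c g ⟨g, hg, rfl⟩ v trivial, one_smul]⟩)
  have e1 := (P.1.map φ).card_mul_index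
  rw [Subgroup.card_map_of_injective inj, ← P.1.card_mul_index] at e1
  exact P.not_dvd_index (Nat.eq_of_mul_eq_mul_left Nat.card_pos e1 ▸
    hr.trans (Subgroup.index_dvd_of_le l))

end Cfsg.Agent.H2.Oel

namespace Cfsg.Agent.H2.Oel

open Module Cfsg.Agent.Orth Cfsg.Agent.H8

lemma semiK_iff {F V L : Type*} [Field F] [Fintype F] [AddCommGroup V] [Module F V] [Nontrivial V]
    [Field L] [Algebra F L] [Module L V] [IsScalarTower F L V] [Finite L] (h2 : (2 : F) ≠ 0)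
    (d : finrank F L = 2) : ∃ (δ : F) (ω : L) (κ : End F V), ¬ IsSquare δ ∧ (∀ v, κ v = ω • v) ∧
      (∀ v, κ (κ v) = δ • v) ∧ ∀ y : V ≃ₗ[F] V, SemiK L y ↔ Nm κ y := by
  obtain ⟨δ, d0, d1⟩ := exists_nonsquare h2
  have := Fintype.ofFinite L
  obtain ⟨ω, hω⟩ : IsSquare (algebraMap F L δ) := by
    rw [FiniteField.isSquare_iff (by
      rw [← Algebra.ringChar_eq F]
      exact fun h => h2 (by exact_mod_cast (ringChar.spec F 2).2 (by rw [h]))) (by simpa using d0),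
      Module.card_eq_pow_finrank (K := F), d, ← map_pow, pow_half h2 d0 1, map_one]
  have li : LinearIndependent F ![(1 : L), ω] := LinearIndependent.pair_iff.2 fun s t h => by
    by_cases ht : t = 0
    · simpa [ht] using h
    · refine absurd ⟨s / t, (algebraMap F L).injective ?_⟩ d1
      have : algebraMap F L t ≠ 0 := by simpa using ht
      rw [Algebra.smul_def, Algebra.smul_def, mul_one] at h
      rw [hω, map_mul, map_div₀]
      field_simp
      linear_combination (algebraMap F L t * ω - algebraMap F L s) * h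
  have sp : ∀ a : L, ∃ s t : F, a = s • 1 + t • ω := fun a => by
    have := li.span_eq_top_of_card_eq_finrank' (by simp [d])
    rw [Matrix.range_cons_cons_empty] at this
    exact mem_span_pair'.1 (this ▸ Submodule.mem_top)
  have sq : ∀ v : V, ω • ω • v = δ • v := fun v => by rw [smul_smul, ← hω, algebraMap_smul]
  refine ⟨δ, ω, Algebra.lsmul F F V ω, d1, fun _ => rfl, sq, fun y => ⟨fun h => ?_, ?_⟩⟩
  · obtain ⟨b, hb⟩ := h ω
    obtain ⟨x, hx⟩ := exists_ne (0 : V)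
    have := hb (ω • x)
    rw [sq, map_smul, hb, ← sq, smul_smul, smul_smul] at this
    rcases mul_self_eq_mul_self_iff.1 (smul_left_injective L (by simpa using hx) this) with h | h
    · exact ⟨1, fun v => (hb v).trans (by rw [← h, one_smul]; rfl)⟩
    · exact ⟨-1, fun v => (hb v).trans (by rw [← neg_neg b, ← h, neg_smul, neg_one_smul]; rfl)⟩
  · rintro ⟨e, he⟩ a
    obtain ⟨s, t, rfl⟩ := sp a
    exact ⟨s • 1 + (t * e) • ω, fun x => by
      simp only [add_smul, smul_assoc, one_smul, map_add, map_smul, mul_smul]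
      exact congrArg (s • y x + t • ·) (he x)⟩

theorem field_ext {ι : Type} [Fintype ι] [DecidableEq ι] {F : Type*} [Field F] [Fintype F]
    (p : ℕ) [Fact p.Prime] [CharP F p] (h2 : (2 : F) ≠ 0) {Q : (ι → F) → F}
    (hQ0 : Geo.IsNondegenerateQuadraticForm Q) (hd : 5 ≤ Fintype.card ι)
    (he : Even (Fintype.card ι)) {K : Subalgebra F (Matrix ι ι F)} (hK : Geo.IsFieldSubalgebra 2 K)
    (hKf : Geo.IsSelfAdjointFor (QuadraticMap.polar Q) K) (r : ℕ) [Fact r.Prime]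
    (hΩ : r ∣ (Geo.subalgebraNormalizer K).relIndex (Geo.omegaGL Q)) :
    (∀ x ∈ Geo.omegaGL Q, (∃ z : F, ((x ^ r : GL ι F) : Matrix ι ι F) = z • 1) →
      (∀ z : F, (x : Matrix ι ι F) ≠ z • 1) →
      ∃ g ∈ Geo.omegaGL Q, g⁻¹ * x * g ∈ Geo.subalgebraNormalizer K) ↔ r = 2 := by
  have : Nonempty ι := Fintype.card_pos_iff.1 (by omega)
  have hQ := nd_toQF hQ0
  have hn : finrank F (ι → F) = Fintype.card ι := by simp
  refine field_bridge hK fun L _ _ _ _ _ d h1 _ h3 => ?_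
  obtain ⟨δ, ω, κ, d1, k1, k2, k3⟩ := semiK_iff (V := ι → F) h2 d
  have : Fact (∀ r : F, r ^ 2 ≠ δ + 0 * r) := ⟨fun r h => d1 ⟨r, by simp [← sq, h]⟩⟩
  have k : Kap (toQF hQ0) δ ⊤ κ := ⟨fun _ _ => trivial, fun u _ v _ => by
    obtain ⟨m, hm, e⟩ := h1 ω
    rw [k1, k1, e, e, B_toQF, B_toQF, hKf m hm], fun v _ => k2 v⟩
  rw [pe_bridge hQ0 hd r _ (CN (toQF hQ0) κ) fun x => ⟨fun ⟨g, a, b⟩ =>
    ⟨phi g, (mem_omegaGL hQ0 hd).1 a, by simpa only [h3, k3, map_mul, map_inv] using b⟩,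
    fun ⟨g, a, b⟩ => by
      obtain ⟨g, rfl⟩ := phi.surjective g
      exact ⟨g, (mem_omegaGL hQ0 hd).2 a, by simpa only [h3, k3, map_mul, map_inv] using b⟩⟩]
  rcases tri (p := p) rfl (rfl : orderOf (Fintype.card F : ZMod r) = _) with
    rfl | ⟨rfl, -, -⟩ | ⟨-, h5, -, H⟩
  · exact iff_of_false (kap_char hQ h2 (by omega) k) (two_ne_iff.1 h2)
  · exact iff_of_true (kap_two hQ h2 (by omega) (hn ▸ he) k) rfl
  refine iff_of_false ?_ (by omega)
  have e : (Geo.omegaGL Q).map (phi (ι := ι) (F := F)).toMonoidHom = EO (toQF hQ0) := by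
    ext g
    obtain ⟨g, rfl⟩ := phi.surjective g
    rw [← mem_omegaGL hQ0 hd]
    exact Subgroup.mem_map_iff_mem phi.injective
  rw [← Subgroup.relIndex_map_map_of_injective (f := (phi (ι := ι) (F := F)).toMonoidHom) _ _
    phi.injective, e] at hΩ
  have := finE (F := F) (V := ι → F)
  obtain ⟨g, hg⟩ := exists_prime_orderOf_dvd_card' r (hΩ.trans (Subgroup.relIndex_dvd_card _ _))
  refine kap_not_four hQ h2 H (by omega) k (fun h4 => kap_four hQ h2 H (hn ▸ he) k h4 ?_ hΩ)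
    (EO_le_O g.2) (hg ▸ congrArg Subtype.val (pow_orderOf_eq_one g)) fun h => ?_
  · intro y hy
    obtain ⟨y, rfl⟩ := phi.surjective y
    exact ⟨y, (h3 y).2 ((k3 _).2 hy), rfl⟩
  · rw [show g = 1 from Subtype.ext h, orderOf_one] at hg
    omega

end Cfsg.Agent.H2.Oel
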