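import Cfsg.Agent.H2.Oel1

/-! Orthogonal groups, prime order elements, part 2: counting. -/

set_option autoImplicit false
set_option linter.unusedSectionVars false

namespace Cfsg.Agent.H2.Oel

open Module Cfsg.Agent.Orth Cfsg.Agent.H8

section gen
variable {G α : Type*} [Group G] [MulAction G α]

lemma cyc_modEq {r : ℕ} (hr : r.Prime) {g : G} (hg : g ^ r = 1) {S : Set α} (hS : S.Finite)
    (hinv : ∀ x ∈ S, g • x ∈ S) : S.ncard ≡ {x | x ∈ S ∧ g • x = x}.ncard [MOD r] := by
  have hfin : IsOfFinOrder g := isOfFinOrder_iff_pow_eq_one.2 ⟨r, hr.pos, hg⟩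
  have hp : ∀ (k : ℕ) (P : α → Prop), (∀ x, P x → P (g • x)) → ∀ x, P x → P (g ^ k • x) := by
    intro k P h
    induction k with
    | zero => simp
    | succ k ih => intro x hx; rw [pow_succ', mul_smul]; exact h _ (ih x hx)
  have hP : IsPGroup r (Subgroup.zpowers g) := by
    rintro ⟨_, k, rfl⟩
    refine ⟨1, Subtype.ext ?_⟩
    show (g ^ k) ^ (r ^ 1) = 1
    rw [pow_one, ← zpow_natCast, ← zpow_mul, mul_comm, zpow_mul, zpow_natCast, hg, one_zpow]
  have := H3.pgroup_ncard_modEq hr hP hS (fun k hk x hx => by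
    obtain ⟨n, rfl⟩ := (hfin.mem_powers_iff_mem_zpowers).2 hk
    exact hp n (· ∈ S) hinv x hx)
  rw [show {x | x ∈ S ∧ g • x = x} = {x | x ∈ S ∧ ∀ k ∈ Subgroup.zpowers g, k • x = x} from ?_]
  · exact this
  ext x
  refine and_congr_right fun _ => ⟨fun h k hk => ?_, fun h => h g (Subgroup.mem_zpowers g)⟩
  obtain ⟨n, rfl⟩ := (hfin.mem_powers_iff_mem_zpowers).2 hk
  exact hp n (· = x) (fun y hy => by rw [hy, h]) x rfl

lemma not_dvd_of_trans [Finite G] {r : ℕ} (hr : r.Prime) (H : Subgroup G)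
    (hH : ∀ g ∈ H, g ^ r = 1 → g = 1) {S : Set α} {x : α} (hx : x ∈ S)
    (hinv : ∀ g ∈ H, g • x ∈ S) (htr : ∀ y ∈ S, ∃ g ∈ H, g • x = y) : ¬ r ∣ S.ncard := by
  intro h
  have e : S = MulAction.orbit H x := by
    ext y
    exact ⟨fun hy => by obtain ⟨g, hg, rfl⟩ := htr y hy; exact ⟨⟨g, hg⟩, rfl⟩,
      by rintro ⟨g, rfl⟩; exact hinv g g.2⟩
  have h2 : S.ncard ∣ Nat.card H := by
    rw [e, ← MulAction.index_stabilizer]; exact Subgroup.index_dvd_card _
  have := Fact.mk hr
  obtain ⟨g, hg⟩ := exists_prime_orderOf_dvd_card' r (h.trans h2)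
  have h3 := hH g g.2 (by rw [← hg]; exact congrArg Subtype.val (pow_orderOf_eq_one g))
  have : g = 1 := Subtype.ext h3
  rw [this, orderOf_one] at hg
  exact hr.one_lt.ne hg

end gen

variable {F V : Type*} [Field F] [AddCommGroup V] [Module F V] {Q : QuadraticForm F V}

/-- action of automorphisms on subspaces -/
@[reducible] def act : MulAction (V ≃ₗ[F] V) (Submodule F V) where
  smul g W := W.map (g : V →ₗ[F] V)
  one_smul W := Submodule.map_id W
  mul_smul g h W := by
    show W.map _ = (W.map _).map _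
    rw [← Submodule.map_comp]; rfl

variable [FiniteDimensional F V] [Finite F]

include F in
lemma finV : Finite V := Module.finite_of_finite F

lemma finE : Finite (V ≃ₗ[F] V) :=
  have := finV (F := F) (V := V)
  Finite.of_injective (fun g : V ≃ₗ[F] V => (g : V → V)) DFunLike.coe_injective

lemma finS (S : Set (Submodule F V)) : S.Finite :=
  have := finV (F := F) (V := V)
  have : Finite (Submodule F V) := Finite.of_injective _ SetLike.coe_injective
  S.toFinite

lemma sub_modEq {r : ℕ} (hr : r.Prime) {g : V ≃ₗ[F] V} (hg : g ^ r = 1) {S : Set (Submodule F V)}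
    (hinv : ∀ W ∈ S, W.map (g : V →ₗ[F] V) ∈ S) :
    S.ncard ≡ {W | W ∈ S ∧ Inv g W}.ncard [MOD r] := by
  letI := act (F := F) (V := V)
  have := cyc_modEq hr hg (finS S) hinv
  rw [show {W | W ∈ S ∧ Inv g W} = {W | W ∈ S ∧ g • W = W} from ?_]
  · exact this
  ext W
  exact and_congr_right fun _ => ⟨fun h => Inv.map_eq h, fun h => inv_of_map_eq h⟩

lemma sub_modEq' {r : ℕ} (hr : r.Prime) {P : Subgroup (V ≃ₗ[F] V)} (hP : IsPGroup r P)
    {S : Set (Submodule F V)} (hinv : ∀ g ∈ P, ∀ W ∈ S, W.map (g : V →ₗ[F] V) ∈ S) :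
    S.ncard ≡ {W | W ∈ S ∧ ∀ g ∈ P, Inv g W}.ncard [MOD r] := by
  letI := act (F := F) (V := V)
  have := H3.pgroup_ncard_modEq hr hP (finS S) hinv
  rw [show {W | W ∈ S ∧ ∀ g ∈ P, Inv g W} = {W | W ∈ S ∧ ∀ g ∈ P, g • W = W} from ?_]
  · exact this
  ext W
  exact and_congr_right fun _ =>
    ⟨fun h g hg => (h g hg).map_eq, fun h g hg => inv_of_map_eq (h g hg)⟩

lemma sub_not_dvd {r : ℕ} (hr : r.Prime) (H : Subgroup (V ≃ₗ[F] V))
    (hH : ∀ g ∈ H, g ^ r = 1 → g = 1) {S : Set (Submodule F V)} {W : Submodule F V} (hx : W ∈ S)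
    (hinv : ∀ g ∈ H, W.map (g : V →ₗ[F] V) ∈ S)
    (htr : ∀ W' ∈ S, ∃ g ∈ H, W.map (g : V →ₗ[F] V) = W') : ¬ r ∣ S.ncard := by
  letI := act (F := F) (V := V)
  have := finE (F := F) (V := V)
  exact not_dvd_of_trans hr H hH hx hinv htr

lemma vec_modEq {r : ℕ} (hr : r.Prime) {g : V ≃ₗ[F] V} (hg : g ^ r = 1) {S : Set V}
    (hinv : ∀ v ∈ S, g v ∈ S) : S.ncard ≡ {v | v ∈ S ∧ g v = v}.ncard [MOD r] :=
  have := finV (F := F) (V := V)
  cyc_modEq hr hg S.toFinite hinv

lemma ncard_sub (W : Submodule F V) : (W : Set V).ncard = Nat.card F ^ finrank F W :=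
  Module.natCard_eq_pow_finrank (K := F) (V := W)

/-- a fixed point free automorphism of prime order -/
lemma pow_finrank_modEq {r : ℕ} (hr : r.Prime) {g : V ≃ₗ[F] V} (hg : g ^ r = 1)
    {W : Submodule F V} (hW : Inv g W) (hf : ∀ v ∈ W, g v = v → v = 0) :
    Nat.card F ^ finrank F W ≡ 1 [MOD r] := by
  have := vec_modEq hr hg (S := W) hW
  rw [ncard_sub, show {v | v ∈ (W : Set V) ∧ g v = v} = {0} from by
    ext v; exact ⟨fun h => hf v h.1 h.2, by rintro rfl; simp⟩, Set.ncard_singleton] at this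
  exact this

variable (Q) in
/-- number of vectors of given norm -/
noncomputable def N (W : Submodule F V) (c : F) : ℕ := {v | v ∈ W ∧ Q v = c}.ncard

lemma N_modEq {r : ℕ} (hr : r.Prime) {g : V ≃ₗ[F] V} (hg : g ^ r = 1) (hO : g ∈ O Q)
    {W : Submodule F V} (hW : Inv g W) (hf : ∀ v ∈ W, g v = v → v = 0) : N Q W 0 ≡ 1 [MOD r] := by
  have := vec_modEq hr hg (S := {v | v ∈ W ∧ Q v = 0}) (fun v hv => ⟨hW v hv.1, (hO v).trans hv.2⟩)
  rw [show {v | v ∈ {v | v ∈ W ∧ Q v = 0} ∧ g v = v} = {0} from by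
    ext v; exact ⟨fun h => hf v h.1.1 h.2, by rintro rfl; simp⟩, Set.ncard_singleton] at this
  exact this

lemma N_sup {A C : Submodule F V} [Fintype C] (hA : NdOn Q A) (h : C ≤ perp Q A) (c : F) :
    N Q (A ⊔ C) c = ∑ w : C, N Q A (c - Q w) := by
  have := finV (F := F) (V := V)
  simp only [N, ← Nat.card_coe_set_eq]
  rw [← Nat.card_sigma]
  symm
  refine Nat.card_eq_of_bijective (fun p => ⟨p.2.1 + p.1.1, Submodule.add_mem_sup p.2.2.1 p.1.2, by
    rw [Q_add, p.2.2.2, h p.1.2 _ p.2.2.1]; ring⟩) ⟨?_, ?_⟩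
  · rintro ⟨w, a, ha⟩ ⟨w', a', ha'⟩ e
    have e' : a + w.1 = a' + w'.1 := congrArg Subtype.val e
    have h1 : a - a' = w'.1 - w.1 := by rw [sub_eq_sub_iff_add_eq_add, e', add_comm]
    have h2 : a - a' = 0 := Submodule.disjoint_def.1 (disjoint_of_perp hA h) _
      (A.sub_mem ha.1 ha'.1) (h1 ▸ C.sub_mem w'.2 w.2)
    have h3 : w = w' := Subtype.ext (by rw [h2] at h1; exact (sub_eq_zero.1 h1.symm).symm)
    subst h3
    have h4 : a = a' := sub_eq_zero.1 h2
    subst h4
    rfl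
  · rintro ⟨v, hv, hq⟩
    obtain ⟨a, ha, w, hw, rfl⟩ := Submodule.mem_sup.1 hv
    exact ⟨⟨⟨w, hw⟩, a, ha, by rw [← hq, Q_add, h hw a ha]; ring⟩, rfl⟩

open Classical in
lemma N_hyp {e f : V} (qe : Q e = 0) (qf : Q f = 0) (b : B Q e f = 1) (t : F) :
    N Q (Submodule.span F {e, f}) t + 1 = Nat.card F + if t = 0 then Nat.card F else 0 := by
  have h1 : N Q (Submodule.span F {e, f}) t = {p : F × F | p.1 * p.2 = t}.ncard := by
    symm
    refine Set.ncard_congr (fun p _ => p.1 • e + p.2 • f) ?_ ?_ ?_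
    · intro p hp
      exact ⟨mem_span_pair'.2 ⟨_, _, rfl⟩, by rw [Q_pair, qe, qf, b]; simpa using hp⟩
    · intro p p' _ _ h
      have h1 := congrArg (B Q e) h
      have h2 := congrArg (B Q f) h
      rw [B_left_pair, B_left_pair, qe, b] at h1
      rw [B_right_pair, B_right_pair, qf, b] at h2
      exact Prod.ext (by simpa using h2) (by simpa using h1)
    · rintro v ⟨hv, hq⟩
      obtain ⟨x, y, rfl⟩ := mem_span_pair'.1 hv
      exact ⟨(x, y), by rw [Q_pair, qe, qf, b] at hq; simpa using hq, rfl⟩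
  have h2 : ({0}ᶜ : Set F).ncard + 1 = Nat.card F := by
    rw [← Set.ncard_add_ncard_compl ({0} : Set F), Set.ncard_singleton, add_comm]
  have h3 : {p : F × F | p.1 ≠ 0 ∧ p.1 * p.2 = t}.ncard = ({0}ᶜ : Set F).ncard := by
    refine Set.ncard_congr (fun p _ => p.1) (fun p hp => hp.1) ?_ ?_
    · intro p p' hp hp' h
      refine Prod.ext h (mul_left_cancel₀ hp.1 ?_)
      rw [hp.2, ← hp'.2, h]
    · intro a ha
      exact ⟨(a, a⁻¹ * t), ⟨ha, by rw [← mul_assoc, mul_inv_cancel₀ ha, one_mul]⟩, rfl⟩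
  rw [h1]
  split_ifs with ht
  · have h4 : {p : F × F | p.1 = 0}.ncard = Nat.card F := by
      rw [← Set.ncard_univ]
      refine Set.ncard_congr (fun p _ => p.2) (fun _ _ => trivial) ?_ ?_
      · intro p p' hp hp' h
        exact Prod.ext (hp.trans hp'.symm) h
      · intro a _; exact ⟨(0, a), rfl, rfl⟩
    rw [show {p : F × F | p.1 * p.2 = t} = {p : F × F | p.1 ≠ 0 ∧ p.1 * p.2 = t} ∪ {p | p.1 = 0}
      from by
        ext p
        by_cases h : p.1 = 0 <;> simp [h, ht], Set.ncard_union_eq (by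
          rw [Set.disjoint_left]; exact fun p h h' => h.1 h'), h3, h4]
    omega
  · rw [show {p : F × F | p.1 * p.2 = t} = {p : F × F | p.1 ≠ 0 ∧ p.1 * p.2 = t} from by
      ext p
      exact ⟨fun h => ⟨fun h0 => ht (by rw [← h, h0, zero_mul]), h⟩, fun h => h.2⟩, h3]
    omega

lemma N_step {W : Submodule F V} (hW : NdOn Q W) {e f : V} (he : e ∈ W) (hf : f ∈ W)
    (qe : Q e = 0) (qf : Q f = 0) (b : B Q e f = 1) {k : ℕ}
    (hk : finrank F (W ⊓ perp Q (Submodule.span F {e, f}) : Submodule F V) = k) :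
    N Q W 0 + Nat.card F ^ k = Nat.card F ^ (k + 1) +
      Nat.card F * N Q (W ⊓ perp Q (Submodule.span F {e, f})) 0 := by
  classical
  have := finV (F := F) (V := V)
  set C := W ⊓ perp Q (Submodule.span F {e, f}) with hC
  have := Fintype.ofFinite C
  have hc : Fintype.card C = Nat.card F ^ k := by
    rw [← hk, ← Nat.card_eq_fintype_card]; exact Module.natCard_eq_pow_finrank
  have h1 := N_sup (H8.ndOn_pair (hyp_D qe b)) (C := C) inf_le_right 0
  rw [(split_pair hW he hf (hyp_D qe b)).2.2] at h1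
  have h2 : ∑ w : C, (N Q (Submodule.span F {e, f}) (0 - Q w) + 1) =
      ∑ w : C, (Nat.card F + if Q w = 0 then Nat.card F else 0) :=
    Finset.sum_congr rfl fun w _ => by rw [N_hyp qe qf b]; simp
  rw [Finset.sum_add_distrib, Finset.sum_add_distrib, ← h1, ← Finset.sum_filter] at h2
  simp only [Finset.sum_const, Finset.card_univ, smul_eq_mul, hc, mul_one] at h2
  have h3 : (Finset.univ.filter fun w : C => Q w = 0).card = N Q C 0 := by
    rw [N, ← Set.ncard_coe_finset]
    refine Set.ncard_congr (fun w _ => w.1) (fun w hw => ⟨w.2, by simpa using hw⟩)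
      (fun _ _ _ _ h => Subtype.ext h) (fun v hv => ⟨⟨v, hv.1⟩, by simpa using hv.2, rfl⟩)
  rw [h2, h3]; ring

theorem N_plus (k : ℕ) : ∀ W : Submodule F V, NdOn Q W → finrank F W = 2 * k → Plus Q W →
    Nat.card F * N Q W 0 + Nat.card F ^ k = Nat.card F ^ (2 * k) + Nat.card F ^ (k + 1) := by
  induction k with
  | zero =>
    intro W _ h _
    rw [Submodule.finrank_eq_zero.1 h, N, show {v | v ∈ (⊥ : Submodule F V) ∧ Q v = 0} = {0} from by
      ext v; exact ⟨fun h => h.1, by rintro rfl; simp⟩]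
    simp [add_comm]
  | succ k ih =>
    intro W hW h hp
    obtain ⟨e, he, he0, qe⟩ := hp.exists_sing (by rintro rfl; simp at h)
    obtain ⟨f, hf, qf, b⟩ := exists_hyp hW he he0 qe
    obtain ⟨s1, s2, s3⟩ := split_pair hW he hf (hyp_D qe b)
    have h1 := N_step hW he hf qe qf b (k := 2 * k) (by omega)
    have h2 := ih _ s1 (by omega) (by
      rw [← Plus.sup_iff (H8.ndOn_pair (hyp_D qe b)) s1 inf_le_right (plus_hyp qe b), s3]; exact hp)
    zify at h1 h2 ⊢
    linear_combination (Nat.card F : ℤ) * h1 + (Nat.card F : ℤ) * h2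

theorem N_minus (k : ℕ) : ∀ W : Submodule F V, NdOn Q W → finrank F W = 2 * (k + 1) →
    ¬ Plus Q W → Nat.card F * N Q W 0 + Nat.card F ^ (k + 2) =
      Nat.card F ^ (2 * (k + 1)) + Nat.card F ^ (k + 1) := by
  induction k with
  | zero =>
    intro W _ h hp
    have := aniso_of_not_plus h hp
    rw [N, show {v | v ∈ W ∧ Q v = 0} = {0} from by
      ext v; exact ⟨fun h => this v h.1 h.2, by rintro rfl; simp⟩]
    simp [add_comm]
  | succ k ih =>
    intro W hW h hp
    obtain ⟨e, he, f, hf, qe, qf, b⟩ := exists_hyp_in hW (by omega)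
    obtain ⟨s1, s2, s3⟩ := split_pair hW he hf (hyp_D qe b)
    have h1 := N_step hW he hf qe qf b (k := 2 * (k + 1)) (by omega)
    have h2 := ih _ s1 (by omega) (by
      rw [← Plus.sup_iff (H8.ndOn_pair (hyp_D qe b)) s1 inf_le_right (plus_hyp qe b), s3]; exact hp)
    zify at h1 h2 ⊢
    linear_combination (Nat.card F : ℤ) * h1 + (Nat.card F : ℤ) * h2

variable (Q) in
/-- totally singular `m`-spaces in `X` -/
def TSs (X : Submodule F V) (m : ℕ) : Set (Submodule F V) :=
  {W | W ≤ X ∧ finrank F W = m ∧ TS Q W}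

/-- the number of totally singular subspaces is prime to the characteristic -/
theorem ts_modEq_char (hQ : Nd Q) {p : ℕ} (hp : p.Prime) (hpF : (p : F) = 0) (m : ℕ) :
    ∀ X : Submodule F V, NdOn Q X → (2 * m < finrank F X) → (∃ U, U ∈ TSs Q X m) → (TSs Q X m).ncard ≡ 1 [MOD p] := by
  induction m with
  | zero =>
    intro X _ _ _
    rw [show TSs Q X 0 = {⊥} from by
      ext W
      exact ⟨fun h => Submodule.finrank_eq_zero.1 h.2.1, by rintro rfl; simp [TSs, TS]⟩]
    simp [Nat.ModEq]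
  | succ m ih =>
    rintro X hX hd ⟨U, hUX, hU, tU⟩
    obtain ⟨u, hu, hu0⟩ := U.exists_mem_ne_zero_of_ne_bot (by rintro rfl; simp at hU)
    have qu := tU u hu
    obtain ⟨f, hf, qf, b⟩ := exists_hyp hX (hUX hu) hu0 qu
    obtain ⟨s1, s2, s3⟩ := split_pair hX (hUX hu) hf (hyp_D qu b)
    set C := X ⊓ perp Q (Submodule.span F {u, f}) with hC
    have hCu : ∀ w ∈ C, B Q u w = 0 := fun w hw => (mem_perp_pair.1 hw.2).1
    let R : Subgroup (V ≃ₗ[F] V) :=
      { carrier := {g | ∃ w ∈ C, g = eich Q u w}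
        mul_mem' := by
          rintro _ _ ⟨w, hw, rfl⟩ ⟨w', hw', rfl⟩
          exact ⟨w + w', C.add_mem hw hw', eich_mul qu (hCu w hw) (hCu w' hw')⟩
        one_mem' := ⟨0, C.zero_mem, (eich_zero u).symm⟩
        inv_mem' := by
          rintro _ ⟨w, hw, rfl⟩
          exact ⟨-w, C.neg_mem hw, eich_inv qu (hCu w hw)⟩ }
    have hpow : ∀ w ∈ C, ∀ k : ℕ, eich Q u w ^ k = eich Q u ((k : F) • w) := by
      intro w hw k
      induction k with
      | zero => simp [eich_zero]
      | succ k ih =>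
        rw [pow_succ, ih, eich_mul qu (hCu _ (C.smul_mem _ hw)) (hCu w hw)]
        simp [add_smul]
    have hR : IsPGroup p R := by
      rintro ⟨_, w, hw, rfl⟩
      refine ⟨1, Subtype.ext ?_⟩
      show eich Q u w ^ (p ^ 1) = 1
      rw [pow_one, hpow w hw, hpF, zero_smul, eich_zero]
    have h1 := sub_modEq' hp hR (S := TSs Q X (m + 1)) (by
      rintro _ ⟨w, hw, rfl⟩ W ⟨a, b, c⟩
      exact ⟨map_le_of_inv (OW.inv hQ (eich_mem_OW (hUX hu) hw.1)) a,
        by rw [LinearEquiv.finrank_map_eq, b], ts_map (eich_mem_O u w) c⟩)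
    have h2 : {W | W ∈ TSs Q X (m + 1) ∧ ∀ g ∈ R, Inv g W} =
        {W | W ∈ TSs Q X (m + 1) ∧ u ∈ W} := by
      ext W
      refine and_congr_right fun ⟨a, bW, c⟩ => ⟨fun h => ?_, ?_⟩
      · have hu' : ∀ x ∈ W, B Q u x = 0 := by
          intro x hx
          by_contra hne
          obtain ⟨w, hw, qw⟩ := NdOn.exists_nonsing' s1 (by
            intro h0; rw [h0] at s2; simp at s2; omega)
          have := c _ (W.sub_mem (h _ ⟨w, hw, rfl⟩ x hx) hx)
          rw [eich_apply qu (hCu w hw), show x + B Q u x • w - (B Q w x + Q w * B Q u x) • u - x =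
            B Q u x • w + (-(B Q w x + Q w * B Q u x)) • u by module, Q_pair, qu,
            B_comm Q w u, hCu w hw] at this
          simp [hne, qw] at this
        obtain ⟨x, hx, hx0⟩ := W.exists_mem_ne_zero_of_ne_bot (by rintro rfl; simp at bW)
        have hxd : x - B Q f x • u ∈ C := ⟨X.sub_mem (a hx) (X.smul_mem _ (hUX hu)),
          mem_perp_pair.2 ⟨by rw [map_sub, map_smul, hu' x hx, B_self_of_sing Q qu]; simp,
            by rw [map_sub, map_smul, B_comm Q f u, b]; simp⟩⟩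
        by_cases h0 : x - B Q f x • u = 0
        · have e : x = B Q f x • u := sub_eq_zero.1 h0
          have hne : B Q f x ≠ 0 := by intro h; rw [h, zero_smul] at e; exact hx0 e
          have := W.smul_mem (B Q f x)⁻¹ hx
          rwa [e, map_smul, B_comm Q f u, b, smul_smul, smul_eq_mul, mul_one,
            inv_mul_cancel₀ hne, one_smul] at this
        · obtain ⟨w, hw, hne⟩ := s1.exists_B_ne hxd h0
          rw [B_comm, map_sub, map_smul, B_comm Q w u, hCu w hw, smul_zero, sub_zero] at hne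
          have := W.smul_mem (B Q w x)⁻¹ (W.sub_mem hx (h _ ⟨w, hw, rfl⟩ x hx))
          rwa [eich_apply_of_perp_left qu (hCu w hw) (hu' x hx), sub_sub_cancel, smul_smul,
            inv_mul_cancel₀ hne, one_smul] at this
      · rintro huW _ ⟨w, hw, rfl⟩ x hx
        rw [eich_apply_of_perp_left qu (hCu w hw) (c.B_eq_zero huW hx)]
        exact W.sub_mem hx (W.smul_mem _ huW)
    have h3 : {W | W ∈ TSs Q X (m + 1) ∧ u ∈ W}.ncard = (TSs Q C m).ncard := by
      refine Set.ncard_congr (fun W _ => W ⊓ perp Q (Submodule.span F {u, f})) ?_ ?_ ?_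
      · rintro W ⟨⟨a, bW, c⟩, huW⟩
        exact ⟨inf_le_inf_right _ a, by have := (ts_split c huW b).2; omega,
          ts_mono c inf_le_left⟩
      · rintro W W' ⟨⟨-, -, c⟩, huW⟩ ⟨⟨-, -, c'⟩, huW'⟩ h
        rw [← (ts_split c huW b).1, ← (ts_split c' huW' b).1]
        rw [h]
      · rintro T ⟨a, bT, c⟩
        have t1 : TS Q ((F ∙ u) ⊔ T) := ts_sup (ts_span_singleton qu) c
          (fun x hx => mem_perp_span_singleton.2 (hCu x (a hx)))
        have hu1 : u ∈ (F ∙ u) ⊔ T := Submodule.mem_sup_left (Submodule.mem_span_singleton_self u)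
        have e : ((F ∙ u) ⊔ T) ⊓ perp Q (Submodule.span F {u, f}) = T := by
          apply le_antisymm _ (le_inf le_sup_right (a.trans inf_le_right))
          rintro x ⟨hx, hx'⟩
          obtain ⟨y, hy, t, ht, rfl⟩ := Submodule.mem_sup.1 hx
          obtain ⟨c, rfl⟩ := Submodule.mem_span_singleton.1 hy
          have := (mem_perp_pair.1 hx').2
          rw [map_add, map_smul, B_comm Q f u, b, (mem_perp_pair.1 (a ht).2).2] at this
          have hc : c = 0 := by simpa using this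
          simpa [hc] using ht
        refine ⟨(F ∙ u) ⊔ T, ⟨⟨sup_le ((Submodule.span_singleton_le_iff_mem _ _).2 (hUX hu))
          (a.trans inf_le_left), ?_, t1⟩, hu1⟩, e⟩
        have := (ts_split t1 hu1 b).2
        rw [e] at this; omega
    rw [h2, h3] at h1
    exact h1.trans (ih C s1 (by omega) ⟨_, inf_le_inf_right _ hUX,
      by have := (ts_split tU hu b).2; omega, ts_mono tU inf_le_left⟩)

end Cfsg.Agent.H2.Oel
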