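import Cfsg.Agent.H2.Oel2

/-! Orthogonal groups, prime order elements, part 3: semisimple elements. -/

set_option autoImplicit false
set_option linter.unusedSectionVars false

namespace Cfsg.Agent.H2.Oel

open Module Cfsg.Agent.Orth Cfsg.Agent.H8 Polynomial

variable {F V : Type*} [Field F] [AddCommGroup V] [Module F V] {Q : QuadraticForm F V}

/-- evaluation of a polynomial at an automorphism -/
noncomputable def ev (g : V ≃ₗ[F] V) (P : F[X]) : End F V := aeval (g.toLinearMap : End F V) P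

lemma toEnd_pow (g : V ≃ₗ[F] V) (k : ℕ) :
    ((g ^ k : V ≃ₗ[F] V).toLinearMap : End F V) = (g.toLinearMap : End F V) ^ k := by
  induction k with
  | zero => rfl
  | succ k ih => rw [pow_succ, pow_succ, ← ih]; rfl

lemma ev_mul (g : V ≃ₗ[F] V) (P P' : F[X]) (v : V) : ev g (P * P') v = ev g P (ev g P' v) := by
  rw [ev, map_mul]; rfl

lemma ev_comm (g : V ≃ₗ[F] V) (P P' : F[X]) (v : V) : ev g P (ev g P' v) = ev g P' (ev g P v) := by
  rw [← ev_mul, ← ev_mul, mul_comm]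

lemma ev_add (g : V ≃ₗ[F] V) (P P' : F[X]) (v : V) : ev g (P + P') v = ev g P v + ev g P' v := by
  rw [ev, map_add]; rfl

lemma ev_sub (g : V ≃ₗ[F] V) (P P' : F[X]) (v : V) : ev g (P - P') v = ev g P v - ev g P' v := by
  rw [ev, map_sub]; rfl

lemma ev_one (g : V ≃ₗ[F] V) (v : V) : ev g 1 v = v := by rw [ev, map_one]; rfl

lemma ev_X (g : V ≃ₗ[F] V) (v : V) : ev g X v = g v := by rw [ev, aeval_X]; rfl

lemma ev_C (g : V ≃ₗ[F] V) (c : F) (v : V) : ev g (C c) v = c • v := by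
  rw [ev, aeval_C]; rfl

lemma ev_X_pow (g : V ≃ₗ[F] V) (k : ℕ) (v : V) : ev g (X ^ k) v = (g ^ k) v := by
  rw [ev, map_pow, aeval_X, ← toEnd_pow]; rfl

lemma ev_monomial (g : V ≃ₗ[F] V) (k : ℕ) (c : F) (v : V) :
    ev g (monomial k c) v = c • (g ^ k) v := by
  rw [← C_mul_X_pow_eq_monomial, ev_mul, ev_C, ev_X_pow]

lemma ev_apply_g (g : V ≃ₗ[F] V) (P : F[X]) (v : V) : ev g P (g v) = g (ev g P v) := by
  rw [← ev_X, ev_comm, ev_X]

lemma Inv.ev {g : V ≃ₗ[F] V} {W : Submodule F V} (h : Inv g W) (P : F[X]) :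
    ∀ v ∈ W, ev g P v ∈ W := by
  intro v hv
  induction P using Polynomial.induction_on' with
  | add p q hp hq => rw [ev_add]; exact W.add_mem hp hq
  | monomial n a => rw [ev_monomial]; exact W.smul_mem _ (h.pow n v hv)

lemma pow_congr {g h : V ≃ₗ[F] V} {W : Submodule F V} (hg : Inv g W) (e : ∀ v ∈ W, g v = h v)
    (k : ℕ) : ∀ v ∈ W, (g ^ k) v = (h ^ k) v := by
  induction k with
  | zero => intro v _; rfl
  | succ k ih => intro v hv; rw [pow_succ', pow_succ', mul_app, mul_app, ← ih v hv, e _ (hg.pow k v hv)]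

lemma ev_congr {g h : V ≃ₗ[F] V} {W : Submodule F V} (hg : Inv g W) (e : ∀ v ∈ W, g v = h v)
    (P : F[X]) : ∀ v ∈ W, ev g P v = ev h P v := by
  intro v hv
  induction P using Polynomial.induction_on' with
  | add p q hp hq => rw [ev_add, ev_add, hp, hq]
  | monomial n a => rw [ev_monomial, ev_monomial, pow_congr hg e n v hv]

lemma B_ev {g : V ≃ₗ[F] V} (hg : g ∈ O Q) (P : F[X]) (v w : V) :
    B Q v (ev g P w) = B Q (ev g⁻¹ P v) w := by
  induction P using Polynomial.induction_on' with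
  | add p q hp hq => rw [ev_add, ev_add, map_add, map_add, hp, hq]; rfl
  | monomial n a =>
    rw [ev_monomial, ev_monomial, map_smul, map_smul, LinearMap.smul_apply, inv_pow,
      O_B_inv (inv_mem (pow_mem hg n)), inv_inv]

/-- kernel of `P(g)` -/
noncomputable def Kr (g : V ≃ₗ[F] V) (P : F[X]) : Submodule F V := LinearMap.ker (ev g P)

lemma mem_Kr {g : V ≃ₗ[F] V} {P : F[X]} {v : V} : v ∈ Kr g P ↔ ev g P v = 0 := Iff.rfl

lemma inv_Kr (g : V ≃ₗ[F] V) (P : F[X]) : Inv g (Kr g P) := fun v hv => by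
  rw [mem_Kr] at hv ⊢; rw [ev_apply_g, hv, map_zero]

lemma eq_zero_of_coprime {g : V ≃ₗ[F] V} {P P' : F[X]} (h : IsCoprime P P') {v : V}
    (h1 : ev g P v = 0) (h2 : ev g P' v = 0) : v = 0 := by
  obtain ⟨a, b, hab⟩ := h
  rw [← ev_one g v, ← hab, ev_add, ev_mul, ev_mul, h1, h2]; simp

/-- the cyclic submodule generated by `v` -/
noncomputable def Zc (g : V ≃ₗ[F] V) (v : V) : Submodule F V :=
  LinearMap.range (LinearMap.applyₗ v ∘ₗ (aeval (g.toLinearMap : End F V)).toLinearMap)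

lemma mem_Zc {g : V ≃ₗ[F] V} {v x : V} : x ∈ Zc g v ↔ ∃ P, ev g P v = x := Iff.rfl

lemma self_mem_Zc (g : V ≃ₗ[F] V) (v : V) : v ∈ Zc g v := ⟨1, ev_one g v⟩

lemma inv_Zc (g : V ≃ₗ[F] V) (v : V) : Inv g (Zc g v) := by
  intro x hx
  obtain ⟨P, rfl⟩ := mem_Zc.1 hx
  exact mem_Zc.2 ⟨X * P, by rw [ev_mul, ev_X]⟩

lemma Zc_le {g : V ≃ₗ[F] V} {W : Submodule F V} (h : Inv g W) {v : V} (hv : v ∈ W) :
    Zc g v ≤ W := by
  intro x hx
  obtain ⟨P, rfl⟩ := mem_Zc.1 hx
  exact h.ev P v hv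

lemma finrank_Zc_le {g : V ≃ₗ[F] V} {f : F[X]} (hf : f.Monic) {v : V} (hv : ev g f v = 0) :
    finrank F (Zc g v) ≤ f.natDegree := by
  have : Zc g v ≤ Submodule.span F (Set.range fun k : Fin f.natDegree => (g ^ (k : ℕ)) v) := by
    intro x hx
    obtain ⟨P, rfl⟩ := mem_Zc.1 hx
    rw [← modByMonic_add_div P f, ev_add, mul_comm, ev_mul, hv, map_zero, add_zero]
    by_cases h1 : f = 1
    · subst h1; simp [ev]
    have hd := natDegree_modByMonic_lt P hf h1
    rw [ev, aeval_eq_sum_range' hd, LinearMap.sum_apply]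
    refine Submodule.sum_mem _ fun k hk => ?_
    rw [LinearMap.smul_apply, ← toEnd_pow]
    exact Submodule.smul_mem _ _ (Submodule.subset_span ⟨⟨k, Finset.mem_range.1 hk⟩, rfl⟩)
  have : FiniteDimensional F
      (Submodule.span F (Set.range fun k : Fin f.natDegree => (g ^ (k : ℕ)) v)) :=
    FiniteDimensional.span_of_finite F (Set.finite_range _)
  refine (Submodule.finrank_mono ‹_›).trans ?_
  simpa [Set.finrank] using finrank_range_le_card (R := F) (fun k : Fin f.natDegree => (g ^ (k : ℕ)) v)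

lemma exists_irred_kill {g : V ≃ₗ[F] V} {W : Submodule F V} (h : Inv g W) (P : F[X]) (hP : P ≠ 0) :
    ∀ v ∈ W, v ≠ 0 → ev g P v = 0 →
      ∃ f : F[X], f.Monic ∧ Irreducible f ∧ f ∣ P ∧ ∃ v' ∈ W, v' ≠ 0 ∧ ev g f v' = 0 := by
  induction P using WfDvdMonoid.induction_on_irreducible with
  | zero => exact absurd rfl hP
  | unit u hu =>
    intro v _ hv h0
    obtain ⟨c, hc, rfl⟩ := Polynomial.isUnit_iff.1 hu
    rw [ev_C] at h0
    exact absurd ((smul_eq_zero.1 h0).resolve_left hc.ne_zero) hv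
  | mul a f ha hf ih =>
    intro v hv hv0 h0
    by_cases e : ev g a v = 0
    · obtain ⟨f', h1, h2, h3, h4⟩ := ih ha v hv hv0 e
      exact ⟨f', h1, h2, h3.mul_left f, h4⟩
    · refine ⟨f * C f.leadingCoeff⁻¹, monic_mul_leadingCoeff_inv hf.ne_zero,
        irreducible_mul_leadingCoeff_inv.2 hf, ?_, _, h.ev a v hv, e, ?_⟩
      · refine Dvd.dvd.mul_right ⟨C f.leadingCoeff, ?_⟩ a
        rw [mul_assoc, ← C_mul, inv_mul_cancel₀ (leadingCoeff_ne_zero.2 hf.ne_zero), C_1, mul_one]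
      · rw [mul_comm, ev_mul, ← ev_mul g f a, h0, map_zero]

section fd
variable [FiniteDimensional F V]

lemma finrank_Kr_mul_le {g : V ≃ₗ[F] V} {W : Submodule F V} (h : Inv g W) (P P' : F[X]) :
    finrank F (W ⊓ Kr g (P * P') : Submodule F V) ≤
      finrank F (W ⊓ Kr g P : Submodule F V) + finrank F (W ⊓ Kr g P' : Submodule F V) := by
  let φ := (ev g P').domRestrict (W ⊓ Kr g (P * P'))
  have h1 := φ.finrank_range_add_finrank_ker
  have h2 : LinearMap.range φ ≤ W ⊓ Kr g P := by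
    rintro _ ⟨⟨v, hv⟩, rfl⟩
    exact ⟨h.ev P' v hv.1, by rw [SetLike.mem_coe, mem_Kr]; exact (ev_mul g P P' v).symm.trans hv.2⟩
  have h3 : (LinearMap.ker φ).map (W ⊓ Kr g (P * P')).subtype ≤ W ⊓ Kr g P' := by
    rintro _ ⟨⟨v, hv⟩, hv', rfl⟩
    exact ⟨hv.1, hv'⟩
  have h4 := Submodule.finrank_mono h2
  have h5 := Submodule.finrank_mono h3
  rw [Submodule.finrank_map_subtype_eq] at h5
  omega

lemma finrank_Kr_prod_le {g : V ≃ₗ[F] V} {W : Submodule F V} (h : Inv g W) (ν : Multiset F[X]) :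
    finrank F (W ⊓ Kr g ν.prod : Submodule F V) ≤
      (ν.map fun f => finrank F (W ⊓ Kr g f : Submodule F V)).sum := by
  induction ν using Multiset.induction_on with
  | empty =>
    rw [Multiset.prod_zero, show W ⊓ Kr g 1 = ⊥ from by
      rw [eq_bot_iff]; intro v hv; exact (ev_one g v).symm.trans hv.2]
    simp
  | cons f ν ih =>
    rw [Multiset.prod_cons, Multiset.map_cons, Multiset.sum_cons]
    exact (finrank_Kr_mul_le h _ _).trans (by omega)

end fd

/-- the fixed space -/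
def Fx (g : V ≃ₗ[F] V) : Submodule F V := LinearMap.eqLocus (g : V →ₗ[F] V) LinearMap.id

lemma mem_Fx {g : V ≃ₗ[F] V} {v : V} : v ∈ Fx g ↔ g v = v := Iff.rfl

lemma inv_of_le_Fx {g : V ≃ₗ[F] V} {W : Submodule F V} (h : W ≤ Fx g) : Inv g W :=
  inv_of_fix fun _ hv => h hv

lemma pow_fix {g : V ≃ₗ[F] V} {v : V} (h : g v = v) (k : ℕ) : (g ^ k) v = v := by
  induction k with
  | zero => rfl
  | succ k ih => rw [pow_succ, mul_app, h, ih]

/-- invariant without non-zero fixed vectors -/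
structure FPF (g : V ≃ₗ[F] V) (W : Submodule F V) : Prop where
  inv : Inv g W
  fpf : ∀ v ∈ W, g v = v → v = 0

lemma FPF.mono {g : V ≃ₗ[F] V} {W X : Submodule F V} (h : FPF g W) (hX : X ≤ W) (hi : Inv g X) :
    FPF g X := ⟨hi, fun v hv => h.fpf v (hX hv)⟩

/-- `W` is the sum of its intersections with `A` and `A^⊥` -/
def Spl (Q : QuadraticForm F V) (W A : Submodule F V) : Prop :=
  ∀ w ∈ W, ∃ a ∈ W ⊓ A, ∃ c ∈ W ⊓ perp Q A, w = a + c

lemma Spl.sup {W A : Submodule F V} (h : Spl Q W A) : (W ⊓ A) ⊔ (W ⊓ perp Q A) = W := by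
  apply le_antisymm (sup_le inf_le_left inf_le_left)
  intro w hw
  obtain ⟨a, ha, c, hc, rfl⟩ := h w hw
  exact Submodule.add_mem_sup ha hc

lemma Spl.nd_left {W A : Submodule F V} (h : Spl Q W A) (hW : NdOn Q W) : NdOn Q (W ⊓ A) := by
  intro v hv h0
  refine hW v hv.1 fun x hx => ?_
  obtain ⟨a, ha, c, hc, rfl⟩ := h x hx
  rw [map_add, LinearMap.add_apply, h0 a ha, B_comm, hc.2 v hv.2, add_zero]

lemma Spl.nd_right {W A : Submodule F V} (h : Spl Q W A) (hW : NdOn Q W) :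
    NdOn Q (W ⊓ perp Q A) := by
  intro v hv h0
  refine hW v hv.1 fun x hx => ?_
  obtain ⟨a, ha, c, hc, rfl⟩ := h x hx
  rw [map_add, LinearMap.add_apply, h0 c hc, hv.2 a ha.2, add_zero]

lemma Spl.le_perp (W A : Submodule F V) : W ⊓ perp Q A ≤ perp Q (W ⊓ A) :=
  inf_le_right.trans (perp_anti inf_le_right)

lemma Spl.finrank [FiniteDimensional F V] {W A : Submodule F V} (h : Spl Q W A) (hA : NdOn Q A) :
    finrank F W = finrank F (W ⊓ A : Submodule F V) + finrank F (W ⊓ perp Q A : Submodule F V) := by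
  rw [← finrank_sup_of_disjoint, h.sup]
  exact (disjoint_of_perp hA le_rfl).mono inf_le_right inf_le_right

section avg
variable {r : ℕ} {g : V ≃ₗ[F] V}

lemma avg_fix (hg : g ^ r = 1) (x : V) :
    g (∑ k ∈ Finset.range r, (g ^ k) x) = ∑ k ∈ Finset.range r, (g ^ k) x := by
  have h1 := Finset.sum_range_succ (fun k => (g ^ k) x) r
  have h2 := Finset.sum_range_succ' (fun k => (g ^ k) x) r
  rw [h1, hg, pow_zero] at h2
  rw [map_sum, add_right_cancel h2]
  exact Finset.sum_congr rfl fun k _ => by rw [pow_succ']; rfl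

lemma B_avg (hO : g ∈ O Q) {v : V} (hv : g v = v) (x : V) :
    B Q v (∑ k ∈ Finset.range r, (g ^ k) x) = r * B Q v x := by
  rw [map_sum, Finset.sum_congr rfl (g := fun _ => B Q v x) fun k _ => by
    nth_rewrite 1 [← pow_fix hv k]; exact O_B (pow_mem hO k) v x]
  simp

lemma spl_Fx (hO : g ∈ O Q) (hg : g ^ r = 1) (hr : (r : F) ≠ 0) {W : Submodule F V}
    (hW : Inv g W) : Spl Q W (Fx g) := by
  intro w hw
  have h1 : (r : F)⁻¹ • ∑ k ∈ Finset.range r, (g ^ k) w ∈ W :=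
    W.smul_mem _ (W.sum_mem fun k _ => hW.pow k w hw)
  refine ⟨_, ⟨h1, Submodule.smul_mem _ _ (avg_fix hg w)⟩, w - _, ⟨W.sub_mem hw h1, fun u hu => ?_⟩,
    (add_sub_cancel _ _).symm⟩
  show B Q u _ = 0
  rw [map_sub, map_smul, B_avg hO hu, smul_eq_mul, ← mul_assoc, inv_mul_cancel₀ hr]; simp

lemma nd_Fx (hQ : Nd Q) (hO : g ∈ O Q) (hg : g ^ r = 1) (hr : (r : F) ≠ 0) : NdOn Q (Fx g) := by
  simpa using (spl_Fx hO hg hr (inv_top g)).nd_left hQ.ndOn_top

lemma fpf_perp_Fx [FiniteDimensional F V] (hQ : Nd Q) (hO : g ∈ O Q) (hg : g ^ r = 1)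
    (hr : (r : F) ≠ 0) : FPF g (perp Q (Fx g)) :=
  ⟨(inv_of_le_Fx le_rfl).perp hO, fun v hv h =>
    Submodule.disjoint_def.1 (disjoint_of_perp (nd_Fx hQ hO hg hr) le_rfl) v h hv⟩

end avg

variable (F) in
/-- numerical context: `r` an odd prime different from the characteristic, `i` the order of `q` -/
structure Ctx (r i : ℕ) : Prop where
  pr : r.Prime
  ne2 : r ≠ 2
  neF : (r : F) ≠ 0
  hi : i = orderOf ((Nat.card F : ℕ) : ZMod r)

/-- monic irreducible factor of the cyclotomic polynomial -/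
structure Fac (r : ℕ) (f : F[X]) : Prop where
  monic : f.Monic
  irr : Irreducible f
  dvd : f ∣ cyclotomic r F

/-- dimension of a block -/
def cc (i : ℕ) : ℕ := if Even i then i else 2 * i

/-- type of a sum of `j` blocks -/
def bt (i j : ℕ) : Prop := Odd i ∨ Even j

lemma cc_even {i : ℕ} (h : Even i) : cc i = i := if_pos h
lemma cc_odd {i : ℕ} (h : Odd i) : cc i = 2 * i := if_neg (Nat.not_even_iff_odd.2 h)
lemma cc_pos {i : ℕ} (h : 0 < i) : 0 < cc i := by unfold cc; split_ifs <;> omega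
lemma even_cc (i : ℕ) : Even (cc i) := by unfold cc; split_ifs with h; exact h; simp
lemma bt_even {i : ℕ} (h : Even i) (j : ℕ) : bt i j ↔ Even j :=
  or_iff_right (Nat.not_odd_iff_even.2 h)

section ctx
variable [Finite F] {r i : ℕ} (H : Ctx F r i)
include H

lemma Ctx.dvd_iff (n : ℕ) : i ∣ n ↔ Nat.card F ^ n ≡ 1 [MOD r] := by
  rw [H.hi, orderOf_dvd_iff_pow_eq_one, ← ZMod.natCast_eq_natCast_iff]; simp

lemma Ctx.dvd_iff' (n : ℕ) : i ∣ n ↔ ((Nat.card F : ℕ) : ZMod r) ^ n = 1 := by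
  rw [H.hi, orderOf_dvd_iff_pow_eq_one]

lemma Ctx.exists_char : ∃ p n : ℕ, p.Prime ∧ CharP F p ∧ Nat.card F = p ^ n ∧ p.Coprime r := by
  obtain ⟨p, hp⟩ := CharP.exists F
  have := Fintype.ofFinite F
  obtain ⟨n, hpp, hn⟩ := FiniteField.card F p
  refine ⟨p, n, hpp, hp, by rw [← hn, Nat.card_eq_fintype_card], ?_⟩
  rw [Nat.coprime_primes hpp H.pr]
  rintro rfl
  exact H.neF (CharP.cast_eq_zero F p)

lemma Ctx.q_ne : ((Nat.card F : ℕ) : ZMod r) ≠ 0 := by
  obtain ⟨p, n, hp, -, hn, hc⟩ := H.exists_char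
  rw [Ne, ZMod.natCast_eq_zero_iff, hn]
  intro h
  exact H.pr.one_lt.ne' (Nat.Coprime.eq_one_of_dvd hc.symm (H.pr.dvd_of_dvd_pow h))

lemma Ctx.dvd_pred : i ∣ r - 1 := by
  have := Fact.mk H.pr
  rw [H.dvd_iff']; exact ZMod.pow_card_sub_one_eq_one H.q_ne

lemma Ctx.pos : 0 < i := Nat.pos_of_dvd_of_pos H.dvd_pred (by have := H.pr.two_le; omega)

lemma Ctx.natDegree {f : F[X]} (hf : Fac r f) : f.natDegree = i := by
  obtain ⟨p, n, hp, hpF, hn, hc⟩ := H.exists_char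
  have := Fintype.ofFinite F
  have := Fact.mk hp
  rw [natDegree_of_dvd_cyclotomic_of_irreducible (Nat.card_eq_fintype_card.symm.trans hn) hc hf.dvd
    hf.irr, ← orderOf_units, H.hi, hn]
  rfl

lemma Ctx.sqfree : Squarefree (cyclotomic r F) := by
  have := Fact.mk H.pr
  have h1 : Squarefree (X ^ r - C 1 : F[X]) :=
    (separable_X_pow_sub_C (1 : F) H.neF one_ne_zero).squarefree
  exact h1.squarefree_of_dvd ⟨X - 1, by rw [cyclotomic_prime_mul_X_sub_one]; simp⟩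

lemma Ctx.exists_facs : ∃ ν : Multiset F[X], ν.Nodup ∧ (∀ f ∈ ν, Fac r f) ∧
    ν.prod = cyclotomic r F ∧ i * ν.card = r - 1 := by
  classical
  have h0 := cyclotomic_ne_zero r F
  have hm : ∀ f ∈ UniqueFactorizationMonoid.normalizedFactors (cyclotomic r F), Fac r f :=
    fun f hf => by
      obtain ⟨a, b, c⟩ := (Polynomial.mem_normalizedFactors_iff h0).1 hf
      exact ⟨b, a, c⟩
  have hp : (UniqueFactorizationMonoid.normalizedFactors (cyclotomic r F)).prod = cyclotomic r F := by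
    rw [UniqueFactorizationMonoid.prod_normalizedFactors_eq h0, (cyclotomic.monic r F).normalize_eq_self]
  refine ⟨_, (UniqueFactorizationMonoid.squarefree_iff_nodup_normalizedFactors h0).1 H.sqfree, hm,
    hp, ?_⟩
  have := natDegree_multiset_prod_of_monic _ fun f hf => (hm f hf).monic
  rw [hp, natDegree_cyclotomic, Nat.totient_prime H.pr,
    Multiset.map_congr rfl (g := fun _ => i) fun f hf => H.natDegree (hm f hf)] at this
  simp [this, mul_comm]

variable [FiniteDimensional F V] {g : V ≃ₗ[F] V} (hO : g ∈ O Q) (hg : g ^ r = 1)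
include hg

lemma Ctx.dvd_finrank {W : Submodule F V} (hW : FPF g W) : i ∣ finrank F W :=
  (H.dvd_iff _).2 (pow_finrank_modEq H.pr hg hW.inv hW.fpf)

lemma Ctx.ev_cyc {W : Submodule F V} (hW : FPF g W) : ∀ v ∈ W, ev g (cyclotomic r F) v = 0 := by
  intro v hv
  have := Fact.mk H.pr
  refine hW.fpf _ (hW.inv.ev _ v hv) ?_
  have h1 : ev g (X - 1) (ev g (cyclotomic r F) v) = 0 := by
    rw [← ev_mul, mul_comm, cyclotomic_prime_mul_X_sub_one, ev_sub, ev_X_pow, hg, ev_one]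
    exact sub_self v
  rwa [ev_sub, ev_X, ev_one, sub_eq_zero] at h1

lemma Ctx.finrank_Zc {W : Submodule F V} (hW : FPF g W) {f : F[X]} (hf : Fac r f) {v : V}
    (hv : v ∈ W) (h0 : v ≠ 0) (hk : ev g f v = 0) : finrank F (Zc g v) = i := by
  have h1 := finrank_Zc_le hf.monic hk
  rw [H.natDegree hf] at h1
  have h2 := H.dvd_finrank hg (hW.mono (Zc_le hW.inv hv) (inv_Zc g v))
  have h3 : finrank F (Zc g v) ≠ 0 := by
    rw [Ne, Submodule.finrank_eq_zero]
    intro h; exact h0 (by have := self_mem_Zc g v; rwa [h] at this)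
  exact le_antisymm h1 (Nat.le_of_dvd (Nat.pos_of_ne_zero h3) h2)

lemma Ctx.exists_min {W : Submodule F V} (hW : FPF g W) (h0 : W ≠ ⊥) :
    ∃ f, Fac r f ∧ ∃ X ≤ W, Inv g X ∧ finrank F X = i ∧ X ≤ Kr g f := by
  obtain ⟨v, hv, hv0⟩ := W.exists_mem_ne_zero_of_ne_bot h0
  obtain ⟨f, a, b, c, v', h1, h2, h3⟩ := exists_irred_kill hW.inv _ (cyclotomic_ne_zero r F) v hv hv0
    (H.ev_cyc hg hW v hv)
  exact ⟨f, ⟨a, b, c⟩, Zc g v', Zc_le hW.inv h1, inv_Zc g v',
    H.finrank_Zc hg hW ⟨a, b, c⟩ h1 h2 h3, Zc_le (inv_Kr g f) h3⟩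

include hO

lemma Ctx.nd_or_ts {X : Submodule F V} (hX : FPF g X) (hd : finrank F X = i) :
    NdOn Q X ∨ TS Q X := by
  have h1 := H.dvd_finrank hg (hX.mono (X := X ⊓ perp Q X) inf_le_left (hX.inv.inf (hX.inv.perp hO)))
  have h2 : finrank F (X ⊓ perp Q X : Submodule F V) ≤ i := hd ▸ Submodule.finrank_mono inf_le_left
  by_cases h0 : finrank F (X ⊓ perp Q X : Submodule F V) = 0
  · left
    rw [ndOn_iff_disjoint, disjoint_iff]
    exact Submodule.finrank_eq_zero.1 h0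
  · right
    have h3 : X ⊓ perp Q X = X := Submodule.eq_of_le_of_finrank_eq inf_le_left
      (hd ▸ le_antisymm h2 (Nat.le_of_dvd (Nat.pos_of_ne_zero h0) h1))
    have h4 : X ≤ perp Q X := inf_eq_left.1 h3
    let φ : X →ₗ[F] X := ((g : V →ₗ[F] V) - LinearMap.id).restrict
      fun v hv => X.sub_mem (hX.inv v hv) hv
    have h5 : Function.Surjective φ := LinearMap.injective_iff_surjective.1 (by
      rw [← LinearMap.ker_eq_bot, eq_bot_iff]
      intro v hv
      exact Subtype.ext (hX.fpf v v.2 (sub_eq_zero.1 (congrArg Subtype.val hv))))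
    intro v hv
    obtain ⟨w, hw⟩ := h5 ⟨v, hv⟩
    have h6 : v = g w - w := (congrArg Subtype.val hw).symm
    have h7 := B_self Q w.1
    rw [h4 w.2 w w.2] at h7
    rw [h6, Q_sub, hO w, h4 w.2 _ (hX.inv w w.2)]
    linear_combination -h7

lemma Ctx.even_finrank {W : Submodule F V} (hW : FPF g W) (hn : NdOn Q W) : Even (finrank F W) := by
  refine even_of_alt ((B Q).compl₂ (g.toLinearMap - (g⁻¹ : V ≃ₗ[F] V).toLinearMap)) _ W (fun v _ => ?_)
    (fun v hv h => ?_) rfl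
  · show B Q v (g v - g⁻¹ v) = 0
    rw [map_sub, ← O_B_inv hO, B_comm, sub_self]
  · have h1 : g v - g⁻¹ v = 0 := hn _ (W.sub_mem (hW.inv v hv) (hW.inv.inv v hv)) h
    have h2 : (g ^ 2) v = v := by
      rw [pow_two, mul_app, sub_eq_zero.1 h1, apply_inv_apply]
    obtain ⟨k, hk⟩ := H.pr.odd_of_ne_two H.ne2
    refine hW.fpf v hv ?_
    have := pow_fix h2 k
    rw [← pow_mul] at this
    nth_rewrite 1 [← this]
    rw [← mul_app, ← pow_succ', ← hk, hg]; rfl

lemma Ctx.partner {W U : Submodule F V} (hW : Inv g W) (hn : NdOn Q W) (hU : U ≤ W) (iU : Inv g U)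
    (tU : TS Q U) : ∃ U' ≤ W, Inv g U' ∧ Disjoint (W ⊓ perp Q U) U' ∧ NdOn Q (U ⊔ U') ∧
      finrank F (U ⊔ U' : Submodule F V) = 2 * finrank F U ∧ Plus Q (U ⊔ U') := by
  have hs : End.IsSemisimple (g.toLinearMap : End F V) :=
    End.isSemisimple_of_squarefree_aeval_eq_zero
      (separable_X_pow_sub_C (1 : F) H.neF one_ne_zero).squarefree
      (by rw [map_sub, map_pow, aeval_X, ← toEnd_pow, hg, aeval_C, map_one]; exact sub_self _)
  obtain ⟨C, hC, hc⟩ := End.isSemisimple_iff.1 hs (W ⊓ perp Q U)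
    ((End.mem_invtSubmodule _).2 (hW.inf (iU.perp hO)))
  have hC' : Inv g C := (End.mem_invtSubmodule _).1 hC
  have hd : Disjoint (W ⊓ perp Q U) (C ⊓ W) := hc.disjoint.mono_right inf_le_left
  have hsup : (W ⊓ perp Q U) ⊔ (C ⊓ W) = W := by
    rw [← sup_inf_assoc_of_le _ inf_le_left, hc.sup_eq_top, top_inf_eq]
  have d1 := finrank_sup_of_disjoint hd
  rw [hsup] at d1
  have d2 := hn.finrank_inf_perp hU
  have hUp : U ≤ W ⊓ perp Q U := le_inf hU tU.le_perp
  have d3 := finrank_sup_of_disjoint (hd.mono_left hUp)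
  refine ⟨C ⊓ W, inf_le_right, hC'.inf hW, hd, ?_, by omega, U, le_sup_left, tU, by omega⟩
  intro v hv h
  obtain ⟨u, hu, u', hu', rfl⟩ := Submodule.mem_sup.1 hv
  have h1 : u' = 0 := Submodule.disjoint_def.1 hd u' ⟨hu'.2, fun x hx => by
    have := h x (Submodule.mem_sup_left hx)
    rwa [map_add, tU.B_eq_zero hx hu, zero_add] at this⟩ hu'
  subst h1
  rw [add_zero] at h ⊢
  refine hn u (hU hu) fun x hx => ?_
  rw [← hsup] at hx
  obtain ⟨a, ha, b, hb, rfl⟩ := Submodule.mem_sup.1 hx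
  rw [map_add, LinearMap.add_apply, h b (Submodule.mem_sup_right hb), B_comm, ha.2 u hu, add_zero]

lemma Ctx.not_plus {X : Submodule F V} (hX : FPF g X) (hd : finrank F X = i) (hn : NdOn Q X) :
    Even i ∧ ¬ Plus Q X := by
  have he := H.even_finrank hO hg hX hn
  rw [hd] at he
  refine ⟨he, fun hp => ?_⟩
  obtain ⟨k, hk⟩ := he
  have h1 := N_plus k X hn (by omega) hp
  have h2 := (ZMod.natCast_eq_natCast_iff _ _ _).2 (N_modEq H.pr hg hO hX.inv hX.fpf)
  have h3 := congrArg (Nat.cast : ℕ → ZMod r) h1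
  have h4 := (H.dvd_iff' (2 * k)).1 ⟨1, by omega⟩
  push_cast at h2 h3
  rw [h2, h4] at h3
  have := Fact.mk H.pr
  have h5 : ((Nat.card F : ℕ) : ZMod r) ^ k = 1 := by
    by_contra h6
    have : ((Nat.card F : ℕ) : ZMod r) = 1 := by
      have h7 : (((Nat.card F : ℕ) : ZMod r) - 1) * (((Nat.card F : ℕ) : ZMod r) ^ k - 1) = 0 := by
        linear_combination -h3
      exact sub_eq_zero.1 ((mul_eq_zero.1 h7).resolve_right (sub_ne_zero.2 h6))
    exact h6 (by rw [this, one_pow])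
  have := Nat.le_of_dvd (by have := H.pos; omega) ((H.dvd_iff' k).2 h5)
  have := H.pos
  omega

omit H hO hg in
lemma FPF.compl {W A : Submodule F V} (hO : g ∈ O Q) (hW : FPF g W) (iA : Inv g A) :
    FPF g (W ⊓ perp Q A) := hW.mono inf_le_left (hW.inv.inf (iA.perp hO))

/-- dimension and type of invariant non-degenerate subspaces -/
theorem Ctx.type (n : ℕ) : ∀ W : Submodule F V, FPF g W → NdOn Q W → finrank F W = n →
    ∃ j, n = cc i * j ∧ (Plus Q W ↔ bt i j) := by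
  induction n using Nat.strong_induction_on with
  | _ n ih =>
  intro W hW hn hd
  by_cases h0 : W = ⊥
  · subst h0
    exact ⟨0, by simpa using hd.symm, iff_of_true plus_bot (Or.inr (by simp))⟩
  obtain ⟨f, hf, X, hX, iX, dX, -⟩ := H.exists_min hg hW h0
  have hpos := H.pos
  rcases H.nd_or_ts hO hg (hW.mono hX iX) dX with h | h
  · obtain ⟨he, hp⟩ := H.not_plus hO hg (hW.mono hX iX) dX h
    have d1 := hn.finrank_inf_perp hX
    obtain ⟨j, h1, h2⟩ := ih _ (by omega) _ (hW.compl hO iX) (hn.inf_perp h hX) rfl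
    have := plus_inf_perp hn h hX (H.even_finrank hO hg hW hn) (dX ▸ he)
    refine ⟨j + 1, by rw [cc_even he] at h1 ⊢; rw [mul_add]; omega, ?_⟩
    rw [this, h2, bt_even he, bt_even he, Nat.even_add_one]; tauto
  · obtain ⟨U', a, b, -, c, d, e⟩ := H.partner hO hg hW.inv hn hX iX h
    have hle : X ⊔ U' ≤ W := sup_le hX a
    have d1 := hn.finrank_inf_perp hle
    obtain ⟨j, h1, h2⟩ := ih _ (by omega) _ (hW.compl hO (iX.sup b)) (hn.inf_perp c hle) rfl
    have := plus_inf_perp hn c hle (H.even_finrank hO hg hW hn) (by rw [d]; simp)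
    rcases Nat.even_or_odd i with he | ho
    · refine ⟨j + 2, by rw [cc_even he] at h1 ⊢; rw [mul_add]; omega, ?_⟩
      rw [this, h2, bt_even he, bt_even he, Nat.even_add]; simp [e]
    · refine ⟨j + 1, by rw [cc_odd ho] at h1 ⊢; rw [mul_add]; omega, ?_⟩
      rw [this, h2]; simp [e, bt, ho]

lemma Ctx.B_Kr (he : Even i) {f : F[X]} {v : V} (hv : ev g f v = 0) (w : V) :
    B Q v (ev g f w) = 0 := by
  obtain ⟨k, hk⟩ := he
  have := Fact.mk H.pr
  have hpos := H.pos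
  have h1 : ((Nat.card F : ℕ) : ZMod r) ^ k = -1 := by
    have h2 := (H.dvd_iff' (k + k)).1 ⟨1, by omega⟩
    rw [pow_add] at h2
    refine (mul_self_eq_one_iff.1 h2).resolve_left fun h3 => ?_
    have := Nat.le_of_dvd (by omega) ((H.dvd_iff' k).2 h3)
    omega
  have h2 : g⁻¹ = g ^ (Nat.card F ^ k) := by
    rw [inv_eq_iff_mul_eq_one, ← pow_succ']
    obtain ⟨c, hc⟩ : r ∣ Nat.card F ^ k + 1 := by
      rw [← ZMod.natCast_eq_zero_iff]; push_cast; rw [h1]; simp
    rw [hc, pow_mul, hg, one_pow]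
  have := Fintype.ofFinite F
  have h3 : ∀ k : ℕ, expand F (Nat.card F ^ k) f = f ^ (Nat.card F ^ k) := by
    intro k
    induction k with
    | zero => simp
    | succ k ih =>
      rw [pow_succ', expand_mul, ih, map_pow, Nat.card_eq_fintype_card, FiniteField.expand_card,
        ← pow_mul]
  rw [B_ev hO, h2, ev, toEnd_pow, ← expand_aeval, h3]
  obtain ⟨m, hm⟩ : ∃ m, Nat.card F ^ k = m + 1 :=
    ⟨_, (Nat.succ_pred_eq_of_pos (pow_pos Nat.card_pos k)).symm⟩
  have := ev_mul g (f ^ m) f v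
  rw [hv, map_zero, ← pow_succ, ← hm, ev] at this
  rw [this]; simp

lemma Ctx.exists_block {W : Submodule F V} (hW : FPF g W) (hn : NdOn Q W) (h0 : W ≠ ⊥) :
    ∃ X ≤ W, Inv g X ∧ NdOn Q X ∧ finrank F X = cc i := by
  obtain ⟨f, hf, X, hX, iX, dX, kX⟩ := H.exists_min hg hW h0
  rcases H.nd_or_ts hO hg (hW.mono hX iX) dX with h | h
  · exact ⟨X, hX, iX, h, by rw [cc_even (H.not_plus hO hg (hW.mono hX iX) dX h).1, dX]⟩
  obtain ⟨U', a, b, dj, c, d, e⟩ := H.partner hO hg hW.inv hn hX iX h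
  have hle : X ⊔ U' ≤ W := sup_le hX a
  rcases Nat.even_or_odd i with he | ho
  · have kU : U' ≤ Kr g f := fun x hx => Submodule.disjoint_def.1 dj _
      ⟨a (b.ev f x hx), fun y hy => H.B_Kr hO hg he (kX hy) x⟩ (b.ev f x hx)
    have hpos := H.pos
    obtain ⟨v, hv, qv⟩ := NdOn.exists_nonsing' c (by
      intro h; rw [h, finrank_bot, dX] at d; omega)
    have dZ := H.finrank_Zc hg hW hf (hle hv) (ne_zero_of_Q_ne qv) (sup_le kX kU hv)
    refine ⟨Zc g v, Zc_le hW.inv (hle hv), inv_Zc g v, ?_, by rw [cc_even he, dZ]⟩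
    exact (H.nd_or_ts hO hg (hW.mono (Zc_le hW.inv (hle hv)) (inv_Zc g v)) dZ).resolve_right
      fun t => qv (t v (self_mem_Zc g v))
  · exact ⟨_, hle, iX.sup b, c, by rw [cc_odd ho, d, dX]⟩

/-- invariant non-degenerate subspaces of every possible dimension exist -/
theorem Ctx.exists_nd (j : ℕ) : ∀ W : Submodule F V, FPF g W → NdOn Q W →
    cc i * j ≤ finrank F W → ∃ X ≤ W, Inv g X ∧ NdOn Q X ∧ finrank F X = cc i * j := by
  induction j with
  | zero => exact fun W _ _ _ => ⟨⊥, bot_le, inv_bot g, ndOn_bot, by simp⟩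
  | succ j ih =>
    intro W hW hn hd
    have hpos := cc_pos H.pos
    rw [mul_add, mul_one] at hd
    obtain ⟨X, hX, iX, nX, dX⟩ := H.exists_block hO hg hW hn (by rintro rfl; simp at hd; omega)
    have d1 := hn.finrank_inf_perp hX
    obtain ⟨Y, hY, iY, nY, dY⟩ := ih _ (hW.compl hO iX) (hn.inf_perp nX hX) (by omega)
    have hp : Y ≤ perp Q X := hY.trans inf_le_right
    exact ⟨X ⊔ Y, sup_le hX (hY.trans inf_le_left), iX.sup iY, ndOn_sup nX nY hp,
      by rw [finrank_sup_of_perp nX hp, mul_add]; omega⟩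

omit H hO hg in
lemma sum_weight [Fintype V] [DecidableEq V] (X : Submodule F V) [DecidablePred (· ∈ X)]
    [DecidablePred fun v => Q v = 0] :
    ∑ v ∈ Finset.univ.filter (fun v => v ∈ X ∧ v ≠ 0),
      ((if Q v = 0 then (Nat.card F : ℤ) else 0) - 1) + (Nat.card F - 1) =
      Nat.card F * N Q X 0 - Nat.card F ^ finrank F X := by
  have h1 : Finset.univ.filter (fun v => v ∈ X) =
      insert 0 (Finset.univ.filter (fun v => v ∈ X ∧ v ≠ 0)) := by
    ext v; by_cases h : v = 0 <;> simp [h]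
  have h2 : ∑ v ∈ Finset.univ.filter (fun v => v ∈ X),
      ((if Q v = 0 then (Nat.card F : ℤ) else 0) - 1) =
      Nat.card F * N Q X 0 - Nat.card F ^ finrank F X := by
    rw [Finset.sum_sub_distrib, ← Finset.sum_filter, Finset.filter_filter]
    simp only [Finset.sum_const, nsmul_eq_mul, mul_one]
    rw [N, ← Set.ncard_coe_finset, ← Set.ncard_coe_finset, ← Nat.cast_pow, ← ncard_sub X, mul_comm]
    simp only [Finset.coe_filter, Finset.mem_univ, true_and]
    rfl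
  rw [← h2, h1, Finset.sum_insert (by simp)]
  simp [add_comm]

lemma Ctx.exists_ts_homog {Y : Submodule F V} (hY : FPF g Y) {f : F[X]} (hf : Fac r f)
    (kY : Y ≤ Kr g f) (hd : i < finrank F Y) : ∃ X ≤ Y, Inv g X ∧ TS Q X ∧ finrank F X = i := by
  classical
  by_contra hne
  have hZ : ∀ v ∈ Y, v ≠ 0 → finrank F (Zc g v) = i ∧ NdOn Q (Zc g v) := fun v hv h0 => by
    have dZ := H.finrank_Zc hg hY hf hv h0 (kY hv)
    exact ⟨dZ, (H.nd_or_ts hO hg (hY.mono (Zc_le hY.inv hv) (inv_Zc g v)) dZ).resolve_right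
      fun t => hne ⟨_, Zc_le hY.inv hv, inv_Zc g v, t, dZ⟩⟩
  have hpos := H.pos
  obtain ⟨v1, hv1, h1⟩ := Y.exists_mem_ne_zero_of_ne_bot (by rintro rfl; simp at hd)
  obtain ⟨d1, n1⟩ := hZ v1 hv1 h1
  have d2 := finrank_inf_perp_ge (Q := Q) Y (Zc g v1)
  obtain ⟨v2, hv2, h2⟩ := (Y ⊓ perp Q (Zc g v1)).exists_mem_ne_zero_of_ne_bot (by
    intro h; rw [h] at d2; simp at d2; omega)
  obtain ⟨d3, n2⟩ := hZ v2 hv2.1 h2
  have hp : Zc g v2 ≤ perp Q (Zc g v1) := Zc_le ((inv_Zc g v1).perp hO) hv2.2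
  have hle : Zc g v1 ⊔ Zc g v2 ≤ Y := sup_le (Zc_le hY.inv hv1) (Zc_le hY.inv hv2.1)
  have iH : Inv g (Zc g v1 ⊔ Zc g v2) := (inv_Zc g v1).sup (inv_Zc g v2)
  obtain ⟨he, p1⟩ := H.not_plus hO hg (hY.mono (Zc_le hY.inv hv1) (inv_Zc g v1)) d1 n1
  obtain ⟨-, p2⟩ := H.not_plus hO hg (hY.mono (Zc_le hY.inv hv2.1) (inv_Zc g v2)) d3 n2
  have pH : Plus Q (Zc g v1 ⊔ Zc g v2) :=
    (plus_sup_iff n1 n2 hp (d1 ▸ he) (d3 ▸ he)).2 (iff_of_false p1 p2)
  have dH := finrank_sup_of_perp n1 hp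
  have nH := ndOn_sup n1 n2 hp
  set A := Zc g v1 ⊔ Zc g v2 with hA
  have := finV (F := F) (V := V)
  have := Fintype.ofFinite V
  have s1 := sum_weight (Q := Q) A
  rw [← Finset.sum_fiberwise_of_maps_to (g := fun v => Zc g v)
    (t := (Finset.univ.filter (fun v => v ∈ A ∧ v ≠ 0)).image fun v => Zc g v)
    (fun v hv => Finset.mem_image_of_mem _ hv)] at s1
  obtain ⟨k, hk⟩ := he
  have hq : (2 : ℤ) ≤ Nat.card F := by exact_mod_cast Finite.one_lt_card
  have s2 : ∑ X ∈ (Finset.univ.filter (fun v => v ∈ A ∧ v ≠ 0)).image fun v => Zc g v,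
      ∑ v ∈ (Finset.univ.filter (fun v => v ∈ A ∧ v ≠ 0)) with Zc g v = X,
        ((if Q v = 0 then (Nat.card F : ℤ) else 0) - 1) ≤ 0 := by
    refine Finset.sum_nonpos fun X hX => ?_
    obtain ⟨x, hx, rfl⟩ := Finset.mem_image.1 hX
    obtain ⟨-, hxA, hx0⟩ := Finset.mem_filter.1 hx
    obtain ⟨d4, n4⟩ := hZ x (hle hxA) hx0
    have e : (Finset.univ.filter (fun v => v ∈ A ∧ v ≠ 0)).filter (fun v => Zc g v = Zc g x) =
        Finset.univ.filter (fun v => v ∈ Zc g x ∧ v ≠ 0) := by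
      ext v
      simp only [Finset.mem_filter, Finset.mem_univ, true_and]
      constructor
      · rintro ⟨⟨-, a⟩, b⟩; exact ⟨b ▸ self_mem_Zc g v, a⟩
      · rintro ⟨a, b⟩
        have hvA := Zc_le iH hxA a
        exact ⟨⟨hvA, b⟩, Submodule.eq_of_le_of_finrank_eq (Zc_le (inv_Zc g x) a)
          (by rw [d4, (hZ v (hle hvA) b).1])⟩
    have s3 := sum_weight (Q := Q) (Zc g x)
    have s4 := N_minus (k - 1) (Zc g x) n4 (by omega)
      (H.not_plus hO hg (hY.mono (Zc_le hY.inv (hle hxA)) (inv_Zc g x)) d4 n4).2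
    rw [show 2 * (k - 1 + 1) = i by omega, show k - 1 + 2 = (k - 1 + 1) + 1 by omega,
      pow_succ _ (k - 1 + 1)] at s4
    rw [e, d4] at *
    zify at s4
    have : (0 : ℤ) < (Nat.card F : ℤ) ^ (k - 1 + 1) := by positivity
    nlinarith
  have s5 := N_plus i A nH (by omega) pH
  rw [pow_succ] at s5
  zify at s5
  rw [dH, d1, d3, ← two_mul] at s1
  have : (Nat.card F : ℤ) ^ 1 ≤ (Nat.card F : ℤ) ^ i := pow_le_pow_right₀ (by omega) hpos
  nlinarith

lemma Ctx.exists_ts_min {W : Submodule F V} (hW : FPF g W) (h0 : W ≠ ⊥)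
    (hd : Odd i ∨ r - 1 < finrank F W) : ∃ X ≤ W, Inv g X ∧ TS Q X ∧ finrank F X = i := by
  rcases hd with ho | hd
  · obtain ⟨f, hf, X, hX, iX, dX, -⟩ := H.exists_min hg hW h0
    exact ⟨X, hX, iX, (H.nd_or_ts hO hg (hW.mono hX iX) dX).resolve_left fun h =>
      Nat.not_even_iff_odd.2 ho (H.not_plus hO hg (hW.mono hX iX) dX h).1, dX⟩
  · obtain ⟨ν, -, h1, h2, h3⟩ := H.exists_facs
    by_contra hne
    have h4 := finrank_Kr_prod_le hW.inv ν
    rw [h2, inf_eq_left.2 (fun v hv => H.ev_cyc hg hW v hv)] at h4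
    have h5 := Multiset.sum_le_card_nsmul (ν.map fun f => finrank F (W ⊓ Kr g f : Submodule F V)) i
      (fun x hx => by
        obtain ⟨f, hf, rfl⟩ := Multiset.mem_map.1 hx
        by_contra h6
        obtain ⟨X, a, b⟩ := H.exists_ts_homog hO hg (hW.mono inf_le_left (hW.inv.inf (inv_Kr g f)))
          (h1 f hf) inf_le_right (not_le.1 h6)
        exact hne ⟨X, a.trans inf_le_left, b⟩)
    rw [Multiset.card_map, smul_eq_mul, mul_comm] at h5
    omega

/-- invariant totally singular subspaces -/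
theorem Ctx.exists_ts (n : ℕ) : ∀ W : Submodule F V, FPF g W → NdOn Q W → finrank F W = n →
    ∃ h o, n = i * (2 * h + o) ∧ i * o ≤ r - 1 ∧ (Odd i → o = 0) ∧
      ∀ j ≤ h, ∃ T ≤ W, Inv g T ∧ TS Q T ∧ finrank F T = i * j := by
  induction n using Nat.strong_induction_on with
  | _ n ih =>
  intro W hW hn hd
  have hb : ∃ T ≤ W, Inv g T ∧ TS Q T ∧ finrank F T = i * 0 :=
    ⟨⊥, bot_le, inv_bot g, by simp [TS], by simp⟩
  by_cases h0 : W = ⊥
  · subst h0
    exact ⟨0, 0, by simpa using hd.symm, by simp, fun _ => rfl, fun j hj => by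
      rwa [Nat.le_zero.1 hj]⟩
  by_cases h1 : Odd i ∨ r - 1 < finrank F W
  · obtain ⟨X, hX, iX, tX, dX⟩ := H.exists_ts_min hO hg hW h0 h1
    obtain ⟨U', a, b, -, c, d, e⟩ := H.partner hO hg hW.inv hn hX iX tX
    have hle : X ⊔ U' ≤ W := sup_le hX a
    have d1 := hn.finrank_inf_perp hle
    have hpos := H.pos
    obtain ⟨h, o, e1, e2, e3, e4⟩ := ih _ (by omega) _ (hW.compl hO (iX.sup b))
      (hn.inf_perp c hle) rfl
    refine ⟨h + 1, o, by rw [show i * (2 * (h + 1) + o) = i * (2 * h + o) + 2 * i by ring]; omega,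
      e2, e3, fun j hj => ?_⟩
    rcases j with _ | j
    · exact hb
    obtain ⟨T, t1, t2, t3, t4⟩ := e4 j (by omega)
    have hp : T ≤ perp Q (X ⊔ U') := t1.trans inf_le_right
    refine ⟨X ⊔ T, sup_le hX (t1.trans inf_le_left), iX.sup t2,
      ts_sup tX t3 (hp.trans (perp_anti le_sup_left)), ?_⟩
    rw [finrank_sup_of_disjoint ((disjoint_of_perp c hp).mono_left le_sup_left), mul_add]; omega
  · obtain ⟨o, ho⟩ := H.dvd_finrank hg hW
    exact ⟨0, o, by simpa [hd] using ho, by omega, fun h => absurd (Or.inl h) h1, fun j hj => by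
      rwa [Nat.le_zero.1 hj]⟩

lemma Ctx.nd_Kr (he : Even i) {W : Submodule F V} (hW : FPF g W) (hn : NdOn Q W) {f : F[X]}
    (hf : Fac r f) : NdOn Q (W ⊓ Kr g f) := by
  obtain ⟨h, hh⟩ := hf.dvd
  have hs := H.sqfree
  rw [hh, squarefree_mul_iff] at hs
  obtain ⟨a, b, hab⟩ := hs.1.isCoprime
  intro v hv h0
  refine hn v hv.1 fun w hw => ?_
  rw [← ev_one g w, ← hab, ev_add, map_add, LinearMap.add_apply, mul_comm a, ev_mul, B_comm,
    H.B_Kr hO hg he hv.2, zero_add]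
  refine h0 _ ⟨hW.inv.ev _ w hw, ?_⟩
  show ev g f _ = 0
  rw [← ev_mul, show f * (b * h) = b * (f * h) by ring, ← hh, ev_mul, H.ev_cyc hg hW w hw, map_zero]

end ctx

end Cfsg.Agent.H2.Oel
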