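import Cfsg.Agent.H2.Oel3

/-! Orthogonal groups, prime order elements, part 4: construction of semisimple elements. -/

set_option autoImplicit false
set_option linter.unusedSectionVars false

namespace Cfsg.Agent.H2.Oel

open Module Cfsg.Agent.Orth Cfsg.Agent.H8 Polynomial

variable {F V : Type*} [Field F] [AddCommGroup V] [Module F V] {Q : QuadraticForm F V}
  [Finite F] [FiniteDimensional F V]

lemma eq_one_of_OW {W : Submodule F V} (hW : NdOn Q W) {g : V ≃ₗ[F] V} (hg : g ∈ OW Q W)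
    (h : ∀ w ∈ W, g w = w) : g = 1 := by
  ext x
  obtain ⟨a, ha, b, hb, rfl⟩ := hW.exists_decomp x
  rw [map_add, h a ha, hg.2 b hb]; rfl

section inter
variable {V' : Type*} [AddCommGroup V'] [Module F V'] {g : V ≃ₗ[F] V} {g' : V' ≃ₗ[F] V'}
  {e : V' →ₗ[F] V}

lemma pow_inter (h : ∀ v, g (e v) = e (g' v)) (k : ℕ) (v : V') : (g ^ k) (e v) = e ((g' ^ k) v) := by
  induction k with
  | zero => rfl
  | succ k ih => rw [pow_succ', pow_succ', mul_app, mul_app, ih, h]

lemma ev_inter (h : ∀ v, g (e v) = e (g' v)) (P : F[X]) (v : V') :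
    ev g P (e v) = e (ev g' P v) := by
  induction P using Polynomial.induction_on' with
  | add p q hp hq => rw [ev_add, ev_add, hp, hq, map_add]
  | monomial n a => rw [ev_monomial, ev_monomial, pow_inter h, map_smul]

lemma transport' (hQ : Nd Q) {Q' : QuadraticForm F V'} (hQ' : Nd Q') {W : Submodule F V}
    (hW : NdOn Q W) (h : Iso Q' ⊤ Q W) (hO : g' ∈ O Q') {r : ℕ} (hr : g' ^ r = 1)
    (hf : FPF g' ⊤) : ∃ g ∈ OW Q W, g ^ r = 1 ∧ FPF g W ∧ ∀ P, (∀ v, ev g' P v = 0) → W ≤ Kr g P := by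
  obtain ⟨e, g, h1, h2, h3, h4⟩ := exists_transport hQ hQ' hW h g'.toLinearMap hO
  refine ⟨g, h1, eq_one_of_OW hW (pow_mem h1 r) fun w hw => ?_, ⟨OW.inv hQ h1, fun w hw h => ?_⟩,
    fun P hP w hw => ?_⟩
  · obtain ⟨v, rfl⟩ := (h3 w).1 hw
    rw [pow_inter h4, hr]; rfl
  · obtain ⟨v, rfl⟩ := (h3 w).1 hw
    rw [hf.fpf v trivial (h2 ((h4 v).symm.trans h)), map_zero]
  · obtain ⟨v, rfl⟩ := (h3 w).1 hw
    rw [mem_Kr, ev_inter h4, hP, map_zero]

end inter

section prod
variable (hQ : Nd Q) {A C : Submodule F V} (hA : NdOn Q A) (h : C ≤ perp Q A)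
  {g k : V ≃ₗ[F] V} (hg : g ∈ OW Q A) (hk : k ∈ OW Q C)
include hQ h hg hk

lemma prod_left : ∀ a ∈ A, (g * k) a = g a := fun a ha => by
  rw [mul_app, hk.2 a (le_perp_comm h ha)]

lemma prod_right : ∀ c ∈ C, (g * k) c = k c := fun c hc => by
  rw [mul_app, hg.2 _ (h (OW.inv hQ hk c hc))]

lemma prod_mem : g * k ∈ OW Q (A ⊔ C) := mul_mem (OW_mono le_sup_left hg) (OW_mono le_sup_right hk)

include hA

lemma prod_pow {r : ℕ} (h1 : g ^ r = 1) (h2 : k ^ r = 1) : (g * k) ^ r = 1 := by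
  rw [(OW.commute hQ hA h hg hk).mul_pow, h1, h2, one_mul]

lemma prod_Kr (P : F[X]) : (A ⊔ C) ⊓ Kr (g * k) P ≤ (A ⊓ Kr g P) ⊔ (C ⊓ Kr k P) := by
  rintro v ⟨hv, h0⟩
  obtain ⟨a, ha, c, hc, rfl⟩ := Submodule.mem_sup.1 hv
  have iA := OW.inv hQ hg
  have iC := OW.inv hQ hk
  rw [SetLike.mem_coe, mem_Kr, map_add,
    ← ev_congr iA (fun v hv => (prod_left hQ h hg hk v hv).symm) P a ha,
    ← ev_congr iC (fun v hv => (prod_right hQ h hg hk v hv).symm) P c hc] at h0
  have h1 : ev g P a = 0 := Submodule.disjoint_def.1 (disjoint_of_perp hA h) _ (iA.ev P a ha)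
    (by rw [eq_neg_of_add_eq_zero_left h0]; exact C.neg_mem (iC.ev P c hc))
  rw [h1, zero_add] at h0
  exact Submodule.add_mem_sup ⟨ha, h1⟩ ⟨hc, h0⟩

lemma prod_fix {a c : V} (ha : a ∈ A) (hc : c ∈ C) (e : (g * k) (a + c) = a + c) :
    g a = a ∧ k c = c := by
  rw [map_add, prod_left hQ h hg hk a ha, prod_right hQ h hg hk c hc] at e
  have h1 : g a - a = c - k c := by rw [sub_eq_sub_iff_add_eq_add, e, add_comm]
  have h2 : g a - a = 0 := Submodule.disjoint_def.1 (disjoint_of_perp hA h) _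
    (A.sub_mem (OW.inv hQ hg a ha) ha) (h1 ▸ C.sub_mem hc (OW.inv hQ hk c hc))
  rw [h2] at h1
  exact ⟨sub_eq_zero.1 h2, (sub_eq_zero.1 h1.symm).symm⟩

lemma prod_fpf (h1 : FPF g A) (h2 : FPF k C) : FPF (g * k) (A ⊔ C) := by
  refine ⟨OW.inv hQ (prod_mem hQ h hg hk), fun v hv e => ?_⟩
  obtain ⟨a, ha, c, hc, rfl⟩ := Submodule.mem_sup.1 hv
  obtain ⟨e1, e2⟩ := prod_fix hQ hA h hg hk ha hc e
  rw [h1.fpf a ha e1, h2.fpf c hc e2, add_zero]

end prod

lemma Fx_eq_perp (hQ : Nd Q) {W : Submodule F V} (hW : NdOn Q W) {g : V ≃ₗ[F] V}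
    (hg : g ∈ OW Q W) (hf : FPF g W) : perp Q (Fx g) = W := by
  rw [← hQ.perp_perp W]
  congr 1
  apply le_antisymm _ (fun v hv => hg.2 v hv)
  intro v hv
  obtain ⟨a, ha, b, hb, rfl⟩ := hW.exists_decomp v
  rw [mem_Fx, map_add, hg.2 b hb, add_left_inj] at hv
  rw [hf.fpf a ha hv, zero_add]; exact hb

section ctx
variable {r i : ℕ} (H : Ctx F r i)
include H

lemma Ctx.root {f : F[X]} (hf : Fac r f) :
    AdjoinRoot.root f ^ r = 1 ∧ AdjoinRoot.root f ≠ 1 := by
  have := Fact.mk H.pr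
  have := Fact.mk hf.irr
  have h1 : aeval (AdjoinRoot.root f) (cyclotomic r F) = 0 := by
    rw [AdjoinRoot.aeval_eq, AdjoinRoot.mk_eq_zero]; exact hf.dvd
  constructor
  · have := congrArg (aeval (AdjoinRoot.root f)) (cyclotomic_prime_mul_X_sub_one F r)
    rw [map_mul, h1, zero_mul, map_sub, map_pow, aeval_X, map_one] at this
    exact (sub_eq_zero.1 this.symm)
  · intro h
    rw [h, ← map_one (algebraMap F (AdjoinRoot f)), aeval_algebraMap_apply, coe_aeval_eq_eval,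
      eval_one_cyclotomic_prime, map_eq_zero] at h1
    exact H.neF h1

omit H in
lemma mul_model {K : Type*} [Field K] [Algebra F K] {g : K ≃ₗ[F] K} {ζ : K}
    (hg : ∀ v, g v = ζ * v) (k : ℕ) (v : K) : (g ^ k) v = ζ ^ k * v := by
  induction k with
  | zero => simp
  | succ k ih => rw [pow_succ', mul_app, ih, hg]; ring

lemma Ctx.blockE (hQ : Nd Q) (he : Even i) {f : F[X]} (hf : Fac r f) {W : Submodule F V}
    (hW : NdOn Q W) (hd : finrank F W = i) (hp : ¬ Plus Q W) :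
    ∃ g ∈ OW Q W, g ^ r = 1 ∧ FPF g W ∧ W ≤ Kr g f := by
  have := Fact.mk H.pr
  have := Fact.mk hf.irr
  have := hf.monic.finite_adjoinRoot
  have := Fintype.ofFinite F
  have : Finite (AdjoinRoot f) := Module.finite_of_finite F
  have := Fintype.ofFinite (AdjoinRoot f)
  obtain ⟨z1, z2⟩ := H.root hf
  set ζ := AdjoinRoot.root f with hζ
  have dK : finrank F (AdjoinRoot f) = i := by
    rw [(AdjoinRoot.powerBasis' hf.monic).finrank]; exact H.natDegree hf
  obtain ⟨k, hk⟩ := he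
  have hpos := H.pos
  let σ := FiniteField.frobeniusAlgHom F (AdjoinRoot f) ^ k
  have hσ : ∀ x, σ x = x ^ (Fintype.card F ^ k) := fun x => by
    simp only [σ, AlgHom.coe_pow, FiniteField.coe_frobeniusAlgHom, pow_iterate]
  have hσσ : ∀ x, σ (σ x) = x := fun x => by
    rw [hσ, hσ, ← pow_mul, ← pow_add, ← hk, ← dK, ← Module.card_eq_pow_finrank,
      FiniteField.pow_card]
  have h1 : ((Nat.card F : ℕ) : ZMod r) ^ k = -1 := by
    have h2 := (H.dvd_iff' (k + k)).1 ⟨1, by omega⟩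
    rw [pow_add] at h2
    refine (mul_self_eq_one_iff.1 h2).resolve_left fun h3 => ?_
    have := Nat.le_of_dvd (by omega) ((H.dvd_iff' k).2 h3)
    omega
  have hζσ : ζ * σ ζ = 1 := by
    obtain ⟨c, hc⟩ : r ∣ Nat.card F ^ k + 1 := by
      rw [← ZMod.natCast_eq_zero_iff]; push_cast; rw [h1]; simp
    rw [hσ, ← pow_succ', ← Nat.card_eq_fintype_card, hc, pow_mul, z1, one_pow]
  have hz : ζ + σ ζ ≠ 0 := by
    intro h
    have h4 : ζ ^ 4 = 1 := by
      have : ζ * ζ = -1 := by linear_combination ζ * h - hζσ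
      linear_combination (ζ * ζ - 1) * this
    have h5 := (pow_eq_one_iff_of_coprime (show Nat.Coprime 4 r from
      Nat.Coprime.pow_left 2 ((Nat.coprime_primes Nat.prime_two H.pr).2 H.ne2.symm))).1 ⟨h4, z1⟩
    exact z2 h5
  obtain ⟨l, hl⟩ := Module.Projective.exists_dual_ne_zero F hz
  let b : LinearMap.BilinMap F (AdjoinRoot f) F :=
    ((LinearMap.mul F (AdjoinRoot f)).compl₂ σ.toLinearMap).compr₂ l
  let Q' : QuadraticForm F (AdjoinRoot f) := b.toQuadraticMap
  have hQ'v : ∀ x, Q' x = l (x * σ x) := fun x => rfl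
  have hB : ∀ x y, B Q' x y = l (x * σ y) + l (y * σ x) := fun x y =>
    LinearMap.BilinMap.polar_toQuadraticMap x y
  have hQ' : Nd Q' := by
    intro v hv
    by_contra h0
    have h2 : σ v ≠ 0 := (map_ne_zero σ).2 h0
    have := hv (ζ / σ v)
    rw [hB, div_mul_cancel₀ _ h2, map_div₀, hσσ, mul_div_cancel₀ _ h0, ← map_add] at this
    exact hl this
  obtain ⟨g', hO, hg'⟩ := exists_O_of_lin hQ' (LinearMap.mul F _ ζ) fun v => by
    rw [hQ'v, hQ'v, LinearMap.mul_apply', map_mul σ, show ζ * v * (σ ζ * σ v) = (ζ * σ ζ) * (v * σ v)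
      by ring, hζσ, one_mul]
  have hg'' : ∀ v, g' v = ζ * v := hg'
  have hr : g' ^ r = 1 := by ext v; rw [mul_model hg'', z1, one_mul]; rfl
  have hfp : FPF g' ⊤ := ⟨inv_top _, fun v _ h => by
    rw [hg''] at h
    exact (mul_eq_zero.1 (show (ζ - 1) * v = 0 by linear_combination h)).resolve_left
      (sub_ne_zero.2 z2)⟩
  have hp' := (H.not_plus hO hr hfp (by rw [finrank_top, dK]) hQ'.ndOn_top).2
  obtain ⟨g, a1, a2, a3, a4⟩ := transport' hQ hQ' hW (iso_of_type k _ _ hQ'.ndOn_top hW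
    (by rw [finrank_top]; omega) (by omega) (iff_of_false hp' hp)) hO hr hfp
  refine ⟨g, a1, a2, a3, a4 f fun v => ?_⟩
  have : ∀ P : F[X], ev g' P v = aeval ζ P * v := fun P => by
    induction P using Polynomial.induction_on' with
    | add p q hp hq => rw [ev_add, hp, hq, map_add, add_mul]
    | monomial n a => rw [ev_monomial, mul_model hg'', aeval_monomial, Algebra.smul_def, mul_assoc]
  rw [this, hζ, AdjoinRoot.aeval_eq, AdjoinRoot.mk_self, zero_mul]

lemma Ctx.blockO (hQ : Nd Q) (ho : Odd i) {W : Submodule F V}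
    (hW : NdOn Q W) (hd : finrank F W = 2 * i) (hp : Plus Q W) :
    ∃ g ∈ OW Q W, g ^ r = 1 ∧ FPF g W := by
  obtain ⟨ν, -, h1, -, h3⟩ := H.exists_facs
  obtain ⟨f, hf'⟩ := Multiset.card_pos_iff_exists_mem.1 (show 0 < ν.card by
    have := H.pr.two_le
    rcases Nat.eq_zero_or_pos ν.card with h | h
    · rw [h] at h3; omega
    · exact h)
  have hf := h1 f hf'
  have := Fact.mk hf.irr
  have := hf.monic.finite_adjoinRoot
  obtain ⟨z1, z2⟩ := H.root hf
  set ζ := AdjoinRoot.root f with hζ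
  have z0 : ζ ≠ 0 := by
    intro h; rw [h, zero_pow H.pr.ne_zero] at z1; exact zero_ne_one z1
  have dK : finrank F (AdjoinRoot f) = i := by
    rw [(AdjoinRoot.powerBasis' hf.monic).finrank]; exact H.natDegree hf
  obtain ⟨l, hl⟩ := Module.Projective.exists_dual_ne_zero F (one_ne_zero (α := AdjoinRoot f))
  let b : LinearMap.BilinMap F (AdjoinRoot f × AdjoinRoot f) F :=
    ((LinearMap.mul F (AdjoinRoot f)).compl₁₂ (LinearMap.fst F _ _) (LinearMap.snd F _ _)).compr₂ l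
  let Q' : QuadraticForm F (AdjoinRoot f × AdjoinRoot f) := b.toQuadraticMap
  have hQ'v : ∀ x, Q' x = l (x.1 * x.2) := fun x => rfl
  have hB : ∀ x y, B Q' x y = l (x.1 * y.2) + l (y.1 * x.2) := fun x y =>
    LinearMap.BilinMap.polar_toQuadraticMap x y
  have hQ' : Nd Q' := by
    intro v hv
    refine Prod.ext ?_ ?_
    · by_contra h0
      have := hv (0, v.1⁻¹)
      rw [hB, zero_mul, map_zero, zero_add, mul_inv_cancel₀ h0] at this
      exact hl this
    · by_contra h0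
      have := hv (v.2⁻¹, 0)
      rw [hB, mul_zero, map_zero, add_zero, inv_mul_cancel₀ h0] at this
      exact hl this
  obtain ⟨g', hO, hg'⟩ := exists_O_of_lin hQ'
    ((LinearMap.mul F _ ζ).prodMap (LinearMap.mul F _ ζ⁻¹)) fun v => by
    rw [hQ'v, hQ'v]
    congr 1
    simp only [LinearMap.prodMap_apply, LinearMap.mul_apply']
    field_simp
  have hg'' : ∀ v, g' v = (ζ * v.1, ζ⁻¹ * v.2) := hg'
  have hk : ∀ (k : ℕ) v, (g' ^ k) v = (ζ ^ k * v.1, ζ⁻¹ ^ k * v.2) := fun k v => by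
    induction k with
    | zero => simp
    | succ k ih => rw [pow_succ', mul_app, ih, hg'']; simp only [pow_succ', mul_assoc]
  have hr : g' ^ r = 1 := by
    refine LinearEquiv.ext fun v => ?_
    rw [hk, inv_pow, z1, inv_one, one_mul, one_mul]; rfl
  have hfp : FPF g' ⊤ := ⟨inv_top _, fun v _ h => by
    rw [hg'', Prod.ext_iff] at h
    refine Prod.ext ((mul_eq_zero.1 (show (ζ - 1) * v.1 = 0 by linear_combination h.1)).resolve_left
      (sub_ne_zero.2 z2)) ((mul_eq_zero.1 (show (ζ⁻¹ - 1) * v.2 = 0 by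
        linear_combination h.2)).resolve_left (sub_ne_zero.2 (by simpa using z2)))⟩
  obtain ⟨j, -, hp'⟩ := H.type hO hr _ ⊤ hfp hQ'.ndOn_top rfl
  obtain ⟨g, a1, a2, a3, -⟩ := transport' hQ hQ' hW (iso_of_type i _ _ hQ'.ndOn_top hW
    (by rw [finrank_top, finrank_prod]; omega) hd (iff_of_true (hp'.2 (Or.inl ho)) hp)) hO hr hfp
  exact ⟨g, a1, a2, a3⟩

open Classical in
theorem Ctx.buildE (hQ : Nd Q) (he : Even i) (L : Multiset F[X]) : (∀ f ∈ L, Fac r f) →
    ∀ W : Submodule F V, NdOn Q W → finrank F W = i * L.card → (Plus Q W ↔ Even L.card) →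
    ∃ g ∈ OW Q W, g ^ r = 1 ∧ FPF g W ∧
      ∀ f, Fac r f → finrank F (W ⊓ Kr g f : Submodule F V) ≤ i * L.count f := by
  induction L using Multiset.induction_on with
  | empty =>
    intro _ W _ hd _
    obtain rfl : W = ⊥ := Submodule.finrank_eq_zero.1 (by simpa using hd)
    exact ⟨1, one_mem _, one_pow _, ⟨inv_bot _, fun v hv _ => hv⟩, fun f _ => by simp⟩
  | cons f L ih =>
    intro hL W hW hd hp
    have hpos := H.pos
    rw [Multiset.card_cons] at hd hp
    rw [mul_add, mul_one] at hd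
    obtain ⟨X, hX, nX, dX, pX⟩ := exists_type' hW False he (by omega) (by omega) (fun h => by
      have : L.card = 0 := by
        rcases Nat.eq_zero_or_pos L.card with h | h
        · exact h
        · have := Nat.mul_pos hpos h; omega
      rw [hp, this]; simp)
    have d1 := hW.finrank_inf_perp hX
    have hf := hL f (Multiset.mem_cons_self _ _)
    obtain ⟨g1, a1, a2, a3, a4⟩ := H.blockE hQ he hf nX dX (by simpa using pX)
    obtain ⟨g2, b1, b2, b3, b4⟩ := ih (fun f hf => hL f (Multiset.mem_cons_of_mem hf)) _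
      (hW.inf_perp nX hX) (by omega) (by
        have := plus_inf_perp hW nX hX (by rw [hd]; exact (he.mul_right _).add he) (dX ▸ he)
        rw [hp, pX, Nat.even_add_one] at this
        tauto)
    have e := sup_inf_perp nX hX
    refine ⟨g1 * g2, e ▸ prod_mem hQ inf_le_right a1 b1, prod_pow hQ nX inf_le_right a1 b1 a2 b2,
      e ▸ prod_fpf hQ nX inf_le_right a1 b1 a3 b3, fun f' hf' => ?_⟩
    have h1 := prod_Kr hQ nX inf_le_right a1 b1 f'
    rw [e] at h1
    have h2 := (Submodule.finrank_mono h1).trans (Orth.finrank_sup_le _ _)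
    have h3 := b4 f' hf'
    rw [Multiset.count_cons, mul_add]
    split_ifs with h4
    · have := Submodule.finrank_mono (inf_le_left : X ⊓ Kr g1 f' ≤ X)
      omega
    · have h5 : X ⊓ Kr g1 f' = ⊥ := by
        rw [eq_bot_iff]
        intro v hv
        refine eq_zero_of_coprime (g := g1) ?_ hv.2 (a4 hv.1)
        rw [hf'.irr.coprime_iff_not_dvd]
        exact fun h => h4 (eq_of_monic_of_associated hf'.monic hf.monic
          (hf'.irr.associated_of_dvd hf.irr h))
      rw [h5, finrank_bot] at h2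
      omega

theorem Ctx.buildO (hQ : Nd Q) (ho : Odd i) (a : ℕ) :
    ∀ W : Submodule F V, NdOn Q W → finrank F W = 2 * i * a → Plus Q W →
    ∃ g ∈ OW Q W, g ^ r = 1 ∧ FPF g W := by
  induction a with
  | zero =>
    intro W _ hd _
    obtain rfl : W = ⊥ := Submodule.finrank_eq_zero.1 (by simpa using hd)
    exact ⟨1, one_mem _, one_pow _, ⟨inv_bot _, fun v hv _ => hv⟩⟩
  | succ a ih =>
    intro W hW hd hp
    rw [mul_add, mul_one] at hd
    obtain ⟨X, hX, nX, dX, pX⟩ := exists_type' hW True (u := 2 * i) (by simp) (by omega)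
      (fun _ => trivial) (fun _ => iff_of_true trivial hp)
    have d1 := hW.finrank_inf_perp hX
    obtain ⟨g1, a1, a2, a3⟩ := H.blockO hQ ho nX dX (pX.2 trivial)
    obtain ⟨g2, b1, b2, b3⟩ := ih _ (hW.inf_perp nX hX) (by omega) (by
      rw [← Plus.sup_iff nX (hW.inf_perp nX hX) inf_le_right (pX.2 trivial), sup_inf_perp nX hX]
      exact hp)
    have e := sup_inf_perp nX hX
    exact ⟨g1 * g2, e ▸ prod_mem hQ inf_le_right a1 b1, prod_pow hQ nX inf_le_right a1 b1 a2 b2,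
      e ▸ prod_fpf hQ nX inf_le_right a1 b1 a3 b3⟩

/-- existence of elements with `a` blocks and Witt index `h` -/
theorem Ctx.exists_elt (hQ : Nd Q) {a h : ℕ} (h1 : cc i * a ≤ finrank F V)
    (h2 : cc i * a = finrank F V → (Plus Q ⊤ ↔ bt i a)) (h3 : Odd i → h = a)
    (h4 : Even i → 2 * h ≤ a ∧ a ≤ 2 * h + (r - 1) / i) :
    ∃ g ∈ O Q, g ^ r = 1 ∧ finrank F (perp Q (Fx g)) = cc i * a ∧
      ∀ T ≤ perp Q (Fx g), Inv g T → TS Q T → finrank F T ≤ i * h := by
  classical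
  have hpos := H.pos
  obtain ⟨W, -, nW, dW, pW⟩ := exists_type' hQ.ndOn_top (bt i a) ((even_cc i).mul_right a)
    (by rwa [finrank_top]) (fun h => by
      have : a = 0 := (mul_eq_zero.1 h).resolve_left (cc_pos hpos).ne'
      exact Or.inr (by simp [this])) (fun h => (h2 (by rw [h, finrank_top])).symm)
  rcases Nat.even_or_odd i with he | ho
  · obtain ⟨ν, n1, n2, n3, n4⟩ := H.exists_facs
    obtain ⟨h5, h6⟩ := h4 he
    have h7 : (r - 1) / i = ν.card := by rw [← n4, Nat.mul_div_cancel_left _ hpos]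
    obtain ⟨f₀, hf₀⟩ := Multiset.card_pos_iff_exists_mem.1 (show 0 < ν.card by
      have := H.pr.two_le
      rcases Nat.eq_zero_or_pos ν.card with h | h
      · rw [h] at n4; omega
      · exact h)
    obtain ⟨s, hs, cs⟩ : ∃ s ≤ ν, s.card = a - 2 * h := by
      obtain ⟨t, h8, h9⟩ := Finset.exists_subset_card_eq (s := ⟨ν, n1⟩) (n := a - 2 * h)
        (show _ ≤ ν.card by omega)
      exact ⟨t.val, Finset.val_le_iff.2 h8, h9⟩
    rw [cc_even he] at dW ⊢
    obtain ⟨g, a1, a2, a3, a4⟩ := H.buildE hQ he (s + Multiset.replicate (2 * h) f₀)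
      (fun f hf => by
        rcases Multiset.mem_add.1 hf with h | h
        · exact n2 f (Multiset.mem_of_le hs h)
        · rw [Multiset.eq_of_mem_replicate h]; exact n2 _ hf₀) W nW
      (by rw [dW]; simp [cs]; omega) (by
        rw [pW, bt_even he, Multiset.card_add, cs, Multiset.card_replicate,
          Nat.sub_add_cancel h5])
    rw [← Fx_eq_perp hQ nW a1 a3] at dW
    refine ⟨g, a1.1, a2, dW, fun T hT iT tT => ?_⟩
    rw [Fx_eq_perp hQ nW a1 a3] at hT
    have b1 := finrank_Kr_prod_le iT ν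
    rw [n3, inf_eq_left.2 (fun v hv => H.ev_cyc a2 a3 v (hT hv))] at b1
    refine b1.trans ((Multiset.sum_map_le_sum_map _ (fun f => if f = f₀ then i * h else 0)
      fun f hf => ?_).trans ?_)
    · have c1 := a4 f (n2 f hf)
      have c2 := (H.nd_Kr a1.1 a2 he a3 nW (n2 f hf)).ts_finrank_le (W := T ⊓ Kr g f)
        (inf_le_inf_right _ hT) (ts_mono tT inf_le_left).le_perp
      obtain ⟨j, hj⟩ := H.dvd_finrank a2 (a3.mono (X := T ⊓ Kr g f) (inf_le_left.trans hT)
        (iT.inf (inv_Kr g f)))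
      have c3 := (Multiset.count_le_of_le f hs).trans (Multiset.nodup_iff_count_le_one.1 n1 f)
      rw [Multiset.count_add, Multiset.count_replicate] at c1
      have c4 : i * (2 * j) ≤ i * (s.count f + if f₀ = f then 2 * h else 0) := by
        rw [mul_left_comm, ← hj]; omega
      have c5 := Nat.le_of_mul_le_mul_left c4 hpos
      rw [hj]
      by_cases e : f = f₀
      · rw [if_pos e]; rw [if_pos e.symm] at c5
        exact Nat.mul_le_mul_left _ (by omega)
      · rw [if_neg e]; rw [if_neg (Ne.symm e)] at c5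
        rw [show j = 0 by omega]; simp
    · rw [← Finset.sum_mk ν n1, Finset.sum_ite_eq']
      split_ifs <;> simp
  · rw [cc_odd ho] at dW ⊢
    obtain ⟨g, a1, a2, a3⟩ := H.buildO hQ ho a W nW dW (pW.2 (Or.inl ho))
    refine ⟨g, a1.1, a2, by rw [Fx_eq_perp hQ nW a1 a3, dW], fun T hT iT tT => ?_⟩
    rw [Fx_eq_perp hQ nW a1 a3] at hT
    have := nW.ts_finrank_le hT tT.le_perp
    rw [h3 ho]; rw [dW, mul_assoc] at this; omega

end ctx

/-- if `r` divides the number of points and small subspaces are fixed pointwise then there is a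
derangement -/
theorem exists_derange (hQ : Nd Q) {r : ℕ} (hr : r.Prime) (hrF : (r : F) ≠ 0)
    (S : Set (Submodule F V)) (h1 : ∀ g ∈ O Q, ∀ W ∈ S, W.map (g : V →ₗ[F] V) ∈ S)
    (h2 : ∀ g ∈ O Q, g ^ r = 1 → ∀ W ∈ S, Inv g W → W ≤ Fx g)
    (h3 : ∀ X, NdOn Q X → ∀ W ∈ S, ∀ W' ∈ S, W ≤ X → W' ≤ X →
      ∃ g ∈ OW Q X, W.map (g : V →ₗ[F] V) = W') (hne : S.Nonempty) (hd : r ∣ S.ncard) :
    ∃ g ∈ O Q, g ^ r = 1 ∧ g ≠ 1 ∧ ∀ W ∈ S, ¬ Inv g W := by
  have := finE (F := F) (V := V)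
  obtain ⟨g, ⟨hO, hg⟩, hmin⟩ := Set.exists_min_image {g | g ∈ O Q ∧ g ^ r = 1}
    (fun g => finrank F (Fx g)) (Set.toFinite _) ⟨1, one_mem _, one_pow _⟩
  have nX := nd_Fx hQ hO hg hrF
  have key : ∀ W ∈ S, ¬ W ≤ Fx g := by
    intro W hW hle
    have e1 := sub_modEq hr hg (h1 g hO)
    refine sub_not_dvd hr (OW Q (Fx g)) (fun k hk hkr => ?_) (S := {W | W ∈ S ∧ Inv g W})
      ⟨hW, inv_of_le_Fx hle⟩ (fun k hk => ⟨h1 k hk.1 W hW,
        inv_of_le_Fx (map_le_of_inv (OW.inv hQ hk) hle)⟩)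
      (fun W' hW' => h3 _ nX W hW W' hW'.1 hle (h2 g hO hg W' hW'.1 hW'.2))
      ((e1.dvd_iff dvd_rfl).1 hd)
    have hg' : g ∈ OW Q (perp Q (Fx g)) := ⟨hO, fun v hv => by rwa [hQ.perp_perp] at hv⟩
    have e2 := hmin (k * g) ⟨mul_mem hk.1 hO, prod_pow hQ nX le_rfl hk hg' hkr hg⟩
    have e3 : Fx (k * g) ≤ Fx g := by
      intro v hv
      obtain ⟨a, ha, c, hc, rfl⟩ := nX.exists_decomp v
      rw [(fpf_perp_Fx hQ hO hg hrF).fpf c hc (prod_fix hQ nX le_rfl hk hg' ha hc hv).2, add_zero]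
      exact ha
    have e4 := Submodule.eq_of_le_of_finrank_le e3 e2
    refine eq_one_of_OW nX hk fun w hw => ?_
    rw [← prod_left hQ le_rfl hk hg' w hw]
    rw [← e4] at hw; exact hw
  refine ⟨g, hO, hg, ?_, fun W hW hi => key W hW (h2 g hO hg W hW hi)⟩
  rintro rfl
  obtain ⟨W, hW⟩ := hne
  exact key W hW fun _ _ => rfl

end Cfsg.Agent.H2.Oel
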