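import Cfsg.Agent.H2.Oel4

/-! Orthogonal groups, prime order elements, part 5: numerical criteria, semisimple case. -/

set_option autoImplicit false
set_option linter.unusedSectionVars false

namespace Cfsg.Agent.H2.Oel

open Module Cfsg.Agent.Orth Cfsg.Agent.H8 Polynomial

variable {F V : Type*} [Field F] [AddCommGroup V] [Module F V]

/-- all isometries of order `r` satisfy `P` -/
def AllR (Q : QuadraticForm F V) (r : ℕ) (P : (V ≃ₗ[F] V) → Prop) : Prop :=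
  ∀ g ∈ O Q, g ^ r = 1 → g ≠ 1 → P g

/-- `g` fixes a member of `S` -/
def FixIn (S : Submodule F V → Prop) (g : V ≃ₗ[F] V) : Prop := ∃ W, S W ∧ Inv g W

def STS (Q : QuadraticForm F V) (m : ℕ) (W : Submodule F V) : Prop := finrank F W = m ∧ TS Q W

def SND (Q : QuadraticForm F V) (m : ℕ) (τ : Prop) (W : Submodule F V) : Prop :=
  finrank F W = m ∧ NdOn Q W ∧ (Plus Q W ↔ τ)

def SIS (Q : QuadraticForm F V) (m : ℕ) (W₀ W : Submodule F V) : Prop :=
  finrank F W = m ∧ NdOn Q W ∧ Iso Q W Q W₀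

def CTS (i t n m : ℕ) (ε : Prop) : Prop :=
  ∀ a h e, 1 ≤ a → n = e + cc i * a → (e = 0 → (ε ↔ bt i a)) → (Odd i → h = a) →
    (Even i → 2 * h ≤ a ∧ a ≤ 2 * h + t) →
    ∃ u j, j ≤ h ∧ m = u + i * j ∧ 2 * u ≤ e ∧ (2 * u = e → (ε ↔ bt i a))

def CND (i n m : ℕ) (ε τ : Prop) : Prop :=
  ∀ a e, 1 ≤ a → n = e + cc i * a → (e = 0 → (ε ↔ bt i a)) →
    ∃ u j, j ≤ a ∧ m = u + cc i * j ∧ u ≤ e ∧ (u = 0 → (τ ↔ bt i j)) ∧
      (u = e → ((τ ↔ bt i j) ↔ (ε ↔ bt i a)))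

def CIS (i n m : ℕ) (ε : Prop) : Prop :=
  ∀ a e, 1 ≤ a → n = e + cc i * a → (e = 0 → (ε ↔ bt i a)) →
    ∃ u j, j ≤ a ∧ m = u + cc i * j ∧ u ≤ e

lemma iff3 {a b c : Prop} (h : a ↔ (b ↔ c)) : b ↔ (a ↔ c) := by tauto
lemma iff4 {a c : Prop} : ((a ↔ c) ↔ c) ↔ a := by tauto

variable {Q : QuadraticForm F V} [Finite F] [FiniteDimensional F V] {r i : ℕ} (H : Ctx F r i)
  (hQ : Nd Q)
include H hQ

lemma Ctx.data {g : V ≃ₗ[F] V} (hO : g ∈ O Q) (hg : g ^ r = 1) {a : ℕ}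
    (ha : finrank F (perp Q (Fx g)) = cc i * a) :
    finrank F V = finrank F (Fx g) + cc i * a ∧ (1 ≤ a ↔ g ≠ 1) ∧
      (Even (finrank F (Fx g)) → (Plus Q (Fx g) ↔ (Plus Q ⊤ ↔ bt i a))) := by
  have d := hQ.finrank_perp (Fx g)
  have nX := nd_Fx hQ hO hg H.neF
  have hpos := cc_pos H.pos
  obtain ⟨j, h1, h2⟩ := H.type hO hg _ _ (fpf_perp_Fx hQ hO hg H.neF) (nX.perp hQ) rfl
  obtain rfl : a = j := Nat.eq_of_mul_eq_mul_left hpos (ha.symm.trans h1)
  refine ⟨by omega, ⟨fun h e => ?_, fun h => ?_⟩, fun he => ?_⟩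
  · subst e
    rw [show Fx (1 : V ≃ₗ[F] V) = ⊤ from eq_top_iff.2 fun _ _ => rfl, hQ.perp_top, finrank_bot] at ha
    have := Nat.mul_pos hpos h; omega
  · by_contra h0
    obtain rfl : a = 0 := by omega
    have : Fx g = ⊤ := Submodule.eq_top_of_finrank_eq (by omega)
    exact h (LinearEquiv.ext fun v => by have : v ∈ Fx g := this ▸ trivial; exact this)
  · have := plus_inf_perp hQ.ndOn_top nX le_top (by
      rw [finrank_top, ← d, ha]; exact ((even_cc i).mul_right a).add he) he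
    rw [top_inf_eq, h2] at this
    exact iff3 this

lemma Ctx.data' {g : V ≃ₗ[F] V} (hO : g ∈ O Q) (hg : g ^ r = 1) :
    ∃ a, finrank F (perp Q (Fx g)) = cc i * a :=
  let ⟨a, h, _⟩ := H.type hO hg _ _ (fpf_perp_Fx hQ hO hg H.neF)
    ((nd_Fx hQ hO hg H.neF).perp hQ) rfl
  ⟨a, h⟩

omit H hQ in
lemma zero_plus {X : Submodule F V} {P : Prop} (h : Even (finrank F X) → (Plus Q X ↔ P))
    (h0 : finrank F X = 0) : P :=
  (h (by simp [h0])).1 (by rw [Submodule.finrank_eq_zero.1 h0]; exact plus_bot)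

theorem Ctx.ts_iff (m : ℕ) :
    AllR Q r (FixIn (STS Q m)) ↔ CTS i ((r - 1) / i) (finrank F V) m (Plus Q ⊤) := by
  have hpos := H.pos
  constructor
  · intro L a h e h1 h2 h3 h4 h5
    obtain ⟨g, hO, hg, d, b⟩ := H.exists_elt hQ (a := a) (h := h) (by omega)
      (fun h => h3 (by omega)) h4 h5
    obtain ⟨d1, d2, d3⟩ := H.data hQ hO hg d
    obtain ⟨W, ⟨dW, tW⟩, iW⟩ := L g hO hg (d2.1 h1)
    have nX := nd_Fx hQ hO hg H.neF
    have fp := fpf_perp_Fx hQ hO hg H.neF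
    have s := (spl_Fx hO hg H.neF iW).finrank nX
    obtain ⟨j, hj⟩ := H.dvd_finrank hg (fp.mono (X := W ⊓ perp Q (Fx g)) inf_le_right
      (iW.inf fp.inv))
    have b1 := b _ inf_le_right (iW.inf fp.inv) (ts_mono tW inf_le_left)
    obtain ⟨c1, c2⟩ := (exists_ts_iff nX _).1 ⟨_, inf_le_right, ts_mono tW inf_le_left, rfl⟩
    refine ⟨finrank F (W ⊓ Fx g : Submodule F V), j, Nat.le_of_mul_le_mul_left (hj ▸ b1) hpos,
      by omega, by omega, fun h => ?_⟩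
    exact (d3 ⟨finrank F (W ⊓ Fx g : Submodule F V), by omega⟩).1 (c2 (by omega))
  · intro C g hO hg h1
    obtain ⟨a, ha⟩ := H.data' hQ hO hg
    obtain ⟨d1, d2, d3⟩ := H.data hQ hO hg ha
    have nX := nd_Fx hQ hO hg H.neF
    have fp := fpf_perp_Fx hQ hO hg H.neF
    obtain ⟨h, o, e1, e2, e3, e4⟩ := H.exists_ts hO hg _ _ fp (nX.perp hQ) ha
    obtain ⟨u, j, c1, c2, c3, c4⟩ := C a h _ (d2.2 h1) d1 (zero_plus d3) (fun ho => by
      rw [e3 ho, cc_odd ho, add_zero, mul_comm 2 i, mul_assoc] at e1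
      have := Nat.eq_of_mul_eq_mul_left hpos e1; omega) (fun he => by
      rw [cc_even he] at e1
      have := Nat.eq_of_mul_eq_mul_left hpos e1
      have := (Nat.le_div_iff_mul_le hpos).2 (mul_comm i o ▸ e2)
      omega)
    obtain ⟨T, t1, t2, t3, t4⟩ := e4 j c1
    obtain ⟨U, u1, u2, u3⟩ := (exists_ts_iff nX u).2 ⟨c3, fun h => (d3 ⟨u, by omega⟩).2 (c4 h)⟩
    refine ⟨U ⊔ T, ⟨?_, ts_sup u2 t3 (t1.trans (perp_anti u1))⟩, (inv_of_le_Fx u1).sup t2⟩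
    rw [finrank_sup_of_disjoint ((disjoint_of_perp nX le_rfl).mono u1 t1)]; omega

lemma Ctx.nd_split {g : V ≃ₗ[F] V} (hO : g ∈ O Q) (hg : g ^ r = 1) {a : ℕ}
    (ha : finrank F (perp Q (Fx g)) = cc i * a) {W : Submodule F V} (iW : Inv g W)
    (nW : NdOn Q W) : ∃ j ≤ a, finrank F W = finrank F (W ⊓ Fx g : Submodule F V) + cc i * j ∧
      (Even (finrank F W) → (Plus Q W ↔ (Plus Q (W ⊓ Fx g) ↔ bt i j))) := by
  have nX := nd_Fx hQ hO hg H.neF
  have fp := fpf_perp_Fx hQ hO hg H.neF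
  have sp := spl_Fx hO hg H.neF iW
  have s := sp.finrank nX
  obtain ⟨j, h1, h2⟩ := H.type hO hg _ _ (fp.mono (X := W ⊓ perp Q (Fx g)) inf_le_right
    (iW.inf fp.inv)) (sp.nd_right nW) rfl
  have h3 := Submodule.finrank_mono (inf_le_right : W ⊓ perp Q (Fx g) ≤ _)
  refine ⟨j, Nat.le_of_mul_le_mul_left (by omega) (cc_pos H.pos), by omega, fun he => ?_⟩
  have h4 := (even_cc i).mul_right j
  rw [← h2, ← plus_sup_iff (sp.nd_left nW) (sp.nd_right nW) (Spl.le_perp _ _)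
    (by rw [Nat.even_iff] at *; omega) (h1 ▸ h4), sp.sup]

theorem Ctx.nd_iff {m : ℕ} (hm : Even m) (τ : Prop) :
    AllR Q r (FixIn (SND Q m τ)) ↔ CND i (finrank F V) m (Plus Q ⊤) τ := by
  have hpos := H.pos
  constructor
  · intro L a e h1 h2 h3
    obtain ⟨g, hO, hg, d, -⟩ := H.exists_elt hQ (a := a) (h := if Even i then a / 2 else a)
      (by omega) (fun h => h3 (by omega)) (fun h => if_neg (Nat.not_even_iff_odd.2 h))
      (fun h => by
        have := Nat.div_pos (Nat.le_of_dvd (by have := H.pr.two_le; omega) H.dvd_pred) hpos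
        rw [if_pos h]; omega)
    obtain ⟨d1, d2, d3⟩ := H.data hQ hO hg d
    obtain ⟨W, ⟨dW, nW, pW⟩, iW⟩ := L g hO hg (d2.1 h1)
    obtain ⟨j, c1, c2, c3⟩ := H.nd_split hQ hO hg d iW nW
    have c4 := c3 (dW ▸ hm)
    have c5 := Submodule.finrank_mono (inf_le_right : W ⊓ Fx g ≤ _)
    refine ⟨_, j, c1, dW ▸ c2, by omega, fun h => ?_, fun h => ?_⟩
    · rw [Submodule.finrank_eq_zero.1 h] at c4
      rw [← pW]; exact (iff3 c4).1 plus_bot
    · have e1 : W ⊓ Fx g = Fx g := Submodule.eq_of_le_of_finrank_eq inf_le_right (by omega)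
      have h4 := (even_cc i).mul_right j
      have := d3 (by rw [Nat.even_iff] at *; omega)
      rw [e1] at c4
      rw [← pW, ← iff3 c4, this]
  · intro C g hO hg h1
    obtain ⟨a, ha⟩ := H.data' hQ hO hg
    obtain ⟨d1, d2, d3⟩ := H.data hQ hO hg ha
    have nX := nd_Fx hQ hO hg H.neF
    have fp := fpf_perp_Fx hQ hO hg H.neF
    obtain ⟨u, j, c1, c2, c3, c4, c5⟩ := C a _ (d2.2 h1) d1 (zero_plus d3)
    have h4 := (even_cc i).mul_right j
    have eu : Even u := by rw [Nat.even_iff] at *; omega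
    obtain ⟨X, x1, x2, x3, x4⟩ := H.exists_nd hO hg j _ fp (nX.perp hQ)
      (ha ▸ Nat.mul_le_mul_left _ c1)
    obtain ⟨j', y1, y2⟩ := H.type hO hg _ X (fp.mono x1 x2) x3 x4
    obtain rfl : j = j' := Nat.eq_of_mul_eq_mul_left (cc_pos hpos) y1
    obtain ⟨U, u1, u2, u3, u4⟩ := exists_type' nX (τ ↔ bt i j) eu c3 c4 (fun h => by
      rw [c5 h, d3 (h ▸ eu)])
    have hp : X ≤ perp Q U := x1.trans (perp_anti u1)
    refine ⟨U ⊔ X, ⟨by rw [finrank_sup_of_perp u2 hp]; omega, ndOn_sup u2 x3 hp, ?_⟩,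
      (inv_of_le_Fx u1).sup x2⟩
    rw [plus_sup_iff u2 x3 hp (u3 ▸ eu) (x4 ▸ h4), u4, y2]; exact iff4

theorem Ctx.is_iff {m : ℕ} (hm : Odd m) (hn : Even (finrank F V)) {W₀ : Submodule F V}
    (h0 : NdOn Q W₀) (d0 : finrank F W₀ = m) :
    AllR Q r (FixIn (SIS Q m W₀)) ↔ CIS i (finrank F V) m (Plus Q ⊤) := by
  have hpos := H.pos
  constructor
  · intro L a e h1 h2 h3
    obtain ⟨g, hO, hg, d, -⟩ := H.exists_elt hQ (a := a) (h := if Even i then a / 2 else a)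
      (by omega) (fun h => h3 (by omega)) (fun h => if_neg (Nat.not_even_iff_odd.2 h))
      (fun h => by
        have := Nat.div_pos (Nat.le_of_dvd (by have := H.pr.two_le; omega) H.dvd_pred) hpos
        rw [if_pos h]; omega)
    obtain ⟨d1, d2, d3⟩ := H.data hQ hO hg d
    obtain ⟨W, ⟨dW, nW, pW⟩, iW⟩ := L g hO hg (d2.1 h1)
    obtain ⟨j, c1, c2, -⟩ := H.nd_split hQ hO hg d iW nW
    have c5 := Submodule.finrank_mono (inf_le_right : W ⊓ Fx g ≤ _)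
    exact ⟨_, j, c1, dW ▸ c2, by omega⟩
  · intro C g hO hg h1
    have h2 := two_ne_zero_of_odd_finrank h0 (d0 ▸ hm)
    obtain ⟨a, ha⟩ := H.data' hQ hO hg
    obtain ⟨d1, d2, d3⟩ := H.data hQ hO hg ha
    have nX := nd_Fx hQ hO hg H.neF
    have fp := fpf_perp_Fx hQ hO hg H.neF
    obtain ⟨u, j, c1, c2, c3⟩ := C a _ (d2.2 h1) d1 (zero_plus d3)
    have h4 := (even_cc i).mul_right j
    have h5 := (even_cc i).mul_right a
    obtain ⟨X, x1, x2, x3, x4⟩ := H.exists_nd hO hg j _ fp (nX.perp hQ)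
      (ha ▸ Nat.mul_le_mul_left _ c1)
    rw [Nat.even_iff] at hn h4 h5
    rw [Nat.odd_iff] at hm
    obtain ⟨U, u1, u2, u3⟩ := exists_nd_even nX (u := u - 1) (by rw [Nat.even_iff]; omega) (by omega)
    have hp : X ≤ perp Q U := x1.trans (perp_anti u1)
    have d4 := finrank_sup_of_perp u2 hp
    have d5 := nX.finrank_inf_perp u1
    have hp2 : Fx g ⊓ perp Q U ≤ perp Q (U ⊔ X) := by
      rw [perp_sup]; exact le_inf inf_le_right (inf_le_left.trans (le_perp_comm x1))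
    obtain ⟨v, v1, v2, v3⟩ := exists_complete_iso h2 h0 (ndOn_sup u2 x3 hp)
      (by rw [Nat.even_iff]; omega) (by omega) (nX.inf_perp u2 u1) (by omega) hp2
    have nW := ndOn_sup (ndOn_sup u2 x3 hp) (NdOn.span_singleton h2 v2)
      ((Submodule.span_singleton_le_iff_mem _ _).2 (hp2 v1))
    exact ⟨_, ⟨by rw [← v3.finrank_eq nW, d0], nW, v3⟩, ((inv_of_le_Fx u1).sup x2).sup
      (inv_of_le_Fx ((Submodule.span_singleton_le_iff_mem _ _).2 v1.1))⟩

theorem Ctx.ts_le {m : ℕ} (hne : ∃ W, STS Q m W) (hd : r ∣ Nat.card {W // STS Q m W})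
    (L : AllR Q r (FixIn (STS Q m))) : i ≤ m := by
  by_contra hlt
  obtain ⟨g, hO, hg, h1, h2⟩ := exists_derange hQ H.pr H.neF {W | STS Q m W}
    (fun g hg W hW => ⟨by rw [LinearEquiv.finrank_map_eq, hW.1], ts_map hg hW.2⟩)
    (fun g hO hg W hW iW => by
      have fp := fpf_perp_Fx hQ hO hg H.neF
      have sp := spl_Fx hO hg H.neF iW
      have s := sp.finrank (nd_Fx hQ hO hg H.neF)
      have := Nat.eq_zero_of_dvd_of_lt (H.dvd_finrank hg (fp.mono (X := W ⊓ perp Q (Fx g))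
        inf_le_right (iW.inf fp.inv))) (by have := hW.1; omega)
      exact inf_eq_left.1 (Submodule.eq_of_le_of_finrank_eq inf_le_left (by omega)))
    (fun X hX W hW W' hW' a b => ts_trans hQ m X hX W W' a b hW.2 hW'.2 hW.1 hW'.1) hne hd
  obtain ⟨W, a, b⟩ := L g hO hg h1
  exact h2 W a b

lemma Ctx.nd_le_aux {m : ℕ} (S : Submodule F V → Prop)
    (hS : ∀ W, S W → finrank F W = m ∧ NdOn Q W)
    (h1 : ∀ g ∈ O Q, ∀ W, S W → S (W.map (g : V →ₗ[F] V)))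
    (h2 : ∀ W W', S W → S W' → Iso Q W Q W') (hne : ∃ W, S W) (hd : r ∣ Nat.card {W // S W})
    (L : AllR Q r (FixIn S)) : cc i ≤ m := by
  by_contra hlt
  obtain ⟨g, hO, hg, h1, h2⟩ := exists_derange hQ H.pr H.neF {W | S W} h1
    (fun g hO hg W hW iW => by
      obtain ⟨a, ha⟩ := H.data' hQ hO hg
      obtain ⟨j, -, c2, -⟩ := H.nd_split hQ hO hg ha iW (hS W hW).2
      have := (hS W hW).1
      obtain rfl : j = 0 := by
        by_contra h
        have := Nat.mul_le_mul_left (cc i) (Nat.pos_of_ne_zero h); omega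
      exact inf_eq_left.1 (Submodule.eq_of_le_of_finrank_eq inf_le_left (by omega)))
    (fun X hX W hW W' hW' a b => nd_trans hQ hX a b (hS W hW).2 (h2 W W' hW hW')) hne hd
  obtain ⟨W, a, b⟩ := L g hO hg h1
  exact h2 W a b

theorem Ctx.nd_le {m : ℕ} (hm : Even m) (h0 : 0 < m) (hn : m < finrank F V) {τ : Prop}
    (hd : r ∣ Nat.card {W // SND Q m τ W}) (L : AllR Q r (FixIn (SND Q m τ))) : cc i ≤ m := by
  obtain ⟨j, hj⟩ := hm
  refine H.nd_le_aux hQ _ (fun W hW => ⟨hW.1, hW.2.1⟩) (fun g hg W hW =>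
    ⟨by rw [LinearEquiv.finrank_map_eq, hW.1], hW.2.1.map hg,
      by rw [← (iso_map hg W).plus_iff hW.2.1, hW.2.2]⟩)
    (fun W W' h h' => iso_of_type j _ _ h.2.1 h'.2.1 (by have := h.1; omega)
      (by have := h'.1; omega) (h.2.2.trans h'.2.2.symm)) ?_ hd L
  obtain ⟨W, -, a, b, c⟩ := exists_type' hQ.ndOn_top τ ⟨j, hj⟩ (by rw [finrank_top]; omega)
    (by omega) (by rw [finrank_top]; omega)
  exact ⟨W, b, a, c⟩

theorem Ctx.is_le {m : ℕ} {W₀ : Submodule F V} (h0 : NdOn Q W₀) (d0 : finrank F W₀ = m)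
    (hd : r ∣ Nat.card {W // SIS Q m W₀ W}) (L : AllR Q r (FixIn (SIS Q m W₀))) : cc i ≤ m :=
  H.nd_le_aux hQ _ (fun _ hW => ⟨hW.1, hW.2.1⟩) (fun _ hg W hW =>
    ⟨by rw [LinearEquiv.finrank_map_eq, hW.1], hW.2.1.map hg,
      ((iso_map hg W).symm hW.2.1).trans hW.2.2⟩)
    (fun _ _ h h' => h.2.2.trans (h'.2.2.symm h'.2.1)) ⟨W₀, d0, h0, iso_refl W₀⟩ hd L

end Cfsg.Agent.H2.Oel
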