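import Cfsg.Agent.H2.Oel5

/-! Orthogonal groups, prime order elements, part 6: arithmetic. -/

set_option autoImplicit false
set_option linter.unusedSectionVars false
set_option linter.unusedSimpArgs false

namespace Cfsg.Agent.H2.Oel

lemma mix_le {c α β x y : ℕ} (hα : α < c) (hβ : β < c) :
    α + c * y ≤ β + c * x ↔ y < x ∨ (y = x ∧ α ≤ β) := by
  rcases lt_trichotomy y x with h | h | h
  · have := Nat.mul_le_mul_left c (show y + 1 ≤ x from h)
    rw [mul_add] at this; omega
  · subst h; omega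
  · have := Nat.mul_le_mul_left c (show x + 1 ≤ y from h)
    rw [mul_add] at this; omega

lemma mix_eq {c α β x y : ℕ} (hα : α < c) (hβ : β < c) :
    α + c * y = β + c * x ↔ y = x ∧ α = β := by
  rw [le_antisymm_iff, mix_le hα hβ, mix_le hβ hα]; omega

lemma dec_iff {c n e a : ℕ} (hc : 0 < c) :
    n = e + c * a ↔ a ≤ n / c ∧ e = n % c + c * (n / c - a) := by
  have h0 := Nat.mod_add_div n c
  constructor
  · intro h
    have h1 : a ≤ n / c := (Nat.le_div_iff_mul_le hc).2 (by rw [mul_comm]; omega)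
    have := Nat.mul_le_mul_left c h1
    exact ⟨h1, by rw [Nat.mul_sub]; omega⟩
  · rintro ⟨h1, h2⟩
    have := Nat.mul_le_mul_left c h1
    rw [Nat.mul_sub] at h2; omega

lemma zero_iff {c α y : ℕ} (hc : 0 < c) : α + c * y = 0 ↔ α = 0 ∧ y = 0 := by
  rw [Nat.add_eq_zero_iff, Nat.mul_eq_zero]; omega

def OKN (i A k M l a j : ℕ) (ε τ : Prop) : Prop :=
  j ≤ a ∧ j ≤ M ∧ (M - j < A - a ∨ (M - j = A - a ∧ l ≤ k)) ∧
    (l = 0 ∧ M - j = 0 → (τ ↔ bt i j)) ∧ (M - j = A - a ∧ l = k → ((τ ↔ bt i j) ↔ (ε ↔ bt i a)))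

def ADM (i A k a : ℕ) (ε : Prop) : Prop := 1 ≤ a ∧ a ≤ A ∧ (k = 0 ∧ A - a = 0 → (ε ↔ bt i a))

lemma CND_iff {i : ℕ} (hi : 0 < i) (n m : ℕ) (ε τ : Prop) : CND i n m ε τ ↔
    ∀ a, ADM i (n / cc i) (n % cc i) a ε →
      ∃ j, OKN i (n / cc i) (n % cc i) (m / cc i) (m % cc i) a j ε τ := by
  have hc := cc_pos hi
  have h1 := Nat.mod_lt n hc
  have h2 := Nat.mod_lt m hc
  constructor
  · rintro h a ⟨a1, a2, a3⟩
    obtain ⟨u, j, b1, b2, b3, b4, b5⟩ := h a _ a1 ((dec_iff hc).2 ⟨a2, rfl⟩)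
      (by rwa [zero_iff hc])
    obtain ⟨c1, rfl⟩ := (dec_iff hc).1 b2
    rw [mix_le h2 h1] at b3
    rw [zero_iff hc] at b4
    rw [mix_eq h2 h1] at b5
    exact ⟨j, b1, c1, b3, b4, b5⟩
  · intro h a e a1 a2 a3
    obtain ⟨c1, rfl⟩ := (dec_iff hc).1 a2
    obtain ⟨j, b1, b2, b3, b4, b5⟩ := h a ⟨a1, c1, by rwa [zero_iff hc] at a3⟩
    exact ⟨_, j, b1, (dec_iff hc).2 ⟨b2, rfl⟩, by rwa [mix_le h2 h1], by rwa [zero_iff hc],
      by rwa [mix_eq h2 h1]⟩

def OKI (A k M l a j : ℕ) : Prop :=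
  j ≤ a ∧ j ≤ M ∧ (M - j < A - a ∨ (M - j = A - a ∧ l ≤ k))

lemma CIS_iff {i : ℕ} (hi : 0 < i) (n m : ℕ) (ε : Prop) : CIS i n m ε ↔
    ∀ a, ADM i (n / cc i) (n % cc i) a ε →
      ∃ j, OKI (n / cc i) (n % cc i) (m / cc i) (m % cc i) a j := by
  have hc := cc_pos hi
  have h1 := Nat.mod_lt n hc
  have h2 := Nat.mod_lt m hc
  constructor
  · rintro h a ⟨a1, a2, a3⟩
    obtain ⟨u, j, b1, b2, b3⟩ := h a _ a1 ((dec_iff hc).2 ⟨a2, rfl⟩) (by rwa [zero_iff hc])
    obtain ⟨c1, rfl⟩ := (dec_iff hc).1 b2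
    rw [mix_le h2 h1] at b3
    exact ⟨j, b1, c1, b3⟩
  · intro h a e a1 a2 a3
    obtain ⟨c1, rfl⟩ := (dec_iff hc).1 a2
    obtain ⟨j, b1, b2, b3⟩ := h a ⟨a1, c1, by rwa [zero_iff hc] at a3⟩
    exact ⟨_, j, b1, (dec_iff hc).2 ⟨b2, rfl⟩, by rwa [mix_le h2 h1]⟩

def OKT (i A k M l b a h j : ℕ) (ε : Prop) : Prop :=
  j ≤ h ∧ j ≤ M ∧ (b * (M - j) + l / cc i < A - a ∨ (b * (M - j) + l / cc i = A - a ∧
    l % cc i ≤ k)) ∧ (b * (M - j) + l / cc i = A - a ∧ l % cc i = k → (ε ↔ bt i a))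

lemma CTS_iff {i : ℕ} (hi : 0 < i) (t n m : ℕ) (ε : Prop) {b : ℕ} (hb : cc i * b = 2 * i) :
    CTS i t n m ε ↔ ∀ a h, ADM i (n / cc i) (n % cc i) a ε → (Odd i → h = a) →
      (Even i → 2 * h ≤ a ∧ a ≤ 2 * h + t) →
      ∃ j, OKT i (n / cc i) (n % cc i) (m / i) (2 * (m % i)) b a h j ε := by
  have hc := cc_pos hi
  have h1 := Nat.mod_lt n hc
  have h2 := Nat.mod_lt (2 * (m % i)) hc
  have key : ∀ y, 2 * (m % i + i * y) =
      2 * (m % i) % cc i + cc i * (b * y + 2 * (m % i) / cc i) := fun y => by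
    have := Nat.mod_add_div (2 * (m % i)) (cc i)
    rw [mul_add (cc i), ← mul_assoc, hb]
    nlinarith
  constructor
  · rintro h a x ⟨a1, a2, a3⟩ a4 a5
    obtain ⟨u, j, b1, b2, b3, b5⟩ := h a x _ a1 ((dec_iff hc).2 ⟨a2, rfl⟩)
      (by rwa [zero_iff hc]) a4 a5
    obtain ⟨c1, rfl⟩ := (dec_iff hi).1 b2
    rw [key, mix_le h2 h1] at b3
    rw [key, mix_eq h2 h1] at b5
    exact ⟨j, b1, c1, b3, b5⟩
  · intro h a x e a1 a2 a3 a4 a5
    obtain ⟨c1, rfl⟩ := (dec_iff hc).1 a2
    obtain ⟨j, b1, b2, b3, b5⟩ := h a x ⟨a1, c1, by rwa [zero_iff hc] at a3⟩ a4 a5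
    exact ⟨_, j, b1, (dec_iff hi).2 ⟨b2, rfl⟩, by rwa [key, mix_le h2 h1],
      by rwa [key, mix_eq h2 h1]⟩

lemma bt_iff (i a : ℕ) : bt i a ↔ (i % 2 = 1 ∨ a % 2 = 0) := by
  rw [bt, Nat.odd_iff, Nat.even_iff]

/-- the basic facts on quotients and remainders -/
lemma facts {c n m : ℕ} (hc : 0 < c) (he : Even c) :
    n % c < c ∧ m % c < c ∧ n % c % 2 = n % 2 ∧ m % c % 2 = m % 2 ∧ (c ≤ m ↔ 1 ≤ m / c) ∧
      (m < n → m / c < n / c ∨ (m / c = n / c ∧ m % c < n % c)) ∧
      (2 * m < n → 2 * (m / c) < n / c ∨ (2 * (m / c) = n / c ∧ 2 * (m % c) < n % c)) ∧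
      (m % c = n % c → (n + m - 2 * (n % c)) / c = n / c + m / c) := by
  have h1 := Nat.mod_lt n hc
  have h2 := Nat.mod_lt m hc
  have h3 := Nat.mod_add_div n c
  have h4 := Nat.mod_add_div m c
  refine ⟨h1, h2, Nat.mod_mod_of_dvd _ he.two_dvd, Nat.mod_mod_of_dvd _ he.two_dvd,
    by rw [Nat.le_div_iff_mul_le hc, one_mul], fun h => ?_, fun h => ?_, fun h => ?_⟩
  · have := (mix_le (x := m / c) (y := n / c) h1 h2).not.1 (by omega)
    omega
  · by_contra h5
    rcases Nat.lt_or_ge (n / c) (2 * (m / c)) with h6 | h6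
    · have := Nat.mul_le_mul_left c (show n / c + 1 ≤ 2 * (m / c) from h6)
      rw [mul_add, mul_left_comm] at this; omega
    · have h7 : n / c = 2 * (m / c) := by omega
      rw [h7, mul_left_comm] at h3; omega
  · rw [show n + m - 2 * (n % c) = c * (n / c + m / c) by rw [mul_add]; omega,
      Nat.mul_div_cancel_left _ hc]

lemma testN {i A k M l : ℕ} {ε τ R C : Prop}
    (h0 : (∀ a, ADM i A k a ε → ∃ j, OKN i A k M l a j ε τ) → C)
    (h1 : C → (1 ≤ A → (k = 0 → (ε ↔ bt i A)) → M ≤ A ∧ l ≤ k ∧ (l = 0 → (τ ↔ bt i M)) ∧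
        (l = k → ((τ ↔ bt i M) ↔ (ε ↔ bt i A)))) →
      (2 ≤ A → (M + 1 ≤ A ∧ (l = 0 → (τ ↔ bt i M))) ∨ (1 ≤ M ∧ M ≤ A ∧ l ≤ k ∧
        (l = k → ((τ ↔ bt i (M + 1)) ↔ (ε ↔ bt i (A + 1)))))) → R)
    (h2 : R → ∀ a, ADM i A k a ε → OKN i A k M l a (min a M) ε τ ∨
      OKN i A k M l a (min a M - 1) ε τ) :
    (∀ a, ADM i A k a ε → ∃ j, OKN i A k M l a j ε τ) ↔ R := by
  constructor
  · intro h
    refine h1 (h0 h) (fun a1 a2 => ?_) (fun a1 => ?_)
    · obtain ⟨j, b1, b2, b3, b4, b5⟩ := h A ⟨a1, le_rfl, fun h => a2 h.1⟩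
      obtain rfl : j = M := by omega
      exact ⟨b1, by omega, fun h => b4 ⟨h, by omega⟩, fun h => b5 ⟨by omega, h⟩⟩
    · obtain ⟨j, b1, b2, b3, b4, b5⟩ := h (A - 1) ⟨by omega, by omega, fun h => by omega⟩
      by_cases e : j = M
      · subst e
        exact Or.inl ⟨by omega, fun h => b4 ⟨h, by omega⟩⟩
      · refine Or.inr ⟨by omega, by omega, by omega, fun h => ?_⟩
        have e1 : bt i (M + 1) ↔ bt i j := by rw [bt_iff, bt_iff]; omega
        have e2 : bt i (A + 1) ↔ bt i (A - 1) := by rw [bt_iff, bt_iff]; omega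
        rw [e1, e2]; exact b5 ⟨by omega, h⟩
  · intro hR a ha
    rcases h2 hR a ha with h | h <;> exact ⟨_, h⟩

lemma testI {i A k M l : ℕ} {ε R C : Prop}
    (h0 : (∀ a, ADM i A k a ε → ∃ j, OKI A k M l a j) → C)
    (h1 : C → (1 ≤ A → (k = 0 → (ε ↔ bt i A)) → M ≤ A ∧ l ≤ k) → R)
    (h2 : R → ∀ a, ADM i A k a ε → OKI A k M l a (min a M)) :
    (∀ a, ADM i A k a ε → ∃ j, OKI A k M l a j) ↔ R := by
  constructor
  · intro h
    refine h1 (h0 h) (fun a1 a2 => ?_)
    obtain ⟨j, b1, b2, b3⟩ := h A ⟨a1, le_rfl, fun h => a2 h.1⟩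
    omega
  · exact fun hR a ha => ⟨_, h2 hR a ha⟩

theorem ar5974 {i d m c : ℕ} (hi : 0 < i) (hc : c = cc i) (hm0 : 0 < m) (hm : Even m) (hmd : m < d)
    (h0 : CND i (2 * d) m True True → cc i ≤ m) : CND i (2 * d) m True True ↔
    ((Odd i ∧ c ≤ m ∧ m % c ≤ (2 * d) % c) ∨ (Even i ∧
       (((2 * d) % c = 0 ∧ (Odd ((2 * d) / i) ∨ (m % c = 0 ∧ Even (m / i)))) ∨
        (i ≤ m ∧ ((m % c < (2 * d) % c ∧ 0 < m % c) ∨
                  ((2 * d) % c = m % c ∧ 0 < m % c ∧ Even ((2 * d + m - 2 * ((2 * d) % c)) / i)) ∨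
                  (0 < (2 * d) % c ∧ m % c = 0 ∧ Even (m / i))))))) := by
  subst hc
  rw [CND_iff hi] at h0 ⊢
  obtain ⟨f1, f2, f3, f4, f5, f6, f7, f8⟩ := facts (n := 2 * d) (m := m) (cc_pos hi) (even_cc i)
  have f9 := f7 (by omega)
  clear f6 f7
  have f10 : m % cc i = 0 → 1 ≤ m / cc i := fun h =>
    Nat.div_pos (Nat.le_of_dvd hm0 (Nat.dvd_of_mod_eq_zero h)) (cc_pos hi)
  simp only [Nat.even_iff, Nat.odd_iff] at hm
  rw [hm] at f4
  replace f3 : (2 * d) % cc i % 2 = 0 := by omega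
  rcases Nat.even_or_odd i with he | he
  · have he' := he
    rw [cc_even he] at *
    rw [Nat.even_iff] at he'
    refine testN h0 ?_ ?_ <;> clear h0 <;>
    simp only [ADM, OKN, bt_iff, Nat.even_iff, Nat.odd_iff, true_iff, false_iff, iff_true,
      iff_false, he', zero_ne_one, one_ne_zero, false_or, true_or, true_and, false_and, or_false,
      not_true, implies_true, and_true, true_implies] <;>
    generalize (2 * d + m - 2 * ((2 * d) % i)) / i = N at * <;>
    generalize (2 * d) / i = A at * <;>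
    generalize (2 * d) % i = k at * <;>
    generalize m / i = M at * <;>
    generalize m % i = l at * <;>
    intros <;> (try simp only [imp_iff_not_or] at *) <;> omega
  · have he' := he
    rw [cc_odd he] at *
    rw [Nat.odd_iff] at he'
    clear f8
    refine testN h0 ?_ ?_ <;> clear h0 <;>
    simp only [ADM, OKN, bt_iff, Nat.even_iff, Nat.odd_iff, true_iff, false_iff, iff_true,
      iff_false, he', zero_ne_one, one_ne_zero, false_or, true_or, true_and, false_and, or_false,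
      not_true, implies_true, and_true, not_false_iff, imp_false, true_implies] <;>
    generalize (2 * d) / (2 * i) = A at * <;>
    generalize (2 * d) % (2 * i) = k at * <;>
    generalize m / (2 * i) = M at * <;>
    generalize m % (2 * i) = l at * <;>
    intros <;> (try simp only [imp_iff_not_or] at *) <;> omega

theorem ar5988 {i d m c : ℕ} (hi : 0 < i) (hc : c = cc i) (hm0 : 0 < m) (hm : Even m) (hmd : m < d)
    (h0 : CND i (2 * d) m True False → cc i ≤ m) : CND i (2 * d) m True False ↔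
    ((Odd i ∧ c ≤ m ∧ 0 < m % c ∧ m % c < (2 * d) % c) ∨ (Even i ∧
       (((2 * d) % c = 0 ∧ (Odd ((2 * d) / i) ∨ (m % c = 0 ∧ Odd (m / i)))) ∨
        (i ≤ m ∧ ((0 < m % c ∧ m % c < (2 * d) % c) ∨
                  (0 < m % c ∧ m % c = (2 * d) % c ∧ Odd ((2 * d + m - 2 * ((2 * d) % c)) / i)) ∨
                  (m % c = 0 ∧ 0 < (2 * d) % c ∧ Odd (m / i))))))) := by
  subst hc
  rw [CND_iff hi] at h0 ⊢
  obtain ⟨f1, f2, f3, f4, f5, f6, f7, f8⟩ := facts (n := 2 * d) (m := m) (cc_pos hi) (even_cc i)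
  have f9 := f7 (by omega)
  clear f6 f7
  have f10 : m % cc i = 0 → 1 ≤ m / cc i := fun h =>
    Nat.div_pos (Nat.le_of_dvd hm0 (Nat.dvd_of_mod_eq_zero h)) (cc_pos hi)
  simp only [Nat.even_iff, Nat.odd_iff] at hm
  rw [hm] at f4
  replace f3 : (2 * d) % cc i % 2 = 0 := by omega
  rcases Nat.even_or_odd i with he | he
  · have he' := he
    rw [cc_even he] at *
    rw [Nat.even_iff] at he'
    refine testN h0 ?_ ?_ <;> clear h0 <;>
    simp only [ADM, OKN, bt_iff, Nat.even_iff, Nat.odd_iff, true_iff, false_iff, iff_true,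
      iff_false, he', zero_ne_one, one_ne_zero, false_or, true_or, true_and, false_and, or_false,
      not_true, implies_true, and_true, true_implies] <;>
    generalize (2 * d + m - 2 * ((2 * d) % i)) / i = N at * <;>
    generalize (2 * d) / i = A at * <;>
    generalize (2 * d) % i = k at * <;>
    generalize m / i = M at * <;>
    generalize m % i = l at * <;>
    intros <;> (try simp only [imp_iff_not_or] at *) <;> omega
  · have he' := he
    rw [cc_odd he] at *
    rw [Nat.odd_iff] at he'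
    clear f8
    refine testN h0 ?_ ?_ <;> clear h0 <;>
    simp only [ADM, OKN, bt_iff, Nat.even_iff, Nat.odd_iff, true_iff, false_iff, iff_true,
      iff_false, he', zero_ne_one, one_ne_zero, false_or, true_or, true_and, false_and, or_false,
      not_true, implies_true, and_true, not_false_iff, imp_false, true_implies] <;>
    generalize (2 * d) / (2 * i) = A at * <;>
    generalize (2 * d) % (2 * i) = k at * <;>
    generalize m / (2 * i) = M at * <;>
    generalize m % (2 * i) = l at * <;>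
    intros <;> (try simp only [imp_iff_not_or] at *) <;> omega

theorem ar5990 {i d m c : ℕ} (hi : 0 < i) (hc : c = cc i) (hm0 : 0 < m) (hm : Even m) (hmn : m + 2 ≤ 2 * d)
    (h0 : CND i (2 * d) m False False → cc i ≤ m) : CND i (2 * d) m False False ↔
    ((Odd i ∧ ((2 * d) % c = 0 ∨ (c ≤ m ∧ 0 < m % c ∧ m % c ≤ (2 * d) % c))) ∨
     (Even i ∧
       (((2 * d) % c = 0 ∧ (Even ((2 * d) / i) ∨ (m % c = 0 ∧ Odd (m / i)))) ∨
        (0 < (2 * d) % c ∧ i ≤ m ∧ ((0 < m % c ∧ m % c < (2 * d) % c) ∨ (m % c = 0 ∧ Odd (m / i)) ∨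
          (m % c = (2 * d) % c ∧ Even ((2 * d + m - 2 * ((2 * d) % c)) / i))))))) := by
  subst hc
  rw [CND_iff hi] at h0 ⊢
  obtain ⟨f1, f2, f3, f4, f5, f6, f7, f8⟩ := facts (n := 2 * d) (m := m) (cc_pos hi) (even_cc i)
  have f9 := f6 (by omega)
  clear f6 f7
  have f10 : m % cc i = 0 → 1 ≤ m / cc i := fun h =>
    Nat.div_pos (Nat.le_of_dvd hm0 (Nat.dvd_of_mod_eq_zero h)) (cc_pos hi)
  simp only [Nat.even_iff, Nat.odd_iff] at hm
  rw [hm] at f4
  replace f3 : (2 * d) % cc i % 2 = 0 := by omega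
  rcases Nat.even_or_odd i with he | he
  · have he' := he
    rw [cc_even he] at *
    rw [Nat.even_iff] at he'
    refine testN h0 ?_ ?_ <;> clear h0 <;>
    simp only [ADM, OKN, bt_iff, Nat.even_iff, Nat.odd_iff, true_iff, false_iff, iff_true,
      iff_false, he', zero_ne_one, one_ne_zero, false_or, true_or, true_and, false_and, or_false,
      not_true, implies_true, and_true, true_implies] <;>
    generalize (2 * d + m - 2 * ((2 * d) % i)) / i = N at * <;>
    generalize (2 * d) / i = A at * <;>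
    generalize (2 * d) % i = k at * <;>
    generalize m / i = M at * <;>
    generalize m % i = l at * <;>
    intros <;> (try simp only [imp_iff_not_or] at *) <;> omega
  · have he' := he
    rw [cc_odd he] at *
    rw [Nat.odd_iff] at he'
    clear f8
    refine testN h0 ?_ ?_ <;> clear h0 <;>
    simp only [ADM, OKN, bt_iff, Nat.even_iff, Nat.odd_iff, true_iff, false_iff, iff_true,
      iff_false, he', zero_ne_one, one_ne_zero, false_or, true_or, true_and, false_and, or_false,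
      not_true, implies_true, and_true, not_false_iff, imp_false, true_implies] <;>
    generalize (2 * d) / (2 * i) = A at * <;>
    generalize (2 * d) % (2 * i) = k at * <;>
    generalize m / (2 * i) = M at * <;>
    generalize m % (2 * i) = l at * <;>
    intros <;> (try simp only [imp_iff_not_or] at *) <;> omega

theorem ar5992 {i d m c : ℕ} (hi : 0 < i) (hc : c = cc i) (hm0 : 0 < m) (hm : Even m) (hmn : m ≤ 2 * d)
    (h0 : CND i (2 * d + 1) m False True → cc i ≤ m) : CND i (2 * d + 1) m False True ↔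
    ((Odd i ∧ c ≤ m ∧ (m % c = 0 ∨ (0 < m % c ∧ m % c < (2 * d + 1) % c))) ∨
     (Even i ∧ i ≤ m ∧ m % c < (2 * d + 1) % c ∧ (0 < m % c ∨ Even (m / i)))) := by
  subst hc
  rw [CND_iff hi] at h0 ⊢
  obtain ⟨f1, f2, f3, f4, f5, f6, f7, f8⟩ := facts (n := 2 * d + 1) (m := m) (cc_pos hi) (even_cc i)
  have f9 := f6 (by omega)
  clear f6 f7
  have f10 : m % cc i = 0 → 1 ≤ m / cc i := fun h =>
    Nat.div_pos (Nat.le_of_dvd hm0 (Nat.dvd_of_mod_eq_zero h)) (cc_pos hi)
  simp only [Nat.even_iff, Nat.odd_iff] at hm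
  rw [hm] at f4
  replace f3 : (2 * d + 1) % cc i % 2 = 1 := by omega
  rcases Nat.even_or_odd i with he | he
  · have he' := he
    rw [cc_even he] at *
    rw [Nat.even_iff] at he'
    refine testN h0 ?_ ?_ <;> clear h0 <;>
    simp only [ADM, OKN, bt_iff, Nat.even_iff, Nat.odd_iff, true_iff, false_iff, iff_true,
      iff_false, he', zero_ne_one, one_ne_zero, false_or, true_or, true_and, false_and, or_false,
      not_true, implies_true, and_true, true_implies] <;>
    generalize (2 * d + 1 + m - 2 * ((2 * d + 1) % i)) / i = N at * <;>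
    generalize (2 * d + 1) / i = A at * <;>
    generalize (2 * d + 1) % i = k at * <;>
    generalize m / i = M at * <;>
    generalize m % i = l at * <;>
    intros <;> (try simp only [imp_iff_not_or] at *) <;> omega
  · have he' := he
    rw [cc_odd he] at *
    rw [Nat.odd_iff] at he'
    clear f8
    refine testN h0 ?_ ?_ <;> clear h0 <;>
    simp only [ADM, OKN, bt_iff, Nat.even_iff, Nat.odd_iff, true_iff, false_iff, iff_true,
      iff_false, he', zero_ne_one, one_ne_zero, false_or, true_or, true_and, false_and, or_false,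
      not_true, implies_true, and_true, not_false_iff, imp_false, true_implies] <;>
    generalize (2 * d + 1) / (2 * i) = A at * <;>
    generalize (2 * d + 1) % (2 * i) = k at * <;>
    generalize m / (2 * i) = M at * <;>
    generalize m % (2 * i) = l at * <;>
    intros <;> (try simp only [imp_iff_not_or] at *) <;> omega

theorem ar5993 {i d m c : ℕ} (hi : 0 < i) (hc : c = cc i) (hm0 : 0 < m) (hm : Even m) (hmn : m ≤ 2 * d)
    (h0 : CND i (2 * d + 1) m False False → cc i ≤ m) : CND i (2 * d + 1) m False False ↔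
    ((Odd i ∧ c ≤ m ∧ 0 < m % c ∧ m % c < (2 * d + 1) % c) ∨
     (Even i ∧ i ≤ m ∧ m % c < (2 * d + 1) % c ∧ (0 < m % c ∨ Odd (m / i)))) := by
  subst hc
  rw [CND_iff hi] at h0 ⊢
  obtain ⟨f1, f2, f3, f4, f5, f6, f7, f8⟩ := facts (n := 2 * d + 1) (m := m) (cc_pos hi) (even_cc i)
  have f9 := f6 (by omega)
  clear f6 f7
  have f10 : m % cc i = 0 → 1 ≤ m / cc i := fun h =>
    Nat.div_pos (Nat.le_of_dvd hm0 (Nat.dvd_of_mod_eq_zero h)) (cc_pos hi)
  simp only [Nat.even_iff, Nat.odd_iff] at hm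
  rw [hm] at f4
  replace f3 : (2 * d + 1) % cc i % 2 = 1 := by omega
  rcases Nat.even_or_odd i with he | he
  · have he' := he
    rw [cc_even he] at *
    rw [Nat.even_iff] at he'
    refine testN h0 ?_ ?_ <;> clear h0 <;>
    simp only [ADM, OKN, bt_iff, Nat.even_iff, Nat.odd_iff, true_iff, false_iff, iff_true,
      iff_false, he', zero_ne_one, one_ne_zero, false_or, true_or, true_and, false_and, or_false,
      not_true, implies_true, and_true, true_implies] <;>
    generalize (2 * d + 1 + m - 2 * ((2 * d + 1) % i)) / i = N at * <;>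
    generalize (2 * d + 1) / i = A at * <;>
    generalize (2 * d + 1) % i = k at * <;>
    generalize m / i = M at * <;>
    generalize m % i = l at * <;>
    intros <;> (try simp only [imp_iff_not_or] at *) <;> omega
  · have he' := he
    rw [cc_odd he] at *
    rw [Nat.odd_iff] at he'
    clear f8
    refine testN h0 ?_ ?_ <;> clear h0 <;>
    simp only [ADM, OKN, bt_iff, Nat.even_iff, Nat.odd_iff, true_iff, false_iff, iff_true,
      iff_false, he', zero_ne_one, one_ne_zero, false_or, true_or, true_and, false_and, or_false,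
      not_true, implies_true, and_true, not_false_iff, imp_false, true_implies] <;>
    generalize (2 * d + 1) / (2 * i) = A at * <;>
    generalize (2 * d + 1) % (2 * i) = k at * <;>
    generalize m / (2 * i) = M at * <;>
    generalize m % (2 * i) = l at * <;>
    intros <;> (try simp only [imp_iff_not_or] at *) <;> omega

theorem ar5989 {i d m c : ℕ} (hi : 0 < i) (hc : c = cc i) (hm0 : 0 < m) (hm : Odd m) (hmd : m < d)
    (h0 : CIS i (2 * d) m True → cc i ≤ m) : CIS i (2 * d) m True ↔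
    ((Odd i ∧ c ≤ m ∧ 0 < m % c ∧ m % c < (2 * d) % c) ∨
     (Even i ∧ (((2 * d) % c = 0 ∧ Odd ((2 * d) / i)) ∨
       (i ≤ m ∧ 0 < m % c ∧ m % c < (2 * d) % c)))) := by
  subst hc
  rw [CIS_iff hi] at h0 ⊢
  obtain ⟨f1, f2, f3, f4, f5, f6, f7, f8⟩ := facts (n := 2 * d) (m := m) (cc_pos hi) (even_cc i)
  have f9 := f7 (by omega)
  clear f6 f7
  have f10 : m % cc i = 0 → 1 ≤ m / cc i := fun h =>
    Nat.div_pos (Nat.le_of_dvd hm0 (Nat.dvd_of_mod_eq_zero h)) (cc_pos hi)
  simp only [Nat.even_iff, Nat.odd_iff] at hm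
  rw [hm] at f4
  replace f3 : (2 * d) % cc i % 2 = 0 := by omega
  rcases Nat.even_or_odd i with he | he
  · have he' := he
    rw [cc_even he] at *
    rw [Nat.even_iff] at he'
    refine testI h0 ?_ ?_ <;> clear h0 <;>
    simp only [ADM, OKI, bt_iff, Nat.even_iff, Nat.odd_iff, true_iff, false_iff, iff_true,
      iff_false, he', zero_ne_one, one_ne_zero, false_or, true_or, true_and, false_and, or_false,
      not_true, implies_true, and_true, true_implies] <;>
    generalize (2 * d + m - 2 * ((2 * d) % i)) / i = N at * <;>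
    generalize (2 * d) / i = A at * <;>
    generalize (2 * d) % i = k at * <;>
    generalize m / i = M at * <;>
    generalize m % i = l at * <;>
    intros <;> (try simp only [imp_iff_not_or] at *) <;> omega
  · have he' := he
    rw [cc_odd he] at *
    rw [Nat.odd_iff] at he'
    clear f8
    refine testI h0 ?_ ?_ <;> clear h0 <;>
    simp only [ADM, OKI, bt_iff, Nat.even_iff, Nat.odd_iff, true_iff, false_iff, iff_true,
      iff_false, he', zero_ne_one, one_ne_zero, false_or, true_or, true_and, false_and, or_false,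
      not_true, implies_true, and_true, not_false_iff, imp_false, true_implies] <;>
    generalize (2 * d) / (2 * i) = A at * <;>
    generalize (2 * d) % (2 * i) = k at * <;>
    generalize m / (2 * i) = M at * <;>
    generalize m % (2 * i) = l at * <;>
    intros <;> (try simp only [imp_iff_not_or] at *) <;> omega

theorem ar5991 {i d m c : ℕ} (hi : 0 < i) (hc : c = cc i) (hm0 : 0 < m) (hm : Odd m) (hmd : m < d)
    (h0 : CIS i (2 * d) m False → cc i ≤ m) : CIS i (2 * d) m False ↔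
    ((Odd i ∧ ((2 * d) % c = 0 ∨ (c ≤ m ∧ 0 < m % c ∧ m % c < (2 * d) % c))) ∨
     (Even i ∧ (((2 * d) % c = 0 ∧ Even ((2 * d) / i)) ∨
       (0 < (2 * d) % c ∧ i ≤ m ∧ 0 < m % c ∧ m % c < (2 * d) % c)))) := by
  subst hc
  rw [CIS_iff hi] at h0 ⊢
  obtain ⟨f1, f2, f3, f4, f5, f6, f7, f8⟩ := facts (n := 2 * d) (m := m) (cc_pos hi) (even_cc i)
  have f9 := f7 (by omega)
  clear f6 f7
  have f10 : m % cc i = 0 → 1 ≤ m / cc i := fun h =>
    Nat.div_pos (Nat.le_of_dvd hm0 (Nat.dvd_of_mod_eq_zero h)) (cc_pos hi)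
  simp only [Nat.even_iff, Nat.odd_iff] at hm
  rw [hm] at f4
  replace f3 : (2 * d) % cc i % 2 = 0 := by omega
  rcases Nat.even_or_odd i with he | he
  · have he' := he
    rw [cc_even he] at *
    rw [Nat.even_iff] at he'
    refine testI h0 ?_ ?_ <;> clear h0 <;>
    simp only [ADM, OKI, bt_iff, Nat.even_iff, Nat.odd_iff, true_iff, false_iff, iff_true,
      iff_false, he', zero_ne_one, one_ne_zero, false_or, true_or, true_and, false_and, or_false,
      not_true, implies_true, and_true, true_implies] <;>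
    generalize (2 * d + m - 2 * ((2 * d) % i)) / i = N at * <;>
    generalize (2 * d) / i = A at * <;>
    generalize (2 * d) % i = k at * <;>
    generalize m / i = M at * <;>
    generalize m % i = l at * <;>
    intros <;> (try simp only [imp_iff_not_or] at *) <;> omega
  · have he' := he
    rw [cc_odd he] at *
    rw [Nat.odd_iff] at he'
    clear f8
    refine testI h0 ?_ ?_ <;> clear h0 <;>
    simp only [ADM, OKI, bt_iff, Nat.even_iff, Nat.odd_iff, true_iff, false_iff, iff_true,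
      iff_false, he', zero_ne_one, one_ne_zero, false_or, true_or, true_and, false_and, or_false,
      not_true, implies_true, and_true, not_false_iff, imp_false, true_implies] <;>
    generalize (2 * d) / (2 * i) = A at * <;>
    generalize (2 * d) % (2 * i) = k at * <;>
    generalize m / (2 * i) = M at * <;>
    generalize m % (2 * i) = l at * <;>
    intros <;> (try simp only [imp_iff_not_or] at *) <;> omega

end Cfsg.Agent.H2.Oel
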