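import Cfsg.Agent.H2.Oel6

/-! Orthogonal groups, prime order elements, part 7: arithmetic, totally singular case. -/

set_option autoImplicit false
set_option linter.unusedSectionVars false
set_option linter.unusedSimpArgs false

namespace Cfsg.Agent.H2.Oel

lemma OKT_iff {i A k M l b a h : ℕ} {ε : Prop} (hb : 1 ≤ b) :
    (∃ j, OKT i A k M l b a h j ε) ↔ (b * (M - h) + l / cc i < A - a ∨
      (b * (M - h) + l / cc i = A - a ∧ l % cc i ≤ k ∧ (l % cc i ≠ k ∨ (ε ↔ bt i a)))) := by
  constructor
  · rintro ⟨j, h1, h2, h3, h4⟩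
    rcases (show M - j = M - h ∨ M - h + 1 ≤ M - j by omega) with e | e
    · rw [e] at h3 h4
      rcases h3 with h3 | h3
      · exact Or.inl h3
      · exact Or.inr ⟨h3.1, h3.2, by
          by_cases e' : l % cc i = k
          · exact Or.inr (h4 ⟨h3.1, e'⟩)
          · exact Or.inl e'⟩
    · have := Nat.mul_le_mul_left b e
      rw [mul_add] at this
      omega
  · intro H
    refine ⟨min h M, min_le_left _ _, min_le_right _ _, ?_⟩
    rw [show M - min h M = M - h by omega]
    rcases H with H | ⟨h1, h2, h3⟩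
    · exact ⟨Or.inl H, fun h => by omega⟩
    · exact ⟨Or.inr ⟨h1, h2⟩, fun h => h3.resolve_left (not_not.2 h.2)⟩

lemma testT {i A k M x y t : ℕ} {ε : Prop} (he : Even i) (ht : 1 ≤ t) (hM : 1 ≤ M) (hA : 2 ≤ A)
    (h : ∀ a h, ADM i A k a ε → (Odd i → h = a) → (Even i → 2 * h ≤ a ∧ a ≤ 2 * h + t) →
      (2 * (M - h) + x < A - a ∨ (2 * (M - h) + x = A - a ∧ y ≤ k ∧ (y ≠ k ∨ (ε ↔ bt i a))))) :
    ((k = 0 ∧ ¬ (ε ↔ A % 2 = 0)) ∨ (x = 0 ∧ y ≤ k ∧ (y ≠ k ∨ (ε ↔ A % 2 = 0)))) ∧
    (2 * M + t ≤ A ∧ (x = 0 ∨ (x = 1 ∧ y ≤ k ∧ (y ≠ k ∨ (ε ↔ A % 2 = 1))))) ∧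
    (2 * M + t + 1 ≤ A ∨ (x = 0 ∧ y ≤ k ∧ (y ≠ k ∨ (ε ↔ A % 2 = 0)))) := by
  have ho : ∀ {P : Prop}, Odd i → P := fun h => absurd he (Nat.not_even_iff_odd.2 h)
  have g2 := h (A - 1) ((A - t) / 2) ⟨by omega, by omega, by omega⟩ ho (by omega)
  have e2 : bt i (A - 1) ↔ A % 2 = 1 := by rw [bt_even he, Nat.even_iff]; omega
  rw [e2] at g2
  have g4 : 2 * M + t ≤ A := by omega
  have g3 := h (A - 2) ((A - 1 - t) / 2) ⟨by omega, by omega, by omega⟩ ho (by omega)
  have e3 : bt i (A - 2) ↔ A % 2 = 0 := by rw [bt_even he, Nat.even_iff]; omega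
  rw [e3] at g3
  refine ⟨?_, ⟨g4, ?_⟩, ?_⟩
  · have e1 : bt i A ↔ A % 2 = 0 := by rw [bt_even he, Nat.even_iff]
    by_cases c : k = 0 ∧ ¬ (ε ↔ A % 2 = 0)
    · exact Or.inl c
    · have g1 := h A ((A + 1 - t) / 2) ⟨by omega, le_rfl, fun h => by
        rw [e1]; by_contra c'; exact c ⟨h.1, c'⟩⟩ ho (by omega)
      rw [e1] at g1
      rcases g1 with g1 | ⟨a, b, c⟩
      · omega
      · exact Or.inr ⟨by omega, b, c⟩
  · rcases g2 with g2 | ⟨a, b, c⟩
    · omega
    · exact Or.inr ⟨by omega, b, c⟩
  · rcases g3 with g3 | ⟨a, b, c⟩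
    · omega
    · by_cases c' : 2 * M + t + 1 ≤ A
      · exact Or.inl c'
      · exact Or.inr ⟨by omega, b, c⟩

lemma pick {P Q R S : Prop} (h : P → Q → R → S) : ¬ P ∨ ¬ Q ∨ ¬ R ∨ S := by tauto

lemma factsO {i n m : ℕ} (hi : 0 < i) (h : 2 * m < n) :
    2 * (m % i) / (2 * i) = 0 ∧ 2 * (m % i) % (2 * i) = 2 * (m % i) ∧ m % i < i ∧
    n % (2 * i) < 2 * i ∧ n % (2 * i) % 2 = n % 2 ∧ (i ≤ m ↔ 1 ≤ m / i) ∧
    (m / i < n / (2 * i) ∨ (m / i = n / (2 * i) ∧ 2 * (m % i) < n % (2 * i))) := by
  have h1 := Nat.mod_lt m hi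
  have h2 := Nat.mod_lt n (show 0 < 2 * i by omega)
  have h3 := Nat.mod_add_div n (2 * i)
  have h4 := Nat.mod_add_div m i
  refine ⟨Nat.div_eq_of_lt (by omega), Nat.mod_eq_of_lt (by omega), h1, h2,
    Nat.mod_mod_of_dvd _ (by simp), by rw [Nat.le_div_iff_mul_le hi, one_mul], ?_⟩
  have := (mix_le (x := m / i) (y := n / (2 * i)) h2 (show 2 * (m % i) < 2 * i by omega)).not.1
    (by rw [mul_assoc 2 i (m / i)]; omega)
  omega

lemma factsE {i n m : ℕ} (hi : 0 < i) (he : Even i) (h : 2 * m < n) :
    (2 * (m % i) / i = 0 ∧ 2 * (m % i) % i = 2 * (m % i) ∨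
      2 * (m % i) / i = 1 ∧ 2 * (m % i) % i + i = 2 * (m % i)) ∧ 2 * (m % i) % i < i ∧
    n % i < i ∧ n % i % 2 = n % 2 ∧ (i ≤ m ↔ 1 ≤ m / i) ∧
    (2 * (m / i) + 2 * (m % i) / i < n / i ∨
      (2 * (m / i) + 2 * (m % i) / i = n / i ∧ 2 * (m % i) % i < n % i)) := by
  have h1 := Nat.mod_lt m hi
  have h2 := Nat.mod_lt n hi
  have h3 := Nat.mod_add_div n i
  have h4 := Nat.mod_add_div m i
  have h5 := Nat.mod_add_div (2 * (m % i)) i
  have h6 := Nat.mod_lt (2 * (m % i)) hi
  have h7 : 2 * (m % i) / i < 2 := (Nat.div_lt_iff_lt_mul hi).2 (by omega)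
  refine ⟨?_, h6, h2, Nat.mod_mod_of_dvd _ he.two_dvd,
    by rw [Nat.le_div_iff_mul_le hi, one_mul], ?_⟩
  · rcases Nat.le_one_iff_eq_zero_or_eq_one.1 (Nat.lt_succ_iff.1 h7) with e | e <;>
      rw [e] at h5 <;> omega
  · have := (mix_le (x := 2 * (m / i) + 2 * (m % i) / i) (y := n / i) h2 h6).not.1
      (by rw [mul_add, mul_left_comm]; omega)
    omega

theorem ar5972 {i t d m c : ℕ} (hi : 0 < i) (hc : c = cc i) (ht : 1 ≤ t) (hmd : m ≤ d)
    (h0 : CTS i t (2 * d + 1) m False → i ≤ m) : CTS i t (2 * d + 1) m False ↔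
    (i ≤ m ∧ 2 * (m % i) < (2 * d + 1) % c ∧ (Odd i ∨ t + 2 * (m / i) ≤ (2 * d + 1) / i)) := by
  subst hc
  rcases Nat.even_or_odd i with he | he
  · have he' := he
    rw [Nat.even_iff] at he'
    obtain ⟨f1, f2, f3, f4, f5, f6⟩ := factsE (n := 2 * d + 1) (m := m) hi he (by omega)
    replace f4 : (2 * d + 1) % i % 2 = 1 := by omega
    rw [CTS_iff hi (b := 2) _ _ _ _ (by rw [cc_even he, mul_comm])] at h0 ⊢
    simp only [OKT_iff one_le_two, cc_even he] at h0 ⊢
    refine ⟨fun h => ?_, fun hR a h g1 g2 g3 => ?_⟩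
    · have g0 := h0 h
      obtain ⟨g1, g2, g3⟩ := testT he ht (f5.1 g0) (by have := f5.1 g0; omega) h
      clear h h0 hmd
      simp only [ADM, bt_iff, Nat.even_iff, Nat.odd_iff, true_iff, false_iff,
        iff_true, iff_false, he', zero_ne_one, one_ne_zero, false_or, true_or, true_and, false_and,
        or_false, not_true, implies_true, and_true, true_implies, false_implies, not_false_iff, imp_false,
        or_true] at g1 g2 g3 ⊢
      generalize (2 * d + 1) / i = A at *
      generalize (2 * d + 1) % i = k at *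
      generalize m / i = M at *
      generalize 2 * (m % i) / i = x at *
      generalize 2 * (m % i) % i = y at *
      generalize m % i = l at *
      try simp only [imp_iff_not_or] at *
      rcases Nat.mod_two_eq_zero_or_one A with hA | hA <;> rcases f1 with ⟨rfl, f1⟩ | ⟨rfl, f1⟩ <;>
      omega
    · clear h0 hmd
      simp only [ADM, bt_iff, Nat.even_iff, Nat.odd_iff, true_iff, false_iff,
        iff_true, iff_false, he', zero_ne_one, one_ne_zero, false_or, true_or, true_and, false_and,
        or_false, not_true, implies_true, and_true, true_implies, false_implies, not_false_iff, imp_false,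
        or_true] at g1 g2 g3 hR ⊢
      generalize (2 * d + 1) / i = A at *
      generalize (2 * d + 1) % i = k at *
      generalize m / i = M at *
      generalize 2 * (m % i) / i = x at *
      generalize 2 * (m % i) % i = y at *
      generalize m % i = l at *
      try simp only [imp_iff_not_or] at *
      rcases Nat.mod_two_eq_zero_or_one A with hA | hA <;> rcases f1 with ⟨rfl, f1⟩ | ⟨rfl, f1⟩ <;>
      omega
  · have he' := he
    rw [Nat.odd_iff] at he'
    obtain ⟨f1, f2, f3, f4, f5, f6, f7⟩ := factsO (n := 2 * d + 1) (m := m) hi (by omega)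
    replace f5 : (2 * d + 1) % (2 * i) % 2 = 1 := by omega
    rw [CTS_iff hi (b := 1) _ _ _ _ (by rw [cc_odd he, mul_one])] at h0 ⊢
    simp only [OKT_iff le_rfl, cc_odd he, f1, f2] at h0 ⊢
    refine ⟨fun h => ?_, fun hR a h g1 g2 g3 => ?_⟩
    · have g0 := h0 h
      have g1 := pick (h ((2 * d + 1) / (2 * i)) ((2 * d + 1) / (2 * i)))
      have g2 := pick (h ((2 * d + 1) / (2 * i) - 1) ((2 * d + 1) / (2 * i) - 1))
      clear h h0 hmd
      simp only [ADM, bt_iff, Nat.even_iff, Nat.odd_iff, true_iff, false_iff,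
        iff_true, iff_false, he', zero_ne_one, one_ne_zero, false_or, true_or, true_and, false_and,
        or_false, not_true, implies_true, and_true, true_implies, false_implies, not_false_iff, imp_false,
        or_true] at g1 g2 ⊢
      clear f1 f2
      generalize (2 * d + 1) / (2 * i) = A at *
      generalize (2 * d + 1) % (2 * i) = k at *
      generalize m / i = M at *
      generalize m % i = l at *
      try simp only [imp_iff_not_or] at *
      omega
    · clear h0 hmd
      simp only [ADM, bt_iff, Nat.even_iff, Nat.odd_iff, true_iff, false_iff,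
        iff_true, iff_false, he', zero_ne_one, one_ne_zero, false_or, true_or, true_and, false_and,
        or_false, not_true, implies_true, and_true, true_implies, false_implies, not_false_iff, imp_false,
        or_true] at g1 g2 g3 hR ⊢
      clear f1 f2
      generalize (2 * d + 1) / (2 * i) = A at *
      generalize (2 * d + 1) % (2 * i) = k at *
      generalize m / i = M at *
      generalize m % i = l at *
      try simp only [imp_iff_not_or] at *
      omega

theorem ar5973 {i t d m c : ℕ} (hi : 0 < i) (hc : c = cc i) (ht : 1 ≤ t) (hmd : m < d)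
    (h0 : CTS i t (2 * d) m True → i ≤ m) : CTS i t (2 * d) m True ↔
    ((Odd i ∧ i ≤ m ∧ 2 * (m % i) ≤ (2 * d) % c) ∨
     (Even i ∧ i ≤ m ∧ t + 2 * (m / i) ≤ (2 * d) / i ∧
       ((2 * (m % i) ≤ i ∧ (2 * d) % c = 0 ∧ Odd ((2 * d) / i) ∧ t + 2 * (m / i) < (2 * d) / i) ∨
        (2 * (m % i) ≤ (2 * d) % c ∧ Even ((2 * d) / i)) ∨
        (2 * (m % i) < (2 * d) % c ∧ Odd ((2 * d) / i))))) := by
  subst hc
  rcases Nat.even_or_odd i with he | he
  · have he' := he
    rw [Nat.even_iff] at he'
    obtain ⟨f1, f2, f3, f4, f5, f6⟩ := factsE (n := 2 * d) (m := m) hi he (by omega)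
    replace f4 : (2 * d) % i % 2 = 0 := by omega
    rw [CTS_iff hi (b := 2) _ _ _ _ (by rw [cc_even he, mul_comm])] at h0 ⊢
    simp only [OKT_iff one_le_two, cc_even he] at h0 ⊢
    refine ⟨fun h => ?_, fun hR a h g1 g2 g3 => ?_⟩
    · have g0 := h0 h
      obtain ⟨g1, g2, g3⟩ := testT he ht (f5.1 g0) (by have := f5.1 g0; omega) h
      clear h h0 hmd
      simp only [ADM, bt_iff, Nat.even_iff, Nat.odd_iff, true_iff, false_iff,
        iff_true, iff_false, he', zero_ne_one, one_ne_zero, false_or, true_or, true_and, false_and,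
        or_false, not_true, implies_true, and_true, true_implies, false_implies, not_false_iff, imp_false,
        or_true] at g1 g2 g3 ⊢
      generalize (2 * d) / i = A at *
      generalize (2 * d) % i = k at *
      generalize m / i = M at *
      generalize 2 * (m % i) / i = x at *
      generalize 2 * (m % i) % i = y at *
      generalize m % i = l at *
      try simp only [imp_iff_not_or] at *
      rcases Nat.mod_two_eq_zero_or_one A with hA | hA <;> rcases f1 with ⟨rfl, f1⟩ | ⟨rfl, f1⟩ <;>
      omega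
    · clear h0 hmd
      simp only [ADM, bt_iff, Nat.even_iff, Nat.odd_iff, true_iff, false_iff,
        iff_true, iff_false, he', zero_ne_one, one_ne_zero, false_or, true_or, true_and, false_and,
        or_false, not_true, implies_true, and_true, true_implies, false_implies, not_false_iff, imp_false,
        or_true] at g1 g2 g3 hR ⊢
      generalize (2 * d) / i = A at *
      generalize (2 * d) % i = k at *
      generalize m / i = M at *
      generalize 2 * (m % i) / i = x at *
      generalize 2 * (m % i) % i = y at *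
      generalize m % i = l at *
      try simp only [imp_iff_not_or] at *
      rcases Nat.mod_two_eq_zero_or_one A with hA | hA <;> rcases f1 with ⟨rfl, f1⟩ | ⟨rfl, f1⟩ <;>
      omega
  · have he' := he
    rw [Nat.odd_iff] at he'
    obtain ⟨f1, f2, f3, f4, f5, f6, f7⟩ := factsO (n := 2 * d) (m := m) hi (by omega)
    replace f5 : (2 * d) % (2 * i) % 2 = 0 := by omega
    rw [CTS_iff hi (b := 1) _ _ _ _ (by rw [cc_odd he, mul_one])] at h0 ⊢
    simp only [OKT_iff le_rfl, cc_odd he, f1, f2] at h0 ⊢
    refine ⟨fun h => ?_, fun hR a h g1 g2 g3 => ?_⟩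
    · have g0 := h0 h
      have g1 := pick (h ((2 * d) / (2 * i)) ((2 * d) / (2 * i)))
      have g2 := pick (h ((2 * d) / (2 * i) - 1) ((2 * d) / (2 * i) - 1))
      clear h h0 hmd
      simp only [ADM, bt_iff, Nat.even_iff, Nat.odd_iff, true_iff, false_iff,
        iff_true, iff_false, he', zero_ne_one, one_ne_zero, false_or, true_or, true_and, false_and,
        or_false, not_true, implies_true, and_true, true_implies, false_implies, not_false_iff, imp_false,
        or_true] at g1 g2 ⊢
      clear f1 f2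
      generalize (2 * d) / (2 * i) = A at *
      generalize (2 * d) % (2 * i) = k at *
      generalize m / i = M at *
      generalize m % i = l at *
      try simp only [imp_iff_not_or] at *
      omega
    · clear h0 hmd
      simp only [ADM, bt_iff, Nat.even_iff, Nat.odd_iff, true_iff, false_iff,
        iff_true, iff_false, he', zero_ne_one, one_ne_zero, false_or, true_or, true_and, false_and,
        or_false, not_true, implies_true, and_true, true_implies, false_implies, not_false_iff, imp_false,
        or_true] at g1 g2 g3 hR ⊢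
      clear f1 f2
      generalize (2 * d) / (2 * i) = A at *
      generalize (2 * d) % (2 * i) = k at *
      generalize m / i = M at *
      generalize m % i = l at *
      try simp only [imp_iff_not_or] at *
      omega

theorem ar5987 {i t d m c : ℕ} (hi : 0 < i) (hc : c = cc i) (ht : 1 ≤ t) (hmd : m < d)
    (h0 : CTS i t (2 * d) m False → i ≤ m) : CTS i t (2 * d) m False ↔
    ((Odd i ∧ i ≤ m ∧ ((2 * d) % c = 0 ∨ 2 * (m % i) < (2 * d) % c)) ∨
     (Even i ∧ i ≤ m ∧ t + 2 * (m / i) ≤ (2 * d) / i ∧
       ((2 * (m % i) ≤ i ∧ (2 * d) % c = 0 ∧ Even ((2 * d) / i) ∧ t + 2 * (m / i) < (2 * d) / i) ∨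
        (2 * (m % i) ≤ (2 * d) % c ∧ Odd ((2 * d) / i)) ∨
        (2 * (m % i) < (2 * d) % c ∧ Even ((2 * d) / i))))) := by
  subst hc
  rcases Nat.even_or_odd i with he | he
  · have he' := he
    rw [Nat.even_iff] at he'
    obtain ⟨f1, f2, f3, f4, f5, f6⟩ := factsE (n := 2 * d) (m := m) hi he (by omega)
    replace f4 : (2 * d) % i % 2 = 0 := by omega
    rw [CTS_iff hi (b := 2) _ _ _ _ (by rw [cc_even he, mul_comm])] at h0 ⊢
    simp only [OKT_iff one_le_two, cc_even he] at h0 ⊢
    refine ⟨fun h => ?_, fun hR a h g1 g2 g3 => ?_⟩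
    · have g0 := h0 h
      obtain ⟨g1, g2, g3⟩ := testT he ht (f5.1 g0) (by have := f5.1 g0; omega) h
      clear h h0 hmd
      simp only [ADM, bt_iff, Nat.even_iff, Nat.odd_iff, true_iff, false_iff,
        iff_true, iff_false, he', zero_ne_one, one_ne_zero, false_or, true_or, true_and, false_and,
        or_false, not_true, implies_true, and_true, true_implies, false_implies, not_false_iff, imp_false,
        or_true] at g1 g2 g3 ⊢
      generalize (2 * d) / i = A at *
      generalize (2 * d) % i = k at *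
      generalize m / i = M at *
      generalize 2 * (m % i) / i = x at *
      generalize 2 * (m % i) % i = y at *
      generalize m % i = l at *
      try simp only [imp_iff_not_or] at *
      rcases Nat.mod_two_eq_zero_or_one A with hA | hA <;> rcases f1 with ⟨rfl, f1⟩ | ⟨rfl, f1⟩ <;>
      omega
    · clear h0 hmd
      simp only [ADM, bt_iff, Nat.even_iff, Nat.odd_iff, true_iff, false_iff,
        iff_true, iff_false, he', zero_ne_one, one_ne_zero, false_or, true_or, true_and, false_and,
        or_false, not_true, implies_true, and_true, true_implies, false_implies, not_false_iff, imp_false,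
        or_true] at g1 g2 g3 hR ⊢
      generalize (2 * d) / i = A at *
      generalize (2 * d) % i = k at *
      generalize m / i = M at *
      generalize 2 * (m % i) / i = x at *
      generalize 2 * (m % i) % i = y at *
      generalize m % i = l at *
      try simp only [imp_iff_not_or] at *
      rcases Nat.mod_two_eq_zero_or_one A with hA | hA <;> rcases f1 with ⟨rfl, f1⟩ | ⟨rfl, f1⟩ <;>
      omega
  · have he' := he
    rw [Nat.odd_iff] at he'
    obtain ⟨f1, f2, f3, f4, f5, f6, f7⟩ := factsO (n := 2 * d) (m := m) hi (by omega)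
    replace f5 : (2 * d) % (2 * i) % 2 = 0 := by omega
    rw [CTS_iff hi (b := 1) _ _ _ _ (by rw [cc_odd he, mul_one])] at h0 ⊢
    simp only [OKT_iff le_rfl, cc_odd he, f1, f2] at h0 ⊢
    refine ⟨fun h => ?_, fun hR a h g1 g2 g3 => ?_⟩
    · have g0 := h0 h
      have g1 := pick (h ((2 * d) / (2 * i)) ((2 * d) / (2 * i)))
      have g2 := pick (h ((2 * d) / (2 * i) - 1) ((2 * d) / (2 * i) - 1))
      clear h h0 hmd
      simp only [ADM, bt_iff, Nat.even_iff, Nat.odd_iff, true_iff, false_iff,
        iff_true, iff_false, he', zero_ne_one, one_ne_zero, false_or, true_or, true_and, false_and,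
        or_false, not_true, implies_true, and_true, true_implies, false_implies, not_false_iff, imp_false,
        or_true] at g1 g2 ⊢
      clear f1 f2
      generalize (2 * d) / (2 * i) = A at *
      generalize (2 * d) % (2 * i) = k at *
      generalize m / i = M at *
      generalize m % i = l at *
      try simp only [imp_iff_not_or] at *
      omega
    · clear h0 hmd
      simp only [ADM, bt_iff, Nat.even_iff, Nat.odd_iff, true_iff, false_iff,
        iff_true, iff_false, he', zero_ne_one, one_ne_zero, false_or, true_or, true_and, false_and,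
        or_false, not_true, implies_true, and_true, true_implies, false_implies, not_false_iff, imp_false,
        or_true] at g1 g2 g3 hR ⊢
      clear f1 f2
      generalize (2 * d) / (2 * i) = A at *
      generalize (2 * d) % (2 * i) = k at *
      generalize m / i = M at *
      generalize m % i = l at *
      try simp only [imp_iff_not_or] at *
      omega

end Cfsg.Agent.H2.Oel
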