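import Cfsg.Agent.H2.Oel7
import Cfsg.Agent.Orth.Bridge

/-! Orthogonal groups, prime order elements, part 8: bridge to matrices. -/

set_option autoImplicit false
set_option linter.unusedSectionVars false

namespace Cfsg.Agent.H2.Oel

open Module Cfsg.Agent.Orth Cfsg.Agent.H8 Cfsg.Geo

section forms
variable {ι : Type} [Fintype ι] [DecidableEq ι] {F : Type*} [Field F]

lemma nondeg_of_qf (Q : QuadraticForm F (ι → F)) {Q₀ : (ι → F) → F} (e : ∀ v, Q v = Q₀ v)
    (h : Nd Q) : IsNondegenerateQuadraticForm Q₀ := by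
  obtain rfl : Q₀ = Q := funext fun v => (e v).symm
  refine ⟨fun c v => by rw [Q_smul, sq], ⟨fun x y v => QuadraticMap.polar_add_left Q x y v,
    fun c x v => QuadraticMap.polar_smul_left Q c x v,
    fun v x y => QuadraticMap.polar_add_right Q v x y,
    fun c v x => QuadraticMap.polar_smul_right Q c v x⟩, fun v hv => ?_⟩
  obtain ⟨x, hx⟩ := h.exists_B_ne hv
  exact ⟨⟨x, by rw [B_comm] at hx; exact hx⟩, ⟨x, hx⟩⟩

noncomputable def qP (d : ℕ) (F : Type*) [Field F] : QuadraticForm F (Fin d ⊕ Fin d → F) :=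
  ∑ i : Fin d, QuadraticMap.proj (Sum.inl i) (Sum.inr i)

lemma qP_apply (d : ℕ) (v : Fin d ⊕ Fin d → F) : qP d F v = quadFormPlus d F v := by
  simp [qP, quadFormPlus]

lemma B_qP (d : ℕ) (x y : Fin d ⊕ Fin d → F) : B (qP d F) x y =
    ∑ i : Fin d, (x (.inl i) * y (.inr i) + x (.inr i) * y (.inl i)) := by
  have := Q_add (qP d F) x y
  simp only [qP_apply, quadFormPlus, Pi.add_apply] at this
  rw [← sub_eq_zero]
  have e : ∑ i : Fin d, (x (.inl i) + y (.inl i)) * (x (.inr i) + y (.inr i)) =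
      ∑ i : Fin d, x (.inl i) * x (.inr i) + ∑ i : Fin d, y (.inl i) * y (.inr i) +
      ∑ i : Fin d, (x (.inl i) * y (.inr i) + x (.inr i) * y (.inl i)) := by
    rw [← Finset.sum_add_distrib, ← Finset.sum_add_distrib]
    exact Finset.sum_congr rfl fun i _ => by ring
  linear_combination e - this

lemma nd_qP (d : ℕ) : Nd (qP d F) := fun v h => by
  funext j
  rcases j with j | j
  · simpa [B_qP, Pi.single_apply] using h (Pi.single (.inr j) 1)
  · simpa [B_qP, Pi.single_apply] using h (Pi.single (.inl j) 1)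

lemma plus_nondeg (d : ℕ) : IsNondegenerateQuadraticForm (quadFormPlus d F) :=
  nondeg_of_qf (qP d F) (qP_apply d) (nd_qP d)

/-- coordinate subspace -/
noncomputable def cs {κ : Type} (f : κ → ι) : Submodule F (ι → F) :=
  Submodule.span F (Set.range fun k => (Pi.single (f k) 1 : ι → F))

lemma finrank_cs {κ : Type} [Fintype κ] {f : κ → ι} (hf : Function.Injective f) :
    finrank F (cs (F := F) f) = Fintype.card κ := by
  have := (Pi.basisFun F ι).linearIndependent.comp f hf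
  have e : (fun k => (Pi.single (f k) 1 : ι → F)) = (Pi.basisFun F ι) ∘ f := by
    funext k; simp
  rw [cs, e]
  exact finrank_span_eq_card this

lemma cs_zero {κ : Type} {f : κ → ι} {v : ι → F} (hv : v ∈ cs (F := F) f) {j : ι}
    (hj : ∀ k, f k ≠ j) : v j = 0 := by
  induction hv using Submodule.span_induction with
  | mem x hx => obtain ⟨k, rfl⟩ := hx; simp [Pi.single_apply, (hj k).symm]
  | zero => rfl
  | add x y _ _ a b => simp [a, b]
  | smul c x _ a => simp [a]

lemma plus_top (d : ℕ) : Plus (toQF (plus_nondeg (F := F) d)) ⊤ := by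
  refine ⟨cs Sum.inl, le_top, fun v hv => ?_, ?_⟩
  · simp [quadFormPlus, fun i => cs_zero hv (j := Sum.inr i) (by simp)]
  · rw [finrank_cs Sum.inl_injective]; simp [two_mul]

noncomputable def qM (d : ℕ) (a b : F) : QuadraticForm F ((Fin d ⊕ Fin d) ⊕ Fin 2 → F) :=
  ∑ i : Fin d, QuadraticMap.proj (Sum.inl (Sum.inl i)) (Sum.inl (Sum.inr i)) +
    (QuadraticMap.proj (Sum.inr 0) (Sum.inr 0) + a • QuadraticMap.proj (Sum.inr 0) (Sum.inr 1) +
      b • QuadraticMap.proj (Sum.inr 1) (Sum.inr 1))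

lemma qM_apply (d : ℕ) (a b : F) (v : (Fin d ⊕ Fin d) ⊕ Fin 2 → F) :
    qM d a b v = quadFormMinus d F a b v := by
  simp [qM, quadFormMinus, sq, mul_assoc]

lemma B_qM (d : ℕ) (a b : F) (x y : (Fin d ⊕ Fin d) ⊕ Fin 2 → F) : B (qM d a b) x y =
    ∑ i : Fin d, (x (.inl (.inl i)) * y (.inl (.inr i)) + x (.inl (.inr i)) * y (.inl (.inl i))) +
      (2 * x (.inr 0) * y (.inr 0) + a * (x (.inr 0) * y (.inr 1) + x (.inr 1) * y (.inr 0)) +
        2 * b * x (.inr 1) * y (.inr 1)) := by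
  have := Q_add (qM d a b) x y
  simp only [qM_apply, quadFormMinus, Pi.add_apply] at this
  rw [← sub_eq_zero]
  have e : ∑ i : Fin d, (x (.inl (.inl i)) + y (.inl (.inl i))) *
      (x (.inl (.inr i)) + y (.inl (.inr i))) =
      ∑ i : Fin d, x (.inl (.inl i)) * x (.inl (.inr i)) +
      ∑ i : Fin d, y (.inl (.inl i)) * y (.inl (.inr i)) +
      ∑ i : Fin d, (x (.inl (.inl i)) * y (.inl (.inr i)) +
        x (.inl (.inr i)) * y (.inl (.inl i))) := by
    rw [← Finset.sum_add_distrib, ← Finset.sum_add_distrib]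
    exact Finset.sum_congr rfl fun i _ => by ring
  linear_combination e - this

lemma disc_ne [Finite F] {a b : F}
    (hab : ∀ x y : F, x ^ 2 + a * x * y + b * y ^ 2 = 0 → x = 0 ∧ y = 0) : 4 * b - a ^ 2 ≠ 0 := by
  intro h
  by_cases h2 : (2 : F) = 0
  · have ha : a = 0 := by
      have : a ^ 2 = 0 := by linear_combination 2 * b * h2 - h
      exact pow_eq_zero_iff two_ne_zero |>.1 this
    have hs : Function.Surjective fun x : F => x ^ 2 := Finite.injective_iff_surjective.1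
      fun x y e => by
        have : (x - y) ^ 2 = 0 := by
          have e' : x ^ 2 = y ^ 2 := e
          linear_combination e' + (y ^ 2 - x * y) * h2
        exact sub_eq_zero.1 (pow_eq_zero_iff two_ne_zero |>.1 this)
    obtain ⟨s, hs⟩ := hs b
    have hs' : s ^ 2 = b := hs
    exact one_ne_zero (hab s 1 (by rw [ha]; linear_combination hs' + b * h2)).2
  · exact h2 (hab (-a) 2 (by linear_combination h)).2

lemma nd_qM [Finite F] (d : ℕ) {a b : F}
    (hab : ∀ x y : F, x ^ 2 + a * x * y + b * y ^ 2 = 0 → x = 0 ∧ y = 0) : Nd (qM d a b) :=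
  fun v h => by
  have h0 := h (Pi.single (.inr 0) 1)
  have h1 := h (Pi.single (.inr 1) 1)
  simp [B_qM] at h0 h1
  have hD := disc_ne hab
  funext j
  rcases j with (j | j) | j
  · simpa [B_qM, Pi.single_apply] using h (Pi.single (.inl (.inr j)) 1)
  · simpa [B_qM, Pi.single_apply] using h (Pi.single (.inl (.inl j)) 1)
  · fin_cases j
    · exact (mul_eq_zero.1 (show (4 * b - a ^ 2) * v (.inr 0) = 0 by
        linear_combination 2 * b * h0 - a * h1)).resolve_left hD
    · exact (mul_eq_zero.1 (show (4 * b - a ^ 2) * v (.inr 1) = 0 by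
        linear_combination 2 * h1 - a * h0)).resolve_left hD

lemma minus_nondeg [Finite F] (d : ℕ) {a b : F}
    (hab : ∀ x y : F, x ^ 2 + a * x * y + b * y ^ 2 = 0 → x = 0 ∧ y = 0) :
    IsNondegenerateQuadraticForm (quadFormMinus d F a b) :=
  nondeg_of_qf (qM d a b) (qM_apply d a b) (nd_qM d hab)

lemma minus_top [Finite F] (d : ℕ) {a b : F}
    (hab : ∀ x y : F, x ^ 2 + a * x * y + b * y ^ 2 = 0 → x = 0 ∧ y = 0) :
    ¬ Plus (toQF (minus_nondeg d hab)) ⊤ := by
  rintro ⟨U, -, h1, h2⟩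
  let φ : U →ₗ[F] (Fin d → F) := LinearMap.funLeft F F (fun i => Sum.inl (Sum.inl i)) ∘ₗ U.subtype
  let T : Submodule F ((Fin d ⊕ Fin d) ⊕ Fin 2 → F) := cs fun i => Sum.inl (Sum.inr i)
  have hT : TS (toQF (minus_nondeg d hab)) T := fun v hv => by
    simp [quadFormMinus, fun i => cs_zero hv (j := Sum.inl (Sum.inl i)) (by simp),
      fun i => cs_zero hv (j := Sum.inr i) (by simp)]
  have dT : finrank F T = d := by
    rw [finrank_cs (fun i j h => by simpa using h)]; simp
  have hQ := nd_toQF (minus_nondeg d hab)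
  obtain ⟨U', a1, -, a2, a3⟩ := Plus.exists_ge hQ.ndOn_top ⟨U, le_top, h1, h2⟩ le_top hT
  rw [finrank_top] at a3
  simp only [finrank_fintype_fun_eq_card, Fintype.card_sum, Fintype.card_fin] at a3
  obtain ⟨v, hv, hvT⟩ := exists_mem_notMem_of_finrank_lt (H := U') (X := T) (by omega)
  have h3 : ∀ i, v (.inl (.inl i)) = 0 := fun i => by
    have := a2.B_eq_zero (a1 (Submodule.subset_span ⟨i, rfl⟩)) hv
    have e : B (toQF (minus_nondeg d hab)) = B (qM d a b) := by
      congr 1; ext v; exact (qM_apply d a b v).symm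
    rw [e] at this
    simpa [B_qM, Pi.single_apply] using this
  have h4 := a2 v hv
  simp only [toQF_apply, quadFormMinus, h3, zero_mul, Finset.sum_const_zero, zero_add] at h4
  obtain ⟨h5, h6⟩ := hab _ _ h4
  apply hvT
  have : v = ∑ i, v (.inl (.inr i)) • (Pi.single (.inl (.inr i)) 1 :
      (Fin d ⊕ Fin d) ⊕ Fin 2 → F) := by
    funext j
    rcases j with (j | j) | j
    · simp [h3]
    · simp [Pi.single_apply]
    · fin_cases j <;> simp [h5, h6]
  rw [this]
  exact T.sum_mem fun i _ => T.smul_mem _ (Submodule.subset_span ⟨i, rfl⟩)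

end forms

variable {F V : Type*} [Field F] [AddCommGroup V] [Module F V]

lemma odd_not_plus {Q : QuadraticForm F V} {W : Submodule F V} (h : Odd (finrank F W)) :
    ¬ Plus Q W := by
  rintro ⟨U, -, -, h2⟩
  rw [Nat.odd_iff] at h; omega

/-- all elements of order `r` modulo scalars of `Ω` satisfy `P` -/
def PE (Q : QuadraticForm F V) (r : ℕ) (P : (V ≃ₗ[F] V) → Prop) : Prop :=
  ∀ g ∈ EO Q, (∃ z : F, ∀ v, (g ^ r) v = z • v) → (∀ z : F, ¬ ∀ v, g v = z • v) → P g

/-- all elements of order `r` of `Ω` satisfy `P` -/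
def OE (Q : QuadraticForm F V) (r : ℕ) (P : (V ≃ₗ[F] V) → Prop) : Prop :=
  ∀ g ∈ EO Q, orderOf g = r → P g

section bridge
variable {ι : Type} [Fintype ι] [DecidableEq ι] [Finite F] {Q : (ι → F) → F}
  (hQ : IsNondegenerateQuadraticForm Q)

lemma scalar_iff (x : GL ι F) (z : F) :
    (x : Matrix ι ι F) = z • (1 : Matrix ι ι F) ↔ ∀ v, phi x v = z • v := by
  constructor
  · intro h v; rw [phi_apply, h]; simp [Matrix.smul_mulVec]
  · intro h
    apply Matrix.toLin'.injective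
    ext1 v
    ext1
    simpa [Matrix.smul_mulVec, phi_apply] using h (Pi.single v 1)

lemma map_le_iff (x : GL ι F) (W : Submodule F (ι → F)) :
    W.map (Matrix.toLin' (x : Matrix ι ι F)) ≤ W ↔ Inv (phi x) W := by
  rw [← phi_toLinearMap, Submodule.map_le_iff_le_comap]; rfl

theorem pe_bridge (hd : 5 ≤ Fintype.card ι) (r : ℕ) (P : GL ι F → Prop)
    (P' : ((ι → F) ≃ₗ[F] (ι → F)) → Prop) (h : ∀ x, P x ↔ P' (phi x)) :
    (∀ x : GL ι F, x ∈ omegaGL Q → (∃ z : F, ((x ^ r : GL ι F) : Matrix ι ι F) = z • 1) →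
      (∀ z : F, (x : Matrix ι ι F) ≠ z • 1) → P x) ↔ PE (toQF hQ) r P' := by
  simp only [mem_omegaGL hQ hd, scalar_iff, ne_eq, map_pow, h]
  constructor
  · intro H g
    obtain ⟨x, rfl⟩ := phi.surjective g
    exact H x
  · exact fun H x => H _

theorem oe_bridge (hd : 5 ≤ Fintype.card ι) (r : ℕ) (P : GL ι F → Prop)
    (P' : ((ι → F) ≃ₗ[F] (ι → F)) → Prop) (h : ∀ x, P x ↔ P' (phi x)) :
    (∀ x : GL ι F, x ∈ omegaGL Q → orderOf x = r → P x) ↔ OE (toQF hQ) r P' := by
  simp only [mem_omegaGL hQ hd, h]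
  constructor
  · intro H g
    obtain ⟨x, rfl⟩ := phi.surjective g
    rw [MulEquiv.orderOf_eq]
    exact H x
  · intro H x h1 h2
    exact H _ h1 (by rw [MulEquiv.orderOf_eq, h2])

theorem pe_fix (hd : 5 ≤ Fintype.card ι) (r : ℕ) {S S' : Submodule F (ι → F) → Prop}
    (h : ∀ W, S W ↔ S' W) :
    (∀ x : GL ι F, x ∈ omegaGL Q → (∃ z : F, ((x ^ r : GL ι F) : Matrix ι ι F) = z • 1) →
      (∀ z : F, (x : Matrix ι ι F) ≠ z • 1) →
      ∃ W, S W ∧ W.map (Matrix.toLin' (x : Matrix ι ι F)) ≤ W) ↔ PE (toQF hQ) r (FixIn S') :=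
  pe_bridge hQ hd r _ _ fun x => by simp only [FixIn, h, map_le_iff]

theorem oe_fix (hd : 5 ≤ Fintype.card ι) (r : ℕ) {S S' : Submodule F (ι → F) → Prop}
    (h : ∀ W, S W ↔ S' W) :
    (∀ x : GL ι F, x ∈ omegaGL Q → orderOf x = r →
      ∃ W, S W ∧ W.map (Matrix.toLin' (x : Matrix ι ι F)) ≤ W) ↔ OE (toQF hQ) r (FixIn S') :=
  oe_bridge hQ hd r _ _ fun x => by simp only [FixIn, h, map_le_iff]

lemma snd_plus (m : ℕ) (W : Submodule F (ι → F)) :
    (finrank F W = m ∧ IsNondegenerateOn (QuadraticMap.polar Q) W ∧ IsPlusTypeOn Q W) ↔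
      SND (toQF hQ) m True W := by
  rw [SND, ndOn_toQF hQ, iff_true]; rfl

lemma snd_plus' (m : ℕ) (W : Submodule F (ι → F)) :
    (finrank F W = m ∧ (∀ u ∈ W, u ≠ 0 → ∃ v ∈ W, QuadraticMap.polar Q u v ≠ 0) ∧
      ∃ U : Submodule F (ι → F), U ≤ W ∧ 2 * finrank F U = m ∧ ∀ u ∈ U, Q u = 0) ↔
      SND (toQF hQ) m True W := by
  rw [SND, iff_true]
  refine and_congr_right fun h => and_congr ⟨fun h v hv h' => ?_, fun h u hu h0 => ?_⟩
    ⟨fun ⟨U, a, b, c⟩ => ⟨U, a, c, b.trans h.symm⟩, fun ⟨U, a, b, c⟩ => ⟨U, a, c.trans h, b⟩⟩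
  · by_contra h0
    obtain ⟨x, hx, e⟩ := h v hv h0
    exact e (by rw [QuadraticMap.polar_comm]; exact h' x hx)
  · exact h.exists_B_ne hu h0

lemma snd_minus (m : ℕ) (W : Submodule F (ι → F)) :
    (finrank F W = m ∧ IsNondegenerateOn (QuadraticMap.polar Q) W ∧ ¬ IsPlusTypeOn Q W) ↔
      SND (toQF hQ) m False W := by
  rw [SND, ndOn_toQF hQ, iff_false]; rfl

lemma sis_iff (m : ℕ) (W₀ W : Submodule F (ι → F)) :
    (finrank F W = m ∧ IsNondegenerateOn (QuadraticMap.polar Q) W ∧ AreIsometricFor Q W W₀) ↔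
      SIS (toQF hQ) m W₀ W := by
  rw [SIS, ndOn_toQF hQ]
  exact and_congr_right fun _ => and_congr_right fun h =>
    ⟨fun ⟨e, he⟩ => iso_of_equiv e he, fun h' => h'.exists_equiv h⟩

end bridge

variable {Q : QuadraticForm F V} [Finite F] [FiniteDimensional F V] (hQ : Nd Q)
  (hd : 5 ≤ finrank F V)
include hQ hd

lemma sq_eq_one_of_scalar {g : V ≃ₗ[F] V} (hg : g ∈ O Q) {z : F} (h : ∀ v, g v = z • v) :
    z * z = 1 := by
  obtain ⟨v, -, hv⟩ := NdOn.exists_nonsing' hQ.ndOn_top (by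
    intro h0; have := finrank_top F V; rw [h0] at this; simp at this; omega)
  have := hg v
  rw [h, Q_smul] at this
  exact (mul_eq_right₀ hv).1 this

lemma mem_EO_of_odd {r : ℕ} (hr : Odd r) {g : V ≃ₗ[F] V} (hg : g ∈ O Q) (h : g ^ r = 1) :
    g ∈ EO Q := by
  obtain ⟨k, rfl⟩ := hr
  have := hQ.sq_mem_EO hd (pow_mem hg (k + 1))
  rwa [← pow_add, show k + 1 + (k + 1) = 2 * k + 1 + 1 by ring, pow_succ, h, one_mul] at this

theorem pe_odd {r : ℕ} (hr : Odd r) (S : Submodule F V → Prop) :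
    PE Q r (FixIn S) ↔ AllR Q r (FixIn S) := by
  constructor
  · intro H g hO hg h1
    refine H g (mem_EO_of_odd hQ hd hr hO hg) ⟨1, fun v => by rw [hg, one_smul]; rfl⟩ fun z hz => ?_
    have h2 := sq_eq_one_of_scalar hQ hd hO hz
    have h3 : ∀ (k : ℕ) v, (g ^ k) v = z ^ k • v := fun k => by
      induction k with
      | zero => intro v; simp
      | succ k ih => intro v; rw [pow_succ, mul_app, hz, map_smul, ih, smul_smul, pow_succ']
    obtain ⟨k, rfl⟩ := hr
    apply h1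
    ext v
    have := h3 (2 * k + 1) v
    rw [hg, pow_succ, pow_mul, sq, h2, one_pow, one_mul] at this
    rw [hz, ← this]
  · rintro H g hE ⟨z, hz⟩ h1
    have hO := EO_le_O hE
    have h2 := sq_eq_one_of_scalar hQ hd (pow_mem hO r) hz
    have hz0 : z ≠ 0 := by rintro rfl; simp at h2
    let s : V ≃ₗ[F] V := LinearEquiv.smulOfNeZero F V z hz0
    have hs : ∀ v, s v = z • v := fun _ => rfl
    have h3 : ∀ (k : ℕ) v, ((s * g) ^ k) v = z ^ k • (g ^ k) v := fun k => by
      induction k with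
      | zero => intro v; simp
      | succ k ih =>
        intro v
        rw [pow_succ, mul_app, ih, mul_app, hs, map_smul, smul_smul, pow_succ, pow_succ, mul_app]
    obtain ⟨W, a, b⟩ := H (s * g) (fun v => by rw [mul_app, hs, Q_smul, h2, one_mul, hO v])
      (by
        ext v
        obtain ⟨k, rfl⟩ := hr
        rw [h3, hz, smul_smul, pow_succ, pow_mul, sq, h2, one_pow, one_mul, h2, one_smul]; rfl)
      (fun e => h1 z fun v => by
        have : z • g v = v := LinearEquiv.congr_fun e v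
        rw [← one_smul F (g v), ← h2, mul_smul, this])
    refine ⟨W, a, fun v hv => ?_⟩
    rw [← one_smul F (g v), ← h2, mul_smul]
    exact W.smul_mem _ (b v hv)

theorem oe_odd {r : ℕ} (hp : r.Prime) (hr : Odd r) (P : (V ≃ₗ[F] V) → Prop) :
    OE Q r P ↔ AllR Q r P := by
  have := Fact.mk hp
  exact ⟨fun H g hO hg h1 => H g (mem_EO_of_odd hQ hd hr hO hg) (orderOf_eq_prime hg h1),
    fun H g hE h => H g (EO_le_O hE) (h ▸ pow_orderOf_eq_one g) (by
      rintro rfl; rw [orderOf_one] at h; exact hp.one_lt.ne h)⟩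

end Cfsg.Agent.H2.Oel
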