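import Cfsg.Agent.H2.Oel8

/-! Orthogonal groups, prime order elements, part 9: determinant and spinor norm. -/

set_option autoImplicit false
set_option linter.unusedSectionVars false

namespace Cfsg.Agent.H2.Oel

open Module Cfsg.Agent.Orth Cfsg.Agent.H8

variable {F V : Type*} [Field F] [AddCommGroup V] [Module F V] {Q : QuadraticForm F V}

variable (Q) in
/-- multiplicative predicates on the orthogonal group -/
def MP (P : (V ≃ₗ[F] V) → Prop) : Prop := ∀ g ∈ O Q, ∀ h ∈ O Q, P (g * h) ↔ (P g ↔ P h)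

lemma MP.one {P : (V ≃ₗ[F] V) → Prop} (h : MP Q P) : P 1 := by
  simpa using h 1 (one_mem _) 1 (one_mem _)

lemma MP.inv {P : (V ≃ₗ[F] V) → Prop} (h : MP Q P) {g : V ≃ₗ[F] V} (hg : g ∈ O Q) :
    P g⁻¹ ↔ P g := by
  have := h _ (inv_mem hg) _ hg
  rw [inv_mul_cancel] at this
  exact this.1 h.one

variable (Q) in
/-- determinant and spinor norm -/
structure Spin (D θ : (V ≃ₗ[F] V) → Prop) : Prop where
  mD : MP Q D
  mθ : MP Q θ
  D_refl : ∀ a, Q a ≠ 0 → ¬ D (refl Q a)
  θ_refl : ∀ a, Q a ≠ 0 → (θ (refl Q a) ↔ IsSquare (Q a))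
  mem : ∀ g ∈ O Q, g ∈ EO Q ↔ D g ∧ θ g

variable [Finite F] [FiniteDimensional F V]

lemma MP.of_EO (hQ : Nd Q) (hd : 5 ≤ finrank F V) {P : (V ≃ₗ[F] V) → Prop} (h : MP Q P) :
    ∀ g ∈ EO Q, P g := by
  let K : Subgroup (V ≃ₗ[F] V) :=
    { carrier := {g | g ∈ O Q ∧ P g}
      mul_mem' := fun {a b} ha hb => ⟨mul_mem ha.1 hb.1, (h a ha.1 b hb.1).2 (iff_of_true ha.2 hb.2)⟩
      one_mem' := ⟨one_mem _, h.one⟩
      inv_mem' := fun {a} ha => ⟨inv_mem ha.1, (h.inv ha.1).2 ha.2⟩ }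
  have : EO Q ≤ K := by
    rw [← hQ.commutator_O hd, Subgroup.commutator_le]
    intro a ha b hb
    refine ⟨mul_mem (mul_mem (mul_mem ha hb) (inv_mem ha)) (inv_mem hb), ?_⟩
    rw [commutatorElement_def, h _ (mul_mem (mul_mem ha hb) (inv_mem ha)) _ (inv_mem hb),
      h _ (mul_mem ha hb) _ (inv_mem ha), h _ ha _ hb, h.inv ha, h.inv hb]
    tauto
  exact fun g hg => (this hg).2

lemma det_refl {a : V} (ha : Q a ≠ 0) : LinearMap.det (refl Q a : V →ₗ[F] V) = -1 := by
  have : (refl Q a : V →ₗ[F] V) = LinearMap.transvection (-((Q a)⁻¹ • B Q a)) a := by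
    ext x
    simp [refl_apply, LinearMap.transvection.apply, sub_eq_add_neg]
  rw [this, LinearMap.transvection.det]
  simp only [LinearMap.neg_apply, LinearMap.smul_apply, B_self, smul_eq_mul]
  field_simp; ring

lemma mp_det (hQ : Nd Q) (hd : 5 ≤ finrank F V) (h2 : (2 : F) ≠ 0) :
    MP Q fun g => LinearMap.det (g : V →ₗ[F] V) = 1 := by
  let K : Subgroup (V ≃ₗ[F] V) :=
    ((powMonoidHom 2 : Fˣ →* Fˣ).comp LinearEquiv.det).ker
  have hK : O Q ≤ K := O_le_of_gen hQ (by
    rw [← hQ.commutator_O hd]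
    exact (Subgroup.commutator_mono le_top le_top).trans (Abelianization.commutator_subset_ker _))
    (fun a => by
      show LinearEquiv.det (refl Q a) ^ 2 = 1
      rw [← map_pow, sq, refl_mul_self, map_one])
  have key : ∀ g ∈ O Q, LinearMap.det (g : V →ₗ[F] V) = 1 ∨ LinearMap.det (g : V →ₗ[F] V) = -1 :=
    fun g hg => by
      have h1 : LinearEquiv.det g ^ 2 = 1 := hK hg
      have := congrArg Units.val h1
      rw [Units.val_pow_eq_pow_val, LinearEquiv.coe_det] at this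
      exact mul_self_eq_one_iff.1 (sq (LinearMap.det (g : V →ₗ[F] V)) ▸ this)
  have h1 : (-1 : F) ≠ 1 := fun h => h2 (by linear_combination -h)
  intro g hg h hh
  have e : LinearMap.det ((g * h : V ≃ₗ[F] V) : V →ₗ[F] V) =
      LinearMap.det (g : V →ₗ[F] V) * LinearMap.det (h : V →ₗ[F] V) := by
    rw [← map_mul]; rfl
  simp only [e]
  rcases key g hg with a | a <;> rcases key h hh with b | b <;> simp [a, b, h1]

lemma N_line (h2 : (2 : F) ≠ 0) {v : V} (hv : Q v ≠ 0) (t : F) [Decidable (t = 0)]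
    [Decidable (IsSquare (t * Q v))] :
    N Q (F ∙ v) t = if t = 0 then 1 else if IsSquare (t * Q v) then 2 else 0 := by
  have hv0 := ne_zero_of_Q_ne hv
  split_ifs with h1 h3
  · rw [N, Set.ncard_eq_one]
    refine ⟨0, Set.eq_singleton_iff_unique_mem.2 ⟨⟨zero_mem _, by simp [h1]⟩, ?_⟩⟩
    rintro x ⟨hx, e⟩
    obtain ⟨c, rfl⟩ := Submodule.mem_span_singleton.1 hx
    rw [Q_smul, h1] at e
    have : c = 0 := by simpa [hv] using e
    simp [this]
  · obtain ⟨s, hs⟩ := h3
    have hs0 : s ≠ 0 := by rintro rfl; simp [h1, hv] at hs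
    rw [N, Set.ncard_eq_two]
    refine ⟨(s / Q v) • v, (-(s / Q v)) • v, fun e => ?_, ?_⟩
    · have := smul_left_injective F hv0 e
      have h4 : 2 * (s / Q v) = 0 := by linear_combination this
      simp [h2, hs0, hv] at h4
    · ext x
      simp only [Set.mem_setOf_eq, Set.mem_insert_iff, Set.mem_singleton_iff]
      constructor
      · rintro ⟨hx, e⟩
        obtain ⟨c, rfl⟩ := Submodule.mem_span_singleton.1 hx
        rw [Q_smul] at e
        have : (c - s / Q v) * (c + s / Q v) = 0 := by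
          field_simp; linear_combination Q v * e + hs
        rcases mul_eq_zero.1 this with h | h
        · left; rw [sub_eq_zero.1 h]
        · right; rw [eq_neg_of_add_eq_zero_left h]
      · rintro (rfl | rfl) <;>
          exact ⟨Submodule.smul_mem _ _ (Submodule.mem_span_singleton_self v), by
            rw [Q_smul]; field_simp; linear_combination -hs⟩
  · rw [N, Set.ncard_eq_zero (have := finV (F := F) (V := V); Set.toFinite _),
      Set.eq_empty_iff_forall_notMem]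
    rintro x ⟨hx, e⟩
    obtain ⟨c, rfl⟩ := Submodule.mem_span_singleton.1 hx
    rw [Q_smul] at e
    exact h3 ⟨c * Q v, by rw [← e]; ring⟩

lemma N_line_add (h2 : (2 : F) ≠ 0) {v w : V} (hv : Q v ≠ 0) (hw : Q w ≠ 0)
    (h : ¬ IsSquare (Q v * Q w)) (t : F) : N Q (F ∙ v) t + N Q (F ∙ w) t = 2 := by
  classical
  rw [N_line h2 hv, N_line h2 hw]
  by_cases h0 : t = 0
  · simp [h0]
  · rw [isSquare_mul_iff hv hw] at h
    rw [if_neg h0, if_neg h0, isSquare_mul_iff h0 hv, isSquare_mul_iff h0 hw]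
    by_cases a : IsSquare t <;> by_cases b : IsSquare (Q v) <;> by_cases c : IsSquare (Q w) <;>
      simp_all

lemma N_even (h2 : (2 : F) ≠ 0) (W : Submodule F V) : Even (N Q W 1) := by
  have := vec_modEq (F := F) Nat.prime_two (g := LinearEquiv.neg F)
    (by ext v; simp [sq]) (S := {v | v ∈ W ∧ Q v = 1})
    (fun v hv => ⟨W.neg_mem hv.1, by simpa using hv.2⟩)
  rw [show {v | v ∈ {v | v ∈ W ∧ Q v = 1} ∧ (LinearEquiv.neg F : V ≃ₗ[F] V) v = v} = ∅ from ?_,
    Set.ncard_empty] at this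
  · exact Nat.even_iff.2 this
  · rw [Set.eq_empty_iff_forall_notMem]
    rintro v ⟨⟨-, h1⟩, h3⟩
    have : (2 : F) • v = 0 := by
      rw [two_smul]; nth_rewrite 1 [← h3]; simp
    rw [(smul_eq_zero.1 this).resolve_left h2] at h1
    simp at h1

lemma perp_line (hQ : Nd Q) (h2 : (2 : F) ≠ 0) {e f : V} (qe : Q e = 0) (qf : Q f = 0)
    (b : B Q e f = 1) {c : F} (hc : c ≠ 0) :
    perp Q (F ∙ (e + c • f)) = (F ∙ (e - c • f)) ⊔ perp Q (Submodule.span F {e, f}) := by
  have q1 : Q (e - c • f) = -c := by rw [Q_sub, Q_smul, qe, qf, map_smul, b]; simp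
  have q2 : Q (e + c • f) = c := by rw [Q_add, Q_smul, qe, qf, map_smul, b]; simp
  have hm : e - c • f ∈ Submodule.span F {e, f} :=
    sub_mem (left_mem_pair e f) (Submodule.smul_mem _ _ (right_mem_pair e f))
  have hm' : e + c • f ∈ Submodule.span F {e, f} :=
    add_mem (left_mem_pair e f) (Submodule.smul_mem _ _ (right_mem_pair e f))
  symm
  apply Submodule.eq_of_le_of_finrank_eq
  · refine sup_le ((Submodule.span_singleton_le_iff_mem _ _).2 (mem_perp_span_singleton.2 ?_))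
      (perp_anti ((Submodule.span_singleton_le_iff_mem _ _).2 hm'))
    simp only [map_add, map_sub, map_smul, LinearMap.add_apply, LinearMap.smul_apply, b,
      B_self_of_sing Q qe, B_self_of_sing Q qf, B_comm Q f e]
    simp
  · rw [finrank_sup_of_perp (NdOn.span_singleton h2 (by rw [q1]; simpa using hc))
      (perp_anti ((Submodule.span_singleton_le_iff_mem _ _).2 hm))]
    have d1 := hQ.finrank_perp (F ∙ (e + c • f))
    have d2 := hQ.finrank_perp (Submodule.span F {e, f})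
    rw [finrank_span_singleton (ne_zero_of_Q_ne (Q := Q) (by rw [q2]; exact hc))] at d1
    rw [finrank_span_singleton (ne_zero_of_Q_ne (Q := Q) (by rw [q1]; simpa using hc))]
    rw [finrank_pair (hyp_D qe b)] at d2
    omega

variable (Q) in
/-- action on the vectors of norm one -/
def pm (g : V ≃ₗ[F] V) (hg : g ∈ O Q) : Equiv.Perm {v // Q v = 1} :=
  Equiv.Perm.subtypePerm g.toEquiv fun v => by
    show Q (g v) = 1 ↔ _
    rw [hg v]

lemma exists_sign (hQ : Nd Q) (hd : 5 ≤ finrank F V) (h2 : (2 : F) ≠ 0) :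
    ∃ s : (V ≃ₗ[F] V) → Prop, MP Q s ∧ ∃ a b : V, Q a = 1 ∧ Q b ≠ 0 ∧ ¬ IsSquare (Q b) ∧
      ¬ (s (refl Q a) ↔ s (refl Q b)) := by
  classical
  have := finV (F := F) (V := V)
  have := Fintype.ofFinite V
  have := Fintype.ofFinite F
  refine ⟨fun g => ∃ hg : g ∈ O Q, Equiv.Perm.sign (pm Q g hg) = 1, fun g hg h hh => ?_, ?_⟩
  · have e : pm Q (g * h) (mul_mem hg hh) = pm Q g hg * pm Q h hh := by ext v; rfl
    simp only [hg, hh, mul_mem hg hh, exists_true_left, e, map_mul]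
    rcases Int.units_eq_one_or (Equiv.Perm.sign (pm Q g hg)) with a | a <;>
      rcases Int.units_eq_one_or (Equiv.Perm.sign (pm Q h hh)) with b | b <;> simp [a, b]
  obtain ⟨e, -, f, -, qe, qf, b⟩ := exists_hyp_in hQ.ndOn_top (by rw [finrank_top]; omega)
  obtain ⟨δ, hδ0, hδ⟩ := exists_nonsquare h2
  have q1 : ∀ c : F, Q (e - c • f) = -c := fun c => by
    rw [Q_sub, Q_smul, qe, qf, map_smul, b]; simp
  have q2 : ∀ c : F, Q (e + c • f) = c := fun c => by
    rw [Q_add, Q_smul, qe, qf, map_smul, b]; simp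
  have key : ∀ a, Q a ≠ 0 → Equiv.Perm.sign (pm Q (refl Q a) (refl_mem_O Q a)) =
      (-1) ^ ((N Q ⊤ 1 - N Q (perp Q (F ∙ a)) 1) / 2) := fun a ha => by
    rw [Equiv.Perm.sign_of_pow_two_eq_one (by ext v; exact refl_refl Q a v)]
    congr 3
    · rw [N, ← Nat.card_coe_set_eq, ← Nat.card_eq_fintype_card]
      exact Nat.card_congr (Equiv.subtypeEquivRight fun v => by simp)
    · rw [N, ← Nat.card_eq_fintype_card, Nat.card_coe_set_eq,
        ← Set.ncard_image_of_injective _ Subtype.val_injective]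
      congr 1
      ext v
      have hf : refl Q a v = v ↔ v ∈ perp Q (F ∙ a) := by
        rw [mem_perp_span_singleton, refl_apply, sub_eq_self, smul_eq_zero]
        simp [ha, ne_zero_of_Q_ne ha]
      constructor
      · rintro ⟨w, hw, rfl⟩
        exact ⟨hf.1 (congrArg Subtype.val hw), w.2⟩
      · exact fun h => ⟨⟨v, h.2⟩, Subtype.ext (hf.2 h.1), rfl⟩
  have hle : ∀ W : Submodule F V, N Q W 1 ≤ N Q ⊤ 1 := fun W =>
    Set.ncard_le_ncard (fun v hv => ⟨trivial, hv.2⟩) (Set.toFinite _)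
  have hm : ∀ c : F, perp Q (Submodule.span F {e, f}) ≤ perp Q (F ∙ (e - c • f)) := fun c =>
    perp_anti ((Submodule.span_singleton_le_iff_mem _ _).2
      (sub_mem (left_mem_pair e f) (Submodule.smul_mem _ _ (right_mem_pair e f))))
  have hsum : N Q (perp Q (F ∙ (e + (1 : F) • f))) 1 + N Q (perp Q (F ∙ (e + δ • f))) 1 =
      2 * Nat.card (perp Q (Submodule.span F {e, f})) := by
    rw [perp_line hQ h2 qe qf b one_ne_zero, perp_line hQ h2 qe qf b hδ0,
      N_sup (NdOn.span_singleton h2 (by rw [q1]; simp)) (hm 1),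
      N_sup (NdOn.span_singleton h2 (by rw [q1]; simpa using hδ0)) (hm δ),
      ← Finset.sum_add_distrib, Finset.sum_congr rfl fun w _ => N_line_add h2 (by rw [q1]; simp)
        (by rw [q1]; simpa using hδ0) (by rw [q1, q1]; simpa using hδ) _]
    simp [mul_comm]
  have hodd : Odd (Nat.card (perp Q (Submodule.span F {e, f}))) := by
    rw [Module.natCard_eq_pow_finrank (K := F)]
    refine Odd.pow ?_
    rw [Nat.card_eq_fintype_card]
    refine Nat.odd_iff.2 (FiniteField.odd_card_of_char_ne_two fun h => h2 ?_)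
    have := ringChar.Nat.cast_ringChar (R := F)
    rw [h] at this; exact_mod_cast this
  refine ⟨e + (1 : F) • f, e + δ • f, q2 1, by rwa [q2], by rwa [q2], ?_⟩
  simp only [refl_mem_O, exists_true_left]
  rw [key _ (by rw [q2]; simp), key _ (by rwa [q2]), neg_one_pow_eq_one_iff_even (by decide),
    neg_one_pow_eq_one_iff_even (by decide)]
  have a1 := N_even (Q := Q) h2 ⊤
  have a2 := N_even (Q := Q) h2 (perp Q (F ∙ (e + (1 : F) • f)))
  have a3 := hle (perp Q (F ∙ (e + (1 : F) • f)))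
  have a4 := hle (perp Q (F ∙ (e + δ • f)))
  simp only [Nat.even_iff, Nat.odd_iff] at *
  omega

theorem exists_spin (hQ : Nd Q) (hd : 5 ≤ finrank F V) (h2 : (2 : F) ≠ 0) :
    ∃ D θ, Spin Q D θ := by
  obtain ⟨s, hs, a, b, qa, qb, hb, hab⟩ := exists_sign hQ hd h2
  have mD := mp_det hQ hd h2
  set D : (V ≃ₗ[F] V) → Prop := fun g => LinearMap.det (g : V →ₗ[F] V) = 1
  have hD : ∀ a, Q a ≠ 0 → ¬ D (refl Q a) := fun a ha h =>
    h2 (by have := det_refl ha; rw [h] at this; linear_combination this)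
  have cls : ∀ c, Q c ≠ 0 → (IsSquare (Q c) ∧ refl Q c * refl Q a ∈ EO Q) ∨
      (¬ IsSquare (Q c) ∧ refl Q c * refl Q b ∈ EO Q) := fun c hc => by
    by_cases h : IsSquare (Q c)
    · obtain ⟨t, ht⟩ := h
      exact Or.inl ⟨⟨t, ht⟩, hQ.refl_mul_refl_mem_EO' hd (c := t) (by rintro rfl; simp [hc] at ht)
        (by rw [qa, ht, mul_one])⟩
    · obtain ⟨t, ht⟩ := isSquare_mul_of_not' h hb
      have : t ≠ 0 := by rintro rfl; simp [hc, qb] at ht
      exact Or.inr ⟨h, hQ.refl_mul_refl_mem_EO' hd (c := t / Q b) (div_ne_zero this qb)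
        (by field_simp; linear_combination ht)⟩
  obtain ⟨θ, mθ, t1, t2⟩ : ∃ θ, MP Q θ ∧ θ (refl Q a) ∧ ¬ θ (refl Q b) := by
    by_cases h : s (refl Q a)
    · exact ⟨s, hs, h, fun h' => hab (iff_of_true h h')⟩
    · refine ⟨fun g => s g ↔ D g, fun g hg h hh => ?_, iff_of_false h (hD a (by simp [qa])),
        fun h' => hab (iff_of_false h fun h'' => hD b qb (h'.1 h''))⟩
      simp only [hs g hg h hh, mD g hg h hh]
      tauto
  refine ⟨D, θ, mD, mθ, hD, fun c hc => ?_, fun g hg =>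
    ⟨fun h => ⟨mD.of_EO hQ hd g h, mθ.of_EO hQ hd g h⟩, fun ⟨h1, h3⟩ => ?_⟩⟩
  · rcases cls c hc with ⟨x, y⟩ | ⟨x, y⟩
    · exact iff_of_true (((mθ _ (refl_mem_O Q c) _ (refl_mem_O Q a)).1 (mθ.of_EO hQ hd _ y)).2 t1) x
    · exact iff_of_false (fun h => t2
        (((mθ _ (refl_mem_O Q c) _ (refl_mem_O Q b)).1 (mθ.of_EO hQ hd _ y)).1 h)) x
  let π : O Q →* Abelianization (O Q) := Abelianization.of
  have hπ : ∀ x : O Q, π x = 1 ↔ (x : V ≃ₗ[F] V) ∈ EO Q := fun x => by
    rw [← MonoidHom.mem_ker, Abelianization.ker_of, ← hQ.commutator_O hd,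
      ← Subgroup.map_subtype_commutator]
    exact ⟨fun h => ⟨x, h, rfl⟩, fun ⟨y, h, e⟩ => by rwa [← Subtype.ext e]⟩
  let R : V → O Q := fun c => ⟨refl Q c, refl_mem_O Q c⟩
  have hR : ∀ c, π (R c) * π (R c) = 1 := fun c => by
    rw [← map_mul, show R c * R c = 1 from Subtype.ext (refl_mul_self Q c), map_one]
  have hz : ∀ c (k : ℤ), π (R c) ^ k = 1 ∨ π (R c) ^ k = π (R c) := fun c k => by
    obtain ⟨j, rfl | rfl⟩ := Int.even_or_odd' k
    · left; rw [zpow_mul, zpow_two, hR, one_zpow]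
    · right; rw [zpow_add, zpow_mul, zpow_two, hR, one_zpow, one_mul, zpow_one]
  have hM : O Q ≤ ((Subgroup.closure {π (R a), π (R b)}).comap π).map (O Q).subtype :=
    O_le_of_gen hQ (fun x hx => ⟨⟨x, EO_le_O hx⟩, by
      refine Subgroup.mem_comap.2 ?_
      rw [(hπ ⟨x, EO_le_O hx⟩).2 hx]; exact one_mem _, rfl⟩) (fun c => ⟨R c, by
      refine Subgroup.mem_comap.2 ?_
      by_cases hc : Q c = 0
      · rw [show R c = 1 from Subtype.ext (refl_of_sing hc), map_one]; exact one_mem _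
      rcases cls c hc with ⟨-, y⟩ | ⟨-, y⟩
      · have := (hπ (R c * R a)).2 y
        rw [map_mul, ← hR a, mul_left_inj] at this
        rw [this]; exact Subgroup.subset_closure (by simp)
      · have := (hπ (R c * R b)).2 y
        rw [map_mul, ← hR b, mul_left_inj] at this
        rw [this]; exact Subgroup.subset_closure (by simp), rfl⟩)
  obtain ⟨x, hx, rfl⟩ := hM hg
  obtain ⟨i, j, e⟩ := Subgroup.mem_closure_pair.1 hx
  have ha : ¬ D (refl Q a) := hD a (by simp [qa])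
  have hb' := hD b qb
  rcases hz a i with e1 | e1 <;> rcases hz b j with e2 | e2 <;> rw [e1, e2] at e
  · exact (hπ x).1 (by rw [← e, one_mul])
  · have := mD.of_EO hQ hd _ ((hπ (x * R b)).1 (by rw [map_mul, ← e, one_mul, hR]))
    exact absurd (((mD _ x.2 _ (R b).2).1 this).1 h1) hb'
  · have := mD.of_EO hQ hd _ ((hπ (x * R a)).1 (by rw [map_mul, ← e, mul_one, hR]))
    exact absurd (((mD _ x.2 _ (R a).2).1 this).1 h1) ha
  · have := mθ.of_EO hQ hd _ ((hπ (x * (R b * R a))).1 (by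
      rw [map_mul, map_mul, ← e, mul_assoc, ← mul_assoc (π (R b)), hR, one_mul, hR]))
    exact absurd (((mθ _ (R b).2 _ (R a).2).1 (((mθ _ x.2 _ (R b * R a).2).1 this).1 h3)).2 t1) t2

end Cfsg.Agent.H2.Oel
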