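import Cfsg.Agent.H2.NearField

/-! Certificates for regularity of an explicit subgroup of `GL(2, F)` on non-zero vectors. -/

set_option autoImplicit false

namespace Cfsg.Agent.H2

open Matrix

theorem reg_of_cert {F : Type*} [Field F] [Finite F] (S : Set (GL (Fin 2) F))
    (fb fd : F → F → F) (h1 : fb 1 0 = 0 ∧ fd 1 0 = 1)
    (hstep : ∀ g ∈ S, ∀ a c : F, ¬ (a = 0 ∧ c = 0) →
      fb (g 0 0 * a + g 0 1 * c) (g 1 0 * a + g 1 1 * c) = g 0 0 * fb a c + g 0 1 * fd a c ∧
      fd (g 0 0 * a + g 0 1 * c) (g 1 0 * a + g 1 1 * c) = g 1 0 * fb a c + g 1 1 * fd a c)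
    (dep : F → F → ℕ)
    (htr : ∀ a c : F, ¬ (a = 0 ∧ c = 0) → (a = 1 ∧ c = 0) ∨
      ∃ g ∈ S, dep (g 0 0 * a + g 0 1 * c) (g 1 0 * a + g 1 1 * c) < dep a c) :
    Nat.card (Subgroup.closure S) = Nat.card F ^ 2 - 1 ∧
      ∀ v w : Fin 2 → F, v ≠ 0 → w ≠ 0 → ∃! h : Subgroup.closure S,
        Matrix.mulVec ((h : GL (Fin 2) F) : Matrix (Fin 2) (Fin 2) F) v = w := by
  classical
  have hne : ∀ M : GL (Fin 2) F, ¬ (M 0 0 = 0 ∧ M 1 0 = 0) := by
    rintro M ⟨h0, h1⟩
    have := M.det_ne_zero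
    rw [Matrix.det_fin_two, h0, h1] at this
    simp at this
  have hP : ∀ M ∈ Subgroup.closure S, M 0 1 = fb (M 0 0) (M 1 0) ∧ M 1 1 = fd (M 0 0) (M 1 0) := by
    intro M hM
    have hM' : M ∈ Submonoid.closure S := by
      rw [← Subgroup.closure_toSubmonoid_of_finite]; exact hM
    clear hM
    induction hM' using Submonoid.closure_induction_left with
    | one => simpa using ⟨h1.1.symm, h1.2.symm⟩
    | mul_left g hg M _ ih =>
      have := hstep g hg _ _ (hne M)
      simp only [Units.val_mul, Matrix.mul_apply, Fin.sum_univ_two]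
      rw [this.1, this.2, ← ih.1, ← ih.2]
      exact ⟨rfl, rfl⟩
  have hvne : ∀ v : Fin 2 → F, v ≠ 0 → ¬ (v 0 = 0 ∧ v 1 = 0) := by
    rintro v hv ⟨h0, h1⟩
    apply hv
    ext i; fin_cases i <;> simpa
  have hT : ∀ n : ℕ, ∀ v : Fin 2 → F, v ≠ 0 → dep (v 0) (v 1) = n →
      ∃ h : Subgroup.closure S, h • v = ![1, 0] := by
    intro n
    induction n using Nat.strong_induction_on with
    | _ n ih =>
      intro v hv hn
      rcases htr _ _ (hvne v hv) with ⟨h0, h1⟩ | ⟨g, hg, hlt⟩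
      · refine ⟨1, ?_⟩
        rw [one_smul]
        ext i; fin_cases i <;> simpa
      · have hgv : g • v ≠ 0 := fun h => hv ((smul_eq_zero_iff_eq g).1 h)
        obtain ⟨h, hh⟩ := ih _ (hn ▸ hlt) (g • v) hgv (by
          simp [Units.smul_def, Matrix.smul_eq_mulVec, Matrix.mulVec, dotProduct, Fin.sum_univ_two])
        exact ⟨h * ⟨g, Subgroup.subset_closure hg⟩, by rw [mul_smul]; exact hh⟩
  have hst : ∀ h : Subgroup.closure S, h • (![1, 0] : Fin 2 → F) = ![1, 0] → h = 1 := by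
    intro h hh
    have h0 : (h : GL (Fin 2) F) 0 0 = 1 := by
      simpa [Subgroup.smul_def, Units.smul_def, Matrix.smul_eq_mulVec, Matrix.mulVec, dotProduct,
        Fin.sum_univ_two] using congrFun hh 0
    have h1' : (h : GL (Fin 2) F) 1 0 = 0 := by
      simpa [Subgroup.smul_def, Units.smul_def, Matrix.smul_eq_mulVec, Matrix.mulVec, dotProduct,
        Fin.sum_univ_two] using congrFun hh 1
    have := hP _ h.2
    rw [h0, h1', h1.1, h1.2] at this
    apply Subtype.ext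
    apply Units.ext
    ext i j
    fin_cases i <;> fin_cases j <;> simp [h0, h1', this.1, this.2]
  have hreg : ∀ v w : Fin 2 → F, v ≠ 0 → w ≠ 0 → ∃! h : Subgroup.closure S, h • v = w := by
    intro v w hv hw
    obtain ⟨x, hx⟩ := hT _ v hv rfl
    obtain ⟨y, hy⟩ := hT _ w hw rfl
    refine ⟨y⁻¹ * x, by simp only; rw [mul_smul, hx, inv_smul_eq_iff, hy], fun z hz => ?_⟩
    have := hst (y * z * x⁻¹) (by
      rw [mul_smul, mul_smul, inv_smul_eq_iff.2 hx.symm, hz, hy])
    rw [mul_inv_eq_one] at this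
    rw [← this]; group
  refine ⟨?_, hreg⟩
  have := card_of_reg hreg
  rw [Nat.card_fun, Nat.card_eq_fintype_card (α := Fin 2), Fintype.card_fin] at this
  omega

end Cfsg.Agent.H2
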