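import Cfsg.Agent.H8.C7.Set
import Cfsg.Agent.H1.T3Bridge
import Cfsg.Agent.H9.Sp.Basic
import Cfsg.Agent.H7.AschExtra

/-! Normal form of an extraspecial group `7^{1+2}` in dimension seven. -/

set_option autoImplicit false
set_option linter.unusedSimpArgs false
set_option linter.unusedSectionVars false
set_option linter.unusedVariables false
set_option linter.unnecessarySeqFocus false

namespace Cfsg.Agent.H2.S7.Br

open Matrix Subgroup Cfsg.Agent.H5.T3 Cfsg.Agent.H5.C5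

variable {F : Type*} [Field F] {ω : F}

/-- twisted commutation -/
def Tw (A B : M7 F) (c : F) : Prop := A * B = c • (B * A)

section
variable {A B C : M7 F} {a b : F}

theorem Tw.mul (h : Tw A C a) (h' : Tw B C b) : Tw (A * B) C (a * b) := by
  unfold Tw at *
  rw [Matrix.mul_assoc, h', mul_smul_comm, ← Matrix.mul_assoc, h, smul_mul_assoc, smul_smul,
    Matrix.mul_assoc, mul_comm]

theorem tw_self (A : M7 F) : Tw A A 1 := by simp [Tw]

theorem Tw.pow (h : Tw A C a) (n : ℕ) : Tw (A ^ n) C (a ^ n) := by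
  induction n with
  | zero => simp [Tw]
  | succ n ih => rw [pow_succ, pow_succ]; exact ih.mul h

theorem Tw.seven (h : Tw A B a) (hA : A.det ≠ 0) (hB : B.det ≠ 0) : a ^ 7 = 1 := by
  have := congrArg det h
  simp only [det_mul, det_smul, Fintype.card_fin, mul_comm B.det] at this
  exact mul_right_cancel₀ (mul_ne_zero hA hB) (by rw [← this, one_mul])

end

theorem det_ρ (h : ω ^ 7 = 1) : (ρ ω).det = 1 := by
  simp [ρ_eq, Fin.prod_univ_succ]; grind

theorem det_uu (h : ω ^ 7 = 1) : (uu ω).det = 1 := by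
  simp [uu_eq, Fin.prod_univ_succ]; grind

theorem det_τ : (τ : M7 F).det = 1 := by
  simp [τ, det_succ_row_zero, Fin.sum_univ_succ, Fin.succAbove]; norm_num

theorem det_δ : (δ : M7 F).det = 1 := by
  simp [δ, det_succ_row_zero, Fin.sum_univ_succ, Fin.succAbove]; norm_num

theorem det_σ : (σ : M7 F).det = 1 := by
  simp [σ, det_succ_row_zero, Fin.sum_univ_succ, Fin.succAbove]; norm_num

theorem ρ7 (h : ω ^ 7 = 1) : ρ ω ^ 7 = 1 := by
  rw [ρ_eq, diagonal_pow, ← diagonal_one]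
  congr 1
  ext i
  rw [Pi.pow_apply, ← pow_mul, mul_comm, pow_mul, h, one_pow]

theorem τ7 : (τ : M7 F) ^ 7 = 1 := by simp only [pow_succ]; m7

theorem ρτ (h : ω ^ 7 = 1) : Tw (ρ ω) τ ω := by unfold Tw; m7x <;> grind

theorem τρ (h : ω ^ 7 = 1) : Tw τ (ρ ω) (ω ^ 6) := by unfold Tw; m7x <;> grind

theorem uρ : uu ω * ρ ω = ρ ω * uu ω := by m7x <;> ring

theorem uτ (h : ω ^ 7 = 1) : uu ω * τ = ρ ω * τ * ρ ω * uu ω := by m7x <;> grind

theorem δρ (h : ω ^ 7 = 1) : δ * ρ ω = ρ (ω ^ 4) * δ := by m7x <;> grind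

theorem σρ (h : ω ^ 7 = 1) : σ * ρ ω = ρ (ω ^ 6) * σ := by m7x <;> grind

theorem ρ_pow (n : ℕ) : ρ ω ^ n = ρ (ω ^ n) := by
  rw [ρ_eq, ρ_eq, diagonal_pow]
  congr 1
  ext i
  rw [Pi.pow_apply, pow_right_comm]

theorem δτ : (δ * τ : M7 F) = τ * τ * δ := by m7x

theorem στ : (σ * τ : M7 F) = τ' * σ := by m7x

theorem Φρ (h : ω ^ 7 = 1) : Φ ω * ρ ω = τ' * Φ ω := by m7x <;> grind

theorem Φτ (h : ω ^ 7 = 1) : Φ ω * τ = ρ ω * Φ ω := by m7x <;> grind

variable (h : Om7 ω) (h7 : (7 : F) ≠ 0)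
include h h7

theorem root {c : F} (hc : c ^ 7 = 1) : ∃ k : ℕ, c = ω ^ k := by
  have := Fact.mk (show Nat.Prime 7 by norm_num)
  have : IsPrimitiveRoot ω 7 := orderOf_eq_prime (om7 h) (by simpa using om_pow h h7 (k := 1) (by norm_num)) ▸
    IsPrimitiveRoot.orderOf ω
  obtain ⟨k, -, e⟩ := this.eq_pow_of_pow_eq_one hc
  exact ⟨k, e.symm⟩

theorem scal_of_comm {X : M7 F} (h1 : Tw X (ρ ω) 1) (h2 : Tw X τ 1) : X = X 0 0 • 1 := by
  have k1 : ∀ i j, i ≠ j → X i j = 0 := fun i j hij => by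
    have := congrFun (congrFun h1 i) j
    simp only [ρ_eq, mul_diagonal, diagonal_mul, one_smul, mul_comm (X i j)] at this
    by_contra h0
    exact om_ne h h7 (by omega) (mul_right_cancel₀ h0 this)
  have a1 := congrFun (congrFun h2 1) 0
  have a2 := congrFun (congrFun h2 2) 1
  have a3 := congrFun (congrFun h2 3) 2
  have a4 := congrFun (congrFun h2 4) 3
  have a5 := congrFun (congrFun h2 5) 4
  have a6 := congrFun (congrFun h2 6) 5
  simp [τ, mul_apply, vecMul, dotProduct, Fin.sum_univ_succ] at a1 a2 a3 a4 a5 a6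
  ext i j
  by_cases hij : i = j
  · subst hij; fin_cases i <;> simp_all
  · simp [k1 i j hij, hij]

theorem pauli {X : M7 F} (hX : X.det ≠ 0) {a b : F} (h1 : Tw X (ρ ω) a) (h2 : Tw X τ b) :
    ∃ (m n : ℕ) (l : F), X = l • (ρ ω ^ m * τ ^ n) := by
  have o7 := om7 h
  obtain ⟨k, rfl⟩ := root h h7 (h1.seven hX (by simp [det_ρ o7]))
  obtain ⟨m, rfl⟩ := root h h7 (h2.seven hX (by simp [det_τ]))
  have k1 := (h1.mul ((τρ o7).pow k)).mul ((tw_self _).pow (6 * m))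
  have k2 := (h2.mul ((tw_self _).pow k)).mul ((ρτ o7).pow (6 * m))
  rw [one_pow, mul_one, ← mul_pow, ← pow_succ', o7, one_pow] at k1
  rw [one_pow, mul_one, pow_mul ω, ← mul_pow, ← pow_succ', o7, one_pow] at k2
  refine ⟨m, 6 * k, (X * τ ^ k * ρ ω ^ (6 * m) : M7 F) 0 0, ?_⟩
  rw [← smul_one_mul, ← scal_of_comm h h7 k1 k2, mul_assoc, ← mul_assoc (ρ ω ^ _), ← pow_add,
    show 6 * m + m = 7 * m by ring, pow_mul, ρ7 o7, one_pow, one_mul, mul_assoc, ← pow_add,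
    show k + 6 * k = 7 * k by ring, pow_mul, τ7, one_pow, mul_one]

theorem std {p : ℕ} (main : Main7 F p) (hp : p.Prime) [CharP F p] [Finite F]
    (cd : (Nat.card F = p ∧ p % 7 = 1) ∨ (Nat.card F = p ^ 3 ∧ (p % 7 = 2 ∨ p % 7 = 4))) {R : Subgroup (GL (Fin 7) F)}
    (r1 : InM R (ρ ω)) (r2 : InM R τ) (tw : ∀ A B, InM R A → InM R B → ∃ c, Tw A B c) :
    (∃ g ∈ Geo.specialLinear (Fin 7) F, g ∉ normalizer (R : Set (GL (Fin 7) F))) ∧
    ∀ M ≤ Geo.specialLinear (Fin 7) F, (∀ g ∈ Geo.specialLinear (Fin 7) F,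
      g ∈ normalizer (R : Set (GL (Fin 7) F)) → g ∈ M) →
      (∃ g ∈ M, g ∉ normalizer (R : Set (GL (Fin 7) F))) → Geo.specialLinear (Fin 7) F ≤ M := by
  have o7 := om7 h
  have sl : ∀ g : GL (Fin 7) F, g ∈ Geo.specialLinear (Fin 7) F ↔ g.1.det = 1 := fun g => by
    simp [Geo.specialLinear, Units.ext_iff]
  have inv : ∀ m n : ℕ, ρ ω ^ m * τ ^ n * (τ ^ (6 * n) * ρ ω ^ (6 * m)) = 1 := fun m n => by
    rw [mul_assoc, ← mul_assoc (τ ^ n), ← pow_add, show n + 6 * n = 7 * n by ring, pow_mul, τ7, one_pow,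
      one_mul, ← pow_add, show m + 6 * m = 7 * m by ring, pow_mul, ρ7 o7, one_pow]
  have nrm : ∀ X Y Z : M7 F, X.det = 1 → InM R Y → InM R Z → X * ρ ω = Y * X → X * τ = Z * X →
      InM (normalizer (R : Set (GL (Fin 7) F)) ⊓ Geo.specialLinear (Fin 7) F) X := by
    intro X Y Z hX hY hZ e1 e2
    let g := GeneralLinearGroup.mkOfDetNeZero X (by simp [hX])
    refine ⟨g, ⟨mem_normalizer_fintype fun r hr => ?_, (sl g).2 hX⟩, rfl⟩
    obtain ⟨a, ha⟩ := tw _ _ (InM.of hr) r1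
    obtain ⟨b, hb⟩ := tw _ _ (InM.of hr) r2
    obtain ⟨m, n, l, e⟩ := pauli h h7 (GeneralLinearGroup.det_ne_zero r) ha hb
    have k1 : InM R (l • 1) := ((InM.of hr).mul ((r2.pow (6 * n)).mul (r1.pow (6 * m)))).congr (by
      rw [e, smul_mul_assoc, inv])
    refine inM_iff.1 ((k1.mul ((hY.pow m).mul (hZ.pow n))).congr ?_)
    rw [Units.val_mul, Units.eq_mul_inv_iff_mul_eq, Units.val_mul, e]
    show _ * X = X * _
    rw [smul_one_mul, mul_smul_comm, smul_mul_assoc, ← mul_assoc, (SemiconjBy.pow_right e1 m).eq,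
      mul_assoc, mul_assoc, (SemiconjBy.pow_right e2 n).eq]
  have om1 : InM R (ω • 1) := (((r1.mul r2).mul (r1.pow 6)).mul (r2.pow 6)).congr (by
    rw [ρτ o7, smul_mul_assoc, smul_mul_assoc, mul_assoc τ, ← pow_succ', ρ7 o7, mul_one, ← pow_succ', τ7])
  obtain ⟨c, c1, c2⟩ : ∃ c : F, 7 * c ^ 2 = -1 ∧ (c • Φ ω).det = 1 := by
    have e1 : 7 * ((1 + 2 * ω + 2 * ω ^ 2 + 2 * ω ^ 4) / 7) ^ 2 = -1 := by
      field_simp; linear_combination (4 * ω ^ 2 - 4 * ω + 8) * h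
    generalize (1 + 2 * ω + 2 * ω ^ 2 + 2 * ω ^ 4) / 7 = c at e1
    have e3 := congrArg det (ΦΦ h)
    simp only [det_mul, det_smul, det_σ, Fintype.card_fin] at e3
    rcases sq_eq_one_iff.1 (show (c ^ 7 * (Φ ω).det) ^ 2 = 1 by grind) with e | e
    · exact ⟨c, e1, by simpa using e⟩
    · exact ⟨-c, by simpa using e1, by simp only [det_smul, Fintype.card_fin]; linear_combination -e⟩
  have hy : Hy p ω (normalizer (R : Set (GL (Fin 7) F)) ⊓ Geo.specialLinear (Fin 7) F) :=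
    { prime := hp, char := inferInstance, finF := inferInstance, cd := cd, om := h
      hρ := nrm _ _ _ (det_ρ o7) r1 (om1.mul r2) rfl (by rw [ρτ o7]; simp)
      hτ := nrm _ _ _ det_τ ((om1.pow 6).mul r1) r2 (by rw [τρ o7]; simp [_root_.smul_pow]) rfl
      hu := nrm _ _ _ (det_uu o7) r1 ((r1.mul r2).mul r1) uρ (uτ o7)
      hσ := nrm _ _ _ det_σ ((r1.pow 6).congr (ρ_pow 6)) (r2.inv ττ') (σρ o7) στ
      hδ := nrm _ _ _ det_δ ((r1.pow 4).congr (ρ_pow 4)) (r2.mul r2) (δρ o7) δτ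
      hφ := ⟨c, c1, nrm _ _ _ c2 (r2.inv ττ') r1
        (by rw [smul_mul_assoc, mul_smul_comm, Φρ o7]) (by rw [smul_mul_assoc, mul_smul_comm, Φτ o7])⟩
      det := fun g hg => (sl g).1 hg.2 }
  refine ⟨?_, fun M hM hN ⟨g, hg, hg'⟩ => ?_⟩
  · let t : GL (Fin 7) F := GeneralLinearGroup.mkOfDetNeZero (transvection 0 1 1)
      (by simp [det_transvection_of_ne])
    refine ⟨t, (sl t).2 (det_transvection_of_ne _ _ (by decide) _), fun ht => ?_⟩
    obtain ⟨r, hr, e⟩ := id r1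
    obtain ⟨a, ha⟩ := tw _ _ (InM.of ((mem_normalizer_iff.1 ht r).1 hr)) r1
    have e1 : (t⁻¹).1 = transvection 0 1 (-1) := Units.inv_eq_of_mul_eq_one_right (by
      show transvection _ _ _ * _ = _
      simp [transvection_mul_transvection_same])
    have e2 : t.1 = transvection 0 1 1 := rfl
    simp only [Tw, Units.val_mul, e, e1, e2] at ha
    have a1 := congrFun (congrFun ha 0) 0
    have a2 := congrFun (congrFun ha 0) 1
    simp [ρ, mul_apply, vecMul, dotProduct, Fin.sum_univ_succ, transvection, single_apply,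
      one_apply] at a1 a2
    rw [← a1] at a2
    exact om_pow h h7 (k := 1) (by norm_num) (sub_eq_zero.1 (pow_eq_zero_iff two_ne_zero |>.1
      (by linear_combination a2)))
  refine (main hy (fun g hg => hN g hg.2 hg.1) (fun g hg => (sl g).1 (hM hg))
    (fun g hg ⟨a, ha⟩ ⟨b, hb⟩ => ?_)).elim (fun k g hg => inM_iff.1 (k _ ((sl g).1 hg)))
    fun k => absurd (k hg).1 hg'
  obtain ⟨m, n, l, e⟩ := pauli h h7 (GeneralLinearGroup.det_ne_zero g) ha hb
  have := (sl g).1 (hM hg)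
  rw [e] at this
  obtain ⟨k, rfl⟩ := root h h7 (c := l) (by simpa [det_ρ o7, det_τ] using this)
  exact ⟨le_normalizer (inM_iff.1 (((om1.pow k).mul ((r1.pow m).mul (r2.pow n))).congr
    (by simp [e, _root_.smul_pow]))), hM hg⟩

theorem frame {x y : M7 F} (hx : x ^ 7 = 1) (hy : y ^ 7 = 1) (hxy : Tw x y ω) :
    ∃ P : GL (Fin 7) F, x * P.1 = P.1 * ρ ω ∧ y * P.1 = P.1 * τ := by
  have o7 := om7 h
  have y1 : ∀ n (v : Fin 7 → F), v ≠ 0 → (y ^ n) *ᵥ v ≠ 0 := fun n v hv e => hv (by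
    have := congrArg ((y ^ (6 * n)) *ᵥ ·) e
    simp only [mulVec_mulVec, ← pow_add, show 6 * n + n = 7 * n by ring] at this
    simpa [pow_mul, hy] using this)
  obtain ⟨v, v0, hv⟩ : ∃ v : Fin 7 → F, v ≠ 0 ∧ x *ᵥ v = v := by
    by_contra! hcon
    let E : F → M7 F := fun a => 1 + a • x + a ^ 2 • x ^ 2 + a ^ 3 • x ^ 3 + a ^ 4 • x ^ 4 + a ^ 5 • x ^ 5 +
      a ^ 6 • x ^ 6
    have e0 : E 1 = 0 := H7.mat_eq_zero_of_mulVec fun v => by_contra fun h0 => hcon _ h0 (by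
      rw [mulVec_mulVec]
      congr 1
      simp only [E, one_pow, one_smul, mul_add, ← pow_succ', mul_one, ← sq, hx]
      abel)
    have e1 : ∀ a, E a = 0 → E (a * ω) = 0 := fun a ha => by
      have : y * E (a * ω) = E a * y := by
        simp only [E, mul_add, add_mul, mul_smul_comm, smul_mul_assoc, (hxy.pow _ :), (hxy :), smul_smul,
          mul_one, one_mul, mul_pow, show ∀ n, x ^ n * y = _ from fun n => hxy.pow n,
          show x * y = _ from hxy]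
      have := congrArg (y ^ 6 * ·) this
      simpa [ha, ← mul_assoc, ← pow_succ, hy] using this
    have e3 : ∀ n, E (ω ^ n) = 0 := fun n => by
      induction n with
      | zero => rwa [pow_zero]
      | succ n ih => rw [pow_succ]; exact e1 _ ih
    have e2 : (7 : F) • (1 : M7 F) = E (ω ^ 0) + E (ω ^ 1) + E (ω ^ 2) + E (ω ^ 3) + E (ω ^ 4) + E (ω ^ 5) +
        E (ω ^ 6) := by
      simp only [E]
      match_scalars <;> grind
    simp only [e3] at e2
    simpa [h7] using congrFun (congrFun e2 0) 0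
  have k1 : ∀ n : ℕ, x *ᵥ ((y ^ n) *ᵥ v) = ω ^ n • ((y ^ n) *ᵥ v) := fun n => by
    induction n with
    | zero => simpa using hv
    | succ n ih =>
      rw [pow_succ', ← mulVec_mulVec, mulVec_mulVec, hxy, smul_mulVec, ← mulVec_mulVec, ih, mulVec_smul,
        smul_smul, pow_succ']
  let P : M7 F := of fun i j => ((y ^ (j : ℕ)) *ᵥ v) i
  have hP : IsUnit P := linearIndependent_cols_iff_isUnit.1
    (Module.End.eigenvectors_linearIndependent' (toLin' x) (fun j : Fin 7 => ω ^ (j : ℕ))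
      (fun i j e => by_contra fun hij => om_ne h h7 (by omega) e) _ fun j =>
        ⟨Module.End.mem_eigenspace_iff.2 (k1 j), y1 j v v0⟩)
  refine ⟨hP.unit, ?_, ?_⟩ <;> rw [hP.unit_spec] <;> ext i j
  · rw [ρ_eq, mul_diagonal, mul_comm]
    exact congrFun (k1 j) i
  · have : (y * P) i j = ((y ^ ((j : ℕ) + 1)) *ᵥ v) i := by
      rw [pow_succ', ← mulVec_mulVec]; rfl
    rw [this]
    fin_cases j <;> simp [P, τ, mul_apply, Fin.sum_univ_succ, hy]

omit h h7 in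
theorem _root_.Cfsg.Agent.H2.S7.sl7_of_main [Fintype F] (main : ∀ p, Main7 F p)
    (hp : ∃ p : ℕ, p.Prime ∧ CharP F p ∧ ((Fintype.card F = p ∧ p % 7 = 1) ∨
      (Fintype.card F = p ^ 3 ∧ (p % 7 = 2 ∨ p % 7 = 4)))) (R : Subgroup (GL (Fin 7) F))
    (hR : Geo.IsLinearSymplecticTypeData 7 R) : Geo.IsMaximalIn (Geo.specialLinear (Fin 7) F)
      (Geo.subgroupNormalizer R ⊓ Geo.specialLinear (Fin 7) F) := by
  obtain ⟨p, hp, hc, hF⟩ := hp
  have := Fact.mk (show Nat.Prime 7 by norm_num)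
  have := Fact.mk hp
  have hZ : Nat.card (center R) = 7 := by
    obtain ⟨_, _, -, -, ⟨-, -, hZ, -⟩ | ⟨h, -⟩ | ⟨h, -⟩⟩ := hR.field <;> omega
  have habs : H7.AbsIrr R := H7.absIrr_iff.2 hR.absIrred
  have hexp : Monoid.exponent R = 7 := hR.symplecticType.exponent_eq
  have r5 : ∀ g ∈ R, g ^ 7 = 1 := fun g hg =>
    congrArg Subtype.val (hexp ▸ Monoid.pow_exponent_eq_one (⟨g, hg⟩ : R))
  have cm : ∀ x ∈ R, ∀ y ∈ R, x * y * x⁻¹ * y⁻¹ ∈ Geo.scalars (Fin 7) F := fun x hx y hy =>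
    habs.mem_scalars fun g hg => (congrArg Subtype.val (mem_center_iff.1 (H1.T3.symp_comm
      hR.symplecticType.pGroup hR.symplecticType.cyclic_of_characteristic (hexp.trans hZ.symm)
        ⟨x, hx⟩ ⟨y, hy⟩) ⟨g, hg⟩)).symm
  obtain ⟨x, hx, y, hy, c, c1, c5, e⟩ := H7.exists_root_of_comm (by simp) habs cm (r := 7)
    fun x hx => by rw [r5 x hx]; exact one_mem _
  have c2 : (c : F) - 1 ≠ 0 := fun h => c1 (Units.ext (sub_eq_zero.1 h))
  have c3 : (c : F) ^ 7 = 1 := by simpa using congrArg Units.val c5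
  have h : Om7 (c : F) := mul_left_cancel₀ c2 (by linear_combination c3)
  have ne : ∀ n : ℕ, n.Prime → n ≠ p → (n : F) ≠ 0 := fun n hn hne h =>
    hne ((Nat.prime_dvd_prime_iff_eq hp hn).1 ((CharP.cast_eq_zero_iff F p n).1 h)).symm
  have h7 : (7 : F) ≠ 0 := by exact_mod_cast ne 7 (by norm_num) (by omega)
  obtain ⟨P, p1, p2⟩ := frame h h7 (x := x.1) (y := y.1) (by simpa using congrArg Units.val (r5 x hx))
    (by simpa using congrArg Units.val (r5 y hy)) (by simpa [Tw] using congrArg Units.val e)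
  let φ : GL (Fin 7) F ≃* GL (Fin 7) F := MulAut.conj P⁻¹
  have hφ : ∀ g, φ g = P⁻¹ * g * P := fun g => by simp [φ]
  obtain ⟨k1, k2⟩ := std h h7 (main p) hp (by rwa [Nat.card_eq_fintype_card]) (R := R.map φ.toMonoidHom)
    ⟨_, ⟨x, hx, rfl⟩, by simp [hφ, mul_assoc, p1]⟩ ⟨_, ⟨y, hy, rfl⟩, by simp [hφ, mul_assoc, p2]⟩ (by
      rintro _ _ ⟨_, ⟨a, ha, rfl⟩, rfl⟩ ⟨_, ⟨b, hb, rfl⟩, rfl⟩
      obtain ⟨d, hd⟩ := H7.exists_comm_scal (cm a ha b hb)
      refine ⟨d, ?_⟩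
      have := congrArg (fun g => (φ g).1) hd
      simp only [map_mul] at this
      simpa [Tw, hφ, H7.scalGL_comm, mul_assoc] using this)
  refine H9.Sp.isMaximalIn_transport φ _ _ _ (· ∈ normalizer (R.map φ.toMonoidHom : Set _))
    (fun g => by simp [Geo.specialLinear, hφ]) (fun g _ => ?_) k1 k2
  rw [← map_equiv_normalizer_eq, mem_map_equiv]
  simp [Geo.subgroupNormalizer]

end Cfsg.Agent.H2.S7.Br
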