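import Cfsg.Agent.H8.C7.Set
import Cfsg.Agent.H7.Q4

/-! The centraliser of the involution does not induce a subfield group `SL₃(q₀)`. -/

set_option autoImplicit false
set_option linter.unusedSimpArgs false
set_option linter.unusedSectionVars false
set_option linter.unusedVariables false
set_option linter.unnecessarySeqFocus false

namespace Cfsg.Agent.H2.S7

open Matrix

variable {F : Type*} [Field F]

namespace N

theorem eigp (h2 : (2 : F) ≠ 0) {s : M3 F} (h : s * s = 1) {e : F} (he : e * e = 1) (n : s ≠ (-e) • 1) :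
    ∃ v φ : Fin 3 → F, s *ᵥ v = e • v ∧ φ ᵥ* s = e • φ ∧ φ ⬝ᵥ v = 1 := by
  obtain ⟨E, hE⟩ : ∃ E, E = s + e • (1 : M3 F) := ⟨_, rfl⟩
  have k1 : s * E = e • E := by simp [hE, mul_add, h, smul_smul, he, add_comm]
  have k2 : E * s = e • E := by simp [hE, add_mul, h, smul_smul, he, add_comm]
  have k3 : E * E = (2 * e) • E := by rw [hE, add_mul, ← hE, k1]; simp [two_mul, add_smul]
  obtain ⟨i, j, c⟩ : ∃ i j, E i j ≠ 0 := by
    by_contra! c
    exact n (by rw [neg_smul, ← add_eq_zero_iff_eq_neg, ← hE]; exact Matrix.ext c)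
  have e0 : e ≠ 0 := left_ne_zero_of_mul_eq_one he
  refine ⟨fun l => E l j, (2 * e * E i j)⁻¹ • E i, funext fun l => congrFun (congrFun k1 l) j, ?_, ?_⟩
  · rw [smul_vecMul, smul_comm]; exact congrArg _ (congrFun k2 i)
  · rw [smul_dotProduct, show E i ⬝ᵥ _ = _ from congrFun (congrFun k3 i) j]
    simp only [Matrix.smul_apply, smul_eq_mul]; field_simp

theorem tv3 (h2 : (2 : F) ≠ 0) {s : M3 F} (h : s * s = 1) (d : s.det = 1) (n : ¬ H7.IsScal s) :
    ∃ x y : M3 F, x * x = 0 ∧ y * y = 0 ∧ (1 + x).det = 1 ∧ (1 + y).det = 1 ∧ x * s = s * x ∧ y * s = s * y ∧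
      ((1 + x) * (1 + y)) ^ 3 = s := by
  obtain ⟨v, φ, a1, a2, a3⟩ := eigp h2 h (e := 1) (by simp) fun e => n ⟨_, e⟩
  obtain ⟨w, χ, b1, b2, b3⟩ := eigp h2 h (e := -1) (by simp) fun e => n ⟨_, e⟩
  have c1 : φ ⬝ᵥ w = 0 := by
    have := dotProduct_mulVec φ s w
    simp only [b1, a2, dotProduct_smul, one_smul, smul_eq_mul] at this
    exact mul_left_cancel₀ h2 (by linear_combination -this)
  have c2 : χ ⬝ᵥ v = 0 := by
    have := dotProduct_mulVec χ s v
    simp only [b2, a1, smul_dotProduct, one_smul, smul_eq_mul] at this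
    exact mul_left_cancel₀ h2 (by linear_combination this)
  obtain ⟨Q, R, e, l, k⟩ : ∃ Q R : M3 F, R * Q = 1 ∧ ∃ l, R * s * Q = !![1,0,0; 0,-1,0; 0,0,l] := by
    let u := crossProduct φ χ
    let ψ := crossProduct v w
    have d1 : φ ⬝ᵥ u = 0 := dot_self_cross _ _
    have d2 : χ ⬝ᵥ u = 0 := dot_cross_self _ _
    have d3 : ψ ⬝ᵥ v = 0 := (dotProduct_comm _ _).trans (dot_self_cross _ _)
    have d4 : ψ ⬝ᵥ w = 0 := (dotProduct_comm _ _).trans (dot_cross_self _ _)
    have d5 : ψ ⬝ᵥ u = 1 := by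
      rw [cross_dot_cross, dotProduct_comm v, dotProduct_comm w, dotProduct_comm v, a3, b3, c2]; simp
    have m : ∀ (X : M3 F) i j, (of ![φ, χ, ψ] * X * (of ![v, w, u])ᵀ) i j = ![φ, χ, ψ] i ⬝ᵥ X *ᵥ ![v, w, u] j :=
      fun X i j => (dotProduct_mulVec _ _ _).symm
    refine ⟨(of ![v, w, u])ᵀ, of ![φ, χ, ψ], ?_, ψ ⬝ᵥ s *ᵥ u, ?_⟩
    · rw [← Matrix.mul_one (of _)]
      ext i j; rw [m]; fin_cases i <;> fin_cases j <;> simp [*]
    · have d6 : φ ⬝ᵥ s *ᵥ u = 0 := by rw [dotProduct_mulVec, a2]; simp [d1]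
      have d7 : χ ⬝ᵥ s *ᵥ u = 0 := by rw [dotProduct_mulVec, b2]; simp [d2]
      ext i j; rw [m]; fin_cases i <;> fin_cases j <;> simp [*]
  have e' := mul_eq_one_comm.1 e
  have dd : ∀ X : M3 F, (Q * X * R).det = X.det := fun X => by
    rw [det_mul_right_comm, e', det_mul, det_one, one_mul]
  have mm : ∀ X Y : M3 F, Q * X * R * (Q * Y * R) = Q * (X * Y) * R := fun X Y => by
    simp only [Matrix.mul_assoc]; rw [← Matrix.mul_assoc R, e, Matrix.one_mul]
  have ad : ∀ X : M3 F, 1 + Q * X * R = Q * (1 + X) * R := fun X => by rw [mul_add, add_mul, mul_one, e']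
  obtain rfl : s = Q * !![1,0,0; 0,-1,0; 0,0,l] * R := by
    rw [← k]; simp only [Matrix.mul_assoc, e', Matrix.mul_one]; rw [← Matrix.mul_assoc, e', Matrix.one_mul]
  obtain rfl : l = -1 := by
    rw [dd] at d; simp [det_fin_three] at d; linear_combination -d
  refine ⟨Q * !![0,0,0; 0,0,1; 0,0,0] * R, Q * !![0,0,0; 0,0,0; 0,-1,0] * R, ?_, ?_, ?_, ?_, ?_, ?_, ?_⟩ <;>
    simp only [ad, mm, dd, pow_succ, pow_zero, one_mul]
  all_goals first
    | (simp [det_fin_three, one_apply]; done)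
    | (rw [← Matrix.zero_mul R, ← Matrix.mul_zero Q]; congr 2; ext i j; fin_cases i <;> fin_cases j <;> simp; done)
    | (congr 2; ext i j; fin_cases i <;> fin_cases j <;> simp [mul_apply, Fin.sum_univ_succ, one_apply])

def Φw (ω : F) : M4 F :=
  !![1,2,2,2; 1,ω+ω^6,ω^2+ω^5,ω^4+ω^3; 1,ω^2+ω^5,ω^4+ω^3,ω+ω^6; 1,ω^4+ω^3,ω+ω^6,ω^2+ω^5]

theorem Φw2 {ω : F} (h : Om7 ω) : Φw ω * Φw ω = (7 : F) • 1 := by
  ext i j; fin_cases i <;> fin_cases j <;> simp [Φw, mul_apply, Fin.sum_univ_succ] <;> grind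

theorem Φwd {ω : F} (h : Om7 ω) (α γ : F) : (α • (1 : M4 F) + γ • Φw ω).det = (α ^ 2 - 7 * γ ^ 2) ^ 2 := by
  simp [Φw, det_succ_row_zero, Fin.sum_univ_succ, Fin.succAbove, one_apply]
  grind

/-- equal up to sign -/
def Pm {R : Type*} [Ring R] (X Y : R) : Prop := X = Y ∨ X = -Y

theorem dd {p : ℕ} (hp : p.Prime) [CharP F p] (h2 : (2 : F) ≠ 0) {ω c i : F} (hω : Om7 ω) (hc : 7 * c ^ 2 = -1)
    (hi : i ^ 2 = -1) {X Y J : M4 F} (hJ : J = c • Φw ω) (hX : Pm (X ^ p) 1) (hY : Pm (Y ^ p) 1)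
    (cX : Pm (X * J) (J * X)) (cY : Pm (Y * J) (J * Y)) (e : Pm ((X * Y) ^ 3) J) : False := by
  have := Fact.mk hp
  have op : Odd p := hp.odd_of_ne_two fun e => h2 (by subst e; exact_mod_cast CharP.cast_eq_zero F 2)
  have JJ : J * J = -1 := by
    rw [hJ, smul_mul_smul_comm, Φw2 hω, smul_smul, show c * c * 7 = -1 by linear_combination hc]; simp
  have ne : J ≠ -J := fun k => by
    have := congrFun (congrFun (congrArg (J * ·) k) 0) 0
    simp only [mul_neg, JJ] at this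
    exact h2 (by simp at this; linear_combination -this)
  have cm : ∀ X : M4 F, Pm (X ^ p) 1 → Pm (X * J) (J * X) → Commute X J := fun X hX cX => cX.resolve_right fun k => by
    have := (show SemiconjBy J X (-X) by rw [SemiconjBy, neg_mul, k, neg_neg]).pow_right p
    rw [op.neg_pow] at this
    rcases hX with k | k <;> simp [k, SemiconjBy] at this
    · exact ne this
    · exact ne this.symm
  obtain ⟨E, hE⟩ : ∃ E, E = (2 : F)⁻¹ • (1 - i • J) := ⟨_, rfl⟩
  have EE : E * E = E := by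
    simp only [hE, smul_mul_smul_comm, sub_mul, mul_sub, one_mul, mul_one, JJ]
    match_scalars <;> field_simp <;> grind
  let D : M4 F → F := fun X => (X * E + (1 - E)).det
  have D1 : ∀ X Y, Commute Y J → D (X * Y) = D X * D Y := fun X Y k => by
    have : E * Y = Y * E := by simp [hE, sub_mul, mul_sub, k.eq]
    simp only [D, ← det_mul]
    congr 1
    simp only [add_mul, mul_add, sub_mul, mul_sub, one_mul, mul_one, mul_assoc, ← mul_assoc E Y, this, EE]
    abel
  have D2 : ∀ X, Commute X J → ∀ n, D (X ^ n) = D X ^ n := fun X k n => by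
    induction n with
    | zero => simp [D]
    | succ n ih => rw [pow_succ, D1 _ _ k, ih, pow_succ]
  have D3 : D (-1) = 1 := by
    rw [show D (-1) = ((0 : F) • (1 : M4 F) + (i * c) • Φw ω).det from congrArg det (by
      rw [neg_one_mul, hE, hJ]; match_scalars <;> field_simp <;> ring), Φwd hω]
    grind
  have D4 : D J = -1 := by
    rw [show D J = (((1 + i) / 2) • (1 : M4 F) + ((1 + i) / 2 * c) • Φw ω).det from congrArg det (by
      rw [hE, mul_smul_comm, mul_sub, mul_smul_comm, JJ, mul_one, hJ]; match_scalars <;> field_simp <;> ring), Φwd hω]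
    field_simp
    grind
  have D5 : ∀ X, Pm (X ^ p) 1 → Commute X J → D X = 1 := fun X a b => by
    have : D X ^ p = 1 := by rcases a with a | a <;> rw [← D2 X b, a]; exacts [by simp [D], D3]
    exact frobenius_inj F p (by simpa [frobenius_def] using this)
  have k1 := cm X hX cX
  have k2 := cm Y hY cY
  have := D2 _ (k1.mul_left k2) 3
  rw [D1 _ _ k2, D5 X hX k1, D5 Y hY k2] at this
  rcases e with e | e <;> rw [e] at this
  · exact h2 (by linear_combination D4 - this)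
  · rw [← neg_one_mul, D1 _ _ (Commute.refl J), D3, D4] at this
    exact h2 (by linear_combination -this)

end N

open N in
theorem no_sl3 {G : Type*} [Group G] {p : ℕ} (hp : p.Prime) [CharP F p] [Finite F] (h2 : (2 : F) ≠ 0)
    (a : G →* GL (Fin 3) F) (b : G →* GL (Fin 4) F) (hk : ∀ g, a g = 1 → (b g).1 = 1 ∨ (b g).1 = -1)
    {P : Subgroup (GL (Fin 3) F)} {g : GL (Fin 3) F} {k : Subfield F} (hP : H8.IsSL3 P g k) (le : P ≤ a.range)
    (nm : H7.NormG a.range P) {f : G} (f1 : a f * a f = 1) (f2 : ¬ H7.IsScal (a f).1) (f4 : (a f).1.det = 1)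
    {ω c : F} (hω : Om7 ω) (hc : 7 * c ^ 2 = -1) (f3 : (b f).1 = c • !![1,2,2,2; 1,ω+ω^6,ω^2+ω^5,ω^4+ω^3;
      1,ω^2+ω^5,ω^4+ω^3,ω+ω^6; 1,ω^4+ω^3,ω+ω^6,ω^2+ω^5]) : False := by
  have := Fact.mk hp
  obtain ⟨d, d0, hd⟩ := H7.mem_subfieldSubgroup_iff.1 ((H7.absIrr_isSL3 h2 hP).le_subfieldSubgroup nm (F₁ := k)
    (B := g⁻¹) (fun x hx i j => by simpa [H7.cj] using ((hP x).1 hx).2 i j) ⟨f, rfl⟩)
  obtain ⟨s, hs⟩ : ∃ s : M3 F, s = (g⁻¹ * a f * g).1 := ⟨_, rfl⟩
  replace hd : d • s ∈ k.toSubring.matrix := fun i j => by simpa [H7.cj, hs] using hd i j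
  have s1 : s * s = 1 := by rw [hs, ← Units.val_mul]; simp [mul_assoc, ← mul_assoc (a f), f1]
  have s2 : s.det = 1 := by rw [hs, Units.val_mul, Units.val_mul, det_units_conj', f4]
  have d2 : d ^ 2 ∈ k := by simpa [smul_smul, s1, sq] using mul_mem hd hd 0 0
  have d3 : d ^ 3 ∈ k := by
    have : (d • s).det ∈ k := by
      rw [det_fin_three]
      exact sub_mem (add_mem (add_mem (sub_mem (sub_mem (mul_mem (mul_mem (hd _ _) (hd _ _)) (hd _ _))
        (mul_mem (mul_mem (hd _ _) (hd _ _)) (hd _ _))) (mul_mem (mul_mem (hd _ _) (hd _ _)) (hd _ _)))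
        (mul_mem (mul_mem (hd _ _) (hd _ _)) (hd _ _))) (mul_mem (mul_mem (hd _ _) (hd _ _)) (hd _ _)))
        (mul_mem (mul_mem (hd _ _) (hd _ _)) (hd _ _))
    simpa [s2] using this
  have d1 : d ∈ k := by convert div_mem d3 d2 using 1; field_simp
  let φ := k.subtype.mapMatrix (m := Fin 3)
  have inj : Function.Injective φ := Matrix.map_injective k.subtype.injective
  obtain ⟨t, rfl⟩ : ∃ t : M3 k, φ t = s := ⟨of fun i j => ⟨s i j, by
    simpa [d0] using mul_mem (inv_mem d1) (hd i j)⟩, rfl⟩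
  have dφ : ∀ x : M3 k, (φ x).det = x.det := fun x => (k.subtype.map_det x).symm
  obtain ⟨x, y, x1, y1, x2, y2, x3, y3, e⟩ := tv3 (F := k) (fun e => h2 (congrArg Subtype.val e)) (s := t)
    (inj (by rw [map_mul, s1, map_one])) (Subtype.ext ((dφ t).symm.trans s2)) fun ⟨l, e⟩ => f2 ⟨l, by
      rw [show a f = g * (g⁻¹ * a f * g) * g⁻¹ by group, Units.val_mul, Units.val_mul, ← hs, e]
      simp [φ, Matrix.map_smul']⟩
  have lift : ∀ x : M3 k, (1 + x).det = 1 → ∃ u : G, (g⁻¹ * a u * g).1 = φ (1 + x) := fun x x2 => by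
    have e : (φ (1 + x)).det = 1 := by rw [dφ, x2]; rfl
    obtain ⟨u, hu⟩ := le ((hP (g * GeneralLinearGroup.mkOfDetNeZero (φ (1 + x)) (e ▸ one_ne_zero) * g⁻¹)).2
      ⟨by rw [Units.val_mul, Units.val_mul, det_units_conj]; exact e, fun i j => by
        simp only [mul_assoc, inv_mul_cancel, mul_one, inv_mul_cancel_left]; exact ((1 + x) i j).2⟩)
    exact ⟨u, by simp only [hu, mul_assoc, inv_mul_cancel, mul_one, inv_mul_cancel_left]; rfl⟩
  obtain ⟨u, hu⟩ := lift x x2
  obtain ⟨v, hv⟩ := lift y y2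
  let K := AlgebraicClosure F
  have : CharP K p := charP_of_injective_algebraMap (algebraMap F K).injective p
  obtain ⟨i, hi⟩ := IsAlgClosed.exists_pow_nat_eq (-1 : K) two_pos
  let A : G →* M3 F := (Units.coeHom _).comp ((MulAut.conj g⁻¹).toMonoidHom.comp a)
  have hA : ∀ u, (g⁻¹ * a u * g).1 = A u := fun u => by simp [A]
  let β : G →* M4 K := (algebraMap F K).mapMatrix.toMonoidHom.comp ((Units.coeHom _).comp b)
  have pm : ∀ u v, A u = A v → Pm (β u) (β v) := fun u v e => by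
    have : a (u * v⁻¹) = 1 := by
      rw [map_mul, map_inv, mul_inv_eq_one]
      exact (MulAut.conj g⁻¹).injective (Units.ext e)
    rw [show u = u * v⁻¹ * v by group, map_mul]
    rcases hk _ this with k | k
    · exact Or.inl (by rw [show β (u * v⁻¹) = (algebraMap F K).mapMatrix (b _).1 from rfl, k]; simp)
    · exact Or.inr (by rw [show β (u * v⁻¹) = (algebraMap F K).mapMatrix (b _).1 from rfl, k, map_neg]; simp)
  have un : ∀ u x, A u = φ (1 + x) → x * x = 0 → Pm (β u ^ p) 1 := fun u x e x1 => by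
    rw [← map_pow, ← map_one β]
    refine pm _ _ ?_
    rw [map_pow, e, ← map_pow, add_pow_char_of_commute _ (Commute.one_left x), pow_eq_zero_of_le hp.two_le
      ((sq x).trans x1)]
    simp
  have cm : ∀ u x, A u = φ (1 + x) → x * t = t * x → Pm (β u * β f) (β f * β u) := fun u x e x1 => by
    rw [← map_mul, ← map_mul]
    refine pm _ _ ?_
    rw [map_mul, map_mul, e, ← hA f, ← hs, ← map_mul, ← map_mul, add_mul, mul_add, x1, one_mul, mul_one]
  rw [hA] at hu hv hs
  refine dd hp (F := K) (fun e => h2 ((algebraMap F K).injective (by simpa [map_ofNat] using e))) (ω := algebraMap F K ω)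
    (c := algebraMap F K c) (by simpa using congrArg (algebraMap F K) hω)
    (by simpa [map_ofNat] using congrArg (algebraMap F K) hc) hi (J := β f) ?_ (un u x hu x1) (un v y hv y1) (cm u x hu x3)
    (cm v y hv y3) ?_
  · rw [show β f = (algebraMap F K).mapMatrix (b _).1 from rfl, f3]
    ext i j; fin_cases i <;> fin_cases j <;> simp [Φw, map_ofNat]
  · rw [← map_mul, ← map_pow]
    exact pm _ _ (by rw [map_pow, map_mul, hu, hv, ← map_mul, ← map_pow, e, hs])

end Cfsg.Agent.H2.S7
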