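import Cfsg.Agent.H2.S7N
import Cfsg.Agent.H8.C7.B

/-! The normaliser of `7^{1+2}` in odd characteristic. -/

set_option autoImplicit false

namespace Cfsg.Agent.H2.S7

theorem main7_odd' {F : Type*} [Field F] {p : ℕ} (hp : p ≠ 2) : Main7 F p :=
  main7_odd (fun {p ω M} h hp hn P g k hP le nm => by
    haveI := h.finF
    haveI := h.char
    obtain ⟨f, -, f1, f2, f4, c, hc, f3⟩ := h.exφ' hp
    exact no_sl3 h.prime (h.two hp) _ _ (h.kerL hp hn) hP le nm f1
      (fun ⟨l, e⟩ => f2 0 1 (by rw [e]; simp)) f4 h.om hc f3) hp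

end Cfsg.Agent.H2.S7
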