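import Cfsg.Agent.H9.Sp.Sub1
import Cfsg.Agent.H9.Sp.SL2

/-! Irreducible groups generated by symplectic transvections in dimension four, odd
characteristic: they are symplectic groups over subfields. -/

set_option autoImplicit false
set_option linter.unusedSimpArgs false
set_option linter.unusedSectionVars false
set_option linter.unusedVariables false

namespace Cfsg.Agent.H2.SP

open Module Cfsg.Agent.H6 Cfsg.Agent.H9.Sp

variable {F : Type*} [Field F] [Finite F] {V : Type*} [AddCommGroup V] [Module F V]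
  [FiniteDimensional F V]
variable {B : V →ₗ[F] V →ₗ[F] F} {M : Subgroup (V ≃ₗ[F] V)}

/-- the matrices realised on a hyperbolic plane -/
def plane (B : V →ₗ[F] V →ₗ[F] F) (M : Subgroup (V ≃ₗ[F] V)) (x y : V) :
    Subgroup (GL (Fin 2) F) where
  carrier := {A | A 0 0 * A 1 1 - A 0 1 * A 1 0 = 1 ∧ ∃ g ∈ M, g x = A 0 0 • x + A 1 0 • y ∧
    g y = A 0 1 • x + A 1 1 • y ∧ ∀ r, B x r = 0 → B y r = 0 → g r = r}
  one_mem' := ⟨by simp, 1, M.one_mem, by simp, by simp, fun _ _ _ => rfl⟩
  mul_mem' := by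
    rintro A A' ⟨h, g, hg, h1, h2, h3⟩ ⟨h', g', hg', h1', h2', h3'⟩
    refine ⟨?_, g * g', M.mul_mem hg hg', ?_, ?_, fun r a b => ?_⟩
    · simp only [Units.val_mul, Matrix.mul_apply, Fin.sum_univ_two]
      linear_combination (A' 0 0 * A' 1 1 - A' 0 1 * A' 1 0) * h + h'
    · simp only [LinearEquiv.mul_apply, h1', map_add, map_smul, h1, h2, Units.val_mul,
        Matrix.mul_apply, Fin.sum_univ_two]
      module
    · simp only [LinearEquiv.mul_apply, h2', map_add, map_smul, h1, h2, Units.val_mul,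
        Matrix.mul_apply, Fin.sum_univ_two]
      module
    · simp [h3' r a b, h3 r a b]
  inv_mem' := by
    rintro A ⟨h, g, hg, h1, h2, h3⟩
    have e : ∀ i j, (A⁻¹ : GL (Fin 2) F) i j = !![A 1 1, -A 0 1; -A 1 0, A 0 0] i j := by
      intro i j
      have : ((A⁻¹ : GL (Fin 2) F) : Matrix (Fin 2) (Fin 2) F) = !![A 1 1, -A 0 1; -A 1 0, A 0 0] := by
        rw [Matrix.coe_units_inv]
        apply Matrix.inv_eq_left_inv
        ext i j
        fin_cases i <;> fin_cases j <;> simp [Matrix.mul_apply, Fin.sum_univ_two] <;>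
          first | linear_combination h | ring
      rw [this]
    refine ⟨?_, g⁻¹, M.inv_mem hg, ?_, ?_, fun r a b => ?_⟩
    · simp only [e]; simp; linear_combination h
    · apply g.injective
      rw [apply_inv_apply]
      simp only [e, map_add, map_smul, h1, h2]
      simp
      match_scalars <;> first | linear_combination -h | ring
    · apply g.injective
      rw [apply_inv_apply]
      simp only [e, map_add, map_smul, h1, h2]
      simp
      match_scalars <;> first | linear_combination -h | ring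
    · apply g.injective
      rw [apply_inv_apply, h3 r a b]

theorem exists_neg (hB : Symp B) (h2 : (2 : F) ≠ 0) {x y : V} (hxy : B x y = 1)
    (hx : T B M x 1) {d : F} (hd : d ≠ 0) (hy : T B M y d) :
    ∃ g ∈ M, g x = -x ∧ g y = -y ∧ ∀ r, B x r = 0 → B y r = 0 → g r = r := by
  have hyx : B y x = -1 := by rw [hB.skew, hxy]
  obtain ⟨A, ⟨-, g, hg, h1, h2, h3⟩, a, b, c, e⟩ := neg_one_mem h2 (plane B M x y)
    (fun g hg => hg.1) (by
      obtain ⟨g, hg, h⟩ := hx.neg hB
      exact ⟨by simp, g, hg, by simp [h, hB.alt], by simp [h, hyx, add_comm],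
        fun r a b => by simp [h, hB.comm.1 a]⟩) hd (by
      obtain ⟨g, hg, h⟩ := hy
      exact ⟨by simp, g, hg, by simp [h, hxy], by simp [h, hB.alt],
        fun r a b => by simp [h, hB.comm.1 b]⟩)
  exact ⟨g, hg, by simp [h1, a, c], by simp [h2, b, e], h3⟩

/-- irreducible under the transvections of `M` -/
def TIrr (B : V →ₗ[F] V →ₗ[F] F) (M : Subgroup (V ≃ₗ[F] V)) : Prop :=
  ∀ W : Submodule F V, (∀ v c, T B M v c → ∀ w ∈ W, (c * B w v) • v ∈ W) → W = ⊥ ∨ W = ⊤

theorem TIrr.exists_ne (h : TIrr B M) (hn : 2 ≤ finrank F V) {x : V} (hx : x ≠ 0) :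
    ∃ y d, T B M y d ∧ d ≠ 0 ∧ B x y ≠ 0 := by
  by_contra! H
  rcases h (Submodule.span F {x}) (fun v c hv w hw => by
    obtain ⟨a, rfl⟩ := Submodule.mem_span_singleton.1 hw
    by_cases hc : c = 0
    · simp [hc]
    · simp [H v c hv hc]) with h | h
  · exact hx ((Submodule.span_singleton_eq_bot).1 h)
  · have := finrank_span_singleton (K := F) hx
    rw [h, finrank_top] at this
    omega

theorem TIrr.exists_mixed (hB : Symp B) (h : TIrr B M) (hn : 3 ≤ finrank F V) {x y : V}
    (hxy : B x y = 1) : ∃ (α β : F) (r : V) (c : F), T B M (α • x + β • y + r) c ∧ c ≠ 0 ∧ (α ≠ 0 ∨ β ≠ 0) ∧ r ≠ 0 ∧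
      B x r = 0 ∧ B y r = 0 := by
  have hyx : B y x = -1 := by rw [hB.skew, hxy]
  by_contra! H
  rcases h (Submodule.span F {x, y}) (fun v c hv w hw => by
    by_cases hc : c = 0
    · simp [hc]
    have e : v = (-B y v) • x + B x v • y + (v + B y v • x - B x v • y) := by module
    by_cases h1 : B y v = 0 ∧ B x v = 0
    · obtain ⟨a, b, rfl⟩ := Submodule.mem_span_pair.1 hw
      simp [h1.1, h1.2]
    · have := H (-B y v) (B x v) (v + B y v • x - B x v • y) c (e ▸ hv) hc (by
        by_contra! h3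
        exact h1 ⟨by simpa using h3.1, h3.2⟩)
      have h4 : v + B y v • x - B x v • y = 0 := by
        by_contra h4
        exact this h4 (by simp [hB.alt, hxy]) (by simp [hB.alt, hyx])
      rw [h4, add_zero] at e
      refine Submodule.smul_mem _ _ ?_
      rw [e]
      exact Submodule.mem_span_pair.2 ⟨_, _, rfl⟩) with h | h
  · have : x ∈ Submodule.span F {x, y} := Submodule.subset_span (by simp)
    rw [h, Submodule.mem_bot] at this
    simp [this] at hxy
  · classical
    have := finrank_span_le_card (R := F) ({x, y} : Set V)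
    have h3 : ({x, y} : Set V).toFinset.card ≤ 2 := by
      simpa using Finset.card_le_two
    rw [h, finrank_top] at this
    omega

/-- maximal parameter group -/
def Mx (hB : Symp B) (M : Subgroup (V ≃ₗ[F] V)) (x : V) : Prop :=
  ∀ v, v ≠ 0 → Nat.card (Tgrp hB M v) ≤ Nat.card (Tgrp hB M x)

theorem key (hB : Symp B) (hM : M ≤ Sp B) (h2 : (2 : F) ≠ 0) (h : TIrr B M)
    (hn : 3 ≤ finrank F V) {x y : V} (hxy : B x y = 1) (hx : T B M x 1) (hmx : Mx hB M x)
    {d : F} (hd : d ≠ 0) (hy : T B M y d) :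
    T B M x d ∧ ∀ s t, T B M x s → T B M x t → T B M x (s * t) := by
  have hyx : B y x = -1 := by rw [hB.skew, hxy]
  obtain ⟨α, β, r, c, hz, hc, hαβ, hr, hxr, hyr⟩ := h.exists_mixed hB hn hxy
  have hrx := hB.comm.1 hxr
  have hry := hB.comm.1 hyr
  obtain ⟨g, hg, g1, g2, g3⟩ := exists_neg hB h2 hxy hx hd hy
  have hz' : T B M (α • x + β • y - r) (-c) := by
    have := (hz.conj hM hg).neg hB
    rw [← T_neg] at this
    convert this using 1
    simp [g1, g2, g3 r hxr hyr]
    module
  have hR : R B M r ((2 * c) • (α • x + β • y)) 0 := by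
    obtain ⟨k, hk, k1⟩ := hz
    obtain ⟨k', hk', k2⟩ := hz'
    refine ⟨k * k', M.mul_mem hk hk', fun v => ?_⟩
    simp only [LinearEquiv.mul_apply, k1, k2, map_add, map_sub, map_smul, LinearMap.add_apply,
      LinearMap.sub_apply, LinearMap.smul_apply, hB.alt, hxy, hyx, hxr, hyr, hrx, hry, smul_eq_mul]
    module
  let X : AddSubgroup F :=
    { carrier := {a | ∃ c', R B M r (a • x) c'}
      add_mem' := by
        rintro a b ⟨c1, h1⟩ ⟨c2, h2⟩
        exact ⟨_, (h1.mul hB h2 (by simp [hrx]) (by simp [hrx])).congr (add_smul _ _ _).symm rfl⟩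
      zero_mem' := ⟨0, by simpa using R_zero_iff.2 (T.zero_right r)⟩
      neg_mem' := by
        rintro a ⟨c1, h1⟩
        exact ⟨_, (h1.inv hB (by simp [hrx])).congr (neg_smul _ _).symm rfl⟩ }
  let Y : Set F := {a | ∃ c', R B M r (a • y) c'}
  have toX : ∀ (a b c' : F), R B M r (a • x + b • y) c' → ∀ s, T B M x s → s * b ∈ X := by
    intro a b c' h1 s hs
    obtain ⟨c'', h3⟩ := h1.conjT hB hM (hs.neg hB) hrx (by simp [hrx, hry])
    exact ⟨c'', h3.congr (by simp [hB.alt, hyx]) rfl⟩
  have toY : ∀ (a b c' : F), R B M r (a • x + b • y) c' → d * a ∈ Y := by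
    intro a b c' h1
    obtain ⟨c'', h3⟩ := h1.conjT hB hM hy hry (by simp [hrx, hry])
    exact ⟨c'', h3.congr (by simp [hB.alt, hxy]) rfl⟩
  have YX : ∀ b ∈ Y, ∀ s, T B M x s → s * b ∈ X := by
    rintro b ⟨c', h1⟩
    exact toX 0 b c' (h1.congr (by simp) rfl)
  have XY : ∀ a ∈ X, d * a ∈ Y := by
    rintro a ⟨c', h1⟩
    exact toY a 0 c' (h1.congr (by simp) rfl)
  obtain ⟨b, hb, hb0⟩ : ∃ b ∈ Y, b ≠ 0 := by
    have hR' : R B M r ((2 * c * α) • x + (2 * c * β) • y) 0 := hR.congr (by module) rfl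
    rcases hαβ with h1 | h1
    · exact ⟨_, toY _ _ _ hR', by simp [hd, h2, hc, h1]⟩
    · exact ⟨_, XY _ (toX _ _ _ hR' 1 hx), by simp [hd, h2, hc, h1]⟩
  have c1 : Nat.card X ≤ Nat.card (Tgrp hB M x) := by
    refine le_trans ?_ (hmx r hr)
    obtain ⟨cb, hcb⟩ := hb
    refine Nat.card_le_card_of_injective (fun a : X => (⟨2 * (b * -a), by
      obtain ⟨ca, hca⟩ := a.2
      have := hca.comm hB hcb (by simp [hrx]) (by simp [hry])
      rw [mem_Tgrp]
      simpa [hyx, mul_comm] using this⟩ : Tgrp hB M r)) fun a a' e => ?_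
    have := congrArg Subtype.val e
    simpa [h2, hb0] using this
  have surj : ∀ b' ∈ Y, b' ≠ 0 → ∀ a ∈ X, T B M x (a / b') := by
    intro b' hb' h0 a ha
    let f : Tgrp hB M x → X := fun s => ⟨s * b', YX b' hb' s s.2⟩
    have hf : Function.Injective f := fun s s' e => by
      have := congrArg Subtype.val e
      simpa [f, h0] using this
    obtain ⟨s, hs⟩ := (hf.bijective_of_nat_card_le c1).2 ⟨a, ha⟩
    have e : (s : F) * b' = a := congrArg Subtype.val hs
    rw [← e, mul_div_cancel_right₀ _ h0]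
    exact s.2
  have hbX : b ∈ X := by simpa using YX b hb 1 hx
  have hdX : T B M x d := by
    have := surj b hb hb0 (d * b) (by simpa using YX _ (XY b hbX) 1 hx)
    rwa [mul_div_cancel_right₀ _ hb0] at this
  refine ⟨hdX, fun s t hs ht => ?_⟩
  -- `X = d X`, hence every element of `X` lies in `Y`
  have XY' : ∀ a ∈ X, a ∈ Y := by
    intro a ha
    let f : X → X := fun a => ⟨d * a, by simpa using YX _ (XY a a.2) 1 hx⟩
    have hf : Function.Injective f := fun s s' e => by
      have := congrArg Subtype.val e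
      simpa [f, hd] using this
    obtain ⟨a', ha'⟩ := (Finite.injective_iff_surjective.1 hf) ⟨a, ha⟩
    have e : d * (a' : F) = a := congrArg Subtype.val ha'
    rw [← e]
    exact XY _ a'.2
  have := surj b hb hb0 _ (YX _ (XY' _ (YX b hb t ht)) s hs)
  rwa [← mul_assoc, mul_div_cancel_right₀ _ hb0] at this

end Cfsg.Agent.H2.SP
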