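import Cfsg.Agent.H2.SP9

/-! Large short root groups do not occur. -/

set_option autoImplicit false
set_option linter.unusedSimpArgs false
set_option linter.unusedSectionVars false
set_option linter.unusedVariables false

namespace Cfsg.Agent.H2.SP

open Module Cfsg.Agent.H8.M3 Cfsg.Agent.H6.S4 Polynomial
open Cfsg.Agent.H9.Sp hiding T

universe u

variable {k V W : Type*} [Field k] [AddCommGroup V] [Module k V] [FiniteDimensional k V]
  [AddCommGroup W] [Module k W] [FiniteDimensional k W]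
  {B : V →ₗ[k] V →ₗ[k] k} {Q : QuadraticForm k W} {ι : W →ₗ[k] End k V}
  {G : Type u} [Group G] {P : Subgroup (End k V)ˣ} {π : P →* G} {p : ℕ}
  {g x y : (End k V)ˣ} {e f a a' b : W}

theorem jordan [Fact p.Prime] [CharP k p] (h2 : (2 : k) ≠ 0) (A : AddSubgroup W) [Finite A] {c : W}
    (hc : c ∈ A) (qc : Q c = 1) (an : ∀ a ∈ A, Q a = 0 → a = 0)
    (hs : ∀ a ∈ A, Orth.B Q a c • a - Q a • c ∈ A) {α β : k} (ha : a + α • c ∈ A)
    (hb : b + β • c ∈ A) (ac : Orth.B Q a c = 0) (bc : Orth.B Q b c = 0) :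
    Orth.B Q a b ^ 2 = 4 * Q a * Q b := by
  have cc : Orth.B Q c c = 2 := by rw [Orth.B_self, qc, mul_one]
  have c0 : c ≠ 0 := by rintro rfl; simp at qc
  have lin : ∀ a ∈ A, ∀ b ∈ A, Orth.B Q a c • b + Orth.B Q b c • a - Orth.B Q a b • c ∈ A :=
    fun a ha b hb => by
      convert A.sub_mem (A.sub_mem (hs _ (A.add_mem ha hb)) (hs a ha)) (hs b hb) using 1
      simp only [map_add, LinearMap.add_apply, Orth.Q_add]; module
  have half : ∀ a, (2 : k) • a ∈ A → a ∈ A := fun a ha => by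
    obtain ⟨n, hn⟩ := (Fact.out : p.Prime).odd_of_ne_two (fun e => h2 (by
      subst e; exact_mod_cast CharP.cast_eq_zero k 2))
    have h1 : ((n + 1 : ℕ) : k) * 2 = 1 := by
      have := CharP.cast_eq_zero k p
      rw [hn] at this
      push_cast at this ⊢
      linear_combination this
    have := A.nsmul_mem ha (n + 1)
    rwa [← Nat.cast_smul_eq_nsmul k, smul_smul, h1, one_smul] at this
  have sm : ∀ s : k, s • c ∈ A → ∀ a ∈ A, s • a ∈ A := fun s h1 a ha => half _ (by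
    convert lin _ h1 a ha using 1
    simp only [map_smul, LinearMap.smul_apply, cc, smul_eq_mul, Orth.B_comm Q c a]; module)
  let R : Subring k :=
    { carrier := {s | s • c ∈ A}
      mul_mem' := fun {s t} hs ht => by simpa [mul_smul] using sm s hs _ ht
      one_mem' := by simpa using hc
      add_mem' := fun {s t} hs ht => by simpa [add_smul] using A.add_mem hs ht
      zero_mem' := by simp
      neg_mem' := fun {s} hs => by simpa using A.neg_mem hs }
  have : Finite R := Finite.of_injective (fun s : R => (⟨s.1 • c, s.2⟩ : A)) fun s t e =>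
    Subtype.ext (smul_left_injective k c0 (congrArg Subtype.val e))
  have := Fintype.ofFinite R
  have odd : Fintype.card R % 2 = 1 := by
    by_contra hh
    obtain ⟨s, hs⟩ := exists_prime_addOrderOf_dvd_card 2 (G := R) (by omega)
    have h1 := congrArg Subtype.val (addOrderOf_nsmul_eq_zero s)
    rw [hs] at h1
    have : s = 0 := Subtype.ext ((mul_eq_zero.1 (show (2 : k) * s = 0 by
      rw [two_mul]; rwa [two_nsmul] at h1)).resolve_left h2)
    simp [this] at hs
  have tl : ∀ u ∈ A, ∀ u' ∈ A, Orth.B Q u c = 0 → Orth.B Q u' c = 0 → u = 0 ∨ ∃ t : k, u' = t • u :=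
    fun u hu u' hu' uc uc' => by
      by_cases u0 : u = 0
      · exact Or.inl u0
      have qu : Q u ≠ 0 := fun e => u0 (an u hu e)
      have qR : ∀ u ∈ A, Orth.B Q u c = 0 → Q u ∈ R := fun u hu uc => by
        show Q u • c ∈ A
        simpa [uc] using A.neg_mem (hs u hu)
      have bR : Orth.B Q u u' ∈ R := by
        show Orth.B Q u u' • c ∈ A
        simpa [uc, uc'] using A.neg_mem (lin u hu u' hu')
      have h1 : (2 * Q u) • u' - Orth.B Q u u' • u ∈ A :=
        A.sub_mem (sm _ (R.mul_mem (by simpa using natCast_mem R 2) (qR u hu uc)) _ hu') (sm _ bR _ hu)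
      have h3 : Orth.B Q ((2 * Q u) • u' - Orth.B Q u u' • u) c = 0 := by simp [uc, uc']
      have h4 : Orth.B Q u ((2 * Q u) • u' - Orth.B Q u u' • u) = 0 := by
        simp [Orth.B_self]; ring
      suffices (2 * Q u) • u' - Orth.B Q u u' • u = 0 from Or.inr ⟨(2 * Q u)⁻¹ * Orth.B Q u u', by
        rw [mul_smul, eq_inv_smul_iff₀ (mul_ne_zero h2 qu), sub_eq_zero.1 this]⟩
      generalize (2 * Q u) • u' - Orth.B Q u u' • u = w at *
      obtain ⟨s, t, hst⟩ := FiniteField.exists_root_sum_quadratic (R := R) (f := X ^ 2)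
        (g := C ⟨Q u, qR u hu uc⟩ * X ^ 2 + C ⟨Q w, qR w h1 h3⟩) (by simp) (by
          have : (⟨Q u, qR u hu uc⟩ : R) ≠ 0 := fun e => qu (congrArg Subtype.val e)
          compute_degree!) odd
      have h5 := congrArg Subtype.val hst
      simp at h5
      have h6 := an _ (A.add_mem (A.add_mem s.2 (sm _ t.2 _ hu)) h1) (by
        simp [Orth.Q_add, Orth.Q_smul, qc, Orth.B_comm Q c, uc, h3, h4]
        linear_combination h5)
      have a1 := congrArg (fun z => Orth.B Q z c) h6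
      have a2 := congrArg (Orth.B Q u) h6
      simp [cc, uc, h3, h4, h2, Orth.B_self, qu] at a1 a2
      simpa [a1, a2] using h6
  have D : ∀ x ∈ A, (2 * Orth.B Q a x) • b - (2 * Orth.B Q b x) • a ∈ A := fun x hx => by
    convert A.sub_mem (lin _ ha _ (lin _ hb x hx)) (lin _ hb _ (lin _ ha x hx)) using 1
    simp only [map_add, map_sub, map_smul, LinearMap.add_apply, LinearMap.sub_apply,
      LinearMap.smul_apply, ac, bc, cc, smul_eq_mul, Orth.B_comm Q c x, Orth.B_comm Q b a,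
      Orth.B_comm Q c a, Orth.B_comm Q c b]
    module
  rcases tl _ (D _ ha) _ (D _ hb) (by simp [ac, bc]) (by simp [ac, bc]) with e | ⟨t, e⟩
  · have := congrArg (Orth.B Q b) e
    simp only [map_add, map_sub, map_smul, ac, bc, smul_eq_mul, Orth.B_self, Orth.B_comm Q b a,
      map_zero] at this
    exact mul_left_cancel₀ h2 (by linear_combination -this)
  · have := congrArg (Orth.B Q a) e
    simp only [map_add, map_sub, map_smul, ac, bc, smul_eq_mul, Orth.B_self, Orth.B_comm Q b a] at this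
    exact mul_left_cancel₀ h2 (by linear_combination this)

theorem Lg.smul (c : Cl B Q ι) (he : Lg p Q ι P e) {t : k} (t0 : t ≠ 0) : Lg p Q ι P (t • e) := by
  obtain ⟨e0, qe, a, a', h1, h2, qa, hp⟩ := he
  have ti := inv_ne_zero t0
  refine ⟨smul_ne_zero t0 e0, by simp [Orth.Q_smul, qe], t⁻¹ • a, t⁻¹ • a', ?_, ?_, ?_, ?_⟩
  · rwa [Aa.smul c t0, smul_inv_smul₀ t0]
  · rwa [Aa.smul c t0, smul_inv_smul₀ t0]
  · simpa [Orth.Q_smul, t0] using qa
  · simpa only [← smul_add, ← smul_sub, Orth.Q_smul, ne_eq, mul_eq_zero, ti, false_or] using hp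

theorem Lg.conj (h : St B Q ι P π) (he : Lg p Q ι P e) (hg : g ∈ P) : Lg p Q ι P (wa ι g e) := by
  obtain ⟨e0, qe, a, a', h1, h2, qa, hp⟩ := he
  have c := h.cl
  have sg := h.sp g hg
  exact ⟨wa_ne c sg e0, by rwa [Q_wa c sg], _, _, h1.conj h hg, h2.conj h hg, by rwa [Q_wa c sg],
    by simpa only [← map_add, ← map_sub, Q_wa c sg] using hp⟩

/-- the span of a root group -/
def Pi (Q : QuadraticForm k W) (ι : W →ₗ[k] End k V) (P : Subgroup (End k V)ˣ) (e : W) :
    Submodule k W := Submodule.span k {a | Aa Q ι P e a}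

theorem self_Pi (c : Cl B Q ι) (qe : Q e = 0) (t : k) : t • e ∈ Pi Q ι P e :=
  Submodule.subset_span (Aa.self c qe t)

variable (h : St B Q ι P π) (tv : NoTv P) [Fact p.Prime] [CharP k p] [IsAlgClosed k]
include h tv

theorem K0' (he : Lg p Q ι P e) (hf : Lg p Q ι P f) (ef : Orth.B Q e f = 0) : ∃ t : k, f = t • e :=
  let ⟨f0, qf, _, _, h1, _, q1, _⟩ := hf
  K0 h tv he f0 qf h1 q1 ef

theorem K1 (he : Lg p Q ι P e) (hf : Lg p Q ι P f) (ef : Orth.B Q e f ≠ 0) {z : W}
    (hz : z ∈ Pi Q ι P e) : z - (Orth.B Q f z / Orth.B Q e f) • e ∈ Pi Q ι P f := by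
  have c := h.cl
  induction hz using Submodule.span_induction with
  | zero => simp
  | add x y _ _ h1 h2 =>
    convert Submodule.add_mem _ h1 h2 using 1
    rw [map_add]; module
  | smul t x _ h1 =>
    convert Submodule.smul_mem _ t h1 using 1
    rw [map_smul, smul_eq_mul]; module
  | mem a ha =>
    have ti := inv_ne_zero ef
    have hf' := hf.smul c ti
    have e1 : Orth.B Q e ((Orth.B Q e f)⁻¹ • f) = 1 := by simp [ef]
    obtain ⟨a1, a2, -⟩ := Aa.norm c he.2.1 (Orth.B_comm Q e _ ▸ e1) ha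
    rw [show Orth.B Q f a / Orth.B Q e f = Orth.B Q ((Orth.B Q e f)⁻¹ • f) a by
      simp [div_eq_inv_mul]]
    generalize a - Orth.B Q ((Orth.B Q e f)⁻¹ • f) a • e = a' at *
    by_cases qa : Q a' = 0
    · obtain ⟨t, rfl⟩ := a1.aniso h tv he.1 he.2.1 qa
      rw [map_smul, Orth.B_comm, e1, smul_eq_mul, mul_one] at a2
      simp [a2]
    · have : _ ∈ Pi Q ι P f := Submodule.subset_span (R := k) (s := {a | Aa Q ι P f a})
        ((Aa.smul c ti).1 (a1.inv h tv he hf' e1 a2 qa))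
      rwa [Submodule.smul_mem_iff _ ti, Submodule.smul_mem_iff _ (inv_ne_zero qa)] at this

theorem K2' (he : Lg p Q ι P e) (hf : Lg p Q ι P f) (ef : Orth.B Q e f = 1) {c : W}
    (hc : Aa Q ι P e c) (fc : Orth.B Q f c = 0) (qc : Q c = 1) :
    ∃ m, m ≠ 0 ∧ Orth.B Q m f = 0 ∧ ∀ a, Aa Q ι P e a → Orth.B Q m a = 0 := by
  have cl := h.cl
  have := h.fin
  have qe := he.2.1
  have qf := hf.2.1
  have fe : Orth.B Q f e = 1 := by rwa [Orth.B_comm]
  have ec := hc.1
  have cc : Orth.B Q c c = 2 := by rw [Orth.B_self, qc, mul_one]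
  have h2 := cl.two
  let A : AddSubgroup W :=
    { carrier := {a | Aa Q ι P e a ∧ Orth.B Q f a = 0}
      add_mem' := fun ha hb => ⟨ha.1.add cl qe hb.1, by simp [ha.2, hb.2]⟩
      zero_mem' := ⟨by simpa using Aa.self cl qe 0, by simp⟩
      neg_mem' := fun ha => ⟨ha.1.neg cl qe, by simp [ha.2]⟩ }
  have : Finite A := Finite.of_injective
    (fun a : A => (⟨a.2.1.2.choose, a.2.1.2.choose_spec.1⟩ : P)) fun a b e' => by
      have e1 := congrArg (fun g : P => g.1.1) e'
      simp only [a.2.1.2.choose_spec.2, b.2.1.2.choose_spec.2, add_right_inj] at e1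
      obtain ⟨t, ht⟩ := dep_of_scal cl (c := 0) he.1 (b := a.1 - b.1) (by simp [mul_sub, e1])
      have := congrArg (Orth.B Q f) ht
      simp only [map_sub, a.2.2, b.2.2, map_smul, fe, smul_eq_mul, sub_self, mul_one] at this
      exact Subtype.ext (by simpa [← this, sub_eq_zero] using ht)
  have hj := fun a b α β => jordan (p := p) (a := a) (b := b) (α := α) (β := β) h2 A ⟨hc, fc⟩ qc
    (fun a ha qa => by
      obtain ⟨t, rfl⟩ := ha.1.aniso h tv he.1 qe qa
      have := ha.2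
      rw [map_smul, fe, smul_eq_mul, mul_one] at this
      simp [this])
    (fun a ha => ⟨by
      by_cases qa : Q a = 0
      · obtain ⟨t, rfl⟩ := ha.1.aniso h tv he.1 qe qa
        simpa [qa, ec] using Aa.self cl qe 0
      · exact ha.1.sq h tv he hf ef ha.2 qa (by simpa [qc] using hc.inv h tv he hf ef fc (by simp [qc])) ec,
      by simp [ha.2, fc]⟩)
  let pr : W → W := fun z => z - Orth.B Q f z • e - Orth.B Q e z • f - (Orth.B Q z c / 2) • c
  have hU : ∀ z, Orth.B Q e (pr z) = 0 ∧ Orth.B Q f (pr z) = 0 ∧ Orth.B Q c (pr z) = 0 := fun z => by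
    simp [pr, Orth.B_self, qe, qf, ef, fe, ec, fc, qc, Orth.B_comm Q c, h2]
  have hA : ∀ a, Aa Q ι P e a → pr a + (Orth.B Q a c / 2) • c ∈ A := fun a ha => by
    obtain ⟨a1, a2, -⟩ := ha.norm cl qe fe
    have : a - Orth.B Q f a • e ∈ A := ⟨a1, a2⟩
    simpa [pr, ha.1] using this
  have ex : ∀ a, ∃ m, m ≠ 0 ∧ Orth.B Q m e = 0 ∧ Orth.B Q m f = 0 ∧ Orth.B Q m c = 0 ∧
      Orth.B Q m a = 0 := fun a => by
    have d1 := cl.nd.finrank_perp (Submodule.span k {e, f, c, a})
    have d2 := Orth.finrank_span_four_le (F := k) e f c a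
    obtain ⟨m, hm, m0⟩ := (Submodule.ne_bot_iff (Orth.perp Q (Submodule.span k {e, f, c, a}))).1
      fun e => by rw [e, cl.dim] at d1; simp at d1; omega
    rw [Orth.mem_perp_span] at hm
    simp only [Orth.B_comm Q _ m] at hm
    exact ⟨m, m0, hm _ (by simp), hm _ (by simp), hm _ (by simp), hm _ (by simp)⟩
  by_cases hex : ∃ a, Aa Q ι P e a ∧ pr a ≠ 0
  swap
  · push Not at hex
    obtain ⟨m, m0, m1, m2, m3, -⟩ := ex 0
    exact ⟨m, m0, m2, fun a ha => by simpa [pr, m1, m2, m3] using congrArg (Orth.B Q m) (hex a ha)⟩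
  obtain ⟨a, ha, a0⟩ := hex
  obtain ⟨m, m0, m1, m2, m3, m4⟩ := ex (pr a)
  refine ⟨m, m0, m2, fun b hb => ?_⟩
  by_contra hne
  have m5 : Orth.B Q m (pr b) ≠ 0 := by simpa [pr, m1, m2, m3] using hne
  have hab : ∀ t : k, pr b ≠ t • pr a := fun t ht => m5 (by simp [ht, m4])
  have gr := hj _ _ _ _ (hA a ha) (hA b hb) (Orth.B_comm Q c _ ▸ (hU a).2.2) (Orth.B_comm Q c _ ▸ (hU b).2.2)
  have d1 := cl.nd.finrank_perp (Submodule.span k {e, f, c})
  have d2 : finrank k (Submodule.span k {e, f, c}) = 3 := by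
    have li : LinearIndependent k ![e, f, c] := Fintype.linearIndependent_iff.2 fun g hg i => by
      have a1 := congrArg (Orth.B Q e) hg
      have a2 := congrArg (Orth.B Q f) hg
      have a3 := congrArg (Orth.B Q c) hg
      simp [Fin.sum_univ_three, Orth.B_self, qe, qf, qc, ef, fe, ec, fc, Orth.B_comm Q c, h2] at a1 a2 a3
      fin_cases i <;> assumption
    have := finrank_span_eq_card li
    rw [Matrix.range_cons, Matrix.range_cons_cons_empty, Set.singleton_union] at this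
    simpa using this
  have mU : ∀ z, pr z ∈ Orth.perp Q (Submodule.span k {e, f, c}) := fun z =>
    Orth.mem_perp_span.2 (by simpa using hU z)
  have key : ∀ s t : k, Orth.B Q (pr a) (s • pr a + t • pr b) = 0 →
      Orth.B Q (pr b) (s • pr a + t • pr b) = 0 → s = 0 ∧ t = 0 := fun s t h1 h3 =>
    indep2 a0 hab (c' := 0) (d' := 0) (by
      rw [zero_smul, zero_smul, add_zero]
      refine cl.nd _ fun z => ?_
      obtain ⟨s', t', hz⟩ := span2 (by rw [cl.dim] at d1; omega) (mU a) (mU b) a0 hab (mU z)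
      have : z = s' • pr a + t' • pr b + Orth.B Q f z • e + Orth.B Q e z • f + (Orth.B Q z c / 2) • c := by
        rw [← hz]; simp only [pr]; abel
      rw [this]
      simp only [map_add _ _ (_ • e), map_add _ _ (_ • f), map_add _ _ (_ • c), LinearMap.add_apply,
        map_add _ (s' • _), map_smul, LinearMap.smul_apply, h1, h3]
      simp [hU])
  by_cases qa : Q (pr a) = 0
  · rw [qa, mul_zero, zero_mul, pow_eq_zero_iff two_ne_zero] at gr
    simpa using (key 1 0 (by simp [Orth.B_self, qa]) (by simp [Orth.B_comm Q (pr b), gr])).1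
  · exact mul_ne_zero h2 qa (key (-Orth.B Q (pr a) (pr b)) _ (by simp [Orth.B_self]; ring)
      (by simp [Orth.B_self, Orth.B_comm Q (pr b)]; linear_combination -gr)).2

theorem K2 (he : Lg p Q ι P e) (hf : Lg p Q ι P f) (ef : Orth.B Q e f ≠ 0) :
    Pi Q ι P e ⊔ k ∙ f ≠ ⊤ := fun hY => by
  have c := h.cl
  obtain ⟨-, qe, a, -, ha, -, qa, -⟩ := id he
  obtain ⟨t, t0, ht⟩ := unit_vec c qa
  have ti := inv_ne_zero t0
  have he' := he.smul c ti
  have s0 : Orth.B Q (t⁻¹ • e) f ≠ 0 := by simp [t0, ef]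
  have e1 : Orth.B Q (t⁻¹ • e) ((Orth.B Q (t⁻¹ • e) f)⁻¹ • f) = 1 := by
    rw [map_smul, smul_eq_mul, inv_mul_cancel₀ s0]
  obtain ⟨a1, a2, a3⟩ := Aa.norm c he'.2.1 (Orth.B_comm Q _ _ ▸ e1) (b := t • a)
    (by rwa [Aa.smul c ti, inv_smul_smul₀ t0])
  obtain ⟨m, m0, m1, m2⟩ := K2' h tv he' (hf.smul c (inv_ne_zero s0)) e1 a1 a2 (a3.trans ht)
  refine m0 (c.nd _ fun z => ?_)
  have : Pi Q ι P e ⊔ k ∙ f ≤ Orth.perp Q (k ∙ m) := sup_le (Submodule.span_le.2 fun b hb =>
    Orth.mem_perp_span_singleton.2 (by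
      simpa [t0] using m2 (t • b) (by rwa [Aa.smul c ti, inv_smul_smul₀ t0])))
    ((Submodule.span_singleton_le_iff_mem _ _).2 (Orth.mem_perp_span_singleton.2 (by
      rw [map_smul, smul_eq_mul, mul_eq_zero] at m1
      exact m1.resolve_left (inv_ne_zero s0))))
  rw [Orth.B_comm]
  exact Orth.mem_perp_span_singleton.1 (this (hY ▸ Submodule.mem_top))

theorem step {l σ : W} (he : Lg p Q ι P e) (hf : Lg p Q ι P f) (hl : Lg p Q ι P l)
    (ef : Orth.B Q e f ≠ 0) (h1 : σ ∈ Pi Q ι P e) (h2 : Orth.B Q f σ = 0) (h3 : Orth.B Q l σ ≠ 0) :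
    l ∈ Pi Q ι P e ⊔ k ∙ f := by
  have c := h.cl
  by_cases el : Orth.B Q e l = 0
  · obtain ⟨t, rfl⟩ := K0' h tv he hl el
    exact Submodule.mem_sup_left (self_Pi c he.2.1 t)
  by_cases fl : Orth.B Q f l = 0
  · obtain ⟨t, rfl⟩ := K0' h tv hf hl fl
    exact Submodule.mem_sup_right (Submodule.mem_span_singleton.2 ⟨t, rfl⟩)
  have a1 := K1 h tv he hf ef h1
  rw [h2, zero_div, zero_smul, sub_zero] at a1
  have a2 := K1 h tv hl he (Orth.B_comm Q e l ▸ el)
    (Submodule.sub_mem _ (K1 h tv he hl el h1) (K1 h tv hf hl fl a1))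
  have a3 : Orth.B Q l σ / Orth.B Q f l * Orth.B Q e f / Orth.B Q l e ≠ 0 :=
    div_ne_zero (mul_ne_zero (div_ne_zero h3 fl) ef) (Orth.B_comm Q e l ▸ el)
  rw [← Submodule.smul_mem_iff _ a3]
  convert Submodule.sub_mem _ (Submodule.sub_mem _ (Submodule.mem_sup_right (S := Pi Q ι P e)
    (Submodule.mem_span_singleton.2 ⟨Orth.B Q l σ / Orth.B Q f l, rfl⟩))
    (Submodule.mem_sup_left (self_Pi c he.2.1 (Orth.B Q l σ / Orth.B Q e l))))
    (Submodule.mem_sup_left a2) using 1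
  simp only [map_sub, map_smul, Orth.B_self, he.2.1, smul_eq_mul]
  module

theorem no_Lg (he : Lg p Q ι P e) : False := by
  have c := h.cl
  have sp : ∀ U : Submodule k W, (∀ g ∈ P, wa ι g e ∈ U) → U = ⊤ := fun U hU => by
    have := (h.irrW (Submodule.span k {z | ∃ g ∈ P, z = wa ι g e}) fun g hg w hw =>
      (Submodule.span_le (p := (Submodule.span k {z | ∃ g ∈ P, z = wa ι g e}).comap (wa ι g))).2 (by
        rintro _ ⟨g', hg', rfl⟩
        exact Submodule.subset_span ⟨g * g', P.mul_mem hg hg',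
          (wa_mul c (h.sp g hg) (h.sp g' hg') e).symm⟩) hw).resolve_left fun e' => he.1 (by
      rw [← Submodule.mem_bot k, ← e']
      exact Submodule.subset_span ⟨1, P.one_mem, (wa_one c e).symm⟩)
    rw [eq_top_iff, ← this, Submodule.span_le]
    rintro _ ⟨g, hg, rfl⟩
    exact hU g hg
  have sp' : ∀ z, z ≠ 0 → ∃ l, Lg p Q ι P l ∧ Orth.B Q l z ≠ 0 := fun z z0 => by
    by_contra! hh
    have := sp (Orth.perp Q (k ∙ z)) fun g hg => Orth.mem_perp_span_singleton.2 (by
      rw [Orth.B_comm]; exact hh _ (he.conj h hg))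
    exact z0 (c.nd _ fun x => by
      rw [Orth.B_comm]; exact Orth.mem_perp_span_singleton.1 (this ▸ Submodule.mem_top))
  obtain ⟨f, hf, fe⟩ := sp' e he.1
  have ef : Orth.B Q e f ≠ 0 := by rwa [Orth.B_comm]
  obtain ⟨-, qe, a, -, ha, -, qa, -⟩ := id he
  obtain ⟨σ, s1, s2, s3⟩ : ∃ σ, Aa Q ι P e σ ∧ Orth.B Q f σ = 0 ∧ Q σ ≠ 0 := by
    obtain ⟨a1, a2, a3⟩ := ha.norm c qe (e := (Orth.B Q f e)⁻¹ • f) (by simp [fe])
    rw [← a3] at qa
    generalize a - (_ : k) • e = σ at *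
    exact ⟨_, a1, by simpa [fe] using a2, qa⟩
  have s4 : σ ∈ Pi Q ι P e := Submodule.subset_span s1
  obtain ⟨l1, h1, h1'⟩ := sp' σ (by rintro rfl; simp at s3)
  obtain ⟨l2, h2, h2'⟩ : ∃ l, Lg p Q ι P l ∧ l ∉ Pi Q ι P e ⊔ k ∙ f := by
    by_contra! hh
    exact K2 h tv he hf ef (sp _ fun g hg => hh _ (he.conj h hg))
  have a1 := step h tv he hf h1 ef s4 s2 h1'
  have a2 : Orth.B Q l2 σ = 0 := by
    by_contra hh
    exact h2' (step h tv he hf h2 ef s4 s2 hh)
  have a3 : Orth.B Q e l1 ≠ 0 := fun e' => by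
    obtain ⟨t, rfl⟩ := K0' h tv he h1 e'
    simp [s1.1] at h1'
  have a4 : Orth.B Q e l2 ≠ 0 := fun e' => by
    obtain ⟨t, rfl⟩ := K0' h tv he h2 e'
    exact h2' (Submodule.mem_sup_left (self_Pi c qe t))
  have a5 := step h tv he h1 h2 a3
    (Submodule.sub_mem _ s4 (self_Pi c qe (Orth.B Q l1 σ / Orth.B Q e l1)))
    (by simp [Orth.B_comm Q l1 e, a3]) (by simp [a2, Orth.B_comm Q l2 e, a3, a4, h1'])
  exact h2' (sup_le le_sup_left ((Submodule.span_singleton_le_iff_mem _ _).2 a1) a5)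

theorem toS2 : S2 p B Q ι P π := by
  have c := h.cl
  have := h.fin
  refine { h with tv := tv, un := ?_ }
  by_cases hp : p = 3
  · refine Or.inr ⟨hp, fun h9 => ?_⟩
    subst hp
    obtain ⟨K, hK⟩ := Sylow.exists_subgroup_card_pow_prime (G := P) 3 (n := 2) h9
    have cm := IsPGroup.commutative_of_card_eq_prime_sq hK
    obtain ⟨z, hz⟩ := exists_prime_orderOf_dvd_card' (G := K) 3 (by rw [hK]; decide)
    obtain ⟨u, hu⟩ : ∃ u, u ∉ Subgroup.zpowers z := by
      by_contra! hh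
      have := Nat.card_zpowers z
      rw [(Subgroup.eq_top_iff' _).2 hh, Subgroup.card_top, hK, hz] at this
      omega
    have z3 : z.1.1 ^ 3 ^ 1 = 1 := by
      exact_mod_cast congrArg (fun g : K => g.1.1) (hz ▸ pow_orderOf_eq_one z : z ^ 3 = 1)
    have u9 : u.1.1 ^ 3 ^ 2 = 1 := by
      exact_mod_cast congrArg (fun g : K => g.1.1) (hK ▸ pow_card_eq_one' : u ^ 3 ^ 2 = 1)
    have ne1 : ∀ g : K, g ≠ 1 → g.1.1 ≠ 1 := fun g hg e => hg (Subtype.ext (Subtype.ext e))
    obtain ⟨e, a, e0, qe, ea, qa, ez⟩ := h.short tv z.1.2 (T2_of_cube c (h.sp _ z.1.2) (by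
      have := sub_pow_p (p := 3) c z.1.1 1
      rw [z3] at this; simpa using this)) (ne1 z fun e => by simp [e] at hz)
    obtain ⟨b, eb, eu⟩ := comm_Q h tv e0 qe ea qa ez u.1.2 (un_of_pow c u9)
      (congrArg (fun g : K => g.1.1) (cm u z))
    have key : ∀ (g : K) b, Orth.B Q e b = 0 → g.1.1.1 = 1 + ι e * ι b → g ≠ 1 → Q b ≠ 0 :=
      fun g b h1 h2 h3 qb => by
        obtain ⟨t, rfl⟩ := Aa.aniso h tv e0 qe ⟨h1, _, g.1.2, h2⟩ qb
        exact ne1 g h3 (Units.ext (by simpa [sq' c, qe] using h2))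
    refine no_Lg (p := 3) h tv ⟨e0, qe, a, b, ⟨ea, _, z.1.2, ez⟩, ⟨eb, _, u.1.2, eu⟩, qa, Or.inr ⟨rfl,
      key u b eb eu fun e => hu (by simp [e]), key (z * u) _ (by simp [ea, eb]) ?_ fun e => hu ?_,
      key (z * u⁻¹) _ (by simp [ea, eb]) ?_ fun e => hu ?_⟩⟩
    · simp only [Subgroup.coe_mul, nc k V, ez, eu, nn c qe ea, map_add]; abel
    · rw [← inv_eq_of_mul_eq_one_right e]; simp
    · simp only [Subgroup.coe_mul, Subgroup.coe_inv, nc k V, ez, inv_sh c qe eb eu, nn c qe ea, map_sub]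
      abel
    · rw [← mul_inv_eq_one.1 e]; simp
  · have h5 : 5 ≤ p := by
      have := three_le (p := p) c
      have := p_odd (p := p) c
      grind
    refine Or.inl ⟨h5, fun g hg hT => ?_⟩
    by_contra g1
    obtain ⟨e, a, e0, qe, ea, qa, ez⟩ := h.short tv hg hT g1
    exact no_Lg h tv ⟨e0, qe, a, a, ⟨ea, _, hg, ez⟩, ⟨ea, _, hg, ez⟩, qa, Or.inl h5⟩

end Cfsg.Agent.H2.SP
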