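import Cfsg.Agent.H8.M3F

/-! Arithmetic of the class equation: no automizer of order four. -/

set_option autoImplicit false
set_option linter.unusedSimpArgs false
set_option linter.unusedSectionVars false
set_option linter.unusedVariables false

namespace Cfsg.Agent.H2.SP

open Finset Cfsg.Agent.H8.M3

variable {ι : Type*}

structure Fam4 (R : Finset ι) (a ν : ι → ℕ) (U : ι → Prop) (g k : ℕ) : Prop where
  odd : ∀ i ∈ R, a i % 2 = 1
  three_le : ∀ i ∈ R, 3 ≤ a i
  nu_dvd : ∀ i ∈ R, ν i ∣ a i - 1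
  two_le : ∀ i ∈ R, 2 ≤ ν i
  dvd : ∀ i ∈ R, a i * ν i ∣ g
  cdvd : 4 * k ∣ g
  gpos : 0 < g
  cop : ∀ i ∈ R, ∀ j ∈ R, i ≠ j → (a i).Coprime (a j)
  copc : ∀ i ∈ R, (a i).Coprime (4 * k)
  kind : ∀ i ∈ R, ν i = 2 ∨ ν i = 4 ∨ U i
  uniq : ∀ i ∈ R, ∀ j ∈ R, U i → U j → i = j
  uodd : ∀ i ∈ R, U i → 5 ≤ ν i → ν i % 2 = 1 → ∃ j ∈ R, a j = ν i ∧ (ν j = 2 ∨ (ν j = 4 ∧ a j = 5))
  ueven : ∀ i ∈ R, U i → 5 ≤ ν i → ν i % 2 = 0 → ν i = 2 * k
  four : ∀ i ∈ R, ν i = 4 → k % 2 = 0 ∧ ¬ 3 ∣ a i
  u3 : ∀ i ∈ R, U i → ¬ 3 ∣ a i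
  h3 : 3 ∣ g → ¬ 3 ∣ k → ∃ i ∈ R, 3 ∣ a i
  he : 1 - 1 / (g : ℚ) = (2 * k - 1) / (4 * k) + ∑ i ∈ R, tm (a i) (ν i)
  pair : (g : ℚ) ≤ 16 * k ^ 2 * (1 + 4 * k + ∑ i ∈ R, ((a i : ℚ) - 1) / ν i)

theorem dioA {k a b : ℤ} (hk : 2 ≤ k) (k2 : k % 2 = 0) (ha : 3 ≤ a) (a2 : a % 2 = 1) (hb : 5 ≤ b)
    (b4 : b % 4 = 1) (b9 : b ≠ 9) (e : k * a * b + 1 = a * b + 2 * k * b + k * a) : False := by
  by_cases h2 : k = 2
  · subst h2
    have : (a - 4) * (b - 2) = 7 := by linarith
    have : b - 2 ≤ 7 := Int.le_of_dvd (by norm_num) ⟨a - 4, by linarith⟩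
    have : b = 5 := by omega
    subst this; omega
  by_cases h3 : a = 3
  · subst h3
    have : (k - 3) * (b - 3) = 8 := by linarith
    have : b - 3 ≤ 8 := Int.le_of_dvd (by norm_num) ⟨k - 3, by linarith⟩
    have : b = 5 := by omega
    subst this; omega
  have h4 : 4 ≤ k := by omega
  have h5 : 5 ≤ a := by omega
  nlinarith [mul_nonneg (mul_nonneg (sub_nonneg.2 h4) (by omega : 0 ≤ a)) (by omega : 0 ≤ b),
    mul_nonneg (mul_nonneg (sub_nonneg.2 h5) (by omega : 0 ≤ k)) (by omega : 0 ≤ b),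
    mul_nonneg (mul_nonneg (sub_nonneg.2 hb) (by omega : 0 ≤ k)) (by omega : 0 ≤ a),
    mul_pos (mul_pos (by omega : 0 < k) (by omega : 0 < a)) (by omega : 0 < b)]

theorem dioB {k b u : ℤ} (hk : 2 ≤ k) (k2 : k % 2 = 0) (hb : 5 ≤ b) (b4 : b % 4 = 1) (b9 : b ≠ 9)
    (hu : 7 ≤ u) (u6 : u % 6 = 1) (e : k * b * u + 1 = b * u + 3 * k * u + 4 * k * b) : False := by
  by_cases h5 : b = 5
  · subst h5
    have h : (2 * k - 5) * (u - 10) = 49 := by linarith
    have := Int.le_of_dvd (by norm_num) ⟨_, h.symm.trans (mul_comm _ _)⟩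
    have h1 : u < 60 := by omega
    obtain ⟨w, rfl⟩ : ∃ w, u = 6 * w + 1 := ⟨u / 6, by omega⟩
    have : 1 ≤ w := by omega
    have : w ≤ 9 := by omega
    interval_cases w <;> omega
  by_cases h7 : u = 7
  · subst h7
    have h : (3 * k - 7) * (b - 7) = 48 := by linarith
    have := Int.le_of_dvd (by norm_num) ⟨_, h.symm.trans (mul_comm _ _)⟩
    obtain ⟨w, rfl⟩ : ∃ w, b = 4 * w + 1 := ⟨b / 4, by omega⟩
    have : 1 ≤ w := by omega
    have : w ≤ 13 := by omega
    interval_cases w <;> omega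
  have h1 : 13 ≤ b := by omega
  have h3 : 13 ≤ u := by omega
  by_cases h2 : k = 2
  · subst h2
    have h : (b - 6) * (u - 8) = 47 := by linarith
    have := Int.le_of_dvd (by norm_num) ⟨_, h.symm.trans (mul_comm _ _)⟩
    obtain ⟨w, rfl⟩ : ∃ w, u = 6 * w + 1 := ⟨u / 6, by omega⟩
    have : 1 ≤ w := by omega
    have : w ≤ 9 := by omega
    interval_cases w <;> omega
  have h4 : 4 ≤ k := by omega
  nlinarith [mul_nonneg (mul_nonneg (sub_nonneg.2 h4) (by omega : 0 ≤ u)) (by omega : 0 ≤ b),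
    mul_nonneg (mul_nonneg (sub_nonneg.2 h1) (by omega : 0 ≤ k)) (by omega : 0 ≤ u),
    mul_nonneg (mul_nonneg (sub_nonneg.2 h3) (by omega : 0 ≤ k)) (by omega : 0 ≤ b),
    mul_pos (mul_pos (by omega : 0 < k) (by omega : 0 < u)) (by omega : 0 < b)]

theorem dioC {b u : ℤ} (hb : 13 ≤ b) (hu : 11 ≤ u) (e : b * u + 1 = 10 * u + 8 * b) (u5 : u % 10 = 1) :
    False := by
  have h : (b - 10) * (u - 8) = 79 := by linarith
  have := Int.le_of_dvd (by norm_num) ⟨_, h.symm.trans (mul_comm _ _)⟩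
  obtain ⟨w, rfl⟩ : ∃ w, u = 10 * w + 1 := ⟨u / 10, by omega⟩
  have : 1 ≤ w := by omega
  have : w ≤ 9 := by omega
  interval_cases w <;> omega

theorem dioD {k b c u : ℚ} (hk : 3 ≤ k) (hb : 5 ≤ b) (hc : 5 ≤ c) (hbc : 65 ≤ b * c) (hu : 2 * k + 1 ≤ u)
    (e : k * u * (b + c) = b * c * (u - 2) + 1)
    (h : 4 * k * b * c * u ≤ 16 * k ^ 2 * (1 + 4 * k + ((b - 1) / 4 + ((c - 1) / 4 + (u - 1) / (2 * k))))) :
    False := by
  have k0 : 0 < k := by linarith
  have u0 : 0 < u := by linarith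
  have h1 : k * (b + c) < b * c := by
    by_contra! hh
    nlinarith [mul_le_mul_of_nonneg_left hh u0.le]
  have h2 : 4 * k ^ 2 < b * c := by
    by_contra! hh
    have a1 : 4 * (b * c) ≤ (b + c) ^ 2 := by nlinarith [sq_nonneg (b - c)]
    have a2 : (k * (b + c)) ^ 2 < (b * c) ^ 2 := by
      apply pow_lt_pow_left₀ h1 (by positivity) (by norm_num)
    nlinarith [mul_le_mul_of_nonneg_left a1 (sq_nonneg k), mul_le_mul_of_nonneg_left hh (by linarith : 0 ≤ b * c)]
  have h3 : b * c * u ≤ 4 * k + 16 * k ^ 2 + k * (b + c) + 2 * u := by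
    have : 16 * k ^ 2 * (1 + 4 * k + ((b - 1) / 4 + ((c - 1) / 4 + (u - 1) / (2 * k)))) =
        4 * k * (4 * k + 16 * k ^ 2 + k * (b + c) - 2 * k + 2 * (u - 1)) := by field_simp; ring
    rw [this, show 4 * k * b * c * u = 4 * k * (b * c * u) by ring] at h
    have := le_of_mul_le_mul_left h (by linarith)
    linarith
  nlinarith [mul_nonneg (sub_nonneg.2 hbc) (by linarith : 0 ≤ u - 5)]

variable [DecidableEq ι] {R : Finset ι} {a ν : ι → ℕ} {U : ι → Prop} {g k : ℕ}

theorem Fam4.no4 (h : Fam4 R a ν U g k) : ∀ i ∈ R, ν i ≠ 4 := fun i hi i4 => by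
  set t : ι → ℚ := fun j => (1 - 1 / (a j : ℚ)) / ν j with ht
  have he := h.he
  rw [sum_congr rfl fun j hj => tm_eq (a := a j) (ν := ν j) (by have := h.three_le j hj; omega)
    (by have := h.two_le j hj; omega)] at he
  change _ = _ + ∑ j ∈ R, t j at he
  have k0 : k ≠ 0 := by rintro rfl; have := h.gpos; have := h.cdvd; omega
  have k2 := (h.four i hi i4).1
  have hk : 2 ≤ k := by omega
  have kq : (2 : ℚ) ≤ k := by exact_mod_cast hk
  have e0 : (2 * k - 1 : ℚ) / (4 * k) = 1 / 2 - 1 / k / 4 := by field_simp; ring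
  rw [e0] at he
  have hk2 := inv_le_of (b := 2) (by norm_num) hk
  have hg := inv_pos' h.gpos
  have adv : ∀ j ∈ R, a j ∣ g := fun j hj => (dvd_mul_right _ _).trans (h.dvd j hj)
  have dvd1 : ∀ j ∈ R, 4 * k * a j ∣ g := fun j hj =>
    (h.copc j hj).symm.mul_dvd_of_dvd_of_dvd h.cdvd (adv j hj)
  have dvd2 : ∀ j ∈ R, ∀ l ∈ R, j ≠ l → 4 * k * a j * a l ∣ g := fun j hj l hl e =>
    (Nat.Coprime.mul_left (h.copc l hl).symm (h.cop j hj l hl e)).mul_dvd_of_dvd_of_dvd (dvd1 j hj)
      (adv l hl)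
  have dvd3 : ∀ j ∈ R, ∀ l ∈ R, ∀ n ∈ R, j ≠ l → j ≠ n → l ≠ n → 4 * k * a j * a l * a n ∣ g :=
    fun j hj l hl n hn e1 e2 e3 => (Nat.Coprime.mul_left (Nat.Coprime.mul_left (h.copc n hn).symm
      (h.cop j hj n hn e2)) (h.cop l hl n hn e3)).mul_dvd_of_dvd_of_dvd (dvd2 j hj l hl e1) (adv n hn)
  have ap : ∀ j ∈ R, (0 : ℚ) < a j := fun j hj => by have := h.three_le j hj; positivity
  have ip : ∀ j ∈ R, 0 < 1 / (a j : ℚ) := fun j hj => one_div_pos.2 (ap j hj)
  have lo : ∀ j ∈ R, ∀ n : ℕ, ν j * n < a j → (n : ℚ) / (ν j * n + 1) ≤ t j := fun j hj n hn => by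
    have h1 : (ν j : ℚ) * n + 1 ≤ a j := by exact_mod_cast hn
    have h2 : (0 : ℚ) < ν j := by have := h.two_le j hj; positivity
    have h3 := one_div_le_one_div_of_le (by positivity) h1
    rw [ht, le_div_iff₀ h2, show (n : ℚ) / (ν j * n + 1) * ν j = 1 - 1 / (ν j * n + 1) by field_simp; ring]
    linarith
  have hi1 : ∀ j ∈ R, t j < 1 / ν j := fun j hj => by
    have h2 : (0 : ℚ) < ν j := by have := h.two_le j hj; positivity
    exact div_lt_div_of_pos_right (by linarith [ip j hj]) h2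
  have v1 : ∀ j ∈ R, ν j * 1 < a j := fun j hj => by
    have := Nat.le_of_dvd (by have := h.three_le j hj; omega) (h.nu_dvd j hj)
    have := h.three_le j hj; omega
  have v2 : ∀ j ∈ R, ν j % 2 = 1 → ν j * 2 < a j := fun j hj e => by
    obtain ⟨v, hv⟩ := h.nu_dvd j hj
    have := h.three_le j hj
    have := h.odd j hj
    have : v ≠ 0 := by rintro rfl; omega
    have : v ≠ 1 := by rintro rfl; omega
    have := Nat.mul_le_mul_left (ν j) (show 2 ≤ v by omega)
    omega
  have t0 : ∀ j ∈ R, 0 ≤ t j := fun j hj => le_trans (by positivity) (lo j hj 1 (v1 j hj))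
  have l2 : ∀ j ∈ R, ν j = 2 → 1 / 3 ≤ t j := fun j hj e => by
    have := lo j hj 1 (v1 j hj); rw [e] at this; norm_num at this ⊢; exact this
  have l3 : ∀ j ∈ R, ν j = 3 → 2 / 7 ≤ t j := fun j hj e => by
    have := lo j hj 2 (v2 j hj (by omega)); rw [e] at this; norm_num at this ⊢; exact this
  have l4 : ∀ j ∈ R, ν j = 4 → 1 / 5 ≤ t j := fun j hj e => by
    have := lo j hj 1 (v1 j hj); rw [e] at this; norm_num at this ⊢; exact this
  have f4 : ∀ j ∈ R, ν j = 4 → a j % 4 = 1 ∧ a j ≠ 9 ∧ 5 ≤ a j := fun j hj e => by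
    have := e ▸ h.nu_dvd j hj
    have := (h.four j hj e).2
    have := h.three_le j hj
    omega
  have l4' : ∀ j ∈ R, ν j = 4 → a j ≠ 5 → 3 / 13 ≤ t j := fun j hj e e' => by
    have := lo j hj 3 (by have := f4 j hj e; omega); rw [e] at this; norm_num at this ⊢; exact this
  have ne5 : ∀ j ∈ R, ∀ l ∈ R, j ≠ l → a j ≠ 5 ∨ a l ≠ 5 := fun j hj l hl e => by
    by_contra! hh
    have := h.cop j hj l hl e
    rw [hh.1, hh.2] at this
    exact absurd this (by decide)
  have l44 : ∀ j ∈ R, ∀ l ∈ R, j ≠ l → ν j = 4 → ν l = 4 → 1 / 5 + 3 / 13 ≤ t j + t l :=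
    fun j hj l hl e e1 e2 => by
      rcases ne5 j hj l hl e with e' | e'
      · linarith [l4' j hj e1 e', l4 l hl e2]
      · linarith [l4' l hl e2 e', l4 j hj e1]
  have s3 : ∀ j ∈ R, ∀ l ∈ R, ∀ n ∈ R, j ≠ l → j ≠ n → l ≠ n → t j + t l + t n ≤ ∑ j ∈ R, t j :=
    fun j hj l hl n hn e1 e2 e3 => by
      have := sum_le_sum_of_subset_of_nonneg (s := {j, l, n}) (t := R) (f := t)
        (by intro x; simp; rintro (rfl | rfl | rfl) <;> assumption) fun x hx _ => t0 x hx
      rwa [sum_insert (by simp [e1, e2]), sum_pair e3, ← add_assoc] at this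
  have hgk : 1 / (g : ℚ) < 1 / k / 4 := by
    have := Nat.le_of_dvd h.gpos (dvd1 i hi)
    have h5 := (f4 i hi i4).2.2
    have h1 : 4 * (k : ℚ) < g := by exact_mod_cast (by nlinarith : 4 * k < g)
    rw [div_div, mul_comm]
    exact one_div_lt_one_div_of_lt (by positivity) h1
  have kd : ∀ j ∈ R, ν j = 2 ∨ ν j = 4 ∨ (U j ∧ (ν j = 3 ∨ 5 ≤ ν j)) := fun j hj => by
    have := h.two_le j hj
    rcases h.kind j hj with e | e | e
    · exact Or.inl e
    · exact Or.inr (Or.inl e)
    · by_cases h2 : ν j = 2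
      · exact Or.inl h2
      by_cases h4 : ν j = 4
      · exact Or.inr (Or.inl h4)
      exact Or.inr (Or.inr ⟨e, by omega⟩)
  have mp : ∀ {n m : ℕ}, g = n * m → (0 : ℚ) < m := fun {n m} e => by
    have := h.gpos
    rcases Nat.eq_zero_or_pos m with rfl | h0
    · omega
    · positivity
  have ti := l4 i hi i4
  have fi := f4 i hi i4
  by_cases h2 : ∃ j ∈ R, ν j = 2
  · obtain ⟨j, hj, j2⟩ := h2
    have ij : i ≠ j := fun e => by subst e; omega
    have tj := l2 j hj j2
    have cl : ∀ l ∈ R, l = i ∨ l = j ∨ (U l ∧ 5 ≤ ν l) := fun l hl => by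
      by_contra! hh
      have := s3 i hi j hj l hl ij hh.1.symm hh.2.1.symm
      rcases kd l hl with e | e | ⟨e, e' | e'⟩
      · linarith [l2 l hl e]
      · linarith [l4 l hl e]
      · linarith [l3 l hl e']
      · exact absurd e' (not_le.2 (hh.2.2 e))
    by_cases hU : ∃ l ∈ R, U l ∧ 5 ≤ ν l
    · obtain ⟨l, hl, ul, l5⟩ := hU
      have := s3 i hi j hj l hl ij (fun e => by subst e; omega) (fun e => by subst e; omega)
      rcases Nat.mod_two_eq_zero_or_one (ν l) with e | e
      · have h1 := lo l hl 1 (v1 l hl)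
        rw [h.ueven l hl ul l5 e] at h1
        have : 1 / (k : ℚ) / 4 ≤ (1 : ℕ) / ((2 * k : ℕ) * (1 : ℕ) + 1) := by
          push_cast
          rw [div_div, div_le_div_iff₀ (by positivity) (by positivity)]; linarith
        linarith
      · have h1 := lo l hl 2 (v2 l hl e)
        obtain ⟨n, hn, n1, n2 | ⟨n2, n3⟩⟩ := h.uodd l hl ul l5 e
        · obtain rfl : n = j := by
            rcases cl n hn with e | e | e
            · subst e; omega
            · exact e
            · omega
          have h3 : t n = (1 - 1 / (ν l : ℚ)) / 2 := by simp only [ht, n1, n2]; rfl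
          have h4 : (5 : ℚ) ≤ ν l := by exact_mod_cast l5
          have : 1 / (ν l : ℚ) / 2 ≤ (2 : ℕ) / (ν l * (2 : ℕ) + 1) := by
            push_cast
            rw [div_div, div_le_div_iff₀ (by positivity) (by positivity)]; linarith
          linarith
        · rw [← n1, n3] at h1
          norm_num at h1
          linarith
    · have eR : R = {i, j} := by
        ext l; simp only [mem_insert, mem_singleton]
        exact ⟨fun hl => (cl l hl).imp_right fun e => e.resolve_right fun e => hU ⟨l, hl, e⟩,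
          by rintro (rfl | rfl) <;> assumption⟩
      obtain ⟨m, hm⟩ := dvd2 j hj i hi ij.symm
      have m0 := mp hm
      have := ap i hi
      have := ap j hj
      rw [eR, sum_pair ij, hm] at he
      simp only [ht, i4, j2] at he
      have e : ((a j * a i + 2 * k * a i + k * a j) * m : ℤ) = (k * a j * a i) * m + 1 := by
        push_cast at he
        field_simp at he
        have : ((a j * a i + 2 * k * a i + k * a j) * m : ℚ) = (k * a j * a i) * m + 1 := by linarith
        exact_mod_cast this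
      obtain rfl := eq_one_of_mul e
      have := h.three_le j hj
      have := h.odd j hj
      exact dioA (k := k) (a := a j) (b := a i) (by omega) (by omega) (by omega) (by omega) (by omega)
        (by omega) (by omega) (by push_cast at e; linarith)
  push Not at h2
  have c3 : ∀ j ∈ R, ∀ l ∈ R, ν j = 4 → ν l = 4 → j = i ∨ l = i ∨ j = l := fun j hj l hl e1 e2 => by
    by_contra! hh
    have := s3 i hi j hj l hl hh.1.symm hh.2.1.symm hh.2.2
    rcases ne5 j hj l hl hh.2.2 with e | e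
    · linarith [l44 i hi l hl hh.2.1.symm i4 e2, l4' j hj e1 e]
    · linarith [l44 i hi j hj hh.1.symm i4 e1, l4' l hl e2 e]
  have q4 : ∀ j ∈ R, ν j = 4 → t j < 1 / 4 := fun j hj e => by
    have := hi1 j hj; rw [e] at this; exact_mod_cast this
  have qi := q4 i hi i4
  by_cases hU : ∃ l ∈ R, U l ∧ ν l ≠ 4
  swap
  · push Not at hU
    have a4 : ∀ j ∈ R, ν j = 4 := fun j hj =>
      ((h.kind j hj).resolve_left (h2 j hj)).elim id (hU j hj)
    by_cases hj : ∃ j ∈ R, j ≠ i
    · obtain ⟨j, hj, ji⟩ := hj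
      have eR : R = {i, j} := by
        ext l; simp only [mem_insert, mem_singleton]
        exact ⟨fun hl => ((c3 j hj l hl (a4 j hj) (a4 l hl)).resolve_left ji).imp_right Eq.symm,
          by rintro (rfl | rfl) <;> assumption⟩
      rw [eR, sum_pair ji.symm] at he
      linarith [q4 j hj (a4 j hj)]
    · push Not at hj
      rw [eq_singleton_iff_unique_mem.2 ⟨hi, hj⟩, sum_singleton] at he
      linarith
  obtain ⟨l, hl, ul, l4⟩ := hU
  have il : i ≠ l := fun e => by subst e; omega
  have cl : ∀ j ∈ R, j = l ∨ ν j = 4 := fun j hj =>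
    ((h.kind j hj).resolve_left (h2 j hj)).symm.imp_left fun e => h.uniq j hj l hl e ul
  have l35 : ν l = 3 ∨ 5 ≤ ν l := by have := h2 l hl; have := h.two_le l hl; omega
  have u0 := ap l hl
  have b0 := ap i hi
  by_cases hj : ∃ j ∈ R, j ≠ i ∧ j ≠ l
  · obtain ⟨j, hj, ji, jl⟩ := hj
    have j4 := (cl j hj).resolve_left jl
    have fj := f4 j hj j4
    have c0 := ap j hj
    have eR : R = {i, j, l} := by
      ext n; simp only [mem_insert, mem_singleton]
      refine ⟨fun hn => ?_, by rintro (rfl | rfl | rfl) <;> assumption⟩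
      rcases cl n hn with e | e
      · exact Or.inr (Or.inr e)
      · exact ((c3 j hj n hn j4 e).resolve_left ji).imp_right fun e => Or.inl e.symm
    have s := s3 i hi j hj l hl ji.symm il jl
    have s4 := l44 i hi j hj ji.symm i4 j4
    obtain ⟨m, hm⟩ := dvd3 i hi j hj l hl ji.symm il jl
    have m0 := mp hm
    have hp := h.pair
    rw [eR, sum_insert (by simp [ji.symm, il]), sum_pair jl] at he hp
    rcases l35 with e | l5
    · linarith [l3 l hl e]
    rcases Nat.mod_two_eq_zero_or_one (ν l) with e | e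
    · have e' := h.ueven l hl ul l5 e
      have h1 := v1 l hl
      rw [hm] at he hp
      simp only [ht, i4, j4, e'] at he hp
      have e : ((k * a l * (a i + a j) + 2 * a i * a j) * m : ℤ) = (a i * a j * a l) * m + 1 := by
        push_cast at he
        field_simp at he
        have : ((k * a l * (a i + a j) + 2 * a i * a j) * m : ℚ) = (a i * a j * a l) * m + 1 := by
          linarith
        exact_mod_cast this
      obtain rfl := eq_one_of_mul e
      have h65 : 65 ≤ a i * a j := by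
        rcases ne5 i hi j hj ji.symm with e | e
        · exact Nat.mul_le_mul (show 13 ≤ _ by omega) fj.2.2
        · exact Nat.mul_le_mul fi.2.2 (show 13 ≤ _ by omega)
      refine dioD (k := k) (b := a i) (c := a j) (u := a l) (by exact_mod_cast (by omega : 3 ≤ k))
        (by exact_mod_cast fi.2.2) (by exact_mod_cast fj.2.2) (by exact_mod_cast h65)
        (by exact_mod_cast (by omega : 2 * k + 1 ≤ a l)) ?_ (by simpa using hp)
      have : ((k * a l * (a i + a j) + 2 * a i * a j) * (1 : ℕ) : ℚ) = (a i * a j * a l) * (1 : ℕ) + 1 := by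
        exact_mod_cast e
      push_cast at this
      linarith
    · obtain ⟨n, hn, n1, n2 | ⟨n2, n3⟩⟩ := h.uodd l hl ul l5 e
      · exact h2 n hn n2
      have d5 : ν l = 5 := by omega
      have h1 := lo l hl 2 (v2 l hl e)
      rw [d5] at h1
      norm_num at h1
      obtain rfl : k = 2 := by
        by_contra hh
        have := inv_le_of (a := k) (b := 4) (by norm_num) (by omega)
        push_cast at *; linarith
      have u10 : a l % 10 = 1 ∧ 11 ≤ a l := by
        have := d5 ▸ h.nu_dvd l hl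
        have := h.odd l hl
        have := h.three_le l hl
        omega
      rw [hm] at he
      simp only [ht, i4, j4, d5] at he
      have e : ((2 * a l * (a i + a j) * 5 + 8 * a i * a j) * m : ℤ) = (a i * a j * a l * 3) * m + 5 := by
        push_cast at he
        field_simp at he
        have : ((2 * a l * (a i + a j) * 5 + 8 * a i * a j) * m : ℚ) = (a i * a j * a l * 3) * m + 5 := by
          linarith
        exact_mod_cast this
      have key : ∀ b : ℕ, 13 ≤ b → ((2 * a l * (5 + b) * 5 + 8 * 5 * b) * m : ℤ) = (5 * b * a l * 3) * m + 5 →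
          False := fun b hb e => by
        obtain rfl := eq_one_of_mul (h := m) (A := 10 * a l + 8 * b) (B := b * a l) (by linarith)
        exact dioC (b := b) (u := a l) (by omega) (by omega) (by push_cast at e; linarith) (by omega)
      rcases (c3 n hn j hj n2 j4).imp_right (·.resolve_left ji) with rfl | rfl
      · exact key (a j) (by have := ne5 n hi j hj ji.symm; omega) (by rw [n3] at e; exact_mod_cast e)
      · exact key (a i) (by have := ne5 i hi n hj ji.symm; omega) (by
          rw [n3] at e; push_cast at e; linarith)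
  · push Not at hj
    have eR : R = {i, l} := by
      ext n; simp only [mem_insert, mem_singleton]
      exact ⟨fun hn => (em (n = i)).imp_right (hj n hn), by rintro (rfl | rfl) <;> assumption⟩
    have he' := he
    rw [eR, sum_pair il] at he
    have d3 : ν l = 3 := l35.resolve_right fun l5 => by
      have := inv_le_of (a := ν l) (b := 5) (by norm_num) l5
      push_cast at this
      linarith [hi1 l hl]
    obtain ⟨k', rfl⟩ : 3 ∣ k := by
      by_contra hh
      obtain ⟨n, hn, n3⟩ := h.h3 ((d3 ▸ dvd_mul_left _ _ : 3 ∣ a l * ν l).trans (h.dvd l hl)) hh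
      rw [eR, mem_insert, mem_singleton] at hn
      rcases hn with rfl | rfl
      exacts [(h.four n hi i4).2 n3, h.u3 n hl ul n3]
    obtain ⟨m, hm⟩ := dvd2 i hi l hl il
    have m0 := mp hm
    have k1 : (0 : ℚ) < k' := by have : 0 < k' := by omega
                                 positivity
    rw [hm] at he
    simp only [ht, i4, d3] at he
    have e : ((a i * a l + 3 * k' * a l + 4 * k' * a i) * m : ℤ) = (k' * a i * a l) * m + 1 := by
      push_cast at he
      field_simp at he
      have : ((a i * a l + 3 * k' * a l + 4 * k' * a i) * m : ℚ) = (k' * a i * a l) * m + 1 := by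
        linarith
      exact_mod_cast this
    obtain rfl := eq_one_of_mul e
    have := d3 ▸ h.nu_dvd l hl
    have := h.odd l hl
    have := h.three_le l hl
    exact dioB (k := k') (b := a i) (u := a l) (by omega) (by omega) (by omega) (by omega) (by omega)
      (by omega) (by omega) (by push_cast at e; linarith)

end Cfsg.Agent.H2.SP
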