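import Cfsg.Agent.H2.SP11
import Cfsg.Agent.H8.M3L
import Cfsg.Agent.H3.SmallGroups

/-! Simple groups with dihedral involution centralisers: the counting argument. -/

set_option autoImplicit false
set_option linter.unusedSimpArgs false
set_option linter.unusedSectionVars false
set_option linter.unusedVariables false

namespace Cfsg.Agent.H2.SP

open Subgroup Cfsg.Agent.H8.M3

universe u

variable {G : Type u} [Group G] [Finite G] {t m x y w r : G} {k p : ℕ}

/-- centralisers of involutions have a cyclic subgroup of index at most two -/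
def Dih (G : Type u) [Group G] : Prop := ∀ t : G, IsInv t → ∃ m ∈ Cen t, t ∈ zpowers m ∧
  (∀ y ∈ Cen t, y ∉ zpowers m → y * y = 1) ∧
  ∀ y ∈ Cen t, ∀ z ∈ Cen t, y ∉ zpowers m → z ∉ zpowers m → y * z ∈ zpowers m

structure DD (t m : G) (k : ℕ) : Prop where
  inv : IsInv t
  odd : (Cen t).index % 2 = 1
  ord : orderOf m = 2 * k
  pos : 0 < k
  mem : m ∈ Cen t
  tmem : t ∈ zpowers m
  card : Nat.card (Cen t) = 4 * k
  out : ∀ y ∈ Cen t, y ∉ zpowers m → y * y = 1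

theorem DD.le (h : DD t m k) : zpowers m ≤ Cen t := zpowers_le.2 h.mem

theorem DD.inverts (h : DD t m k) (hy : y ∈ Cen t) (hy' : y ∉ zpowers m) (hx : x ∈ zpowers m) :
    y * x * y⁻¹ = x⁻¹ := by
  have e := h.out _ (mul_mem (h.le hx) hy) (by rwa [mul_mem_cancel_left hx])
  rw [inv_eq_of_mul_eq_one_right (h.out y hy hy'), eq_inv_iff_mul_eq_one,
    show y * x * y * x = x⁻¹ * (x * y * (x * y)) * x by group, e]; group

theorem DD.conj (hG : SN G) (h : DD t m k) : ∀ r, IsInv r → ∃ g, g * t * g⁻¹ = r :=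
  hG.cyc_thompson (index_mod4 h.le (j := 1) (by rw [h.card, Nat.card_zpowers, h.ord]; ring) rfl h.odd)
    h.inv h.tmem

theorem DD.exists_out (h : DD t m k) : ∃ w ∈ Cen t, w ∉ zpowers m := by
  by_contra e
  push Not at e
  have := card_le_of_le (show Cen t ≤ zpowers m from e)
  rw [h.card, Nat.card_zpowers, h.ord] at this
  have := h.pos; omega

theorem DD.mem_of_sq (h : DD t m k) (hy : y ∈ Cen t) (e : y * y ≠ 1) : y ∈ zpowers m := by
  by_contra e'; exact e (h.out y hy e')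

theorem dd_of_odd (hG : SN G) (hD : Dih G) (ht : IsInv t) (ho : (Cen t).index % 2 = 1) :
    ∃ m k, DD t m k := by
  obtain ⟨m, h1, h2, h3, h4⟩ := hD t ht
  have hle : zpowers m ≤ Cen t := zpowers_le.2 h1
  obtain ⟨k, hk⟩ : 2 ∣ orderOf m := ht.orderOf ▸ orderOf_dvd_of_mem_zpowers h2
  have := orderOf_pos m
  obtain ⟨w, hw, hw'⟩ : ∃ w ∈ Cen t, w ∉ zpowers m := by
    by_contra! hh
    have e : Cen t = zpowers m := le_antisymm hh hle
    have : Fact (Nat.Prime 2) := ⟨Nat.prime_two⟩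
    obtain ⟨S0⟩ : Nonempty (Sylow 2 (Cen t)) := inferInstance
    have hi : ¬ 2 ∣ ((S0 : Subgroup (Cen t)).map (Cen t).subtype).index := by
      rw [index_map_subtype]
      exact fun h => ((Nat.prime_two.dvd_mul).1 h).elim S0.not_dvd_index (by omega)
    have h2g : 2 ∣ Nat.card G := ht.orderOf ▸ orderOf_dvd_natCard t
    have : IsCyclic (Cen t) := e ▸ inferInstance
    have hb := hG.burnside ((S0.2.map _).toSylow hi) (IsCyclic.normalizer_le_centralizer
      (Nat.minFac_eq_two_iff _ |>.2 h2g) (isCyclic_of_surjective _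
        ((Cen t).subtype.subgroupMap_surjective S0)))
    apply hi
    rw [IsPGroup.toSylow_coe] at hb
    rwa [hb, index_bot]
  refine ⟨m, k, ht, ho, hk, by omega, h1, h2, ?_, h3⟩
  rw [card_of_relIndex hle, relIndex_eq_two_iff_exists_notMem_and.2 ⟨w, hw, hw', fun b hb =>
    (em _).symm.imp_left fun e => h4 b hb w hw e hw'⟩, Nat.card_zpowers, hk]
  ring

theorem exists_dd (hG : SN G) (hD : Dih G) (ht : IsInv t) : ∃ m k, DD t m k := by
  obtain ⟨t0, h0, ho⟩ := exists_central_inv ht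
  obtain ⟨m, k, h⟩ := dd_of_odd hG hD h0 ho
  obtain ⟨g, rfl⟩ := h.conj hG t ht
  refine dd_of_odd hG hD ht ?_
  have e1 := (Cen t0).card_mul_index
  have e2 := (Cen (g * t0 * g⁻¹)).card_mul_index
  rw [card_Cen_conj, ← e1] at e2
  rwa [Nat.eq_of_mul_eq_mul_left Nat.card_pos e2]

theorem inv_pack (hG : SN G) (hD : Dih G) (ht : IsInv t) (hx : x ∈ Cen t) (x2 : x * x ≠ 1) :
    ∃ w ∈ Cen t, w * x * w⁻¹ = x⁻¹ ∧ IsInv w ∧ IsInv (t * w) ∧ ∀ w' κ : G, IsInv w' → κ ∈ Cen w' →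
      κ * κ ≠ 1 → ∃ g, g * κ * g⁻¹ ∈ Cen t ∧ g * κ * g⁻¹ ∈ Cen x := by
  obtain ⟨m, k, h⟩ := exists_dd hG hD ht
  obtain ⟨w, hw, hw'⟩ := h.exists_out
  have hx' := h.mem_of_sq hx x2
  have h1 : t * w ∉ zpowers m := by rwa [mul_mem_cancel_left h.tmem]
  refine ⟨w, hw, h.inverts hw hw' hx', ⟨h.out w hw hw', fun e => hw' (e ▸ one_mem _)⟩,
    ⟨h.out _ (mul_mem (self_mem_Cen t) hw) h1, fun e => h1 (e ▸ one_mem _)⟩, fun w' κ a b c => ?_⟩
  obtain ⟨g, rfl⟩ := h.conj hG w' a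
  rw [mem_Cen_conj] at b
  nth_rw 2 [← inv_inv g] at b
  exact ⟨g⁻¹, b, mem_Cen.2 (zpowers_comm hx' (h.mem_of_sq b fun e' => c (by
    rwa [conj_mul, conj_eq_one_iff] at e')))⟩

theorem odd_of_NI (h : NI x) : Nat.card (Cen x) % 2 = 1 := by
  by_contra e
  obtain ⟨⟨w, hw⟩, e⟩ := exists_prime_orderOf_dvd_card' (G := Cen x) 2 (by omega)
  rw [← orderOf_coe] at e
  exact h w ⟨by rw [← sq, ← e, pow_orderOf_eq_one], fun e' => by simp [e'] at e⟩ hw

theorem CC_inverts (h : CC x) (ho : Nat.card (Cen x) % 2 = 1) (hw' : IsInv w)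
    (hw : w ∈ normalizer (Cen x : Set G)) (hy : y ∈ Cen x) : w * y * w⁻¹ = y⁻¹ := by
  have hn : w ∉ Cen x := fun k => by
    have := (Cen x).orderOf_dvd_natCard k
    rw [hw'.orderOf] at this; omega
  have h1 := (mem_normalizer_iff.1 hw y).1 hy
  by_contra e
  apply hn
  rw [← h.2 _ (mul_mem hy h1) (fun e' => e (eq_inv_of_mul_eq_one_right e')), mem_Cen, eq_comm,
    ← mul_inv_eq_iff_eq_mul]
  nth_rw 2 [h.comm hy h1]
  rw [hw'.inv_eq]
  calc w * (y * (w * y * w)) * w = w * y * w * y * (w * w) := by group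
    _ = _ := by rw [hw'.1, mul_one]

theorem ord4_of_nu (h : CC x) (ho : Nat.card (Cen x) % 2 = 1) (h4 : nu x = 4) :
    ∃ a : G, IsInv (a * a) := by
  have : Fact (Nat.Prime 2) := ⟨Nat.prime_two⟩
  obtain ⟨K, hK⟩ := Sylow.exists_subgroup_card_pow_prime (G := normalizer (Cen x : Set G)) 2 (n := 2)
    (by rw [card_normalizer_eq, h4]; exact dvd_mul_left _ _)
  by_contra! hh
  have sq : ∀ a : K, a.1.1 * a.1.1 = 1 := fun a => by
    by_contra e
    refine hh a.1.1 ⟨?_, e⟩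
    have := congrArg (fun g : K => g.1.1) (hK ▸ pow_card_eq_one' : a ^ 2 ^ 2 = 1)
    simpa [pow_succ, mul_assoc] using this
  have key : ∀ a b : K, a ≠ 1 → b ≠ 1 → a = b := fun a b ha hb => by
    have i : ∀ a : K, a ≠ 1 → IsInv a.1.1 := fun a ha => ⟨sq a, fun e => ha (Subtype.ext (Subtype.ext e))⟩
    have e1 := CC_inverts h ho (i a ha) a.1.2 (inv_mem (self_mem_Cen x))
    have e2 := CC_inverts h ho (i b hb) b.1.2 (self_mem_Cen x)
    by_contra hne
    have := (Cen x).orderOf_dvd_natCard (show a.1.1 * b.1.1 ∈ Cen x from mem_Cen.2 (by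
      rw [eq_comm, ← mul_inv_eq_iff_eq_mul, show a.1.1 * b.1.1 * x * (a.1.1 * b.1.1)⁻¹ =
        a.1.1 * (b.1.1 * x * b.1.1⁻¹) * a.1.1⁻¹ by group, e2, e1, inv_inv]))
    rw [show orderOf (a.1.1 * b.1.1) = 2 from (i (a * b) fun e => hne (by
      rw [eq_inv_of_mul_eq_one_left e]; exact Subtype.ext (Subtype.ext (i b hb).inv_eq))).orderOf] at this
    omega
  have : Nat.card K ≤ Nat.card Bool := by
    classical
    exact Nat.card_le_card_of_injective (fun a => decide (a = 1)) fun a b e => by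
      have e' : a = 1 ↔ b = 1 := by simpa using e
      by_cases ha : a = 1
      · rw [ha, e'.1 ha]
      · exact key a b ha fun hb => ha (e'.2 hb)
  rw [hK] at this
  simp at this

theorem pair_le : (Invs G).ncard * (Invs G).ncard ≤ ∑ᶠ x : G, Nat.card (Cen x) := by
  classical
  have := Fintype.ofFinite G
  rw [finsum_eq_sum_of_fintype, Set.ncard_eq_toFinset_card', ← Finset.card_product,
    Finset.card_eq_sum_card_fiberwise (f := fun z : G × G => z.1 * z.2) (t := Finset.univ) (by simp)]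
  refine Finset.sum_le_sum fun x _ => ?_
  rcases (((Invs G).toFinset ×ˢ (Invs G).toFinset).filter fun z : G × G => z.1 * z.2 = x).eq_empty_or_nonempty
    with e | ⟨z0, h0⟩
  · simp [e]
  have key : ∀ z ∈ ((Invs G).toFinset ×ˢ (Invs G).toFinset).filter fun z : G × G => z.1 * z.2 = x,
      z.1 * x * z.1⁻¹ = x⁻¹ := fun z hz => by
    simp only [Finset.mem_filter, Finset.mem_product, Set.mem_toFinset] at hz
    obtain ⟨⟨a, b⟩, rfl⟩ := hz
    rw [← mul_assoc, a.1, mul_inv_rev, IsInv.inv_eq a, IsInv.inv_eq b, one_mul]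
  rw [card_eq_ncard, Set.ncard_eq_toFinset_card']
  refine Finset.card_le_card_of_injOn (fun z => z0.1⁻¹ * z.1) (fun z hz => ?_) fun z hz z' hz' e => ?_
  · simp only [Finset.mem_coe, Set.mem_toFinset, SetLike.mem_coe, mem_Cen]
    have e1 := key z hz
    have e2 := key z0 h0
    rw [eq_comm, ← mul_inv_eq_iff_eq_mul, show z0.1⁻¹ * z.1 * x * (z0.1⁻¹ * z.1)⁻¹ =
      z0.1⁻¹ * (z.1 * x * z.1⁻¹) * z0.1 by group, e1, ← e2]; group
  · have e1 := mul_left_cancel e
    have e2 := (Finset.mem_filter.1 hz).2.trans (Finset.mem_filter.1 hz').2.symm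
    rw [e1] at e2
    exact Prod.ext e1 (mul_left_cancel e2)

/-- the local structure -/
structure Geo (p : ℕ) (G : Type u) [Group G] : Prop where
  sn : SN G
  dih : Dih G
  ab : ∀ h : G, orderOf h % 2 = 1 → h ≠ 1 → ∀ y ∈ Cen h, ∀ z ∈ Cen h, y * z = z * y
  p5 : ∀ x : G, Un p x → 5 ≤ p ∧ ∀ y ∈ Cen x, y ^ p = 1
  nu4 : ∀ x : G, CC x → Nat.card (Cen x) % 2 = 1 → ¬ Un p x →
    (nu x = 2 ∨ nu x = 4) ∧ (nu x = 4 → ¬ 3 ∣ Nat.card (Cen x))
  tor : ∀ x : G, Un p x → CC x → 5 ≤ nu x → ∃ τ : G, orderOf τ = nu x ∧ Cen τ = zpowers τ ∧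
    (nu τ = 4 → nu x % 2 = 1 → nu x = 5)

variable [Fact p.Prime]

theorem Geo.mem (h : Geo p G) (x1 : x ≠ 1) (hx : NI x) (hy : y ∈ Cen x) (y1 : y ≠ 1) :
    Cen y = Cen x := by
  have o := odd_of_NI hx
  have od : ∀ y ∈ Cen x, orderOf y % 2 = 1 := fun y hy => by
    have := (Cen x).orderOf_dvd_natCard hy
    by_contra e
    have := (show 2 ∣ orderOf y by omega).trans this
    omega
  exact le_antisymm (fun z hz => mem_Cen.2 (h.ab y (od y hy) y1 x (mem_Cen_comm.1 hy) z hz))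
    fun z hz => mem_Cen.2 (h.ab x (od x (self_mem_Cen x)) x1 y hy z hz)

theorem Geo.cc (h : Geo p G) (x1 : x ≠ 1) (hx : NI x) : CC x := ⟨x1, fun y hy y1 => h.mem x1 hx hy y1⟩

theorem Geo.pg (h : Geo p G) (hx : Un p x) : IsPGroup p (Cen x) := fun y =>
  ⟨1, Subtype.ext (by simpa using (h.p5 x hx).2 y y.2)⟩

theorem Geo.u3 (h : Geo p G) (hx : Un p x) : ¬ 3 ∣ Nat.card (Cen x) := fun e => by
  obtain ⟨n, hn⟩ := IsPGroup.iff_card.1 (h.pg hx)
  have := (Nat.prime_dvd_prime_iff_eq Nat.prime_three Fact.out).1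
    (Nat.prime_three.dvd_of_dvd_pow (hn ▸ e))
  have := (h.p5 x hx).1
  omega

theorem dvd_cen (hx : Un p x) : p ∣ Nat.card (Cen x) := by
  have := orderOf_dvd_natCard (⟨x, self_mem_Cen x⟩ : Cen x)
  rwa [← orderOf_coe, orderOf_eq_prime hx.2 hx.1] at this

theorem sylow_of {r : ℕ} [Fact r.Prime] (h : CC x) (hp : IsPGroup r (Cen x))
    (hd : r ∣ Nat.card (Cen x)) :
    Nat.card (Sylow r G) * (Nat.card (Cen x) * nu x) = Nat.card G ∧
      ∀ S : Sylow r G, Nat.card S = Nat.card (Cen x) := by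
  have hi := h.not_dvd_index Fact.out hd
  refine ⟨?_, fun S => Nat.card_congr (Sylow.equiv S (hp.toSylow hi)).toEquiv⟩
  rw [(hp.toSylow hi).card_eq_index_normalizer, ← card_normalizer_eq, mul_comm]
  exact card_mul_index _

theorem Geo.pre (h : Geo p G) : ∃ R : Finset G, (∀ x ∈ R, x ≠ 1 ∧ NI x) ∧
    (∀ y, y ≠ 1 → NI y → ∃ x ∈ R, ∃ g, g * y * g⁻¹ ∈ Cen x) ∧
    (∀ x ∈ R, ∀ y ∈ R, x ≠ y → (Nat.card (Cen x)).Coprime (Nat.card (Cen y))) ∧
    (({x : G | x ≠ 1 ∧ NI x}.ncard : ℚ) = Nat.card G * ∑ x ∈ R, tm (Nat.card (Cen x)) (nu x)) ∧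
    (∀ x ∈ R, 3 ≤ Nat.card (Cen x)) ∧ (∀ x ∈ R, ∀ y ∈ R, Un p x → Un p y → x = y) ∧
    (∀ x ∈ R, Un p x → 5 ≤ nu x → nu x % 2 = 1 → ∃ y ∈ R, Nat.card (Cen y) = nu x ∧
      (nu y = 2 ∨ (nu y = 4 ∧ Nat.card (Cen y) = 5))) ∧
    ∀ x ∈ R, ∀ r : ℕ, r.Prime → r ∣ Nat.card (Cen x) → ∀ y : G, orderOf y = r → NI y := by
  obtain ⟨R, h1, h2, h3, h4⟩ := cc_count {x : G | x ≠ 1 ∧ NI x} (fun x hx => h.cc hx.1 hx.2)
    (fun x hx g => ⟨conj_ne_one hx.1, hx.2.conj g⟩) (fun x hx y hy y1 =>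
      ⟨y1, fun r hr => h.mem hx.1 hx.2 hy y1 ▸ hx.2 r hr⟩)
  have th : ∀ x ∈ R, 3 ≤ Nat.card (Cen x) := fun x hx => by
    have := odd_of_NI (h1 x hx).2
    have : Nontrivial (Cen x) := ⟨⟨⟨x, self_mem_Cen x⟩, 1, fun e => (h1 x hx).1 (congrArg Subtype.val e)⟩⟩
    have := Finite.one_lt_card (α := Cen x)
    omega
  have un : ∀ x ∈ R, ∀ y ∈ R, Un p x → Un p y → x = y := fun x hx y hy ux uy => by
    by_contra hne
    have := Nat.dvd_gcd (dvd_cen ux) (dvd_cen uy)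
    rw [h3 x hx y hy hne] at this
    exact (Fact.out : p.Prime).one_lt.ne' (Nat.dvd_one.1 this)
  refine ⟨R, h1, fun y a b => h2 y ⟨a, b⟩, h3, h4, th, un, fun x hx ux n5 no => ?_,
    fun x hx r hr hd y hy => ?_⟩
  · have cx := h.cc (h1 x hx).1 (h1 x hx).2
    obtain ⟨y, ho, hC, h5⟩ := h.tor x ux cx n5
    have y1 : y ≠ 1 := fun e => by rw [e, orderOf_one] at ho; omega
    have yn := ni_zpowers hC (ho ▸ no)
    obtain ⟨z, hz, g, hg⟩ := h2 y ⟨y1, yn⟩
    have e := h.mem (h1 z hz).1 (h1 z hz).2 hg (conj_ne_one y1)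
    have e1 : Nat.card (Cen z) = nu x := by rw [← e, card_Cen_conj, hC, Nat.card_zpowers, ho]
    have e2 : nu z = nu y := by rw [← nu_congr e, nu_conj]
    have uz : ¬ Un p z := fun uz => by
      obtain rfl := un x hx z hz ux uz
      have := Nat.le_of_dvd (by have := th x hx; omega) cx.nu_dvd
      omega
    exact ⟨z, hz, e1, (h.nu4 z (h.cc (h1 z hz).1 (h1 z hz).2) (odd_of_NI (h1 z hz).2) uz).1.imp_right
      fun e4 => ⟨e4, e1.trans (h5 (e2 ▸ e4) no)⟩⟩
  · obtain ⟨g, hg⟩ := (h.cc (h1 x hx).1 (h1 x hx).2).exists_conj hr hd hy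
    have y1 : y ≠ 1 := fun e => by rw [e, orderOf_one] at hy; exact hr.one_lt.ne hy
    have : NI (g * y * g⁻¹) := fun r hr =>
      h.mem (h1 x hx).1 (h1 x hx).2 hg (conj_ne_one y1) ▸ (h1 x hx).2 r hr
    simpa [mul_assoc] using this.conj g⁻¹

theorem Geo.exists_inv (h : Geo p G) : ∃ t : G, IsInv t := by
  classical
  by_contra hh
  push Not at hh
  have ni : ∀ x : G, NI x := fun x r hr => absurd hr (hh r)
  obtain ⟨R, h1, -, h3, h4, h5, h6, h7, -⟩ := h.pre
  have : Nontrivial G := h.sn.simple.toNontrivial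
  have od : Nat.card G % 2 = 1 := by
    by_contra e
    obtain ⟨w, e⟩ := exists_prime_orderOf_dvd_card' (G := G) 2 (by omega)
    exact hh w ⟨by rw [← sq, ← e, pow_orderOf_eq_one], fun e' => by simp [e'] at e⟩
  have on : ∀ x : G, nu x % 2 = 1 := fun x => by
    by_contra e
    have := ((show 2 ∣ nu x by omega).mul_left _).trans (mul_nu_dvd x)
    omega
  have cc : ∀ x ∈ R, CC x := fun x hx => h.cc (h1 x hx).1 (ni x)
  refine Fam.odd_case (R := R) (a := fun x => Nat.card (Cen x)) (ν := nu) (U := Un p)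
    ⟨fun x _ => odd_of_NI (ni x), h5, fun x hx => (cc x hx).nu_dvd, fun x hx => (cc x hx).two_le_nu h.sn,
      fun x _ => mul_nu_dvd x, one_dvd _, Nat.card_pos, h3, by simp, fun x hx => Or.inr (Or.inr ?_), h6,
      fun x hx ux n4 no => ?_⟩ od Finite.one_lt_card ?_
  · by_contra ux
    have := (h.nu4 x (cc x hx) (odd_of_NI (ni x)) ux).1
    have := on x
    omega
  · obtain ⟨y, -, -, e⟩ := h7 x hx ux (by omega) no
    have := on y
    omega
  · have e : {x : G | x ≠ 1 ∧ NI x} = ((⊤ : Subgroup G) : Set G) \ {1} := Set.ext fun x => by simp [ni]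
    rw [e, ncard_diff_one, card_top, Nat.cast_sub Nat.card_pos] at h4
    have g0 : (Nat.card G : ℚ) ≠ 0 := by exact_mod_cast Nat.card_pos.ne'
    field_simp
    exact_mod_cast h4

theorem Geo.ni1 (h : Geo p G) (d : DD t m k) (hx : x ∈ Cen t) (x2 : x * x ≠ 1) (hr : IsInv r)
    (hrx : r ∈ Cen x) : r = t := by
  have ht := d.inv
  have x1 : x ≠ 1 := fun e => x2 (by simp [e])
  rcases Nat.mod_two_eq_zero_or_one (orderOf x) with e | e
  · obtain ⟨j, hj⟩ : 2 ∣ orderOf x := by omega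
    have := orderOf_pos x
    have i : IsInv (x ^ j) := ⟨by rw [← pow_add, ← two_mul, ← hj, pow_orderOf_eq_one], fun e => by
      have := orderOf_le_of_pow_eq_one (by omega) e; omega⟩
    obtain ⟨m', k', d'⟩ := exists_dd h.sn h.dih hr
    rw [← cyc_inv_unique (pow_mem (d.mem_of_sq hx x2) j) d.tmem i ht,
      cyc_inv_unique (pow_mem (d'.mem_of_sq (mem_Cen_comm.1 hrx) x2) j) d'.tmem i hr]
  · have hr' : r ∈ Cen t := mem_Cen.2 (h.ab x e x1 t (mem_Cen_comm.1 hx) r hrx)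
    refine cyc_inv_unique ?_ d.tmem hr ht
    by_contra e
    have := d.inverts hr' e (d.mem_of_sq hx x2)
    rw [← mem_Cen.1 hrx, mul_inv_cancel_right] at this
    exact x2 (mul_eq_one_iff_eq_inv.2 this)

theorem Geo.pair (h : Geo p G) (d : DD t m k) {R : Finset G} (h1 : ∀ x ∈ R, x ≠ 1 ∧ NI x)
    (h2 : ∀ y, y ≠ 1 → NI y → ∃ x ∈ R, ∃ g, g * y * g⁻¹ ∈ Cen x) :
    (Nat.card G : ℚ) ≤ 16 * k ^ 2 * (1 + 4 * k + ∑ x ∈ R, ((Nat.card (Cen x) : ℚ) - 1) / nu x) := by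
  classical
  have := Fintype.ofFinite G
  have hI := d.conj h.sn
  have a1 := pair_le (G := G)
  rw [finsum_eq_sum_of_fintype] at a1
  have a2 : ∀ x : G, Nat.card (Cen x) ≤ (if x = 1 then Nat.card G else 0) + 4 * k +
      ∑ ρ ∈ R, if x ∈ ccls ρ then Nat.card (Cen ρ) else 0 := fun x => by
    by_cases x1 : x = 1
    · rw [if_pos x1]
      exact (card_le_card_group _).trans (by omega)
    by_cases hn : NI x
    · obtain ⟨ρ, hρ, g, hg⟩ := h2 x x1 hn
      have := Finset.single_le_sum (f := fun ρ => if x ∈ ccls ρ then Nat.card (Cen ρ) else 0)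
        (fun _ _ => Nat.zero_le _) hρ
      rw [if_pos (mem_ccls.2 ⟨x1, g, hg⟩), ← h.mem (h1 ρ hρ).1 (h1 ρ hρ).2 hg (conj_ne_one x1),
        card_Cen_conj] at this
      omega
    · obtain ⟨g, hg⟩ := not_ni_conj hI hn
      suffices Nat.card (Cen x) ≤ 4 * k by omega
      rw [← card_Cen_conj g]
      by_cases x2 : g * x * g⁻¹ * (g * x * g⁻¹) = 1
      · obtain ⟨g', e⟩ := hI _ ⟨x2, conj_ne_one x1⟩
        rw [← e, card_Cen_conj, d.card]
      · rw [← d.card]
        refine card_le_of_le fun y hy => mem_Cen.2 ?_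
        have := h.ni1 d hg x2 (d.inv.conj y)
          (mul_mem (mul_mem hy (mem_Cen_comm.1 hg)) (inv_mem hy))
        exact (mul_inv_eq_iff_eq_mul.1 this).symm
  have a3 := a1.trans (Finset.sum_le_sum fun x _ => a2 x)
  rw [Finset.sum_add_distrib, Finset.sum_add_distrib, Finset.sum_comm, Finset.sum_ite_eq',
    Finset.sum_const, Finset.card_univ, ← Nat.card_eq_fintype_card] at a3
  simp only [Finset.mem_univ, if_true, ← Finset.sum_filter, Finset.sum_const, smul_eq_mul] at a3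
  have a4 : ∀ ρ ∈ R, (((Finset.univ.filter fun x => x ∈ ccls ρ).card * Nat.card (Cen ρ) : ℕ) : ℚ) =
      Nat.card G * (((Nat.card (Cen ρ) : ℚ) - 1) / nu ρ) := fun ρ hρ => by
    have c := h.cc (h1 ρ hρ).1 (h1 ρ hρ).2
    have e := congrArg (Nat.cast : ℕ → ℚ) c.ncard_ccls
    have : (nu ρ : ℚ) ≠ 0 := by have := c.two_le_nu h.sn; positivity
    rw [Set.ncard_eq_toFinset_card', show (ccls ρ).toFinset = Finset.univ.filter fun x => x ∈ ccls ρ by
      ext; simp] at e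
    push_cast [Nat.cast_sub Nat.card_pos] at e ⊢
    field_simp
    linear_combination e
  have a5 : (((Invs G).ncard * (Invs G).ncard : ℕ) : ℚ) ≤ _ := Nat.cast_le.2 a3
  rw [Nat.cast_add, Nat.cast_sum, Finset.sum_congr rfl a4, ← Finset.mul_sum] at a5
  have a6 := congrArg (Nat.cast : ℕ → ℚ) (ncard_Inv_mul hI d.inv)
  rw [d.card] at a6
  push_cast at a5 a6
  have g0 : (0 : ℚ) < Nat.card G := by exact_mod_cast Nat.card_pos
  refine le_of_mul_le_mul_left ?_ g0
  have : (0 : ℚ) ≤ 16 * k ^ 2 := by positivity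
  nth_rw 1 2 [← a6]
  linarith [mul_le_mul_of_nonneg_left a5 this]

theorem Geo.count (h : Geo p G) : Nonempty (G ≃* alternatingGroup (Fin 5)) ∨
    (p ∣ Nat.card G ∧ ∀ S : Sylow p G, Nat.card (Sylow p G) ≤ Nat.card S + 1) := by
  classical
  obtain ⟨t, ht⟩ := h.exists_inv
  obtain ⟨m, k, d⟩ := exists_dd h.sn h.dih ht
  have hI := d.conj h.sn
  obtain ⟨R, h1, h2, h3, h4, h5, h6, h7, h8⟩ := h.pre
  have cc : ∀ x ∈ R, CC x := fun x hx => h.cc (h1 x hx).1 (h1 x hx).2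
  have n1 : ∀ x ∈ Cen t, x ≠ 1 → ¬ IsInv x → ni x = 1 := fun x hx h1 hi =>
    ni_eq_one ht (mem_Cen_comm.1 hx) fun r hr hrx => h.ni1 d hx (fun e => hi ⟨e, h1⟩) hr hrx
  have ce := class_eq ht hI (fun x hx h1 h2 => Or.inl (n1 x hx h1 h2))
  have z3 : ZZ G 3 ∩ Cen t = ∅ := Set.eq_empty_iff_forall_notMem.2 fun x hx => by
    have := n1 x hx.2 hx.1.1 hx.1.2.1
    have := hx.1.2.2
    omega
  have z1 : (ZZ G 1 ∩ Cen t).ncard + 2 = 2 * k := by
    rw [← d.ord, ← Nat.card_zpowers, card_eq_ncard, ← Set.ncard_pair ht.2.symm, ← Set.ncard_union_eq]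
    · congr 1
      refine Set.ext fun x => ⟨?_, fun hx => ?_⟩
      · rintro (hx | rfl | rfl)
        exacts [d.mem_of_sq hx.2 fun e => hx.1.2.1 ⟨e, hx.1.1⟩, one_mem _, d.tmem]
      · by_cases h1 : x = 1
        · exact Or.inr (Or.inl h1)
        by_cases h2 : IsInv x
        · exact Or.inr (Or.inr (cyc_inv_unique hx d.tmem h2 ht))
        · exact Or.inl ⟨⟨h1, h2, n1 x (d.le hx) h1 h2⟩, d.le hx⟩
    · refine Set.disjoint_left.2 ?_
      rintro x hx (rfl | rfl)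
      exacts [hx.1.1 rfl, hx.1.2.1 ht]
  have g0 : (Nat.card G : ℚ) ≠ 0 := by exact_mod_cast Nat.card_pos.ne'
  have he : 1 - 1 / (Nat.card G : ℚ) = (2 * k - 1) / (4 * k) +
      ∑ x ∈ R, tm (Nat.card (Cen x)) (nu x) := by
    have : ((ZZ G 1 ∩ Cen t).ncard : ℚ) = 2 * k - 2 := by
      have := congrArg (Nat.cast : ℕ → ℚ) z1; push_cast at this; linarith
    rw [ce, z3, Set.ncard_empty, d.card, h4, this, mul_div_cancel_left₀ _ g0]
    push_cast; ring
  have cd : 4 * k ∣ Nat.card G := d.card ▸ card_subgroup_dvd_card _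
  have copc : ∀ x ∈ R, (Nat.card (Cen x)).Coprime (4 * k) := fun x hx =>
    Nat.coprime_of_dvd fun r hr a b => by
      obtain ⟨y, hy, hn⟩ := exists_not_ni ht r hr (by rwa [d.card])
      exact hn (h8 x hx r hr a y hy)
  have tr : ∀ r : ℕ, r.Prime → r ∣ Nat.card G → ¬ r ∣ 4 * k → ∃ x ∈ R, r ∣ Nat.card (Cen x) :=
    fun r hr a b => by
      have : Fact r.Prime := ⟨hr⟩
      obtain ⟨y, hy⟩ := exists_prime_orderOf_dvd_card' r a
      have y1 : y ≠ 1 := fun e => by rw [e, orderOf_one] at hy; exact hr.one_lt.ne hy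
      have oc : ∀ g, orderOf (g * y * g⁻¹) = r := fun g => by
        rw [← MulAut.conj_apply, MulEquiv.orderOf_eq, hy]
      obtain ⟨x, hx, g, hg⟩ := h2 y y1 (by
        by_contra hn
        obtain ⟨g, hg⟩ := not_ni_conj hI hn
        exact b (d.card ▸ oc g ▸ (Cen t).orderOf_dvd_natCard hg))
      exact ⟨x, hx, oc g ▸ (Cen x).orderOf_dvd_natCard hg⟩
  have h3' : 3 ∣ Nat.card G → ¬ 3 ∣ k → ∃ x ∈ R, 3 ∣ Nat.card (Cen x) := fun a b =>
    tr 3 Nat.prime_three a (by omega)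
  have kd : ∀ x ∈ R, nu x = 2 ∨ nu x = 4 ∨ Un p x := fun x hx => by
    by_cases ux : Un p x
    · exact Or.inr (Or.inr ux)
    · exact (h.nu4 x (cc x hx) (odd_of_NI (h1 x hx).2) ux).1.imp_right Or.inl
  have ue : ∀ x ∈ R, Un p x → 5 ≤ nu x → nu x % 2 = 0 → nu x = 2 * k := fun x hx ux n5 ne => by
    obtain ⟨y, ho, hC, -⟩ := h.tor x ux (cc x hx) n5
    obtain ⟨j, hj⟩ : ∃ j, nu x = j + j := ⟨nu x / 2, by omega⟩
    obtain ⟨g, hg⟩ := hI (y ^ j) ⟨by rw [← pow_add, ← hj, ← ho, pow_orderOf_eq_one], fun e => by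
      have := orderOf_le_of_pow_eq_one (by omega) e; omega⟩
    have a : g⁻¹ * y * g⁻¹⁻¹ ∈ Cen t := by
      rw [inv_inv, ← mem_Cen_conj, hg, mem_Cen_comm]; exact pow_mem (self_mem_Cen y) j
    have b : orderOf (g⁻¹ * y * g⁻¹⁻¹) = nu x := by rw [← MulAut.conj_apply, MulEquiv.orderOf_eq, ho]
    have c : Cen (g⁻¹ * y * g⁻¹⁻¹) = zpowers (g⁻¹ * y * g⁻¹⁻¹) := by
      rw [Cen_conj, hC, MonoidHom.map_zpowers]; rfl
    generalize g⁻¹ * y * g⁻¹⁻¹ = y at a b c
    have y2 := d.mem_of_sq a fun e => by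
      have := orderOf_le_of_pow_eq_one two_pos (show y ^ 2 = 1 by rw [sq, e]); omega
    rw [← b, ← d.ord]
    exact Nat.dvd_antisymm (orderOf_dvd_of_mem_zpowers y2) (orderOf_dvd_of_mem_zpowers
      (c ▸ mem_Cen.2 (zpowers_comm y2 (mem_zpowers m))))
  have n4 := Fam4.no4 (R := R) (a := fun x => Nat.card (Cen x)) (ν := nu) (U := Un p) (k := k)
    ⟨fun x hx => odd_of_NI (h1 x hx).2, h5, fun x hx => (cc x hx).nu_dvd,
      fun x hx => (cc x hx).two_le_nu h.sn, fun x _ => mul_nu_dvd x, cd, Nat.card_pos, h3, copc, kd, h6,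
      h7, ue, fun x hx e => ⟨?_, ?_⟩, fun x _ ux => h.u3 ux, h3', he, h.pair d h1 h2⟩
  rotate_left
  · obtain ⟨a, ha⟩ := ord4_of_nu (cc x hx) (odd_of_NI (h1 x hx).2) e
    obtain ⟨g, e1⟩ := ord4_conj hI ha
    have := orderOf_dvd_of_mem_zpowers (d.mem_of_sq (e1 ▸ mem_cen_sq) (e1 ▸ ht.2))
    rw [d.ord, orderOf_eq_prime_pow (p := 2) (n := 1) (by rw [pow_one, sq, e1]; exact ht.2)
      (by rw [show 2 ^ (1 + 1) = 2 + 2 from rfl, pow_add, sq, e1, ht.1])] at this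
    omega
  · by_cases ux : Un p x
    · exact h.u3 ux
    · exact (h.nu4 x (cc x hx) (odd_of_NI (h1 x hx).2) ux).2 e
  have F : Fam R (fun x => Nat.card (Cen x)) nu (Un p) (Nat.card G) (4 * k) :=
    ⟨fun x hx => odd_of_NI (h1 x hx).2, h5, fun x hx => (cc x hx).nu_dvd,
      fun x hx => (cc x hx).two_le_nu h.sn, fun x _ => mul_nu_dvd x, cd, Nat.card_pos, h3, copc,
      fun x hx => by have := n4 x hx; rcases kd x hx with e | e | e <;> simp_all, h6,
      fun x hx ux a b => by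
        obtain ⟨y, hy, e1, e2⟩ := h7 x hx ux (by omega) b
        exact ⟨y, hy, e2.resolve_right fun e => n4 y hy e.1, e1⟩⟩
  have fin : ∀ x ∈ R, Un p x → Nat.card G ≤ (Nat.card (Cen x) + 1) * (Nat.card (Cen x) * nu x) →
      p ∣ Nat.card G ∧ ∀ S : Sylow p G, Nat.card (Sylow p G) ≤ Nat.card S + 1 := fun x hx ux e => by
    obtain ⟨a, b⟩ := sylow_of (cc x hx) (h.pg ux) (dvd_cen ux)
    refine ⟨(dvd_cen ux).trans (card_subgroup_dvd_card _), fun S => ?_⟩
    rw [b S]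
    rw [← a] at e
    exact Nat.le_of_mul_le_mul_right e (Nat.mul_pos Nat.card_pos (by
      have := (cc x hx).two_le_nu h.sn; omega))
  by_cases k1 : k = 1
  · subst k1
    left
    have sq : ∀ y ∈ Cen t, y * y = 1 := fun y hy => by
      by_contra e
      have := orderOf_dvd_of_mem_zpowers (d.mem_of_sq hy e)
      rw [d.ord] at this
      exact e (by rw [← sq]; exact orderOf_dvd_iff_pow_eq_one.1 this)
    have g3 : 3 ∣ Nat.card G := by
      have eq : ∀ y ∈ Cen t, y ≠ 1 → Cen y = Cen t := fun y hy y1 => by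
        obtain ⟨g, hg⟩ := hI y ⟨sq y hy, y1⟩
        refine (eq_of_le_of_card_ge (fun z hz => mem_Cen.2 ?_) (by rw [← hg, card_Cen_conj])).symm
        have := sq _ (mul_mem hy hz)
        rw [eq_inv_of_mul_eq_one_left this, mul_inv_rev, inv_eq_of_mul_eq_one_left (sq y hy),
          inv_eq_of_mul_eq_one_left (sq z hz)]
      have c : CC t := ⟨ht.2, eq⟩
      have a1 := c.nu_dvd
      have a2 := c.two_le_nu h.sn
      rw [d.card] at a1
      have := Nat.le_of_dvd (by norm_num) a1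
      have : nu t = 3 := by interval_cases nu t <;> omega
      exact (this ▸ dvd_mul_left _ _ : 3 ∣ _ * nu t).trans (mul_nu_dvd t)
    obtain ⟨-, e1, e2⟩ := F.Ab one_pos (by rw [he]; norm_num) (h3' g3 (by decide)) fun x hx a => by
      by_contra b
      have := n4 x hx
      have := ue x hx (by rcases kd x hx with e | e | e <;> first | omega | exact e) (by omega) (by omega)
      omega
    · refine Cfsg.Agent.H3.iso_A5 e1 fun y => ?_
      by_cases y1 : y = 1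
      · simp [y1]
      have cj : ∀ (g : G) (n : ℕ), (g * y * g⁻¹) ^ n = 1 → y ^ n = 1 := fun g n e => by
        rwa [conj_pow, conj_eq_one_iff] at e
      by_cases hn : NI y
      · obtain ⟨x, hx, g, hg⟩ := h2 y y1 hn
        have := orderOf_dvd_iff_pow_eq_one.1 ((Cen x).orderOf_dvd_natCard hg)
        rcases e2 x hx with e | e <;> rw [e] at this
        exacts [Or.inr (Or.inl (cj g 3 this)), Or.inr (Or.inr (cj g 5 this))]
      · obtain ⟨g, hg⟩ := not_ni_conj hI hn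
        exact Or.inl (cj g 2 (by rw [pow_two, sq _ hg]))
  right
  rcases F.D (by have := d.pos; omega) he h3' (fun x hx _ e => absurd e (n4 x hx))
    (fun x hx ux a b => ue x hx ux (by have := n4 x hx; omega) b) with
    ⟨rfl, e1, e2⟩ | ⟨-, -, -, ⟨x, hx, -, e, -⟩, -⟩ | ⟨x, hx, ux, -, -, e⟩
  · obtain ⟨x, hx, e3⟩ := tr 7 (by norm_num) (by rw [e1]; norm_num) (by norm_num)
    have e4 : Nat.card (Cen x) = 7 := by have := e2 x hx; omega
    have : Fact (Nat.Prime 7) := ⟨by norm_num⟩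
    have a := (sylow_of (r := 7) (cc x hx) (IsPGroup.of_card (n := 1) e4) e3).1
    have b := card_sylow_modEq_one 7 G
    have c := (cc x hx).two_le_nu h.sn
    rw [e4, e1] at a
    have n2 : nu x ≠ 2 := fun e => by
      rw [e] at a
      rw [show Nat.card (Sylow 7 G) = 12 by omega] at b
      exact absurd b (by decide)
    exact fin x hx (by have := n4 x hx; rcases kd x hx with e | e | e <;> first | omega | exact e)
      (by rw [e1, e4]; omega)
  · exact absurd e (n4 x hx)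
  · exact fin x hx ux (by rw [e, mul_comm])

end Cfsg.Agent.H2.SP
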