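import Cfsg.Agent.H2.SP7

/-! Large short root groups: centres are never collinear. -/

set_option autoImplicit false
set_option linter.unusedSimpArgs false
set_option linter.unusedSectionVars false
set_option linter.unusedVariables false

namespace Cfsg.Agent.H2.SP

open Module Cfsg.Agent.H8.M3 Cfsg.Agent.H6.S4
open Cfsg.Agent.H9.Sp hiding T

universe u

variable {k V W : Type*} [Field k] [AddCommGroup V] [Module k V] [FiniteDimensional k V]
  [AddCommGroup W] [Module k W] [FiniteDimensional k W]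
  {B : V →ₗ[k] V →ₗ[k] k} {Q : QuadraticForm k W} {ι : W →ₗ[k] End k V}
  {G : Type u} [Group G] {P : Subgroup (End k V)ˣ} {π : P →* G} {p : ℕ}
  {g x y : (End k V)ˣ} {e f a a' b : W}

theorem line (c : Cl B Q ι) (e0 : e ≠ 0) (qe : Q e = 0) (qf : Q f = 0) (ef : Orth.B Q e f = 0)
    (hd : ∀ t : k, f ≠ t • e) :
    ∃ v, v ≠ 0 ∧ ι e v = 0 ∧ ι f v = 0 ∧ ∀ u, ι e u = 0 → ι f u = 0 → ∃ s : k, u = s • v := by
  obtain ⟨z, h1, h2⟩ : ∃ z, ι e z = 0 ∧ ι f z ≠ 0 := by
    by_contra! hh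
    obtain ⟨t, ht⟩ := dep0 c e0 qe hh
    exact hd t ht
  have h3 : ι e (ι f z) = 0 := by rw [ac0v c ef, h1]; simp
  have h4 : ι f (ι f z) = 0 := by simp [c.sq, qf]
  refine ⟨ι f z, h2, h3, h4, fun u a1 a2 => ?_⟩
  obtain ⟨s, t, rfl⟩ := span2 (finrank_L c e0 qe) (a := ι f z) (b := z) h3 h1 h2
    (fun t ht => h2 (by rw [ht, map_smul, h4, smul_zero])) (w := u) a1
  have : t = 0 := by simpa [h4, h2] using a2
  exact ⟨s, by simp [this]⟩

theorem fin_finSub {M : Type*} [Group M] (P : Subgroup M) [Finite P] (R : M → Prop) (h1 : R 1)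
    (hm : ∀ a ∈ P, ∀ b ∈ P, R a → R b → R (a * b)) : Finite (finSub P R h1 hm) :=
  Finite.of_injective _ (Subgroup.inclusion_injective (show finSub P R h1 hm ≤ P from fun _ h => h.1))

theorem swap_dep (e0 : e ≠ 0) (hd : ∀ t : k, f ≠ t • e) (f0 : f ≠ 0) (t : k) : e ≠ t • f := by
  intro ht
  have t0 : t ≠ 0 := by rintro rfl; exact e0 (by simpa using ht)
  exact hd t⁻¹ (by rw [ht, smul_smul, inv_mul_cancel₀ t0, one_smul])

variable (h : St B Q ι P π) (tv : NoTv P)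
include h tv

theorem ne_perp (e0 : e ≠ 0) (qe : Q e = 0) (f0 : f ≠ 0) (qf : Q f = 0) (ef : Orth.B Q e f = 0)
    (hd : ∀ t : k, f ≠ t • e) (ha : Aa Q ι P e a) (qa : Q a ≠ 0) (hb : Aa Q ι P f b) (qb : Q b ≠ 0) :
    Orth.B Q f a ≠ 0 := fun fa => by
  have c := h.cl
  obtain ⟨h1, x, hx, ex⟩ := ha
  have af : Orth.B Q a f = 0 := by rwa [Orth.B_comm]
  have ae : Orth.B Q a e = 0 := by rwa [Orth.B_comm]
  have w := wa_sh c (h.sp x hx) qe h1 ex
  have cj : ∀ z, Aa Q ι P f z → Aa Q ι P f (wa ι x z - z) := fun z hz => by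
    have := hz.conj h hx
    rw [w f, ef, af] at this
    simp only [zero_smul, sub_zero, zero_mul, add_zero] at this
    exact this.sub c qf hz
  have key : ∀ s : k, Aa Q ι P f (s • e) → s = 0 := fun s hs => by
    by_contra s0
    obtain ⟨t, ht⟩ := hs.aniso h tv f0 qf (by simp [Orth.Q_smul, qe])
    exact swap_dep e0 hd f0 (s⁻¹ * t) (by rw [mul_smul, ← ht, smul_smul, inv_mul_cancel₀ s0, one_smul])
  have b1 := cj b hb
  have b2 := cj _ b1
  have eb : Orth.B Q e b = 0 := by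
    have := key (-(2 * Q a * Orth.B Q e b)) (by
      convert b2 using 1
      simp only [w, map_sub, map_add, map_smul, h1, ae, Orth.B_self, qe, smul_eq_mul]
      module)
    simpa [qa, c.two] using this
  have ab : Orth.B Q a b = 0 := key _ (by
    convert b1 using 1
    simp only [w, eb]; module)
  obtain ⟨v, v0, ve, vf, hl⟩ := line c e0 qe qf ef hd
  obtain ⟨s, hs⟩ := hl (ι a v) (by rw [ac0v c h1, ve]; simp) (by rw [ac0v c fa, vf]; simp)
  obtain ⟨t, ht⟩ := hl (ι b v) (by rw [ac0v c eb, ve]; simp) (by rw [ac0v c hb.1, vf]; simp)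
  have a1 := c.sq a v
  have a2 := c.sq b v
  have a3 := ac0v c ab v
  simp only [hs, ht, map_smul, smul_smul, ← neg_smul] at a1 a2 a3
  have a4 := smul_left_injective k v0 a1
  have a5 := smul_left_injective k v0 a2
  have a6 := smul_left_injective k v0 a3
  have := c.two
  grind

omit h tv in
/-- the root group at `e` is large -/
def Lg (p : ℕ) (Q : QuadraticForm k W) (ι : W →ₗ[k] End k V) (P : Subgroup (End k V)ˣ) (e : W) : Prop :=
  e ≠ 0 ∧ Q e = 0 ∧ ∃ a a', Aa Q ι P e a ∧ Aa Q ι P e a' ∧ Q a ≠ 0 ∧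
    (5 ≤ p ∨ (p = 3 ∧ Q a' ≠ 0 ∧ Q (a + a') ≠ 0 ∧ Q (a - a') ≠ 0))

variable [Fact p.Prime] [CharP k p] [IsAlgClosed k]

theorem K0 (he : Lg p Q ι P e) (f0 : f ≠ 0) (qf : Q f = 0) (hb : Aa Q ι P f b) (qb : Q b ≠ 0)
    (ef : Orth.B Q e f = 0) : ∃ t : k, f = t • e := by
  have c := h.cl
  have := h.fin
  by_contra! hd
  obtain ⟨e0, qe, a1, a2, ha1, ha2, q1, hp⟩ := he
  have β0 := ne_perp h tv f0 qf e0 qe (by rwa [Orth.B_comm]) (swap_dep e0 hd f0) hb qb ha1 q1
  have α0 := fun a ha qa => ne_perp h tv (a := a) e0 qe f0 qf ef hd ha qa hb qb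
  set β := Orth.B Q e b with hβ
  obtain ⟨a, ha, qa, hp⟩ : ∃ a, Aa Q ι P e a ∧ Q a ≠ 0 ∧ (5 ≤ p ∨ (Orth.B Q f a * β) ^ 4 ≠ 1) := by
    rcases hp with hp | ⟨hp, q2, q3, q4⟩
    · exact ⟨a1, ha1, q1, Or.inl hp⟩
    by_contra! hh
    have h3 : (3 : k) = 0 := three_eq hp
    have b1 := (hh _ ha1 q1).2
    have b2 := (hh _ ha2 q2).2
    have b3 := (hh _ (ha1.add c qe ha2) q3).2
    have b4 := (hh _ (ha1.sub c qe ha2) q4).2
    simp only [map_add, map_sub] at b3 b4
    have := c.two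
    grind
  have α0 := α0 a ha qa
  set α := Orth.B Q f a with hα
  obtain ⟨h1, x, hx, ex⟩ := ha
  obtain ⟨h2, y, hy, ey⟩ := hb
  obtain ⟨v, v0, ve, vf, hl⟩ := line c e0 qe qf ef hd
  have fav : ι f (ι a v) = α • v := by rw [c.anti, vf]; simp [hα]
  have ebv : ι e (ι b v) = β • v := by rw [c.anti, ve]; simp [hβ]
  have eav : ι e (ι a v) = 0 := by rw [ac0v c h1, ve]; simp
  have fbv : ι f (ι b v) = 0 := by rw [ac0v c h2, vf]; simp
  set v' := ι a v with hv'
  set w' := (-α) • ι b v with hw'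
  have v'0 : v' ≠ 0 := fun e => by rw [e, map_zero] at fav; exact smul_ne_zero α0 v0 fav.symm
  have xv : x.1 v = v := by simp [ex, ← hv', eav]
  have yv : y.1 v = v := by simp [ey, fbv]
  have xv' : x.1 v' = v' := by simp [ex, hv', c.sq, ve]
  have xw' : x.1 w' = w' + (α * β) • v' := by
    simp [ex, hw', ac0v c h1, ebv, hv', mul_smul]
  have yv' : y.1 v' = v' + w' := by
    simp [ey, hw', ac0v c h2, fav]
  have yw' : y.1 w' = w' := by simp [ey, hw', c.sq, vf]
  obtain ⟨-, d, ⟨hd, -, dv⟩, s, s0, s1, dv', dw'⟩ := dk (p := p) c.two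
    (finSub P (fun d => Act v' w' d.1 ∧ d.1 v = v) ⟨Act.one _ _, rfl⟩
      fun a _ b _ h1 h2 => ⟨h1.1.mul h2.1, by rw [um, h2.2, h1.2]⟩)
    (hfin := fin_finSub _ _ _ _)
    (fun d hd => hd.2.1)
    (x := x) (y := y)
    ⟨hx, act_of (a := 1) (b := 0) (c := α * β) (d := 1) (by simp [xv']) (by simp [xw', add_comm])
      (by simp), xv⟩
    ⟨hy, act_of (a := 1) (b := 1) (c := 0) (d := 1) (by simp [yv']) (by simp [yw']) (by simp), yv⟩
    (mul_ne_zero α0 β0) v'0 xv' xw' yv' yw' hp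
  have spe : ∀ u, ι e u = 0 → ∃ s t : k, u = s • v + t • v' := fun u hu =>
    span2 (finrank_L c e0 qe) (a := v) (b := v') ve eav v0 (fun t ht => by
      rw [ht, map_smul, vf, smul_zero] at fav; exact smul_ne_zero α0 v0 fav.symm) hu
  have spf : ∀ u, ι f u = 0 → ∃ s t : k, u = s • v + t • w' := fun u hu =>
    span2 (finrank_L c f0 qf) (a := v) (b := w') vf (by simp [hw', fbv]) v0 (fun t ht => by
      have := congrArg (ι e) ht
      simp [hw', ebv, ve, α0, β0, v0] at this) hu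
  have pe : ∀ u, B u v = 0 → B u v' = 0 → ι e u = 0 := fun u a1 a2 => c.symp.nd' _ fun z => by
    obtain ⟨s, t, hz⟩ := spe (ι e z) (by simp [c.sq, qe])
    rw [c.adj, hz]; simp [a1, a2]
  have pf : ∀ u, B u v = 0 → B u w' = 0 → ι f u = 0 := fun u a1 a2 => c.symp.nd' _ fun z => by
    obtain ⟨s, t, hz⟩ := spf (ι f z) (by simp [c.sq, qf])
    rw [c.adj, hz]; simp [a1, a2]
  have bw : B w' v' ≠ 0 := fun e => by
    have := pe w' (by simp [hw', B_ι_self c]) e
    simp [hw', ebv, α0, β0, v0] at this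
  have sh : ∀ g ∈ P, g.1 v = v → ∀ z, B z v' = 0 → B z w' = 0 → B (g.1 z) v' = 0 → B (g.1 z) w' = 0 →
      ∃ t : k, g.1 z = z + t • v := fun g hg gv z a1 a2 a3 a4 => by
    have a5 : B (g.1 z - z) v = 0 := by
      have := h.sp g hg z v
      rw [gv] at this; simp [this]
    obtain ⟨t, ht⟩ := hl _ (pe _ a5 (by simp [a1, a3])) (pf _ a5 (by simp [a2, a4]))
    exact ⟨t, by rw [← ht]; abel⟩
  have cm : ∀ z, B z v' = 0 → B z w' = 0 → d.1 (y.1 z) = y.1 (d.1 z) := fun z a1 a2 => by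
    have b1 := h.sp d hd z v'
    have b2 := h.sp d hd z w'
    have b3 := h.sp y hy z v'
    have b4 := h.sp y hy z w'
    simp only [dv', dw', yv', yw', map_add, map_smul, a1, a2, smul_eq_mul, mul_eq_zero,
      inv_eq_zero, s0, false_or] at b1 b2 b3 b4
    obtain ⟨t, ht⟩ := sh d hd dv z a1 a2 b1 b2
    obtain ⟨t', ht'⟩ := sh y hy yv z a1 a2 (by rwa [b4, add_zero] at b3) b4
    simp only [ht, ht', map_add, map_smul, dv, yv]; abel
  have hc := tv ((y * d)⁻¹ * (d * y)) (P.mul_mem (P.inv_mem (P.mul_mem hy hd)) (P.mul_mem hd hy)) w'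
    fun u => by
      set z := u - (B u w' / B v' w') • v' - (B u v' / B w' v') • w' with hz
      have bw' := c.symp.ne_comm bw
      have := cm z (by simp [hz, c.symp.alt, bw]) (by simp [hz, c.symp.alt, bw'])
      refine ⟨(B u w' / B v' w') * (1 - s⁻¹ * s⁻¹), u_inj (y * d) ?_⟩
      have hu : u = z + (B u w' / B v' w') • v' + (B u v' / B w' v') • w' := by rw [hz]; abel
      clear_value z v' w'
      generalize B u w' / B v' w' = m at hu ⊢
      generalize B u v' / B w' v' = n at hu ⊢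
      rw [map_sub, um _ (d * y), iu, hu]
      simp only [um, map_add, map_smul, this, dv', dw', yv', yw']
      have : s * s⁻¹ = 1 := mul_inv_cancel₀ s0
      linear_combination (norm := module) (m * s⁻¹) • this • w'
  have := congrArg (fun f : (End k V)ˣ => f.1 v') (inv_mul_eq_one.1 hc)
  simp only [um, map_add, map_smul, dv', dw', yv', yw', smul_add, add_right_inj] at this
  have w0 : w' ≠ 0 := fun e => bw (by simp [e])
  have := smul_left_injective k w0 this
  exact s1 (by nth_rw 1 [← this]; exact inv_mul_cancel₀ s0)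

theorem fixQ (hf : Lg p Q ι P f) (hg : g ∈ P) (hT : T g = (2 : k) • 1) {w : V} (w0 : w ≠ 0)
    (fw : ι f w = 0) (gw : g.1 w = w) : ∃ b, Orth.B Q f b = 0 ∧ g.1 = 1 + ι f * ι b := by
  have c := h.cl
  by_cases g1 : g = 1
  · exact ⟨0, by simp, by simp [g1]⟩
  obtain ⟨a, u, a0, qa, h2, qu, e2⟩ := h.short tv hg hT g1
  obtain ⟨t, rfl⟩ := K0 h tv hf a0 qa ⟨h2, g, hg, e2⟩ qu
    (perp_of_ker c w0 fw (ker_sh c h2 qu (by simpa [e2] using gw)))
  have t0 : t ≠ 0 := by rintro rfl; simp at a0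
  exact ⟨t • u, by simpa using h2, by simp [e2]⟩

end Cfsg.Agent.H2.SP
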