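import Cfsg.Agent.H2.SP12
import Cfsg.Agent.H2.SP8
import Cfsg.Agent.H6.S4.If
import Cfsg.Agent.H6.S4.B2

/-! The generic case for subgroups of `Sp_4`: involutions. -/

set_option autoImplicit false
set_option linter.unusedSimpArgs false
set_option linter.unusedSectionVars false
set_option linter.unusedVariables false

namespace Cfsg.Agent.H2.SP

open Module Cfsg.Agent.H6.S4 Subgroup
open Cfsg.Agent.H8.M3 hiding Un M2
open Cfsg.Agent.H9.Sp hiding T T_neg

universe u

variable {k V W : Type*} [Field k] [AddCommGroup V] [Module k V] [FiniteDimensional k V]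
  [AddCommGroup W] [Module k W] [FiniteDimensional k W]
  {B : V →ₗ[k] V →ₗ[k] k} {Q : QuadraticForm k W} {ι : W →ₗ[k] End k V}
  {G : Type u} [Group G] {P : Subgroup (End k V)ˣ} {π : P →* G} {p n : ℕ}
  {g x y z : (End k V)ˣ} {e f a b m u : W} {U : Submodule k V} {θ s t : k}

/-- the generic case -/
structure S3 (p : ℕ) (B : V →ₗ[k] V →ₗ[k] k) (Q : QuadraticForm k W) (ι : W →ₗ[k] End k V)
    (P : Subgroup (End k V)ˣ) {G : Type u} [Group G] (π : P →* G) : Prop extends S2 p B Q ι P π where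
  i1 : ∀ g ∈ P, g * g = 1 → g = 1 ∨ g = -1
  be : ∀ g ∈ P, ∀ θ : k, T g = θ • 1 → g = 1 ∨ g = -1 ∨ θ = 0

theorem sq_of_T0 (e : T g = (0 : k) • 1) : g * g = -1 := Units.ext (by simpa using sq_of_T e)

theorem pm_odd (c : Cl B Q ι) (hn : n % 2 = 1) (hx : x ^ n = 1) (hy : y ^ n = 1) (e : x = y ∨ x = -y) :
    x = y := e.resolve_right fun e => neg_ne_one c (by
  rw [e, (Nat.odd_iff.2 hn).neg_pow, hy] at hx; exact hx)

theorem cpow {M : Type*} [Group M] {x : M} (hx : x ^ n = 1) (g : M) : (g * x * g⁻¹) ^ n = 1 := by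
  rw [conj_pow, hx, mul_one, mul_inv_cancel]

namespace S3

variable (h : S3 p B Q ι P π)
include h

theorem odd_T (hg : g ∈ P) (hn : n % 2 = 1) (e : g ^ n = 1) (hT : T g = θ • 1) : g = 1 := by
  rcases h.be g hg θ hT with e1 | e1 | rfl
  · exact e1
  · exact pm_odd h.cl hn e (one_pow n) (Or.inr e1)
  · exact absurd (by rw [← (Nat.odd_iff.2 hn).neg_one_pow, ← sq_of_T0 hT, (Commute.refl g).mul_pow, e,
      one_mul]) (neg_ne_one h.cl)

theorem T2 (hg : g ∈ P) (hT : T g = (2 : k) • 1) : g = 1 := by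
  rcases h.be g hg _ hT with e1 | rfl | e1
  · exact e1
  · rw [T_neg, T_one, ← neg_smul] at hT
    exact absurd (by linear_combination -sc' h.cl hT) (four_ne h.cl)
  · exact absurd e1 h.cl.two

theorem lift (x : G) (hn : n % 2 = 1) (e : x ^ n = 1) : ∃ g : P, π g = x ∧ g.1 ^ n = 1 := by
  obtain ⟨g, rfl⟩ := h.surj x
  rw [← map_pow, h.ker] at e
  rcases e with e | e
  · exact ⟨g, rfl, e⟩
  · exact ⟨⟨-g, h.neg g.2⟩, h.eq_iff.2 (Or.inr rfl), by
      rw [(Nat.odd_iff.2 hn).neg_pow, ← Subgroup.coe_pow, e, neg_neg]⟩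

theorem conj_eq {g x y : P} (hn : n % 2 = 1) (hx : x.1 ^ n = 1) (hy : y.1 ^ n = 1)
    (e : π g * π x * (π g)⁻¹ = π y) : g.1 * x.1 * g.1⁻¹ = y.1 := by
  rw [← map_inv, ← map_mul, ← map_mul, h.eq_iff] at e
  exact pm_odd h.cl hn (cpow hx _) hy e

theorem comm {x y : P} (hn : n % 2 = 1) (hx : x.1 ^ n = 1) (e : π y ∈ Cen (π x)) :
    y.1 * x.1 = x.1 * y.1 :=
  mul_inv_eq_iff_eq_mul.1 (h.conj_eq hn hx hx (by rw [← mem_Cen.1 e, mul_inv_cancel_right]))

theorem mem_cen {x y : P} (e : y.1 * x.1 = x.1 * y.1) : π y ∈ Cen (π x) :=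
  mem_Cen.2 (by rw [← map_mul, ← map_mul, h.eq_iff]; exact Or.inl e.symm)

theorem isInv {t : P} : IsInv (π t) ↔ t.1 * t.1 = -1 := by
  rw [IsInv, ← map_mul, h.ker, Ne, h.ker]
  refine ⟨fun e => e.1.resolve_left fun e' => e.2 (h.i1 _ t.2 e'), fun e => ⟨Or.inr e, ?_⟩⟩
  rintro (e' | e') <;> simp [e', (neg_ne_one h.cl).symm] at e

theorem dih [IsAlgClosed k] : Dih G := fun t ht => by
  have c := h.cl
  have := h.fin
  obtain ⟨t, rfl⟩ := h.surj t
  have t2 := h.isInv.1 ht
  have hT : T t.1 = (0 : k) • 1 := by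
    rw [T, show t.1⁻¹ = -t.1 from inv_eq_of_mul_eq_one_right (by rw [mul_neg, t2, neg_neg])]; simp
  have t1 := mt (h.ker t).2 ht.2
  push Not at t1
  obtain ⟨a, b, qa, qb, ab, et⟩ := h.quad_unit h.tv t.2 hT t1.1 t1.2
  obtain ⟨i, hi⟩ := IsAlgClosed.exists_eq_mul_self (-1 : k)
  have ba : Orth.B Q b a = 0 := by rwa [Orth.B_comm]
  have h2 := c.two
  have qv : ∀ j : k, -1 = j * j → Q (a + j • b) = 0 := fun j hj => by
    simp [Orth.Q_add, Orth.Q_smul, qa, qb, ab, ← hj]
  have bv : ∀ j : k, -1 = j * j → Orth.B Q (a + j • b) (a + (-j) • b) = 4 := fun j hj => by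
    simp [Orth.B_self, qa, qb, ab, ba]; linear_combination 2 * hj
  have nv : ∀ j : k, -1 = j * j → a + j • b ≠ 0 := fun j hj e => four_ne c (by rw [← bv j hj, e]; simp)
  have kv : ∀ j : k, -1 = j * j → ∀ v, ι (a + j • b) v = 0 ↔ t.1.1 v = j • v := fun j hj v => by
    have j0 : j ≠ 0 := by rintro rfl; simp at hj
    simp only [et, map_add, map_smul, LinearMap.add_apply, LinearMap.smul_apply, End.mul_apply]
    constructor
    · intro e
      have := congrArg (ι a) e
      simp only [map_add, map_smul, c.sq, qa, one_smul, map_zero] at this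
      linear_combination (norm := module) (-j) • this - hj • ι a (ι b v)
    · intro e
      have := congrArg (ι a) e
      simp only [map_smul, c.sq, qa, one_smul] at this
      linear_combination (norm := module) j • this - hj • ι a v
  have hi' : -1 = (-i) * (-i) := by rw [neg_mul_neg, hi]
  have mv : ∀ g ∈ P, ∀ j j' : k, -1 = j * j → -1 = j' * j' →
      (∀ v, t.1.1 v = j' • v → t.1.1 (g⁻¹.1 v) = j • g⁻¹.1 v) →
      ∃ δ : k, wa ι g (a + j • b) = δ • (a + j' • b) := fun g hg j j' hj hj' e =>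
    dep0 c (nv j' hj') (qv j' hj') fun v hv => by
      rw [ι_wa c (h.sp g hg), End.mul_apply, End.mul_apply, (kv j hj _).2 (e v ((kv j' hj' v).1 hv)),
        map_zero]
  have pl : ∀ g ∈ P, g * t.1 = t.1 * g → ∀ j : k, -1 = j * j →
      ∃ δ : k, wa ι g (a + j • b) = δ • (a + j • b) := fun g hg e j hj =>
    mv g hg j j hj hj fun v hv => by
      rw [← um, ← (show Commute g t.1 from e).inv_left.eq, um, hv, map_smul]
  have mi : ∀ g ∈ P, g * t.1 = -(t.1 * g) → ∀ j : k, -1 = j * j →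
      ∃ δ : k, wa ι g (a + j • b) = δ • (a + (-j) • b) := fun g hg e j hj =>
    mv g hg j (-j) hj (by rw [neg_mul_neg, hj]) fun v hv => by
      have : t.1 * g⁻¹ = -(g⁻¹ * t.1) := by
        rw [mul_inv_eq_iff_eq_mul, neg_mul, mul_assoc, ← mul_neg, ← e, inv_mul_cancel_left]
      rw [← um, this]; simp [hv]
  have ker : ∀ g ∈ P, g * t.1 = t.1 * g → wa ι g (a + i • b) = a + i • b → g = 1 ∨ g = -1 :=
    fun g hg e e1 => by
      have sg := h.sp g hg
      obtain ⟨δ, e2⟩ := pl g hg e (-i) hi'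
      have := b_wa c sg (a + i • b) (a + (-i) • b)
      rw [e1, e2, map_smul, bv i hi, smul_eq_mul] at this
      rw [mul_right_cancel₀ (four_ne c) (this.trans (one_mul _).symm), one_smul] at e2
      have i0 : i ≠ 0 := by rintro rfl; simp at hi
      simp only [map_add, map_smul] at e1 e2
      have ga : wa ι g a = a := smul_right_injective W h2 (by linear_combination (norm := module) e1 + e2)
      have gb : wa ι g b = b := smul_right_injective W i0 (by linear_combination (norm := module) e1 - ga)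
      obtain ⟨s, r, e3⟩ := T_of_comm c sg (fun e => by simp [e] at qa) ga
      obtain ⟨s', r', e4⟩ := T_of_comm c sg (fun e => by simp [e] at qb) gb
      have e5 := congrArg (Orth.B Q a)
        (sm_uniq c (m := r • a) (m' := r' • b) (by rw [map_smul, map_smul, ← e3, e4])).2
      simp [Orth.B_self, qa, ab, h2] at e5
      rw [e5, zero_smul, add_zero] at e3
      refine (h.be g hg s e3).imp_right fun e6 => e6.resolve_right ?_
      rintro rfl
      have e7 : wa ι t.1 a = -a := (wa_eq c (h.sp _ t.2)).2 (by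
        simp only [et, nc k V, map_neg, ac0 c ba])
      have e8 : wa ι (g * t.1) a = a := by
        rcases h.i1 _ (P.mul_mem hg t.2) (by
          rw [mul_assoc, ← mul_assoc t.1, ← e, mul_assoc, t2, ← mul_assoc, sq_of_T0 e3]; simp) with e | e
        · rw [e, wa_one c]
        · rw [e, wa_neg c (SpU B).one_mem, wa_one c]
      rw [wa_mul c sg (h.sp _ t.2), e7, map_neg, ga] at e8
      have : Q a = 0 := by
        rw [show a = 0 from smul_right_injective W h2 (by linear_combination (norm := module) -e8)]; simp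
      simp [qa] at this
  let C : Subgroup P := centralizer {t}
  have hC : ∀ g : P, g ∈ C ↔ g.1 * t.1 = t.1 * g.1 := fun g => by
    rw [mem_centralizer_singleton_iff, Subtype.ext_iff]; rfl
  choose δ hδ using fun g : C => pl g.1.1 g.1.2 ((hC _).1 g.2) i hi
  let χ : C →* k :=
    { toFun := δ
      map_one' := smul_left_injective k (nv i hi) (by simp only [← hδ]; simp [wa_one c])
      map_mul' := fun x y => smul_left_injective k (nv i hi) (by
        simp only [← hδ, Subgroup.coe_mul, wa_mul c (h.sp _ x.1.2) (h.sp _ y.1.2)]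
        rw [hδ y, map_smul, hδ x, smul_smul, mul_comm]) }
  have inj : ∀ g : C, χ g = 1 → π g = 1 := fun g e => (h.ker _).2 (ker _ g.1.2 ((hC _).1 g.2) (by
    rw [hδ, show δ g = 1 from e, one_smul]))
  have : Finite χ.toHomUnits.range := Finite.of_surjective _ χ.toHomUnits.rangeRestrict_surjective
  obtain ⟨⟨_, g0, rfl⟩, h0⟩ := IsCyclic.exists_generator (α := χ.toHomUnits.range)
  have zp : ∀ g : P, g.1 * t.1 = t.1 * g.1 → π g ∈ zpowers (π g0) := fun g e => by
    obtain ⟨j, hj⟩ := h0 ⟨_, ⟨g, (hC g).2 e⟩, rfl⟩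
    have e1 : χ.toHomUnits (g0 ^ j) = χ.toHomUnits ⟨g, (hC g).2 e⟩ := by
      rw [map_zpow]; exact congrArg Subtype.val hj
    have := inj ((g0 ^ j)⁻¹ * ⟨g, (hC g).2 e⟩) (by
      rw [← MonoidHom.coe_toHomUnits, map_mul, map_inv, e1, inv_mul_cancel, Units.val_one])
    exact ⟨j, by simpa [inv_mul_eq_one] using this⟩
  have an : ∀ g : P, π g ∈ Cen (π t) → π g ∉ zpowers (π g0) → g.1 * t.1 = -(t.1 * g.1) := fun g h1 h2 => by
    rw [mem_Cen, ← map_mul, ← map_mul, eq_comm, h.eq_iff] at h1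
    exact h1.resolve_left fun e => h2 (zp g e)
  have an2 : ∀ g g' : (End k V)ˣ, g * t.1 = -(t.1 * g) → g' * t.1 = -(t.1 * g') →
      g * g' * t.1 = t.1 * (g * g') := fun g g' e e' => by
    rw [mul_assoc, e', mul_neg, ← mul_assoc, e, neg_mul, neg_neg, mul_assoc]
  refine ⟨π g0, h.mem_cen ((hC _).1 g0.2), zp t rfl, fun y hy hy' => ?_, fun y hy z hz hy' hz' => ?_⟩
  · obtain ⟨y, rfl⟩ := h.surj y
    have e := an y hy hy'
    obtain ⟨d, e1⟩ := mi _ y.2 e i hi
    obtain ⟨d', e2⟩ := mi _ y.2 e (-i) hi'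
    rw [neg_neg] at e2
    have := b_wa c (h.sp _ y.2) (a + i • b) (a + (-i) • b)
    rw [e1, e2, map_smul, map_smul, LinearMap.smul_apply, Orth.B_comm, bv i hi, smul_smul,
      smul_eq_mul] at this
    rw [← map_mul, h.ker]
    exact ker _ (y * y).2 (an2 _ _ e e) (by
      rw [Subgroup.coe_mul, wa_mul c (h.sp _ y.2) (h.sp _ y.2), e1, map_smul, e2, smul_smul, mul_comm,
        mul_right_cancel₀ (four_ne c) (this.trans (one_mul _).symm), one_smul])
  · obtain ⟨y, rfl⟩ := h.surj y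
    obtain ⟨z, rfl⟩ := h.surj z
    rw [← map_mul]
    exact zp _ (an2 _ _ (an y hy hy') (an z hz hz'))

end S3

end Cfsg.Agent.H2.SP
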