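import Cfsg.Agent.H2.SP14
import Cfsg.Agent.H6.S4.F3

/-! The generic case for subgroups of `Sp_4`: automizers of tori. -/

set_option autoImplicit false
set_option linter.unusedSimpArgs false
set_option linter.unusedSectionVars false
set_option linter.unusedVariables false

namespace Cfsg.Agent.H2.SP

open Module Cfsg.Agent.H6.S4 Subgroup
open Cfsg.Agent.H8.M3 hiding Un M2
open Cfsg.Agent.H9.Sp hiding T T_neg

universe u

variable {k V W : Type*} [Field k] [AddCommGroup V] [Module k V] [FiniteDimensional k V]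
  [AddCommGroup W] [Module k W] [FiniteDimensional k W]
  {B : V →ₗ[k] V →ₗ[k] k} {Q : QuadraticForm k W} {ι : W →ₗ[k] End k V}
  {G : Type u} [Group G] {P : Subgroup (End k V)ˣ} {π : P →* G} {p n : ℕ}
  {d g x y z : (End k V)ˣ} {e f a b m u : W} {U : Submodule k V} {θ s t r : k}

theorem rel2 (H K : Subgroup G) (h : ∀ a ∈ K, ∀ b ∈ K, a ∉ H → b ∉ H → a * b ∈ H) : H.relIndex K ∣ 2 := by
  rw [relIndex, index_dvd_two_iff']
  by_cases e : ∀ a ∈ K, a ∈ H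
  · exact ⟨1, fun b => Or.inr (e _ b.2)⟩
  push Not at e
  obtain ⟨a, ha, ha'⟩ := e
  exact ⟨⟨a, ha⟩, fun b => or_iff_not_imp_right.2 (h a ha b b.2 ha')⟩

theorem fx_sq (sx : x ∈ sU U) (sd : d ∈ sU U) (hx : Tr U x t) (e : x * (d * x * d⁻¹) = d * x * d⁻¹ * x)
    (hz : Tr U (d * x * d⁻¹ * x⁻¹) s) (hn : (n : k) ≠ 0) (xn : x ^ n = 1) :
    Fx U (d * d * x * (d * d)⁻¹ * x⁻¹) := by
  have sy := (sU U).mul_mem ((sU U).mul_mem sd sx) ((sU U).inv_mem sd)
  rcases zz' e sx sy hx (hx.conj sd) hz with rfl | a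
  · have a := fx_of_tr ((sU U).mul_mem sy ((sU U).inv_mem sx)) hz (n := n) (by
      rw [(show Commute x (d * x * d⁻¹) from e).symm.inv_right.mul_pow, cpow xn, inv_pow, xn]; simp) hn
    convert (a.conj sd).mul a using 1; group
  · convert (a.conj sd).mul (a.conj sx).inv using 1; group

theorem tr3 (hv : ∃ v ∈ U, v ≠ 0) (e : g ^ 3 = 1) (h : Tr U g t) : t = 2 ∨ t = -1 := by
  obtain ⟨v, hv, v0⟩ := hv
  have h2 := LinearMap.congr_fun (T_sq g) v
  rw [show g ^ 2 = g⁻¹ from eq_inv_of_mul_eq_one_left (by rw [← pow_succ, e]), T_inv] at h2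
  simp only [LinearMap.sub_apply, End.mul_apply, h v hv, map_smul, smul_smul, LinearMap.smul_apply,
    End.one_apply, ← sub_smul] at h2
  have := smul_left_injective k v0 h2
  exact (mul_eq_zero.1 (show (t - 2) * (t + 1) = 0 by linear_combination -this)).imp sub_eq_zero.1
    eq_neg_of_add_eq_zero_left

namespace S3

variable [Fact p.Prime] [CharP k p] (h : S3 p B Q ι P π)
include h

theorem stab (hu : Q u = 1) (hg : g ∈ P) (e : wa ι g u = u) : ∃ s c : k, T g = s • 1 + c • ι u :=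
  T_of_comm h.cl (h.sp g hg) (fun e => by simp [e] at hu) e

theorem un_fix (hu : Q u = 1) (hg : g ∈ P) (w : wa ι g u = u) (e : g ^ p = 1) : g = 1 := by
  obtain ⟨s, t, e1⟩ := h.stab hu hg w
  obtain ⟨rfl, e2⟩ := un_T h.cl (un_of_pow (p := p) (a := 1) h.cl (by rw [pow_one, e]))
    (m := t • u) (by rw [e1, map_smul])
  have t0 : t = 0 := by simpa [Orth.Q_smul, hu] using e2
  exact h.T2 hg (by simpa [t0] using e1)

theorem no3 (hu : Q u = 1) (hx : x ∈ P) (hy : y ∈ P) (wx : wa ι x u = u) (wy : wa ι y u = u)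
    (h3 : (3 : k) ≠ 0) (x3 : x ^ 3 = 1) (y3 : y ^ 3 = 1) (a1 : Tr (E ι u) x 2) (a2 : Tr (E ι (-u)) x (-1))
    (b1 : Tr (E ι u) y (-1)) (b2 : Tr (E ι (-u)) y 2) : False := by
  have c := h.cl
  have f1 := fx_of_tr (sU_E c (h.sp x hx) wx) a1 x3 (by simpa using h3)
  have f2 := fx_of_tr (sU_E' c (h.sp y hy) wy) b2 y3 (by simpa using h3)
  have e := T_of_E c hu (f1.tr_mul (sU_E c (h.sp y hy) wy) b1).1 (f2.tr_mul (sU_E' c (h.sp x hx) wx) a2).2
  rcases h.be _ (P.mul_mem hx hy) _ e with f | f | f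
  · rw [f, T_one] at e; exact h3 (by linear_combination sc' c e)
  · rw [f, T_neg, T_one, ← neg_smul] at e; exact one_ne_zero (α := k) (by linear_combination -sc' c e)
  · simp at f

theorem ssNu [IsAlgClosed k] (hab : OddAb G) : SsNu p G := fun x x1 hn xp => by
  have c := h.cl
  have := h.finG
  have cc := cc_of hab x1 hn
  have od := hn.card_odd
  set n := Nat.card (Cen x) with hn0
  have pw : ∀ y ∈ Cen x, y ^ n = 1 := fun y hy => orderOf_dvd_iff_pow_eq_one.1 ((Cen x).orderOf_dvd_natCard hy)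
  obtain ⟨x, rfl, xn⟩ := h.lift x od (pw x (self_mem_Cen x))
  obtain ⟨u, s, r, hu, r0, hT⟩ := (h.types x.2 od xn fun e => x1 ((h.ker x).2 (Or.inl e))).resolve_left
    fun e => xp (by rw [← map_pow, h.ker]; exact Or.inl e)
  have hu' : Q (-u) = 1 := by simpa using hu
  have sx := h.sp _ x.2
  have fu : ∀ y : P, π y ∈ Cen (π x) → wa ι y.1 u = u := fun y hy =>
    wa_of_comm c sx r0 hT (h.comm od xn hy).symm (h.sp _ y.2)
  have ex : ∀ q : ℕ, q.Prime → q ∣ n → ∃ y : P, π y ∈ Cen (π x) ∧ y.1 ^ q = 1 ∧ y.1 ≠ 1 := fun q hq e => by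
    have := Fact.mk hq
    obtain ⟨y, hy⟩ := exists_prime_orderOf_dvd_card' (G := Cen (π x)) q e
    rw [← orderOf_coe] at hy
    obtain ⟨y', e1, e2⟩ := h.lift y.1 (n := q) (Nat.odd_iff.1 ((Nat.odd_iff.2 od).of_dvd_nat e))
      (by rw [← hy, pow_orderOf_eq_one])
    refine ⟨y', e1 ▸ y.2, e2, fun e3 => hq.one_lt.ne ?_⟩
    rw [← hy, ← e1, (h.ker y').2 (Or.inl e3), orderOf_one]
  have pn : (n : k) ≠ 0 := fun e =>
    let ⟨y, h1, h2, h3⟩ := ex p Fact.out ((CharP.cast_eq_zero_iff k p n).1 e)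
    h3 (h.un_fix hu y.2 (fu y h1) h2)
  let N := normalizer (Cen (π x) : Set G)
  have cx : ∀ d : P, π d ∈ N → π (d * x * d⁻¹) ∈ Cen (π x) := fun d hd => by
    rw [map_mul, map_mul, map_inv]; exact (mem_normalizer_iff.1 hd _).1 (self_mem_Cen _)
  have pm : ∀ d : P, π d ∈ N → wa ι d.1 u = u ∨ wa ι d.1 u = -u := fun d hd => by
    obtain ⟨s', t, e1⟩ := h.stab hu (d * x * d⁻¹).2 (fu _ (cx d hd))
    have e2 := T_conj' c (h.sp _ d.2) (x := x.1) (s := s) (m := r • u) (by rw [hT, map_smul])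
    have e3 := (sm_uniq c (m' := t • u) (e2.symm.trans (by rw [map_smul (f := ι)]; exact e1))).2
    have e4 := congrArg Q e3
    rw [Q_wa c (h.sp _ d.2), Orth.Q_smul, Orth.Q_smul, hu, mul_one, mul_one] at e4
    rw [map_smul] at e3
    rcases mul_self_eq_mul_self_iff.1 e4 with rfl | rfl
    · exact Or.inl (smul_right_injective W r0 e3)
    · exact Or.inr (smul_right_injective W r0 (by simpa using e3))
  let S : Subgroup P := ⟨⟨⟨{d | wa ι d.1 u = u}, fun {a b} ha hb => by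
    change wa ι (a.1 * b.1) u = u
    rw [wa_mul c (h.sp _ a.2) (h.sp _ b.2), hb, ha]⟩, wa_one c u⟩, fun {a} ha => by
      change wa ι a.1⁻¹ u = u
      nth_rw 1 [← ha]; rw [wa_ui c (h.sp _ a.2)]⟩
  have mS : ∀ d : P, π d ∈ S.map π ↔ wa ι d.1 u = u := fun d => ⟨fun ⟨d', h1, h2⟩ => by
    rcases h.eq_iff.1 h2.symm with e | e <;> rw [e]
    · exact h1
    · rw [wa_neg c (h.sp _ d'.2)]; exact h1, fun e => ⟨d, e, rfl⟩⟩
  have sq : ∀ d ∈ N ⊓ S.map π, d * d ∈ Cen (π x) := fun d hd => by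
    obtain ⟨d, rfl⟩ := h.surj d
    have wd := (mS d).1 hd.2
    have sd := h.sp _ d.2
    have e := (h.comm od xn (cx d hd.1)).symm
    obtain ⟨s', t, e1⟩ := h.stab hu (d * x * d⁻¹ * x⁻¹).2 (fu _ (by
      rw [map_mul, map_inv]; exact mul_mem (cx d hd.1) (inv_mem (self_mem_Cen _))))
    have wx := fu x (self_mem_Cen _)
    rw [← map_mul]
    exact h.mem_cen (mul_inv_eq_iff_eq_mul.1 (mul_inv_eq_one.1 (one_of_E c hu
      (fx_sq (sU_E c sx wx) (sU_E c sd wd) (Tr_E hT).1 e (Tr_E e1).1 pn xn)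
      (fx_sq (sU_E' c sx wx) (sU_E' c sd wd) (Tr_E hT).2 e (Tr_E e1).2 pn xn))))
  have r1 := rel2 (Cen (π x)) (N ⊓ S.map π) fun a ha b hb a' b' => mem_Cen.2 (by
    rw [eq_comm, ← mul_inv_eq_iff_eq_mul, show a * b * π x * (a * b)⁻¹ = a * (b * π x * b⁻¹) * a⁻¹ by group,
      cc_inverts cc hb.1 b' (sq b hb) (self_mem_Cen _), cc_inverts cc ha.1 a' (sq a ha) (inv_mem (self_mem_Cen _)),
      inv_inv])
  have sw : ∀ d : P, π d ∈ N → π d ∉ N ⊓ S.map π → wa ι d.1 u = -u := fun d h1 h2 =>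
    (pm d h1).resolve_left fun e => h2 ⟨h1, (mS d).2 e⟩
  have r2 := rel2 (N ⊓ S.map π) N fun a ha b hb a' b' => ⟨mul_mem ha hb, by
    obtain ⟨a, rfl⟩ := h.surj a
    obtain ⟨b, rfl⟩ := h.surj b
    rw [← map_mul]
    refine (mS _).2 ?_
    rw [Subgroup.coe_mul, wa_mul c (h.sp _ a.2) (h.sp _ b.2), sw b hb b',
      map_neg, sw a ha a', neg_neg]⟩
  have rr : _ = nu (π x) := relIndex_mul_relIndex (Cen (π x)) (N ⊓ S.map π) N (fun y hy => ⟨le_normalizer hy, by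
    obtain ⟨y, rfl⟩ := h.surj y
    exact (mS y).2 (fu y hy)⟩) inf_le_left
  refine ⟨rr ▸ mul_dvd_mul r1 r2, fun h4 h3 => ?_⟩
  obtain ⟨d, hd, hd'⟩ : ∃ d ∈ N, d ∉ N ⊓ S.map π := by
    by_contra! hh
    rw [relIndex_eq_one.2 hh, mul_one, h4] at rr
    rw [rr] at r1; omega
  obtain ⟨d, rfl⟩ := h.surj d
  obtain ⟨y, h1, h2, y1⟩ := ex 3 Nat.prime_three h3
  have t3 : (3 : k) ≠ 0 := fun e => pn (by obtain ⟨j, hj⟩ := h3; rw [hj]; simp [e])
  have wy := fu y h1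
  obtain ⟨s', t, e1⟩ := h.stab hu y.2 wy
  have e2 : T (d.1 * y.1 * d.1⁻¹) = s' • 1 + (-t) • ι u := by
    rw [T_conj' c (h.sp _ d.2) (s := s') (m := t • u) (by rw [e1, map_smul]), map_smul, sw d hd hd']; simp
  have wz := fu (d * y * d⁻¹) (by rw [map_mul, map_mul, map_inv]; exact (mem_normalizer_iff.1 hd _).1 h1)
  have b1 := (Tr_E e2).1
  have b2 := (Tr_E e2).2
  rw [← sub_eq_add_neg] at b1
  rw [sub_neg_eq_add] at b2
  have t0 : t ≠ 0 := by rintro rfl; exact y1 (h.odd_T (θ := s') y.2 (n := 3) rfl h2 (by simpa using e1))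
  rcases tr3 (ne2 (finrank_eig c hu)) h2 (Tr_E e1).1 with a | a <;>
    rcases tr3 (ne2 (finrank_eig c hu')) h2 (Tr_E e1).2 with b | b
  · exact t0 (mul_left_cancel₀ c.two (by linear_combination a - b))
  · exact h.no3 hu y.2 (d * y * d⁻¹).2 wy wz t3 h2 (cpow h2 _) (a ▸ (Tr_E e1).1) (b ▸ (Tr_E e1).2)
      (b ▸ b1) (a ▸ b2)
  · exact h.no3 hu (d * y * d⁻¹).2 y.2 wz wy t3 (cpow h2 _) h2 (b ▸ b1) (a ▸ b2) (a ▸ (Tr_E e1).1)
      (b ▸ (Tr_E e1).2)
  · exact t0 (mul_left_cancel₀ c.two (by linear_combination a - b))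

end S3

theorem ssNu [Fact p.Prime] [CharP k p] [IsAlgClosed k] (h : S2 p B Q ι P π) (hβ : Beta P)
    (hab : OddAb G) : SsNu p G := S3.ssNu ⟨h, hβ.1, hβ.2⟩ hab

end Cfsg.Agent.H2.SP
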