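import Cfsg.Agent.H2.SP1

/-! Irreducible groups generated by symplectic transvections in dimension four, part 2. -/

set_option autoImplicit false
set_option linter.unusedSimpArgs false
set_option linter.unusedSectionVars false
set_option linter.unusedVariables false

namespace Cfsg.Agent.H2.SP

open Module Cfsg.Agent.H6 Cfsg.Agent.H9.Sp

variable {F : Type*} [Field F] [Finite F] {V : Type*} [AddCommGroup V] [Module F V]
  [FiniteDimensional F V]
variable {B : V →ₗ[F] V →ₗ[F] F} {M : Subgroup (V ≃ₗ[F] V)}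

/-- the parameter group at `v` is the subfield `k` -/
def KK (B : V →ₗ[F] V →ₗ[F] F) (M : Subgroup (V ≃ₗ[F] V)) (k : Subfield F) (v : V) : Prop :=
  ∀ s, T B M v s ↔ s ∈ k

structure Dat (B : V →ₗ[F] V →ₗ[F] F) (M : Subgroup (V ≃ₗ[F] V)) (k : Subfield F) : Prop where
  s : Symp B
  le : M ≤ Sp B
  two : (2 : F) ≠ 0
  irr : TIrr B M
  dim : 3 ≤ finrank F V
  mx : ∀ v, v ≠ 0 → Nat.card (Tgrp s M v) ≤ Nat.card k

theorem KK.card (hB : Symp B) {k : Subfield F} {v : V} (h : KK B M k v) :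
    Nat.card (Tgrp hB M v) = Nat.card k :=
  Nat.card_congr (Equiv.subtypeEquivRight h)

namespace Dat

variable {k : Subfield F} (H : Dat B M k)
include H

theorem p1 {x u : V} {d : F} (hx : KK B M k x) (hu : T B M u d) : d * B x u ^ 2 ∈ k := by
  by_cases h0 : B x u = 0
  · simp [h0]
  by_cases hd : d = 0
  · simp [hd]
  have h1 : T B M ((B x u)⁻¹ • u) (d * B x u ^ 2) := by
    rw [T_smul]; convert hu using 1; field_simp
  exact (hx _).1 (key H.s H.le H.two H.irr H.dim (y := (B x u)⁻¹ • u) (by simp [h0])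
    ((hx 1).2 k.one_mem) (fun v hv => (hx.card H.s).symm ▸ H.mx v hv) (by simp [h0, hd]) h1).1

theorem of_le {u : V} (hu : u ≠ 0) (h : ∀ s ∈ k, T B M u s) : KK B M k u := by
  intro s
  refine ⟨fun hs => ?_, h s⟩
  let f : k → Tgrp H.s M u := fun s => ⟨s, h s s.2⟩
  have hf : Function.Injective f := fun a b e => Subtype.ext (congrArg (fun z : Tgrp H.s M u => (z : F)) e)
  obtain ⟨t, ht⟩ := (hf.bijective_of_nat_card_le (H.mx u hu)).2 ⟨s, hs⟩
  exact (show (t : F) = s from congrArg Subtype.val ht) ▸ t.2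

theorem conj {x u : V} {d : F} (hx : KK B M k x) (hu : T B M u d) :
    KK B M k (x + (d * B x u) • u) := by
  obtain ⟨g, hg, h⟩ := hu
  rw [← h]
  intro s
  refine ⟨fun hs => (hx s).1 ?_, fun hs => ((hx s).2 hs).conj H.le hg⟩
  simpa using hs.conj H.le (M.inv_mem hg)

theorem p2 {x u : V} {d : F} (hx : KK B M k x) (hu : T B M u d) (hd : d ≠ 0) (h0 : B x u ≠ 0)
    (h1 : B x u ∈ k) : KK B M k u := by
  have hd' : d ∈ k := by
    have := k.div_mem (H.p1 hx hu) (k.pow_mem h1 2)
    rwa [mul_div_cancel_right₀ _ (pow_ne_zero 2 h0)] at this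
  have h2 := H.conj (H.conj hx hu) ((hx (d * B x u ^ 2)⁻¹).2 (k.inv_mem (H.p1 hx hu)))
  have e : x + (d * B x u) • u + ((d * B x u ^ 2)⁻¹ * B (x + (d * B x u) • u) x) • x =
      (d * B x u) • u := by
    simp only [map_add, map_smul, LinearMap.add_apply, LinearMap.smul_apply, H.s.alt,
      H.s.skew u x, smul_eq_mul]
    match_scalars
    · field_simp; ring
    · ring
  rw [e] at h2
  refine H.of_le (by rintro rfl; simp at h0) fun s hs => ?_
  have := (h2 (s / (d * B x u) ^ 2)).2 (k.div_mem hs (k.pow_mem (k.mul_mem hd' h1) 2))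
  rw [T_smul] at this
  convert this using 1
  field_simp

theorem neg {x : V} (hx : KK B M k x) : KK B M k (-x) := fun s => T_neg.trans (hx s)

section
variable {x y : V} (hxy : B x y = 1) (hx : KK B M k x) (hy : KK B M k y)
include hxy hx hy

theorem mvx {α β : F} {r : V} (hr : B r x = 0) (h : KK B M k (α • x + β • y + r)) (hβ : β ∈ k)
    (hβ0 : β ≠ 0) {s : F} (hs : s ∈ k) : KK B M k ((α + s) • x + β • y + r) := by
  have hyx : B y x = -1 := by rw [H.s.skew, hxy]
  convert H.conj h ((hx (-s / β)).2 (k.div_mem (k.neg_mem hs) hβ)) using 1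
  simp only [map_add, map_smul, LinearMap.add_apply, LinearMap.smul_apply, H.s.alt, hyx, hr,
    smul_eq_mul]
  match_scalars
  · field_simp; ring
  · ring
  · ring

theorem mvy {α β : F} {r : V} (hr : B r y = 0) (h : KK B M k (α • x + β • y + r)) (hα : α ∈ k)
    (hα0 : α ≠ 0) {s : F} (hs : s ∈ k) : KK B M k (α • x + (β + s) • y + r) := by
  convert H.conj h ((hy (s / α)).2 (k.div_mem hs hα)) using 1
  simp only [map_add, map_smul, LinearMap.add_apply, LinearMap.smul_apply, H.s.alt, hxy, hr,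
    smul_eq_mul]
  match_scalars
  · ring
  · field_simp; ring
  · ring

theorem to11 {α β : F} {r : V} (hr : B r x = 0) (hr' : B r y = 0) (hα : α ∈ k) (hβ : β ∈ k)
    (h0 : α ≠ 0 ∨ β ≠ 0) : KK B M k (α • x + β • y + r) ↔ KK B M k ((1 : F) • x + (1 : F) • y + r) := by
  have e1 : ∀ α β : F, α ∈ k → β ∈ k → β ≠ 0 → ∀ α' ∈ k,
      KK B M k (α • x + β • y + r) → KK B M k (α' • x + β • y + r) := by
    intro α β hα hβ h α' hα' h1
    simpa using H.mvx hxy hx hy hr h1 hβ h (k.sub_mem hα' hα)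
  have e2 : ∀ α β : F, α ∈ k → β ∈ k → α ≠ 0 → ∀ β' ∈ k,
      KK B M k (α • x + β • y + r) → KK B M k (α • x + β' • y + r) := by
    intro α β hα hβ h β' hβ' h1
    simpa using H.mvy hxy hx hy hr' h1 hα h (k.sub_mem hβ' hβ)
  have o := k.one_mem
  rcases h0 with h0 | h0
  · exact ⟨fun h => e1 _ _ hα o one_ne_zero _ o (e2 _ _ hα hβ h0 _ o h),
      fun h => e2 _ _ hα o h0 _ hβ (e1 _ _ o o one_ne_zero _ hα h)⟩
  · exact ⟨fun h => e2 _ _ o hβ one_ne_zero _ o (e1 _ _ hα hβ h0 _ o h),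
      fun h => e1 _ _ o hβ h0 _ hα (e2 _ _ o o one_ne_zero _ hβ h)⟩

theorem mv {α β α' β' : F} {r : V} (hr : B r x = 0) (hr' : B r y = 0) (hα : α ∈ k) (hβ : β ∈ k)
    (h0 : α ≠ 0 ∨ β ≠ 0) (hα' : α' ∈ k) (hβ' : β' ∈ k) (h0' : α' ≠ 0 ∨ β' ≠ 0)
    (h : KK B M k (α • x + β • y + r)) : KK B M k (α' • x + β' • y + r) :=
  (H.to11 hxy hx hy hr hr' hα' hβ' h0').2 ((H.to11 hxy hx hy hr hr' hα hβ h0).1 h)

theorem half {a : F} (h : 2 * a ∈ k) : a ∈ k := by
  have := k.div_mem h (show (2 : F) ∈ k from natCast_mem k 2)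
  rwa [mul_div_cancel_left₀ _ H.two] at this

theorem xy_mem {u : V} {c : F} (hu : T B M u c) : c * B x u * B y u ∈ k := by
  have h1 := H.p1 hx hu
  have h2 := H.p1 hy hu
  have h3 := H.p1 (H.mv hxy hx hy (r := 0) (by simp) (by simp) k.one_mem k.zero_mem
    (Or.inl one_ne_zero) k.one_mem k.one_mem (Or.inl one_ne_zero) (by simpa using hx)) hu
  refine H.half hxy hx hy ?_
  convert k.sub_mem (k.sub_mem h3 h1) h2 using 1
  simp; ring

/-- normalisation of a vector with non-zero component in the plane -/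
theorem norm {α β c : F} {r : V} (hxr : B x r = 0) (hyr : B y r = 0) (h0 : α ≠ 0 ∨ β ≠ 0)
    (hc : c ≠ 0) (hu : T B M (α • x + β • y + r) c) :
    ∃ γ : F, γ ≠ 0 ∧ KK B M k ((1 : F) • x + (0 : F) • y + γ • r) := by
  have hyx : B y x = -1 := by rw [H.s.skew, hxy]
  have h1 := H.p1 hx hu
  have h2 := H.p1 hy hu
  have h3 := H.xy_mem hxy hx hy hu
  simp only [map_add, map_smul, H.s.alt, hxy, hyx, hxr, hyr, smul_eq_mul] at h1 h2 h3
  have hrx := H.s.comm.1 hxr
  have hry := H.s.comm.1 hyr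
  rcases h0 with h0 | h0
  · have h4 : -(β / α) ∈ k := by
      convert k.div_mem h3 h2 using 1
      simp only [mul_zero, mul_one, zero_add, add_zero]
      field_simp
    have h5 : T B M ((1 : F) • x + (β / α) • y + α⁻¹ • r) (α ^ 2 * c) := by
      rw [← T_smul]; convert hu using 1
      match_scalars <;> field_simp
    refine ⟨α⁻¹, inv_ne_zero h0, H.mv hxy hx hy (by simp [hrx]) (by simp [hry]) k.one_mem
      (by simpa using h4) (Or.inl one_ne_zero) k.one_mem k.zero_mem (Or.inl one_ne_zero)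
      (H.p2 hy h5 (by simp [h0, hc]) ?_ ?_)⟩ <;> simp [H.s.alt, hyx, hyr]
  · have h4 : -(α / β) ∈ k := by
      convert k.div_mem h3 h1 using 1
      simp only [mul_zero, mul_one, zero_add, add_zero]
      field_simp
    have h5 : T B M ((α / β) • x + (1 : F) • y + β⁻¹ • r) (β ^ 2 * c) := by
      rw [← T_smul]; convert hu using 1
      match_scalars <;> field_simp
    refine ⟨β⁻¹, inv_ne_zero h0, H.mv hxy hx hy (by simp [hrx]) (by simp [hry])
      (by simpa using h4) k.one_mem (Or.inr one_ne_zero) k.one_mem k.zero_mem (Or.inl one_ne_zero)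
      (H.p2 hx h5 (by simp [h0, hc]) ?_ ?_)⟩ <;> simp [H.s.alt, hxy, hxr]

theorem exists_rr : ∃ r r', B x r = 0 ∧ B y r = 0 ∧ B x r' = 0 ∧ B y r' = 0 ∧ B r r' ≠ 0 ∧
    KK B M k ((1 : F) • x + (0 : F) • y + r) ∧ KK B M k ((1 : F) • x + (0 : F) • y + r') := by
  have hyx : B y x = -1 := by rw [H.s.skew, hxy]
  obtain ⟨α, β, r, c, hz, hc, hαβ, hr, hxr, hyr⟩ := H.irr.exists_mixed H.s H.dim hxy
  obtain ⟨γ, hγ, h1⟩ := H.norm hxy hx hy hxr hyr hαβ hc hz
  have hr0 : γ • r ≠ 0 := smul_ne_zero hγ hr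
  have a1 : B x (γ • r) = 0 := by simp [hxr]
  have a2 : B y (γ • r) = 0 := by simp [hyr]
  generalize γ • r = r at *
  obtain ⟨w, d, hw, hd, hrw⟩ := H.irr.exists_ne (by have := H.dim; omega) hr0
  have e : w = (-B y w) • x + B x w • y + (w + B y w • x - B x w • y) := by module
  have b1 : B x (w + B y w • x - B x w • y) = 0 := by simp [H.s.alt, hxy]
  have b2 : B y (w + B y w • x - B x w • y) = 0 := by simp [H.s.alt, hyx]
  by_cases h0 : -B y w ≠ 0 ∨ B x w ≠ 0
  · obtain ⟨γ', hγ', h2⟩ := H.norm hxy hx hy b1 b2 h0 hd (e ▸ hw)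
    refine ⟨r, _, a1, a2, by rw [map_smul, b1, smul_zero], by rw [map_smul, b2, smul_zero], ?_,
      h1, h2⟩
    simp [H.s.comm.1 a1, H.s.comm.1 a2, hγ', hrw]
  · push Not at h0
    have h3 : B y w = 0 := by simpa using h0.1
    refine ⟨r, r + (d * B r w) • w, a1, a2, by simp [a1, h0.2], by simp [a2, h3],
      by simp [H.s.alt, hd, hrw], h1, ?_⟩
    convert H.conj h1 hw using 1
    simp [h0.2]
    module

section
variable {r r' : V} (hxr : B x r = 0) (hyr : B y r = 0) (hxr' : B x r' = 0) (hyr' : B y r' = 0)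
  (h1 : KK B M k ((1 : F) • x + (0 : F) • y + r)) (h2 : KK B M k ((1 : F) • x + (0 : F) • y + r'))
include hxr hyr hxr' hyr' h1 h2

theorem nu_mem : B r r' ∈ k := by
  have a := H.p1 h1 ((h2 1).2 k.one_mem)
  have b := H.p1 h1 ((H.mv hxy hx hy (H.s.comm.1 hxr') (H.s.comm.1 hyr') k.one_mem k.zero_mem
    (Or.inl one_ne_zero) k.zero_mem k.one_mem (Or.inr one_ne_zero) h2 1).2 k.one_mem)
  simp [H.s.alt, hxy, hxr', H.s.comm.1 hxr, H.s.comm.1 hyr] at a b
  refine H.half hxy hx hy ?_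
  convert k.sub_mem (k.sub_mem b a) k.one_mem using 1
  ring

omit hxr' hyr' h2 in
theorem xr_mem {u : V} {c : F} (hu : T B M u c) :
    c * B r u ^ 2 ∈ k ∧ c * B x u * B r u ∈ k ∧ c * B y u * B r u ∈ k := by
  have m := fun α β hα hβ h0 => H.p1 (H.mv hxy hx hy (H.s.comm.1 hxr) (H.s.comm.1 hyr) k.one_mem
    k.zero_mem (Or.inl one_ne_zero) (α' := α) (β' := β) hα hβ h0 h1) hu
  have a := m 1 0 k.one_mem k.zero_mem (by simp)
  have b := m (-1) 0 (by simp) k.zero_mem (by simp)
  have d := m 0 1 k.zero_mem k.one_mem (by simp)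
  have e := H.p1 hx hu
  have f := H.p1 hy hu
  simp only [map_add, map_smul, LinearMap.add_apply, LinearMap.smul_apply, smul_eq_mul] at a b d
  have g : c * B r u ^ 2 ∈ k := by
    refine H.half hxy hx hy ?_
    convert k.sub_mem (k.sub_mem (k.add_mem a b) e) e using 1
    ring
  refine ⟨g, H.half hxy hx hy ?_, H.half hxy hx hy ?_⟩
  · convert k.sub_mem (k.sub_mem a e) g using 1
    ring
  · convert k.sub_mem (k.sub_mem d f) g using 1
    ring

theorem rr_mem (hν : B r r' ≠ 0) {u : V} {c : F} (hu : T B M u c) : c * B r u * B r' u ∈ k := by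
  have a := H.p1 (H.conj h1 ((h2 (B r r')⁻¹).2
    (k.inv_mem (H.nu_mem hxy hx hy hxr hyr hxr' hyr' h1 h2)))) hu
  obtain ⟨b1, b2, -⟩ := H.xr_mem hxy hx hy hxr hyr h1 hu
  obtain ⟨c1, c2, -⟩ := H.xr_mem hxy hx hy hxr' hyr' h2 hu
  have e := H.p1 hx hu
  have f4 : (4 : F) ∈ k := natCast_mem k 4
  simp [H.s.alt, hxr', H.s.comm.1 hxr, hν] at a
  refine H.half hxy hx hy ?_
  convert k.sub_mem (k.sub_mem (k.sub_mem (k.sub_mem (k.sub_mem a b1) c1) (k.mul_mem f4 b2))
    (k.mul_mem f4 c2)) (k.mul_mem f4 e) using 1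
  ring

end
end
end Dat

theorem main1 (hB : Symp B) (hM : M ≤ Sp B) (h2 : (2 : F) ≠ 0) (h : TIrr B M)
    (hn : finrank F V = 4) {x : V} (hx0 : x ≠ 0) (hx : T B M x 1) (hmx : Mx hB M x) :
    ∃ (k : Subfield F) (b : Basis (Fin 4) F V),
      (∀ u c, T B M u c → ∀ i j, b.repr ((c * B (b j) u) • u) i ∈ k) ∧ (k = ⊤ → Sp B ≤ M) := by
  obtain ⟨y', d', hy', hd', hxy'⟩ := h.exists_ne (by omega) hx0
  have hy : T B M ((B x y')⁻¹ • y') (d' * B x y' ^ 2) := by
    rw [T_smul]; convert hy' using 1; field_simp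
  have hxy : B x ((B x y')⁻¹ • y') = 1 := by simp [hxy']
  have hd : d' * B x y' ^ 2 ≠ 0 := by simp [hd', hxy']
  generalize (B x y')⁻¹ • y' = y at *
  generalize d' * B x y' ^ 2 = d at *
  have hyx : B y x = -1 := by rw [hB.skew, hxy]
  obtain ⟨k1, k2⟩ := key hB hM h2 h (by omega) hxy hx hmx hd hy
  let S : Subring F :=
    { Tgrp hB M x with
      mul_mem' := fun a b => k2 _ _ a b
      one_mem' := hx }
  let k : Subfield F := { S with
    inv_mem' := fun a ha => by
      by_cases h0 : a = 0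
      · simpa [h0] using S.zero_mem
      · have h1 := pow_orderOf_eq_one (Units.mk0 a h0)
        have h3 := orderOf_pos (Units.mk0 a h0)
        have h4 : a ^ orderOf (Units.mk0 a h0) = 1 := by
          have := congrArg Units.val h1
          rwa [Units.val_pow_eq_pow_val] at this
        have : a⁻¹ = a ^ (orderOf (Units.mk0 a h0) - 1) := by
          rw [eq_comm, ← mul_eq_one_iff_eq_inv₀ h0, ← pow_succ, Nat.sub_add_cancel h3, h4]
        rw [this]
        exact S.pow_mem ha _ }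
  have kx : KK B M k x := fun s => Iff.rfl
  have H : Dat B M k := ⟨hB, hM, h2, h, by omega, fun v hv => kx.card hB ▸ hmx v hv⟩
  have ky : KK B M k y := H.p2 kx hy hd (by simp [hxy]) (by simp [hxy])
  obtain ⟨r, r', hxr, hyr, hxr', hyr', hν, h1, h3⟩ := H.exists_rr hxy kx ky
  have hνk := H.nu_mem hxy kx ky hxr hyr hxr' hyr' h1 h3
  have hrx := hB.comm.1 hxr
  have hry := hB.comm.1 hyr
  have hrx' := hB.comm.1 hxr'
  have hry' := hB.comm.1 hyr'
  have hν' : B r' r = -B r r' := hB.skew _ _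
  have li : LinearIndependent F ![x, y, r, r'] := by
    rw [Fintype.linearIndependent_iff]
    intro g hg
    simp only [Fin.sum_univ_four, Matrix.cons_val] at hg
    have a := congrArg (B x) hg
    have b := congrArg (B y) hg
    have c := congrArg (B r) hg
    have e := congrArg (B r') hg
    simp [hB.alt, hxy, hyx, hxr, hyr, hxr', hyr', hrx, hry, hrx', hry', hν', hν] at a b c e
    intro i
    fin_cases i <;> simp [a, b, c, e]
  let b := basisOfLinearIndependentOfCardEqFinrank li (by simp [hn])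
  have hb : ∀ i, b i = ![x, y, r, r'] i := fun i => by simp [b]
  have hrep : ∀ u i, b.repr u i =
      ![-B y u, B x u, -B r' u / B r r', B r u / B r r'] i := by
    intro u i
    have hg := b.sum_repr u
    simp only [Fin.sum_univ_four, hb, Matrix.cons_val] at hg
    have a := congrArg (B x) hg
    have b := congrArg (B y) hg
    have c := congrArg (B r) hg
    have e := congrArg (B r') hg
    simp [hB.alt, hxy, hyx, hxr, hyr, hxr', hyr', hrx, hry, hrx', hry', hν'] at a b c e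
    fin_cases i <;> simp [← a, ← b, ← c, ← e, hν]
  refine ⟨k, b, fun u c hu i j => ?_, fun hk => ?_⟩
  · have a1 := H.p1 kx hu
    have a2 := H.p1 ky hu
    have a3 := H.xy_mem hxy kx ky hu
    obtain ⟨b1, b2, b3⟩ := H.xr_mem hxy kx ky hxr hyr h1 hu
    obtain ⟨c1, c2, c3⟩ := H.xr_mem hxy kx ky hxr' hyr' h3 hu
    have e := H.rr_mem hxy kx ky hxr hyr hxr' hyr' h1 h3 hν hu
    have all : ∀ i j, c * B (![x, y, r, r'] i) u * B (![x, y, r, r'] j) u ∈ k := by
      intro i j
      fin_cases i <;> fin_cases j <;> simp only [Fin.reduceFinMk, Matrix.cons_val] <;>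
        first
        | assumption
        | (rw [mul_assoc, ← sq]; assumption)
        | (rw [mul_right_comm]; assumption)
    rw [map_smul, Finsupp.smul_apply, hrep, hb, smul_eq_mul]
    fin_cases i <;> simp only [Fin.reduceFinMk, Matrix.cons_val]
    · simpa using all j 1
    · exact all j 0
    · rw [← mul_div_assoc]; exact k.div_mem (by simpa using all j 3) hνk
    · rw [← mul_div_assoc]; exact k.div_mem (all j 2) hνk
  · have fl : ∀ v, KK B M k v → Full B M v := fun v hv c => (hv c).2 (by simp [hk])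
    refine Sp_le hB hM (full_of_conn hB hM ⟨-1, by simp, fun h => h2 (by linear_combination -h)⟩
      {x, y, x + r, x + r'} ?_ ?_ (fl x kx) ?_)
    · rintro p (rfl | rfl | rfl | rfl)
      · exact fl _ kx
      · exact fl _ ky
      · simpa using fl _ h1
      · simpa using fl _ h3
    · rw [eq_top_iff, ← b.span_eq, Submodule.span_le]
      have mx : x ∈ Submodule.span F {x, y, x + r, x + r'} := Submodule.subset_span (by simp)
      rintro _ ⟨i, rfl⟩
      rw [hb]
      fin_cases i <;> simp only [Fin.reduceFinMk, Matrix.cons_val]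
      · exact mx
      · exact Submodule.subset_span (by simp)
      · simpa using Submodule.sub_mem _ (Submodule.subset_span
          (show x + r ∈ ({x, y, x + r, x + r'} : Set V) by simp)) mx
      · simpa using Submodule.sub_mem _ (Submodule.subset_span
          (show x + r' ∈ ({x, y, x + r, x + r'} : Set V) by simp)) mx
    · rintro p (rfl | rfl | rfl | rfl) -
      · exact ⟨y, fl _ ky, by simp [hyx], by simp [hyx]⟩
      · exact ⟨x + p, (fl _ kx).add hM (fl _ ky) (by simp [hxy]), by simp [hyx, hB.alt],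
          by simp [hxy, hB.alt]⟩
      · exact ⟨y, fl _ ky, by simp [hyx], by simp [hyx, hyr]⟩
      · exact ⟨y, fl _ ky, by simp [hyx], by simp [hyx, hyr']⟩

theorem main (hB : Symp B) (hM : M ≤ Sp B) (h2 : (2 : F) ≠ 0) (h : TIrr B M)
    (hn : finrank F V = 4) {x : V} (hx0 : x ≠ 0) {c : F} (hc : c ≠ 0) (hx : T B M x c) :
    ∃ (k : Subfield F) (b : Basis (Fin 4) F V),
      (∀ u c, T B M u c → ∀ i j, b.repr ((c * B (b j) u) • u) i ∈ k) ∧ (k = ⊤ → Sp B ≤ M) := by
  have : Finite V := Module.finite_of_finite F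
  obtain ⟨z, hz0, hz⟩ := Set.exists_max_image {v : V | v ≠ 0} (fun v => Nat.card (Tgrp hB M v))
    (Set.toFinite _) ⟨x, hx0⟩
  obtain ⟨e, he, he0⟩ : ∃ e, T B M z e ∧ e ≠ 0 := by
    by_contra! H
    have h1 := hz x hx0
    have h3 : Nat.card (Tgrp hB M z) = 1 := by
      rw [AddSubgroup.card_eq_one, eq_bot_iff]
      exact fun e he => H e he
    rw [h3, AddSubgroup.card_le_one_iff_eq_bot] at h1
    exact hc ((AddSubgroup.eq_bot_iff_forall _).1 h1 c hx)
  have hB' : Symp (e • B) := ⟨fun v => by simp [hB.alt], fun z hz => hB.nd z fun x => by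
    simpa [he0] using hz x⟩
  have hS : Sp (e • B) = Sp B := by
    ext g
    simp [mem_Sp, he0]
  have hT : ∀ v c, T (e • B) M v c ↔ T B M v (c * e) := fun v c => by
    simp [T, mul_assoc]
  have hcard : ∀ v, Nat.card (Tgrp hB' M v) = Nat.card (Tgrp hB M v) := fun v =>
    Nat.card_congr ((Equiv.mulRight₀ e he0).subtypeEquiv fun c => hT v c)
  obtain ⟨k, b, h1, h3⟩ := main1 hB' (hS ▸ hM) h2 (fun W hW => h W fun v c hv w hw => by
    have := hW v (c / e) ((hT _ _).2 (by simpa [he0] using hv)) w hw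
    simpa [mul_assoc, he0, div_eq_mul_inv] using this) hn hz0 ((hT _ _).2 (by simpa using he))
    (fun v hv => by rw [hcard, hcard]; exact hz v hv)
  refine ⟨k, b, fun u c hu i j => ?_, fun hk => hS ▸ h3 hk⟩
  have := h1 u (c / e) ((hT _ _).2 (by simpa [he0] using hu)) i j
  simpa [mul_assoc, he0, div_eq_mul_inv] using this

end Cfsg.Agent.H2.SP
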