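import Cfsg.Agent.H2.SP2

/-! A residual subgroup of `Sp₄(q)`, `q` odd, contains no transvection. -/

set_option autoImplicit false
set_option linter.unusedSimpArgs false
set_option linter.unusedSectionVars false
set_option linter.unusedVariables false

namespace Cfsg.Agent.H2.SP

open Module Matrix Cfsg.Agent.H6 Cfsg.Agent.H9.Sp Cfsg.Geo
open scoped commutatorElement

section
variable {F : Type*} [Field F] {ι : Type} [Fintype ι] [DecidableEq ι]

theorem scalar_comm {z : GL ι F} (hz : z ∈ scalars ι F) (g : GL ι F) : z * g = g * z := by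
  obtain ⟨c, hc⟩ := (mem_scalars_iff z).1 hz
  ext1
  simp [hc]

/-- a subgroup of `P` normalised by `P` is scalar or everything -/
theorem core_normal {H P : Subgroup (GL ι F)} (hc : IsResidualCore H P) (N : Subgroup (GL ι F))
    (hN : ∀ g ∈ P, ∀ x ∈ N, g * x * g⁻¹ ∈ N) :
    (∀ x ∈ P, x ∈ N → x ∈ scalars ι F) ∨ P ≤ N := by
  have := hc.simple
  have hn : (N.subgroupOf P).Normal :=
    ⟨fun x hx g => hN g g.2 x hx⟩
  let π := QuotientGroup.mk' ((scalars ι F).subgroupOf P)
  rcases (hn.map π (QuotientGroup.mk'_surjective _)).eq_bot_or_eq_top with h | h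
  · left
    intro x hx hxN
    have : π ⟨x, hx⟩ ∈ (N.subgroupOf P).map π := ⟨_, hxN, rfl⟩
    rw [h, Subgroup.mem_bot] at this
    exact (QuotientGroup.eq_one_iff (⟨x, hx⟩ : P)).1 this
  · right
    have key : ∀ x ∈ P, ∃ n ∈ N, ∃ z ∈ scalars ι F, x = n * z := by
      intro x hx
      obtain ⟨n, hn, e⟩ : π ⟨x, hx⟩ ∈ (N.subgroupOf P).map π := h ▸ trivial
      have e' : n⁻¹ * (⟨x, hx⟩ : P) ∈ (scalars ι F).subgroupOf P := QuotientGroup.eq.1 e
      exact ⟨n, hn, n⁻¹ * x, e', by simp⟩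
    rw [← hc.perfect, Subgroup.commutator_le]
    intro a ha b hb
    obtain ⟨n, hn, z, hz, rfl⟩ := key a ha
    obtain ⟨m, hm, w, hw, rfl⟩ := key b hb
    have : ⁅n * z, m * w⁆ = ⁅n, m⁆ := by
      simp only [commutatorElement_def, _root_.mul_inv_rev]
      have h1 := scalar_comm hz
      have h2 := scalar_comm hw
      calc n * z * (m * w) * (z⁻¹ * n⁻¹) * (w⁻¹ * m⁻¹)
          = n * (z * (m * w)) * z⁻¹ * n⁻¹ * (w⁻¹ * m⁻¹) := by group
        _ = n * m * (w * n⁻¹) * w⁻¹ * m⁻¹ := by rw [h1]; group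
        _ = _ := by rw [h2]; group
    rw [this]
    exact N.mul_mem (N.mul_mem (N.mul_mem hn hm) (N.inv_mem hn)) (N.inv_mem hm)

/-- matrices with entries in `k` with respect to a basis -/
theorem realisable_of_basis (k : Subfield F) (b : Basis ι F (ι → F)) (S : Set (Matrix ι ι F))
    (h : ∀ s ∈ S, ∀ i j, b.repr (s *ᵥ b j) i ∈ k) : RealisableOver k S := by
  let A : Matrix ι ι F := (Pi.basisFun F ι).toMatrix b
  let A' : Matrix ι ι F := b.toMatrix (Pi.basisFun F ι)
  have h1 : A' * A = 1 := Basis.toMatrix_mul_toMatrix_flip _ _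
  have h2 : A * A' = 1 := Basis.toMatrix_mul_toMatrix_flip _ _
  refine ⟨⟨A', A, h1, h2⟩, fun s hs i j => ?_⟩
  convert h s hs i j using 1
  change (A' * s * A) i j = _
  have e1 : ∀ v : ι → F, b.repr v i = (A' *ᵥ v) i := by
    intro v
    have := congrFun (Basis.toMatrix_mulVec_repr (Pi.basisFun F ι) b v) i
    rw [← this]
    congr 2
  rw [e1, mulVec_mulVec]
  simp [A, Matrix.mul_apply (M := A' * s), mulVec, dotProduct, Basis.toMatrix_apply]

end

variable {F : Type*} [Field F] [Fintype F]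

theorem two_ne (hodd : Odd (Fintype.card F)) : (2 : F) ≠ 0 := by
  intro h
  have : ringChar F = 2 := by
    have := CharP.ringChar_of_prime_eq_zero Nat.prime_two (by simpa using h)
    exact this
  rw [FiniteField.even_card_iff_char_two] at this
  rw [Nat.odd_iff] at hodd
  omega

theorem no_T (hodd : Odd (Fintype.card F)) {H P : Subgroup (GL (Fin 2 ⊕ Fin 2) F)}
    (hH : H < spGL 2 F) (hc : IsResidualCore H P) {v : Fin 2 ⊕ Fin 2 → F} {c : F}
    (h : T (B0 2 F) (P.map gl0.toMonoidHom) v c) : v = 0 ∨ c = 0 := by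
  by_contra! H0
  have hB := symp_B0 2 F
  have hM : P.map gl0.toMonoidHom ≤ Sp (B0 2 F) := by
    rintro _ ⟨g, hg, rfl⟩
    exact hH.le (hc.le hg)
  set M := P.map gl0.toMonoidHom
  let S : Set (GL (Fin 2 ⊕ Fin 2) F) :=
    {g | ∃ v c, T (B0 2 F) M v c ∧ ∀ x, gl0 g x = x + (c * B0 2 F x v) • v}
  have hN : P ≤ Subgroup.closure S := by
    refine (core_normal hc _ fun g hg x hx => ?_).resolve_left fun h1 => ?_
    · induction hx using Subgroup.closure_induction with
      | mem x hx =>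
        obtain ⟨v, c, h1, h2⟩ := hx
        have hg' : gl0 g ∈ M := ⟨g, hg, rfl⟩
        refine Subgroup.subset_closure ⟨gl0 g v, c, h1.conj hM hg', fun x => ?_⟩
        simp only [map_mul, map_inv, LinearEquiv.mul_apply, h2, map_add, map_smul,
          apply_inv_apply]
        rw [Sp_right (hM hg')]
      | one => simp
      | mul x y _ _ h1 h2 => simpa [mul_assoc] using Subgroup.mul_mem _ h1 h2
      | inv x _ h1 => simpa [mul_assoc] using Subgroup.inv_mem _ h1
    · obtain ⟨_, ⟨g, hg, rfl⟩, h2⟩ := id h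
      obtain ⟨a, ha⟩ := (mem_scalars_iff g).1 (h1 g hg (Subgroup.subset_closure ⟨v, c, h, h2⟩))
      have h3 : ∀ x, (a : F) • x = x + (c * B0 2 F x v) • v := fun x => by
        rw [← h2]
        change _ = g.1 *ᵥ x
        simp [ha, smul_mulVec]
      have h4 : (a : F) = 1 := by
        have := h3 v
        rw [hB.alt, mul_zero, zero_smul, add_zero] at this
        exact smul_left_injective F H0.1 (by simpa using this)
      obtain ⟨x, hx⟩ := hB.exists_ne H0.1
      have := h3 x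
      simp [h4, H0.1, H0.2, hB.ne_comm hx] at this
  obtain ⟨k, b, h1, h2⟩ := main hB hM (two_ne hodd) (fun W hW => hc.absIrred.1 W (by
    rintro _ ⟨g, hg, rfl⟩ _ ⟨w, hw, rfl⟩
    change gl0 g w ∈ W
    have := hN hg
    clear hg
    induction this using Subgroup.closure_induction'' generalizing w with
    | mem x hx =>
      obtain ⟨v, c, h1, h2⟩ := hx
      rw [h2]
      exact W.add_mem hw (hW v c h1 w hw)
    | inv_mem x hx =>
      obtain ⟨v, c, h1, h2⟩ := hx
      have : gl0 x = tvE hB v c := LinearEquiv.ext fun y => by rw [h2, tvE_apply]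
      rw [map_inv, this, tvE_inv_apply]
      exact W.sub_mem hw (hW v c h1 w hw)
    | one => simpa using hw
    | mul x y _ _ h1 h2 => rw [map_mul]; exact h1 _ (h2 w hw))) (by simp) H0.1 H0.2 h
  by_cases hk : k = ⊤
  · refine hH.not_ge fun g hg => ?_
    obtain ⟨g', hg', e⟩ := h2 hk ((mem_spGL g).1 hg)
    exact hc.le (gl0.injective e ▸ hg')
  let b' := b.reindex (finSumFinEquiv (m := 2) (n := 2)).symm
  refine hc.no_subfield k hk (realisable_of_basis k b' _ ?_)
  rintro _ ⟨g, hg, rfl⟩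
  change ∀ i j, b'.repr (gl0 g (b' j)) i ∈ k
  simp only [b', Basis.reindex_apply, Basis.repr_reindex_apply]
  suffices ∀ i j, b.repr (gl0 g (b j)) i ∈ k from fun i j => this _ _
  have := hN hg
  clear hg
  have one : ∀ i j, b.repr (b j) i ∈ k := fun i j => by
    rw [b.repr_self, Finsupp.single_apply]
    split_ifs <;> simp
  induction this using Subgroup.closure_induction'' with
  | mem x hx =>
    obtain ⟨v, c, h3, h4⟩ := hx
    intro i j
    rw [h4, map_add, Finsupp.add_apply]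
    exact k.add_mem (one i j) (h1 v c h3 i j)
  | inv_mem x hx =>
    obtain ⟨v, c, h3, h4⟩ := hx
    have : gl0 x = tvE hB v c := LinearEquiv.ext fun y => by rw [h4, tvE_apply]
    intro i j
    rw [map_inv, this, tvE_inv_apply, map_sub, Finsupp.sub_apply]
    exact k.sub_mem (one i j) (h1 v c h3 i j)
  | one => simpa using one
  | mul x y _ _ h3 h4 =>
    intro i j
    rw [map_mul, LinearEquiv.mul_apply, ← b.sum_repr (gl0 y (b j))]
    simp only [map_sum, map_smul, Finsupp.coe_finset_sum, Finset.sum_apply, Finsupp.smul_apply,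
      smul_eq_mul]
    exact sum_mem fun l _ => k.mul_mem (h4 l j) (h3 i l)

/-- an isometry of the form `1 + v ⊗ φ` is a symplectic transvection -/
theorem exists_T_of_rank {F V : Type*} [Field F] [AddCommGroup V] [Module F V]
    [FiniteDimensional F V] {B : V →ₗ[F] V →ₗ[F] F} (hB : Symp B) {g : V ≃ₗ[F] V} (hg : g ∈ Sp B)
    {v : V} (φ : Dual F V) (h : ∀ x, g x = x + φ x • v) : ∃ c, ∀ x, g x = x + (c * B x v) • v := by
  by_cases hv : v = 0
  · exact ⟨0, by simp [h, hv]⟩
  obtain ⟨y, hy⟩ := hB.exists_one hv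
  refine ⟨-φ y, fun x => ?_⟩
  have := hg x y
  simp only [h, map_add, map_smul, LinearMap.add_apply, LinearMap.smul_apply, hB.alt, hy,
    smul_eq_mul] at this
  rw [h]
  congr 2
  linear_combination this

theorem no_transv' (hodd : Odd (Fintype.card F)) {H P : Subgroup (GL (Fin 2 ⊕ Fin 2) F)}
    (hH : H < spGL 2 F) (hc : IsResidualCore H P) {g : GL (Fin 2 ⊕ Fin 2) F} (hg : g ∈ P)
    {v : Fin 2 ⊕ Fin 2 → F} (φ : Dual F (Fin 2 ⊕ Fin 2 → F))
    (h : ∀ x, g.1 *ᵥ x = x + φ x • v) : g = 1 := by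
  obtain ⟨c, hc'⟩ := exists_T_of_rank (symp_B0 2 F) ((mem_spGL g).1 (hH.le (hc.le hg))) φ h
  apply gl0.injective
  ext1 x
  rcases no_T hodd hH hc ⟨gl0 g, ⟨g, hg, rfl⟩, hc'⟩ with h1 | h1 <;> simp [hc', h1]

/-- A residual core in `Sp₄(q)`, `q` odd, contains no transvection. -/
theorem no_transv (hodd : Odd (Fintype.card F)) {H P : Subgroup (GL (Fin 2 ⊕ Fin 2) F)}
    (hH : H < spGL 2 F) (hc : IsResidualCore H P) {g : GL (Fin 2 ⊕ Fin 2) F} (hg : g ∈ P)
    (hr : (g.1 - 1).rank ≤ 1) : g = 1 := by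
  obtain ⟨v, hv⟩ := finrank_le_one_iff.1 hr
  by_cases h0 : (v : Fin 2 ⊕ Fin 2 → F) = 0
  · refine no_transv' hodd hH hc hg (v := 0) 0 fun x => ?_
    obtain ⟨c, hc⟩ := hv ⟨_, x, rfl⟩
    have := congrArg Subtype.val hc
    simpa [h0, sub_mulVec, eq_comm, sub_eq_zero] using this
  obtain ⟨ψ, hψ⟩ := Module.Projective.exists_dual_eq_one F h0
  refine no_transv' hodd hH hc hg (v := v) (ψ ∘ₗ (g.1 - 1).mulVecLin) fun x => ?_
  obtain ⟨c, hc⟩ := hv ⟨_, x, rfl⟩
  have h1 : c • (v : Fin 2 ⊕ Fin 2 → F) = (g.1 - 1).mulVecLin x := congrArg Subtype.val hc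
  rw [LinearMap.comp_apply, ← h1, map_smul, hψ, smul_eq_mul, mul_one, h1]
  simp [sub_mulVec]

end Cfsg.Agent.H2.SP
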