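import Cfsg.Agent.H6.S4.B1

/-! Two opposite unipotents acting on a plane: consequences of Dickson's theorem. -/

set_option autoImplicit false
set_option linter.unusedSimpArgs false
set_option linter.unusedSectionVars false
set_option linter.unusedVariables false

namespace Cfsg.Agent.H2.SP

open Module Matrix Cfsg.Agent.H6.S4

variable {k : Type*} [Field k] {p : ℕ} [Fact p.Prime] [CharP k p]

theorem dkM [IsAlgClosed k] (h2 : (2 : k) ≠ 0) {D : Type*} [Group D] [Finite D]
    (φ : D →* GL (Fin 2) k) (hdet : ∀ d, (φ d : M2 k).det = 1) {x y : D} {τ : k} (τ0 : τ ≠ 0)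
    (hx : (φ x : M2 k) = !![1, τ; 0, 1]) (hy : (φ y : M2 k) = !![1, 0; 1, 1])
    (hp : 5 ≤ p ∨ τ ^ 4 ≠ 1) :
    ∃ k0 : Subfield k, τ ∈ k0 ∧
      (∀ c ∈ k0, ∃ d, (φ d : M2 k) = !![1, 0; c, 1] ∨ (φ d : M2 k) = -!![1, 0; c, 1]) ∧
      ∀ a ∈ k0, a ≠ 0 → ∃ d, (φ d : M2 k) = !![a⁻¹, 0; 0, a] ∨ (φ d : M2 k) = -!![a⁻¹, 0; 0, a] := by
  rcases dickM p h2 φ hdet with ⟨v, v0, h⟩ | ⟨v, w, v0, hw, h⟩ | ⟨-, -, κ, h, h'⟩ | ⟨k0, R, N, N', h⟩
  · exfalso
    obtain ⟨c, hc⟩ := h x
    obtain ⟨d, hd⟩ := h y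
    rw [hx] at hc
    rw [hy] at hd
    have a0 := congrFun hc 0
    have a1 := congrFun hc 1
    have b0 := congrFun hd 0
    have b1 := congrFun hd 1
    simp [mulVec, dotProduct, Fin.sum_univ_two] at a0 a1 b0 b1
    refine v0 (funext fun i => ?_)
    fin_cases i <;> simp <;> grind
  · exfalso
    have hv : v 0 ≠ 0 ∨ v 1 ≠ 0 := by
      by_contra! hh
      exact v0 (funext fun i => by fin_cases i <;> simp [hh])
    have hdt : v 0 * w 1 - v 1 * w 0 ≠ 0 := fun e => by
      rcases hv with h0 | h0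
      · exact hw (w 0 / v 0) (funext fun i => by fin_cases i <;> simp <;> field_simp <;> grind)
      · exact hw (w 1 / v 1) (funext fun i => by fin_cases i <;> simp <;> field_simp <;> grind)
    rcases h x with ⟨⟨c, hc⟩, ⟨d, hd⟩⟩ | ⟨⟨c, hc⟩, ⟨d, hd⟩⟩ <;> rw [hx] at hc hd <;>
    · have a0 := congrFun hc 0
      have a1 := congrFun hc 1
      have b0 := congrFun hd 0
      have b1 := congrFun hd 1
      simp [mulVec, dotProduct, Fin.sum_univ_two] at a0 a1 b0 b1
      grind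
  · exfalso
    rcases h' with h' | ⟨rfl, rfl⟩
    · have := congrFun (congrFun (h' x (by rw [hx]; simp [trace_fin_two]; norm_num)) 0) 1
      rw [hx] at this
      exact τ0 (by simpa using this)
    · have h3 : (3 : k) = 0 := three_eq rfl
      have h4 := hp.resolve_left (by omega)
      have key : ∀ d, (φ d : M2 k).trace ^ 2 = 1 ∨ (φ d : M2 k).trace = 0 ∨
          (φ d : M2 k).trace ^ 4 + 1 = 0 := fun d => by
        rcases h d with e | e | e | e | ⟨e, -⟩ | ⟨-, e⟩
        · left; rw [e, trace_one, Fintype.card_fin]; push_cast; linear_combination h3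
        · left; rw [e, trace_neg, trace_one, Fintype.card_fin]; push_cast; linear_combination h3
        · exact Or.inr (Or.inl e)
        · exact Or.inl e
        · omega
        · exact Or.inr (Or.inr (by linear_combination e + (φ d : M2 k).trace ^ 2 * h3))
      have e1 := key (x * y)
      have e2 := key (x * y * y)
      simp only [map_mul, Units.val_mul, hx, hy] at e1 e2
      simp [trace_fin_two] at e1 e2
      grind
  · have hR : ∀ d, (φ d : M2 k).trace = 2 → (φ d : M2 k) ∈ R := fun d ht => by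
      obtain ⟨c, c0, hc⟩ := h.mem d
      have := h.tr _ hc
      rw [trace_smul, ht, smul_eq_mul] at this
      have hc' : c ∈ k0 := by
        have h2' : (2 : k) ∈ k0 := by simpa using natCast_mem k0 2
        simpa [h2] using k0.div_mem this h2'
      simpa [smul_smul, c0] using h.smul _ (k0.inv_mem hc') _ hc
    have hN : (!![0, τ; 0, 0] : M2 k) ∈ R := by
      convert R.sub_mem (hR x (by rw [hx]; simp [trace_fin_two]; norm_num)) R.one_mem
      rw [hx]; ext i j; fin_cases i <;> fin_cases j <;> simp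
    have hM : (!![0, 0; 1, 0] : M2 k) ∈ R := by
      convert R.sub_mem (hR y (by rw [hy]; simp [trace_fin_two]; norm_num)) R.one_mem
      rw [hy]; ext i j; fin_cases i <;> fin_cases j <;> simp
    have hτ : τ ∈ k0 := by simpa [trace_fin_two] using h.tr _ (R.mul_mem hN hM)
    refine ⟨k0, hτ, fun c hc => h.ex _ ?_ (by simp), fun a ha a0 => h.ex _ ?_ (by simp [a0])⟩
    · convert R.add_mem R.one_mem (h.smul c hc _ hM)
      ext i j; fin_cases i <;> fin_cases j <;> simp
    · convert R.add_mem (h.smul _ (k0.inv_mem (k0.mul_mem ha hτ)) _ (R.mul_mem hN hM))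
        (h.smul _ (k0.div_mem ha hτ) _ (R.mul_mem hM hN))
      ext i j; fin_cases i <;> fin_cases j <;> simp <;> field_simp

variable {V : Type*} [AddCommGroup V] [Module k V]

theorem dk [IsAlgClosed k] (h2 : (2 : k) ≠ 0) (S : Subgroup (End k V)ˣ) [hfin : Finite S] {v w : V}
    (hS : ∀ d ∈ S, Act v w d.1) {x y : (End k V)ˣ} (hx : x ∈ S) (hy : y ∈ S) {τ : k} (τ0 : τ ≠ 0)
    (v0 : v ≠ 0) (xv : x.1 v = v) (xw : x.1 w = w + τ • v) (yv : y.1 v = v + w) (yw : y.1 w = w)
    (hp : 5 ≤ p ∨ τ ^ 4 ≠ 1) :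
    (∃ d ∈ S, ∃ ε : k, ε * ε = 1 ∧ d.1 v = ε • (v - τ⁻¹ • w) ∧ d.1 w = ε • w) ∧
    ∃ d ∈ S, ∃ a : k, a ≠ 0 ∧ a * a ≠ 1 ∧ d.1 v = a⁻¹ • v ∧ d.1 w = a • w := by
  have hw : ∀ c : k, w ≠ c • v := by
    rintro c rfl
    rw [map_smul, xv, left_eq_add, smul_eq_zero] at xw
    exact xw.elim τ0 v0
  obtain ⟨φ, h1, h3⟩ := exists_phi ((Units.coeHom _).comp S.subtype) v0 hw fun d => hS d d.2
  have ext : ∀ (d : S) (M : M2 k), d.1.1 v = M 0 0 • v + M 1 0 • w → d.1.1 w = M 0 1 • v + M 1 1 • w →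
      (φ d : M2 k) = M := fun d M e1 e2 => by
    have a1 := h3 d ![1, 0]
    have a2 := h3 d ![0, 1]
    simp only [co0, co1, MonoidHom.comp_apply, Subgroup.coe_subtype, Units.coeHom_apply, e1, e2]
      at a1 a2
    rw [co_apply] at a1 a2
    have b1 := indep2 v0 hw a1
    have b2 := indep2 v0 hw a2
    simp [mulVec, dotProduct, Fin.sum_univ_two] at b1 b2
    ext i j; fin_cases i <;> fin_cases j <;> simp [b1, b2]
  have app : ∀ (d : S) (M : M2 k), (φ d : M2 k) = M →
      d.1.1 v = M 0 0 • v + M 1 0 • w ∧ d.1.1 w = M 0 1 • v + M 1 1 • w := fun d M e => by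
    have a1 := h3 d ![1, 0]
    have a2 := h3 d ![0, 1]
    simp only [co0, co1, MonoidHom.comp_apply, Subgroup.coe_subtype, Units.coeHom_apply, e]
      at a1 a2
    rw [co_apply] at a1 a2
    simpa [mulVec, dotProduct, Fin.sum_univ_two] using And.intro a1 a2
  obtain ⟨k0, hτ, h4, h5⟩ := dkM (p := p) h2 φ h1 (x := ⟨x, hx⟩) (y := ⟨y, hy⟩) τ0
    (ext _ _ (by simp [xv]) (by simp [xw, add_comm])) (ext _ _ (by simp [yv]) (by simp [yw])) hp
  constructor
  · obtain ⟨d, e | e⟩ := h4 _ (k0.neg_mem (k0.inv_mem hτ))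
    · obtain ⟨a1, a2⟩ := app d _ e
      exact ⟨d, d.2, 1, by simp, by simpa [sub_eq_add_neg] using a1, by simpa using a2⟩
    · obtain ⟨a1, a2⟩ := app d _ e
      exact ⟨d, d.2, -1, by simp, by simpa [sub_eq_add_neg, add_comm] using a1, by simpa using a2⟩
  · obtain ⟨a, ha, a0, a1⟩ : ∃ a ∈ k0, a ≠ 0 ∧ a * a ≠ 1 := by
      rcases hp with hp | hp
      · refine ⟨2, by simpa using natCast_mem k0 2, h2, fun e => ?_⟩
        have := eq_of_cast (p := p) (k := k) Nat.prime_three (by push_cast; linear_combination e)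
        omega
      · exact ⟨τ, hτ, τ0, fun e => hp (by linear_combination (τ * τ + 1) * e)⟩
    obtain ⟨d, e | e⟩ := h5 a ha a0
    · obtain ⟨a1', a2⟩ := app d _ e
      exact ⟨d, d.2, a, a0, a1, by simpa using a1', by simpa using a2⟩
    · obtain ⟨a1', a2⟩ := app d _ e
      exact ⟨d, d.2, -a, neg_ne_zero.2 a0, by simpa using a1, by simpa [inv_neg] using a1',
        by simpa using a2⟩

end Cfsg.Agent.H2.SP
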