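import Cfsg.Agent.H2.SP6

/-! Short root elements of subgroups of `Sp_4` without transvections. -/

set_option autoImplicit false
set_option linter.unusedSimpArgs false
set_option linter.unusedSectionVars false
set_option linter.unusedVariables false

namespace Cfsg.Agent.H2.SP

open Module Cfsg.Agent.H8.M3 Cfsg.Agent.H6.S4
open Cfsg.Agent.H9.Sp hiding T

universe u

variable {k V W : Type*} [Field k] [AddCommGroup V] [Module k V] [FiniteDimensional k V]
  [AddCommGroup W] [Module k W] [FiniteDimensional k W]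
  {B : V →ₗ[k] V →ₗ[k] k} {Q : QuadraticForm k W} {ι : W →ₗ[k] End k V}
  {G : Type u} [Group G] {P : Subgroup (End k V)ˣ} {π : P →* G} {p : ℕ}
  {g x y : (End k V)ˣ} {e f a a' b : W}

/-- parameters of the short root elements at the point `e` -/
def Aa (Q : QuadraticForm k W) (ι : W →ₗ[k] End k V) (P : Subgroup (End k V)ˣ) (e a : W) : Prop :=
  Orth.B Q e a = 0 ∧ ∃ g ∈ P, g.1 = 1 + ι e * ι a

section Cl

variable (c : Cl B Q ι)
include c

theorem ac0 (h : Orth.B Q a b = 0) : ι a * ι b = -(ι b * ι a) := by rw [anti' c, h]; simp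

theorem ac0m (h : Orth.B Q a b = 0) (X : End k V) : ι a * (ι b * X) = -(ι b * (ι a * X)) := by
  rw [antim c, h]; simp

theorem ac0v (h : Orth.B Q a b = 0) (v : V) : ι a (ι b v) = -ι b (ι a v) := by
  rw [c.anti, h]; simp

theorem nn (qe : Q e = 0) (h : Orth.B Q e a = 0) (X : End k V) : ι e * (ι a * (ι e * X)) = 0 := by
  rw [ac0m c h, sqm c, qe]; simp

theorem inv_sh (qe : Q e = 0) (h : Orth.B Q e a = 0) (hg : g.1 = 1 + ι e * ι a) :
    g⁻¹.1 = 1 - ι e * ι a := Units.inv_eq_of_mul_eq_one_right (by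
  rw [hg]; simp only [nc k V, nn c qe h]; abel)

theorem T_sh (qe : Q e = 0) (h : Orth.B Q e a = 0) (hg : g.1 = 1 + ι e * ι a) :
    T g = (2 : k) • 1 := by rw [T, inv_sh c qe h hg, hg]; module

theorem wa_sh (sg : IsSp B g) (qe : Q e = 0) (h : Orth.B Q e a = 0) (hg : g.1 = 1 + ι e * ι a)
    (z : W) : wa ι g z = z - Orth.B Q e z • a + (Orth.B Q a z - Orth.B Q e z * Q a) • e := by
  rw [wa_eq c sg, hg]
  have h' : Orth.B Q a e = 0 := by rwa [Orth.B_comm]
  simp only [map_add, map_sub, map_smul, nc k V, sqm c, qe, antim c z e, anti' c z a,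
    ac0m c h', sq' c, zero_smul, Orth.B_comm Q z]
  module

theorem ker_sh (h : Orth.B Q e a = 0) (qa : Q a ≠ 0) {v : V} (hv : ι e (ι a v) = 0) : ι e v = 0 := by
  have := congrArg (ι a) hv
  rw [ac0v c h, map_neg, c.sq, map_zero, neg_eq_zero, smul_eq_zero] at this
  exact this.resolve_left qa

theorem dep0 (e0 : e ≠ 0) (qe : Q e = 0) (h : ∀ v, ι e v = 0 → ι f v = 0) : ∃ t : k, f = t • e := by
  have h1 : ι f * ι e = 0 := LinearMap.ext fun v => h _ (by simp [c.sq, qe])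
  exact dep_of_scal c (c := Orth.B Q e f) e0 (by rw [anti' c, h1, sub_zero])

theorem perp_of_ker {v : V} (v0 : v ≠ 0) (h1 : ι e v = 0) (h2 : ι f v = 0) : Orth.B Q e f = 0 := by
  have := c.anti e f v
  rw [h1, h2, map_zero, map_zero, sub_zero, eq_comm, smul_eq_zero] at this
  exact this.resolve_right v0

theorem Aa.add (qe : Q e = 0) (h : Aa Q ι P e a) (h' : Aa Q ι P e a') : Aa Q ι P e (a + a') := by
  obtain ⟨h1, g, hg, e1⟩ := h
  obtain ⟨h2, g', hg', e2⟩ := h'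
  refine ⟨by simp [h1, h2], g * g', P.mul_mem hg hg', ?_⟩
  simp only [nc k V, e1, e2, nn c qe h1, map_add]; abel

theorem Aa.neg (qe : Q e = 0) (h : Aa Q ι P e a) : Aa Q ι P e (-a) := by
  obtain ⟨h1, g, hg, e1⟩ := h
  exact ⟨by simp [h1], g⁻¹, P.inv_mem hg, by rw [inv_sh c qe h1 e1]; simp [sub_eq_add_neg]⟩

theorem Aa.sub (qe : Q e = 0) (h : Aa Q ι P e a) (h' : Aa Q ι P e a') : Aa Q ι P e (a - a') := by
  simpa [sub_eq_add_neg] using h.add c qe (h'.neg c qe)

theorem Aa.self (qe : Q e = 0) (t : k) : Aa Q ι P e (t • e) :=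
  ⟨by simp [Orth.B_self, qe], 1, P.one_mem, by simp [sq' c, qe]⟩

theorem Aa.smul {t : k} (t0 : t ≠ 0) : Aa Q ι P (t • e) a ↔ Aa Q ι P e (t • a) := by
  simp [Aa, t0]

end Cl

variable (h : St B Q ι P π)
include h

theorem Aa.conj (ha : Aa Q ι P e a) (hg : g ∈ P) : Aa Q ι P (wa ι g e) (wa ι g a) := by
  obtain ⟨h1, x, hx, e1⟩ := ha
  refine ⟨by rwa [b_wa h.cl (h.sp g hg)], g * x * g⁻¹, P.mul_mem (P.mul_mem hg hx) (P.inv_mem hg), ?_⟩
  simp only [ι_wa h.cl (h.sp g hg), nc k V, e1]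

theorem Aa.aniso (tv : NoTv P) (e0 : e ≠ 0) (qe : Q e = 0) (ha : Aa Q ι P e a) (qa : Q a = 0) :
    ∃ t : k, a = t • e := by
  have c := h.cl
  obtain ⟨h1, g, hg, e1⟩ := ha
  by_cases g1 : g = 1
  · exact dep_of_scal c (c := 0) e0 (by simpa [g1] using e1)
  obtain ⟨a', w, a0, qa', h2, qw, e2⟩ := h.short tv hg (T_sh c qe h1 e1) g1
  have e3 : ∀ v, ι e (ι a v) = ι a' (ι w v) := LinearMap.congr_fun (add_left_cancel (e1.symm.trans e2))
  by_cases a1 : a = 0
  · exact ⟨0, by simp [a1]⟩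
  obtain ⟨s, hs⟩ := dep0 c e0 qe (f := a') fun v hv =>
    ker_sh c h2 qw (by rw [← e3, ac0v c h1, hv]; simp)
  obtain ⟨t, ht⟩ := dep0 c a1 qa (f := a') fun v hv => ker_sh c h2 qw (by rw [← e3, hv]; simp)
  have t0 : t ≠ 0 := by rintro rfl; exact a0 (by simpa using ht)
  exact ⟨t⁻¹ * s, by rw [mul_smul, ← hs, ht, smul_smul, inv_mul_cancel₀ t0, one_smul]⟩

theorem inQ (tv : NoTv P) (f0 : f ≠ 0) (qf : Q f = 0) (hg : g ∈ P)
    (hL : ∀ v, ι f v = 0 → g.1 v = v) : ∃ b, Orth.B Q f b = 0 ∧ g.1 = 1 + ι f * ι b := by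
  have c := h.cl
  have sg := h.sp g hg
  by_cases g1 : g = 1
  · exact ⟨0, by simp, by simp [g1]⟩
  have e1 : ∀ z, ι f (g.1 z - z) = 0 := fun z => c.symp.nd' _ fun w => by
    have := hL (ι f w) (by simp [c.sq, qf])
    rw [c.adj, map_sub, LinearMap.sub_apply, ← this, sg, this, sub_self]
  obtain ⟨a', w, a0, qa', h2, qw, e2⟩ := h.short tv hg (T_two_iff.2 (LinearMap.ext fun v => by
    simpa [sub_eq_zero] using hL _ (e1 v))) g1
  obtain ⟨s, hs⟩ := dep0 c f0 qf (f := a') fun v hv => ker_sh c h2 qw (by simpa [e2] using hL v hv)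
  have s0 : s ≠ 0 := by rintro rfl; exact a0 (by simpa using hs)
  subst hs
  exact ⟨s • w, by simpa using h2, by simp [e2]⟩

/-- a unipotent element commuting with a short root element lies in its root group -/
theorem comm_Q (tv : NoTv P) (f0 : f ≠ 0) (qf : Q f = 0) (hb : Orth.B Q f b = 0) (qb : Q b ≠ 0)
    (hy : y.1 = 1 + ι f * ι b) (hg : g ∈ P) (hu : Un g) (hc : g * y = y * g) :
    ∃ b, Orth.B Q f b = 0 ∧ g.1 = 1 + ι f * ι b := by
  have c := h.cl
  have sg := h.sp g hg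
  set M := ι f * ι b with hM
  have cm : ∀ z, g.1 (M z) = M (g.1 z) := fun z => by
    have := LinearMap.congr_fun (congrArg Units.val hc) z
    simpa [hy] using this
  have sy : ∀ z z', B z (M z') = B z' (M z) := fun z z' => by
    simp only [hM, End.mul_apply]
    rw [← c.adj, ← c.adj, c.symp.skew, ac0v c hb z]; simp
  have rg : ∀ v, ι f v = 0 → ∃ z, v = M z := fun v hv => by
    obtain ⟨u, rfl⟩ := L_range c f0 qf hv
    exact ⟨(Q b)⁻¹ • ι b u, by simp [hM, c.sq, smul_smul, qb]⟩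
  have kr : ∀ z, ι f (M z) = 0 := fun z => by simp [hM, c.sq, qf]
  refine inQ h tv f0 qf hg fun v hv => ?_
  by_contra hne
  obtain ⟨z1, h1, h2⟩ : ∃ z1, g.1 (M z1) - M z1 ≠ 0 ∧
      g.1 (g.1 (M z1) - M z1) = g.1 (M z1) - M z1 := by
    obtain ⟨z, rfl⟩ := rg v hv
    have h4 := LinearMap.congr_fun (hu.four c sg) (M z)
    by_cases a1 : (g.1 - 1) ((g.1 - 1) (M z)) = 0
    · exact ⟨z, sub_ne_zero.2 hne, by simpa [sub_eq_zero] using a1⟩
    by_cases a2 : (g.1 - 1) ((g.1 - 1) ((g.1 - 1) (M z))) = 0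
    · exact ⟨(g.1 - 1) z, by simpa [cm] using a1, by simpa [sub_eq_zero, cm] using a2⟩
    · exact ⟨(g.1 - 1) ((g.1 - 1) z), by simpa [cm] using a2, by
        simpa [sub_eq_zero, cm, pow_succ] using h4⟩
  set z0 := g.1 z1 - z1 with hz0
  have e0 : g.1 (M z1) - M z1 = M z0 := by rw [hz0, map_sub, cm]
  rw [e0] at h1 h2
  have e1 : g.1 z1 = z1 + z0 := by rw [hz0]; abel
  have e2 : g.1 (M z1) = M z1 + M z0 := by rw [← e0]; abel
  have b1 : B z0 (M z0) = 0 := by
    have := sg z1 (M z0)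
    rw [e1, h2, map_add, LinearMap.add_apply] at this
    linear_combination this
  have b2 : B z1 (M z0) = 0 := by
    have := sg z1 (M z1)
    simp only [e1, e2, map_add, LinearMap.add_apply, b1, sy z0 z1] at this
    exact (mul_eq_zero.1 (show 2 * B z1 (M z0) = 0 by linear_combination this)).resolve_left c.two
  refine h1 (c.symp.nd _ fun w => ?_)
  obtain ⟨s, t, hw⟩ := span2 (finrank_L c f0 qf) (a := M z0) (b := M z1) (kr _) (kr _) h1 (fun t ht => by
    rw [ht, map_smul, h2, left_eq_add] at e2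
    exact h1 e2) (w := M w) (kr _)
  rw [sy, hw]; simp [b1, sy z0 z1, b2]

end Cfsg.Agent.H2.SP
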