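import Cfsg.Agent.H2.SP8

/-! Large short root groups: inversion and Hua maps. -/

set_option autoImplicit false
set_option linter.unusedSimpArgs false
set_option linter.unusedSectionVars false
set_option linter.unusedVariables false

namespace Cfsg.Agent.H2.SP

open Module Cfsg.Agent.H8.M3 Cfsg.Agent.H6.S4
open Cfsg.Agent.H9.Sp hiding T

universe u

variable {k V W : Type*} [Field k] [AddCommGroup V] [Module k V] [FiniteDimensional k V]
  [AddCommGroup W] [Module k W] [FiniteDimensional k W]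
  {B : V →ₗ[k] V →ₗ[k] k} {Q : QuadraticForm k W} {ι : W →ₗ[k] End k V}
  {G : Type u} [Group G] {P : Subgroup (End k V)ˣ} {π : P →* G} {p : ℕ}
  {g x y : (End k V)ˣ} {e f a a' b : W}

theorem eig (c : Cl B Q ι) (e0 : e ≠ 0) (qe : Q e = 0) (ea : Orth.B Q e a = 0)
    (eb : Orth.B Q e b = 0) (qa : Q a ≠ 0) {τ : k}
    (hτ : τ * τ + Orth.B Q a b * τ + Q a * Q b = 0) :
    ∃ v, v ≠ 0 ∧ ι e v = 0 ∧ ι a (ι b v) = (-τ) • v := by
  have ke : ∀ v, ι e v = 0 → ι e (ι a v) = 0 ∧ ι e (ι b v) = 0 := fun v hv => by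
    rw [ac0v c ea, ac0v c eb, hv]; simp
  set τ' := -Orth.B Q a b - τ with hτ'
  by_cases hh : ∃ u, ι e u = 0 ∧ ι a (ι b u) + τ' • u ≠ 0
  · obtain ⟨u, h1, h2⟩ := hh
    refine ⟨_, h2, by simp [h1, (ke _ (ke _ h1).2).1], ?_⟩
    simp only [map_add, map_smul, c.anti b a, map_sub, c.sq, Orth.B_comm Q b a, hτ']
    linear_combination (norm := module) -hτ • u
  · push Not at hh
    obtain ⟨v, hv, v0⟩ := ne2 (finrank_L c e0 qe)
    have h1 := hh v hv
    have h2 := congrArg (ι a) (hh _ (ke v hv).1)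
    simp only [map_add, map_smul, c.sq, map_zero, c.anti b a, Orth.B_comm Q b a, map_sub] at h2
    have h3 : ι a (ι b v) = (-τ') • v := by linear_combination (norm := module) h1
    have h4 : (Orth.B Q a b + 2 * τ') • v = 0 := smul_right_injective V qa (by
      simp only [h3] at h2
      linear_combination (norm := module) h2)
    refine ⟨v, v0, hv, ?_⟩
    rw [h3, show τ' = τ by linear_combination (smul_eq_zero.1 h4).resolve_right v0 - hτ']

theorem nmv (c : Cl B Q ι) (ef : Orth.B Q e f = 1) (ea : Orth.B Q e a = 0) (eb : Orth.B Q e b = 0)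
    {v : V} (hv : ι e v = 0) : ι e (ι a (ι f (ι b v))) = -ι a (ι b v) := by
  rw [ac0v c ea, c.anti e f, ef, ac0v c eb, hv]; simp

theorem Aa.norm (c : Cl B Q ι) (qf : Q f = 0) (ef : Orth.B Q e f = 1) (hb : Aa Q ι P f b) :
    Aa Q ι P f (b - Orth.B Q e b • f) ∧ Orth.B Q e (b - Orth.B Q e b • f) = 0 ∧
      Q (b - Orth.B Q e b • f) = Q b :=
  ⟨hb.sub c qf (Aa.self c qf _), by simp [ef], by
    rw [Orth.Q_sub, Orth.Q_smul, qf, map_smul, Orth.B_comm Q b, hb.1]; simp⟩

variable (h : St B Q ι P π) (tv : NoTv P) [Fact p.Prime] [CharP k p] [IsAlgClosed k]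
include h tv

theorem pick (hf : Lg p Q ι P f) (ef : Orth.B Q e f = 1) (qa : Q a ≠ 0) :
    ∃ b τ, Aa Q ι P f b ∧ Orth.B Q e b = 0 ∧ Q b ≠ 0 ∧
      τ * τ + Orth.B Q a b * τ + Q a * Q b = 0 ∧ (5 ≤ p ∨ τ * τ ≠ -1) := by
  have c := h.cl
  obtain ⟨f0, qf, b1, b2, h1, h2, q1, hp⟩ := hf
  have rt : ∀ s n : k, ∃ τ, τ * τ + s * τ + n = 0 := fun s n => by
    obtain ⟨r, hr⟩ := IsAlgClosed.exists_eq_mul_self (s * s - 4 * n)
    have := c.two
    exact ⟨(r - s) / 2, by field_simp; linear_combination -hr⟩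
  obtain ⟨a1, a2, a3⟩ := h1.norm c qf ef
  obtain ⟨a4, a5, a6⟩ := h2.norm c qf ef
  obtain ⟨-, -, a7⟩ := (h1.add c qf h2).norm c qf ef
  obtain ⟨-, -, a8⟩ := (h1.sub c qf h2).norm c qf ef
  rw [show b1 + b2 - Orth.B Q e (b1 + b2) • f = (b1 - Orth.B Q e b1 • f) + (b2 - Orth.B Q e b2 • f) by
    rw [map_add]; module] at a7
  rw [show b1 - b2 - Orth.B Q e (b1 - b2) • f = (b1 - Orth.B Q e b1 • f) - (b2 - Orth.B Q e b2 • f) by
    rw [map_sub]; module] at a8
  rw [← a3] at q1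
  rw [← a6, ← a7, ← a8] at hp
  generalize b1 - Orth.B Q e b1 • f = c1 at *
  generalize b2 - Orth.B Q e b2 • f = c2 at *
  rcases hp with hp | ⟨hp, q2, q3, q4⟩
  · obtain ⟨τ, hτ⟩ := rt (Orth.B Q a c1) (Q a * Q c1)
    exact ⟨c1, τ, a1, a2, q1, hτ, Or.inl hp⟩
  by_contra! hh
  have h3 : (3 : k) = 0 := three_eq hp
  have key : ∀ b, Aa Q ι P f b → Orth.B Q e b = 0 → Q b ≠ 0 →
      (Orth.B Q a b = 0 ∧ Q a * Q b = 1) ∨ (Orth.B Q a b ^ 2 = -1 ∧ Q a * Q b = -1) := fun b b1 b2 b3 => by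
    obtain ⟨τ, hτ⟩ := rt (Orth.B Q a b) (Q a * Q b)
    have e1 := (hh b τ b1 b2 b3 hτ).2
    have e2 := (hh b (-Orth.B Q a b - τ) b1 b2 b3 (by linear_combination hτ)).2
    grind
  have k1 := key _ a1 a2 q1
  have k2 := key _ a4 a5 q2
  have k3 := key _ (a1.add c qf a4) (by simp [a2, a5]) q3
  have k4 := key _ (a1.sub c qf a4) (by simp [a2, a5]) q4
  simp only [map_add, map_sub, Orth.Q_add, Orth.Q_sub] at k3 k4
  have := c.two
  grind

theorem exists_u (he : Lg p Q ι P e) (hf : Lg p Q ι P f) (ef : Orth.B Q e f = 1) (ha : Aa Q ι P e a)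
    (qa : Q a ≠ 0) : ∃ v b, v ≠ 0 ∧ ι e v = 0 ∧ Aa Q ι P f b ∧ Orth.B Q e b = 0 ∧ ι a (ι b v) = v := by
  have c := h.cl
  have := h.fin
  obtain ⟨b, τ, ⟨fb, y, hy, ey⟩, eb, qb, hτ, hp⟩ := pick h tv hf ef qa
  obtain ⟨ea, x, hx, ex⟩ := ha
  obtain ⟨v, v0, ev, hv⟩ := eig c he.1 he.2.1 ea eb qa hτ
  have qf := hf.2.1
  have τ0 : τ ≠ 0 := by rintro rfl; simp [qa, qb] at hτ
  obtain ⟨w, hw⟩ : ∃ w, w = ι f (ι b v) := ⟨_, rfl⟩
  have fw : ι f w = 0 := by simp [hw, c.sq, qf]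
  have xv : x.1 v = v := by simp [ex, ac0v c ea, ev]
  have nw : ι e (ι a w) = τ • v := by simp [hw, nmv c ef ea eb ev, hv]
  have xw : x.1 w = w + τ • v := by simp [ex, nw]
  have yv : y.1 v = v + w := by simp [ey, hw]
  have yw : y.1 w = w := by simp [ey, ← neg_eq_zero (a := ι f _), ← ac0v c (Orth.B_comm Q f b ▸ fb), fw]
  have w0 : w ≠ 0 := fun e => by rw [e] at nw; exact smul_ne_zero τ0 v0 (by simpa using nw.symm)
  obtain ⟨d, hd, ε, hε, dv, dw⟩ : ∃ d ∈ P, ∃ ε : k, ε * ε = 1 ∧ d.1 v = ε • (v - τ⁻¹ • w) ∧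
      d.1 w = ε • w := by
    by_cases h1 : τ = 1
    · exact ⟨y⁻¹, P.inv_mem hy, 1, by simp, u_inj y (by simp [h1, yv, yw]), u_inj y (by simp [yw])⟩
    by_cases h2 : τ = -1
    · exact ⟨y, hy, 1, by simp, by simp [h2, yv], by simp [yw]⟩
    obtain ⟨⟨d, hd, h3⟩, -⟩ := dk (p := p) c.two
      (finSub P (fun d => Act v w d.1) (Act.one _ _) fun a _ b _ h1 h2 => h1.mul h2)
      (hfin := fin_finSub _ _ _ _) (fun d hd => hd.2) (x := x) (y := y)
      ⟨hx, act_of (a := 1) (b := 0) (c := τ) (d := 1) (by simp [xv]) (by simp [xw, add_comm])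
        (by simp)⟩
      ⟨hy, act_of (a := 1) (b := 1) (c := 0) (d := 1) (by simp [yv]) (by simp [yw]) (by simp)⟩
      τ0 v0 xv xw yv yw (hp.imp_right fun h3 h4 => by grind)
    exact ⟨d, hd.1, h3⟩
  obtain ⟨r, j, hr, hj⟩ := h.ppart (p := p) hd
  have pw : ∀ n : ℕ, (d ^ n).1 v = ε ^ n • (v - ((n : k) * τ⁻¹) • w) ∧ (d ^ n).1 w = ε ^ n • w := fun n => by
    induction n with
    | zero => simp
    | succ n ih =>
      simp only [pow_succ' d, um, ih, map_smul, map_sub, dv, dw]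
      push_cast
      constructor <;> module
  have p1 : p - 1 ≠ 0 := by have := three_le (p := p) c; omega
  set n := (2 * r) ^ (p - 1) with hn
  have n1 : (n : k) = 1 := by
    have h1 : ((2 * r : ℕ) : k) ≠ 0 := by
      push_cast; exact mul_ne_zero c.two (cast_ne hr)
    have h2 : ((2 * r : ℕ) : k) ^ p = ((2 * r : ℕ) : k) := by
      rw [← frobenius_def, map_natCast]
    rw [hn, Nat.cast_pow]
    apply mul_right_cancel₀ h1
    rw [← pow_succ, Nat.sub_add_cancel (by omega), h2, one_mul]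
  obtain ⟨m, hm⟩ : 2 * r ∣ n := dvd_pow_self _ p1
  have n2 : ε ^ n = 1 := by rw [hm, mul_assoc, pow_mul, sq, hε, one_pow]
  obtain ⟨uv, uw⟩ := pw n
  rw [n1, n2, one_mul, one_smul] at uv
  rw [n2, one_smul] at uw
  have uu : Un (d ^ n) := un_of_pow (p := p) (a := j) c (by
    rw [← pow_mul, hm, show 2 * r * m * p ^ j = r * p ^ j * (2 * m) by ring, pow_mul, hj, one_pow])
  have hu : d ^ n ∈ P := P.pow_mem hd n
  generalize d ^ n = u at *
  obtain ⟨b', fb', eu⟩ : ∃ b', Orth.B Q f b' = 0 ∧ u.1 = 1 + ι f * ι b' := by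
    by_cases bw : B v w = 0
    · refine comm_Q h tv hf.1 qf fb qb ey hu uu ?_
      set g := (y * u)⁻¹ * (u * y) with hg
      have gP : g ∈ P := P.mul_mem (P.inv_mem (P.mul_mem hy hu)) (P.mul_mem hu hy)
      have gv : g.1 v = v := u_inj (y * u) (by
        rw [hg, um _ (u * y), iu]; simp only [um, uv, uw, yv, yw, map_add, map_sub, map_smul]; abel)
      have gw : g.1 w = w := u_inj (y * u) (by rw [hg, um _ (u * y), iu]; simp only [um, uw, yw])
      have hwv : ∀ t : k, w ≠ t • v := by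
        rintro t rfl
        rw [map_smul, xv, left_eq_add] at xw
        exact smul_ne_zero τ0 v0 xw
      have d2 : finrank k (Submodule.span k {v, w}) = 2 := by
        have := finrank_span_eq_card ((LinearIndependent.pair_iff' v0).2 fun c e => hwv c e.symm)
        rw [Matrix.range_cons_cons_empty] at this
        simpa using this
      have d3 := c.symp.finrank_perp (Submodule.span k {v, w})
      have pm : ∀ z, B v z = 0 → B w z = 0 → z ∈ perp B (Submodule.span k {v, w}) := fun z a1 a2 s hs => by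
        obtain ⟨a, b, rfl⟩ := Submodule.mem_span_pair.1 hs
        simp [a1, a2]
      have hT : T g = (2 : k) • 1 := T_two_iff.2 (LinearMap.ext fun z => by
        have a1 := h.sp g gP v z
        have a2 := h.sp g gP w z
        rw [gv] at a1
        rw [gw] at a2
        obtain ⟨s, t, hz⟩ := span2 (U := perp B (Submodule.span k {v, w})) (by have := c.dimV; omega)
          (pm v (c.symp.alt v) (c.symp.comm.1 bw)) (pm w bw (c.symp.alt w)) v0 hwv
          (pm (g.1 z - z) (by simp [a1]) (by simp [a2]))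
        simp only [End.mul_apply, LinearMap.sub_apply, End.one_apply, hz, map_add, map_smul, gv, gw,
          sub_self, LinearMap.zero_apply, smul_zero, add_zero])
      obtain ⟨b', fb', eg⟩ := fixQ h tv hf gP hT w0 fw gw
      by_cases qb' : Q b' = 0
      · obtain ⟨t, rfl⟩ := Aa.aniso h tv hf.1 qf ⟨fb', g, gP, eg⟩ qb'
        exact (inv_mul_eq_one.1 (Units.ext (by simpa [sq' c, qf] using eg) : g = 1)).symm
      · exact absurd (by rw [hw, ac0v c fb, ker_sh c fb' qb' (by simpa [eg] using gv)]; simp) w0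
    · obtain ⟨s, m, e1⟩ := exists_T c (h.sp u hu)
      obtain ⟨rfl, qm⟩ := un_T c uu e1
      have a1 : u⁻¹.1 w = w := u_inj u (by simp [uw])
      have a2 : u⁻¹.1 v = v + τ⁻¹ • w := u_inj u (by simp [uw, uv])
      have a3 := LinearMap.congr_fun e1 v
      have a4 := LinearMap.congr_fun e1 w
      simp only [T, LinearMap.add_apply, a1, a2, uv, uw, LinearMap.smul_apply, End.one_apply] at a3 a4
      have m0 : m = 0 := by
        by_contra m0
        exact bw (L_ti c m0 qm (by linear_combination (norm := module) -a3)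
          (by linear_combination (norm := module) -a4))
      exact fixQ h tv hf hu (by simpa [m0] using e1) w0 fw uw
  obtain ⟨a1, a2, -⟩ := Aa.norm c qf ef ⟨fb', u, hu, eu⟩
  refine ⟨v, _, v0, ev, a1, a2, neg_injective ?_⟩
  rw [← nmv c ef ea a2 ev]
  have : ι f (ι (b' - Orth.B Q e b' • f) v) = -(τ⁻¹ • w) := by
    simpa [eu, c.sq, qf, sub_eq_add_neg] using uv
  rw [this]; simp [nw, smul_smul, τ0]

theorem Aa.inv (he : Lg p Q ι P e) (hf : Lg p Q ι P f) (ef : Orth.B Q e f = 1) (ha : Aa Q ι P e a)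
    (fa : Orth.B Q f a = 0) (qa : Q a ≠ 0) : Aa Q ι P f ((Q a)⁻¹ • a) := by
  have c := h.cl
  obtain ⟨v, b, v0, ev, ⟨fb, y, hy, ey⟩, eb, hv⟩ := exists_u h tv he hf ef ha qa
  have ha' := ha
  obtain ⟨ea, x, hx, ex⟩ := ha
  have qf := hf.2.1
  have hP : x * y * x ∈ P := P.mul_mem (P.mul_mem hx hy) hx
  have sP := h.sp _ hP
  have app : ∀ z, ι e z = 0 → (x * y * x).1 z = ι f (ι b z) + (z - ι a (ι b z)) := fun z hz => by
    simp only [um, ex, ey, LinearMap.add_apply, End.one_apply, End.mul_apply, ac0v c ea z, hz,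
      map_zero, neg_zero, add_zero, map_add, nmv c ef ea eb hz]
    abel
  have k1 : ∀ z, ι e z = 0 → ι (wa ι (x * y * x) e) ((x * y * x).1 z) = 0 := fun z hz => by
    rw [← app_ι c sP, hz, map_zero]
  obtain ⟨t, ht⟩ := K0 h tv hf (wa_ne c sP he.1) (by rw [Q_wa c sP, he.2.1]) (ha'.conj h hP)
    (by rwa [Q_wa c sP]) (perp_of_ker c (u_ne _ v0) (by rw [app v ev]; simp [hv, c.sq, qf]) (k1 v ev))
  have t0 : t ≠ 0 := by rintro rfl; exact wa_ne c sP he.1 (by simpa using ht)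
  obtain ⟨s, hs⟩ := dep0 c he.1 he.2.1 (f := Q a • b - a) fun z hz => by
    have a1 := k1 z hz
    rw [ht, app z hz, map_smul, LinearMap.smul_apply, smul_eq_zero, map_add, c.sq, qf, zero_smul,
      zero_add] at a1
    have a2 : ι e (z - ι a (ι b z)) = 0 := by simp [ac0v c ea, ac0v c eb, hz]
    have a3 := c.anti e f (z - ι a (ι b z))
    rw [a1.resolve_left t0, a2, ef] at a3
    have a4 := congrArg (ι a) a3
    simp only [map_zero, one_smul, sub_zero, map_sub, c.sq] at a4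
    simp only [map_sub, map_smul, LinearMap.sub_apply, LinearMap.smul_apply]
    linear_combination (norm := module) a4
  have s0 := congrArg (Orth.B Q f) hs
  simp only [map_sub, map_smul, fb, fa, Orth.B_comm Q f e, ef, smul_eq_mul] at s0
  have : (Q a)⁻¹ • a = b := by
    rw [show s = 0 by linear_combination -s0, zero_smul, sub_eq_zero] at hs
    rw [inv_smul_eq_iff₀ qa, hs]
  exact this ▸ ⟨fb, y, hy, ey⟩

theorem Aa.sq (he : Lg p Q ι P e) (hf : Lg p Q ι P f) (ef : Orth.B Q e f = 1) (ha : Aa Q ι P e a)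
    (fa : Orth.B Q f a = 0) (qa : Q a ≠ 0) (hb : Aa Q ι P f b) (eb : Orth.B Q e b = 0) :
    Aa Q ι P e (Orth.B Q a b • a - Q a • b) := by
  have c := h.cl
  obtain ⟨fb', y, hy, ey⟩ := ha.inv h tv he hf ef fa qa
  obtain ⟨ea, x, hx, ex⟩ := ha
  have wx := wa_sh c (h.sp x hx) he.2.1 ea ex
  have wy := wa_sh c (h.sp y hy) hf.2.1 fb' ey
  have := ((hb.conj h hx).conj h hy).conj h hx
  have af : Orth.B Q a f = 0 := by rwa [Orth.B_comm]
  have ae : Orth.B Q a e = 0 := by rwa [Orth.B_comm]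
  have fe : Orth.B Q f e = 1 := by rwa [Orth.B_comm]
  have qi := mul_inv_cancel₀ qa
  have e1 : wa ι x (wa ι y (wa ι x f)) = (-Q a) • e := by
    have : wa ι y (wa ι x f) = (-Q a) • e := by
      simp only [wx, wy, map_add, map_sub, map_smul, ef, af, fa, fe, Orth.B_self, hf.2.1, smul_eq_mul,
        LinearMap.smul_apply, ae, Orth.Q_smul]
      linear_combination (norm := module) qi • a + (Q a * (Q a)⁻¹ - 1) • qi • f
    rw [this]; simp [wx, Orth.B_self, he.2.1, ae]
  have e2 : wa ι x (wa ι y (wa ι x b)) = b - (Orth.B Q a b * (Q a)⁻¹) • a := by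
    have : wa ι y (wa ι x b) = b + Orth.B Q a b • e - (Orth.B Q a b * (Q a)⁻¹) • a := by
      simp only [wx, wy, map_add, map_sub, map_smul, eb, hb.1, fe, smul_eq_mul,
        LinearMap.smul_apply, ae, Orth.Q_smul]
      linear_combination (norm := module) (-(Orth.B Q a b * (Q a)⁻¹)) • qi • f
    rw [this]
    simp only [wx, map_add, map_sub, map_smul, eb, ea, ae, Orth.B_self, he.2.1, smul_eq_mul]
    linear_combination (norm := module) (-2 * Orth.B Q a b) • qi • e
  rw [e1, e2, Aa.smul c (neg_ne_zero.2 qa)] at this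
  convert this using 1
  linear_combination (norm := module) (-Orth.B Q a b) • qi • a

end Cfsg.Agent.H2.SP
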