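import Cfsg.Agent.H2.TO21

set_option autoImplicit false
set_option linter.unusedSectionVars false
set_option linter.unusedSimpArgs false

/-! Orthogonal tensor frames in even dimension, part 1: geometry of the factor, brackets. -/

namespace Cfsg.Agent.H2.TO

open Module Cfsg.Agent.Orth Cfsg.Agent.H1.TW

variable {F : Type*} [Field F] [Finite F] {U : Type*} {V : Type*} [AddCommGroup U] [Module F U]
  [AddCommGroup V] [Module F V] [FiniteDimensional F U] [FiniteDimensional F V]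
  {Q₁ : QuadraticForm F U} {Q : QuadraticForm F V} {σ σ' τ : Fr F U V}
  {M : Subgroup (End F V)ˣ} {L : Submodule F V} {I : Submodule F (End F V)}

theorem Sz.exists_y2 (hz : Sz Q₁) (h4 : 4 ≤ finrank F U) (a b : U) :
    ∃ y, B Q₁ a y = 0 ∧ B Q₁ b y = 0 ∧ Q₁ y ≠ 0 := by
  by_contra! h
  have hT : TS Q₁ (perp Q₁ (Submodule.span F {a, b})) := fun y hy =>
    h y (mem_perp_span.1 hy a (by simp)) (mem_perp_span.1 hy b (by simp))
  have := finrank_perp_ge (Q := Q₁) (Submodule.span F {a, b})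
  have := Orth.finrank_span_pair_le (F := F) a b
  by_cases h5 : finrank F U < 5
  · have := hz.not_ts h5 hT
    omega
  · have := hz.n1.ndOn_top.ts_finrank_le le_top hT.le_perp
    rw [finrank_top] at this
    omega

theorem eN_all' (hz : Sz Q₁) (J : Submodule F (End F U))
    (k2 : ∀ u v, Q₁ u = 0 → B Q₁ u v = 0 → eN Q₁ u v ∈ J) (x y : U) : eN Q₁ x y ∈ J := by
  have hQ := hz.n1
  have h2 := hz.h2
  have ha := hz.h3
  let T : U → Submodule F U := fun u =>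
    { carrier := {v | eN Q₁ u v ∈ J}
      add_mem' := fun {a b} ha hb => by
        change eN Q₁ u _ ∈ J
        convert J.add_mem ha hb using 1
        ext v; simp [add_smul]; abel
      zero_mem' := by change eN Q₁ u _ ∈ J; convert J.zero_mem using 1; ext v; simp
      smul_mem' := fun c a ha => by
        change eN Q₁ u _ ∈ J
        convert J.smul_mem c ha using 1
        ext v; simp [smul_sub, smul_smul, mul_comm] }
  have hsk : ∀ u v, eN Q₁ u v ∈ J → eN Q₁ v u ∈ J := fun u v h => by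
    convert J.neg_mem h using 1; ext x; simp
  have k3 : ∀ u v, Q₁ u = 0 → eN Q₁ u v ∈ J := by
    intro u v hu
    by_cases hu0 : u = 0
    · exact k2 u v hu (by simp [hu0])
    obtain ⟨e, he, hue⟩ := hz.partner hu hu0
    have := finrank_perp_ge (Q := Q₁) (Submodule.span F {u, e})
    have := Orth.finrank_span_pair_le (F := F) u e
    obtain ⟨s, hs, hs0⟩ := ((OO.ndOn_hyp hu he (by simp [hue])).perp hQ).exists_nonsing le_rfl (by omega)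
    have b1 : B Q₁ u s = 0 := mem_perp_span.1 hs u (by simp)
    have b2 : B Q₁ e s = 0 := mem_perp_span.1 hs e (by simp)
    have h3 : eN Q₁ u e ∈ J := by
      have h4 := k2 (s + u - Q₁ s • e) (s + (2 : F) • u)
        (by simp [Q_sub, Q_add, Q_smul, hu, he, hue, B_comm Q₁ s, b1, b2])
        (by simp [B_self, hu, B_comm Q₁ s, B_comm Q₁ e u, hue, b1, b2]; ring)
      convert J.smul_mem (2 * Q₁ s)⁻¹ (J.add_mem (J.add_mem h4 (k2 u s hu b1))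
        (J.smul_mem (Q₁ s) (k2 e s he b2))) using 1
      ext x
      simp only [eN_apply, LinearMap.smul_apply, LinearMap.add_apply, map_add, map_sub, map_smul,
        LinearMap.sub_apply, smul_eq_mul]
      match_scalars <;> field_simp <;> ring
    have h4 : v = (v - B Q₁ u v • e) + B Q₁ u v • e := by abel
    rw [h4]
    exact (T u).add_mem (k2 u _ hu (by simp [hue])) ((T u).smul_mem _ h3)
  by_contra hn
  obtain ⟨e, -, he0, he1⟩ := hQ.ndOn_top.exists_sing_notMem (H := ⊤) (Y := T x)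
    le_top (by rw [finrank_top]; omega) (fun h => hn (h trivial))
  exact he1 (hsk _ _ (k3 e x he0))

theorem eN_add (w x y : U) : eN Q₁ w (x + y) = eN Q₁ w x + eN Q₁ w y := by
  ext v; simp [add_smul]; abel

theorem eN_sub (w x y : U) : eN Q₁ w (x - y) = eN Q₁ w x - eN Q₁ w y := by
  ext v; simp [smul_sub, sub_smul]; abel

theorem eN_smul (s : F) (w y : U) : eN Q₁ w (s • y) = s • eN Q₁ w y := by
  ext x; simp [smul_sub, smul_smul, mul_comm]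

theorem Iv.ad' (hz : Sz Q₁) (h4 : 4 ≤ finrank F U) (h : Iv (Gm Q₁) σ I) {u v : U} (hu : Q₁ u = 0)
    (hv : B Q₁ u v = 0) {z : End F V} (hI : z ∈ I) : σ (eN Q₁ u v) * z - z * σ (eN Q₁ u v) ∈ I := by
  have h2 := hz.h2
  have hD : ∀ v, B Q₁ u v = 0 → (σ (eN Q₁ u v) * z - z * σ (eN Q₁ u v)) + Q₁ v •
      (σ (nn Q₁ u) * z * σ (eN Q₁ u v) - σ (eN Q₁ u v) * z * σ (nn Q₁ u)) ∈ I := fun v hv => by
    have hv' : B Q₁ u (-v) = 0 := by simp [hv]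
    refine (I.smul_mem_iff h2).1 ?_
    convert I.sub_mem (h _ (hz.eich_mem u v) z hI) (h _ (hz.eich_mem u (-v)) z hI) using 1
    have e : eN Q₁ u (-v) = -eN Q₁ u v := by rw [← neg_one_smul F v, eN_smul, neg_one_smul]
    simp only [lf_inv_val, lf_val, eich_inv hu hv, eich_inv hu hv', neg_neg, eich_coe1 hu hv,
      eich_coe1 hu hv', e, QuadraticMap.map_neg, map_add, map_sub, map_smul, map_one, map_neg, mul_add,
      add_mul, mul_sub, sub_mul, mul_one, one_mul, mul_smul_comm, smul_mul_assoc, mul_neg, neg_mul]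
    module
  obtain ⟨y, b1, b2, q⟩ := hz.exists_y2 h4 u v
  have k := I.sub_mem (I.add_mem (hD (v + y) (by simp [hv, b1])) (hD (v - y) (by simp [hv, b1])))
    (I.smul_mem 2 (hD v hv))
  have k2 : σ (nn Q₁ u) * z * σ (eN Q₁ u v) - σ (eN Q₁ u v) * z * σ (nn Q₁ u) ∈ I := by
    refine (I.smul_mem_iff (mul_ne_zero h2 q)).1 ?_
    convert k using 1
    simp only [eN_add, eN_sub, Q_add, Q_sub, b2, map_add, map_sub, mul_add, add_mul, mul_sub, sub_mul]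
    module
  simpa using I.sub_mem (hD v hv) (I.smul_mem (Q₁ v) k2)

namespace Lc
variable {w w' : U} (H : Lc Q₁ Q σ w w') {z z' : End F V}
include H

theorem span_ei' (h4 : 4 ≤ finrank F U) {Z : Submodule F U} (hw : w ∈ Z)
    (h : ∀ a ∈ Gm Q₁, ∀ (α κ : F) y, α ≠ 0 → κ ≠ 0 → a w = α • w → a w' = α⁻¹ • w' → B Q₁ w y = 0 →
      y - α • a⁻¹ y = κ • y → y ∈ Z) : ∀ y, B Q₁ w y = 0 → y ∈ Z := by
  by_cases hq : 5 ≤ finrank F U ∨ ∃ t : F, t ≠ 0 ∧ t * t ≠ 1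
  · exact H.span_ei hq hw h
  push Not at hq
  refine H.of_W0 hw fun y b b' => ?_
  by_cases q : Q₁ y = 0
  · obtain ⟨c, rfl⟩ := H.sz.par hq.1 H.hw H.w0 b q
    exact Z.smul_mem c hw
  have r := H.W0_rk
  have := finrank_inf_perp_ge (Q := Q₁) (perp Q₁ (Submodule.span F {w, w'})) (F ∙ y)
  have := finrank_span_singleton_le (F := F) y
  obtain ⟨u, ⟨u1, u2⟩, u3⟩ := (H.W0_nd.inf_perp (OO.ndOn_one H.sz.h2 q)
    ((Submodule.span_singleton_le_iff_mem _ _).2 (mem_W0.2 ⟨b, b'⟩))).exists_nonsing le_rfl (by omega)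
  obtain ⟨d1, d2⟩ := mem_W0.1 u1
  have d3 : B Q₁ y u = 0 := mem_perp_span_singleton.1 u2
  have e : Q₁ y = Q₁ u := by
    rcases mul_self_eq_one_iff.1 (hq.2 _ (div_ne_zero q u3)) with e | e
    · exact (div_eq_one_iff_eq u3).1 e
    obtain ⟨s, hs⟩ := H.sz.par hq.1 H.hw H.w0 (y := y + u) (by simp [b, d1]) (by
      rw [Q_add, d3, (div_eq_iff u3).1 e]; ring)
    have := congrArg (B Q₁ y) hs
    simp [B_comm Q₁ y w, b, d3, B_self, q, H.sz.h2] at this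
  refine h _ (rr_mem q e) 1 2 y one_ne_zero H.sz.h2
    (by rw [one_smul, rr_fix (B_comm Q₁ w y ▸ b) (B_comm Q₁ w u ▸ d1)])
    (by rw [inv_one, one_smul, rr_fix (B_comm Q₁ w' y ▸ b') (B_comm Q₁ w' u ▸ d2)]) b ?_
  rw [mul_inv_rev, refl_inv, refl_inv, mul_app, refl_self q, map_neg, refl_of_perp (B_comm Q₁ y u ▸ d3)]
  module

theorem mv {r x : U} (hr : B Q₁ w r = 0) (hx : B Q₁ w x = 0) (h : B Q₁ x r ≠ 0) :
    ∃ a ∈ Gm Q₁, a w = w ∧ a w' = w' ∧ B Q₁ r (a r) ≠ 0 := by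
  by_cases q : Q₁ r ≠ 0
  · exact ⟨1, one_mem _, rfl, rfl, by simpa [one_app, B_self, H.sz.h2] using q⟩
  push Not at q
  obtain ⟨r₀, s, rfl, a1⟩ : ∃ r₀ s, r = r₀ + s • w ∧ B Q₁ w' r₀ = 0 :=
    ⟨r - B Q₁ w' r • w, _, (sub_add_cancel _ _).symm, by simp [H.b']⟩
  have a0 : B Q₁ w r₀ = 0 := by simpa [H.bw] using hr
  have q0 : Q₁ r₀ = 0 := by simpa [Q_add, Q_smul, H.hw, B_comm Q₁ r₀ w, a0] using q
  have h0 : B Q₁ x r₀ ≠ 0 := by simpa [B_comm Q₁ x w, hx] using h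
  have h5 : 5 ≤ finrank F U := by
    by_contra! h5
    obtain ⟨c, rfl⟩ := H.sz.par h5 H.hw H.w0 a0 q0
    simp [B_comm Q₁ x w, hx] at h0
  have m := mem_W0.2 ⟨a0, a1⟩
  obtain ⟨e, e1, e2, e3⟩ := Orth.exists_partner m q0 (H.W0_nd.exists_B_ne m (by rintro rfl; simp at h0))
  have l : Submodule.span F {r₀, e} ≤ perp Q₁ (Submodule.span F {w, w'}) :=
    Submodule.span_le.2 (by rintro _ (rfl | rfl); exacts [m, e1])
  have := H.W0_nd.finrank_inf_perp l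
  have := Orth.finrank_span_pair_le (F := F) r₀ e
  have := H.W0_rk
  obtain ⟨b, ⟨u1, u2⟩, u3⟩ := (H.W0_nd.inf_perp (OO.ndOn_hyp q0 e2 (by simp [e3])) l).exists_nonsing
    le_rfl (by omega)
  obtain ⟨d1, d2⟩ := mem_W0.1 u1
  obtain ⟨d3, d4⟩ := mem_W0.1 u2
  obtain ⟨d5, d6⟩ := mem_W0.1 e1
  have f1 : eich Q₁ e b w = w := eich_apply_of_perp (B_comm Q₁ w e ▸ d5) (B_comm Q₁ w b ▸ d1)
  refine ⟨_, H.sz.eich_mem e b, f1, eich_apply_of_perp (B_comm Q₁ w' e ▸ d6) (B_comm Q₁ w' b ▸ d2), ?_⟩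
  rw [map_add (eich Q₁ e b), map_smul, f1, eich_apply e2 d4]
  simpa [B_comm Q₁ e r₀, e3, B_comm Q₁ b r₀, d3, B_self, q0, H.hw, B_comm Q₁ r₀ w, a0, d1, d5] using u3

theorem bk_row (hz : z ∈ CA Q₁ σ w) (h0 : bk σ (B Q₁ w) w' z = 0) {y : U} (hy : B Q₁ w y = 0) :
    bk σ (B Q₁ w') y z = -bk σ (B Q₁ y) w' z := by
  rw [H.bk_col hz, show B Q₁ w' ∘ₗ xb Q₁ w w' y = (2 * B Q₁ w' y) • B Q₁ w - B Q₁ y by
    ext v; simp [xb_apply, hy, H.b']; ring, ← bl_apply, map_sub, map_smul]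
  simp [bl_apply, h0]

theorem c0_ad (h4 : 4 ≤ finrank F U) {y : U} (hz : σ (eN Q₁ w y) * z - z * σ (eN Q₁ w y) ∈ CA Q₁ σ w) :
    bk σ (B Q₁ w) w' (σ (eN Q₁ w y) * z - z * σ (eN Q₁ w y)) = 0 := by
  obtain ⟨x, b1, b2, q⟩ := H.sz.exists_y2 h4 w y
  have := H.bk_col hz (B Q₁ x) x
  rw [show B Q₁ x ∘ₗ xb Q₁ w w' x = (2 * Q₁ x) • B Q₁ w by
    ext v; simp [xb_apply, b1, B_comm Q₁ x w, B_self, mul_comm], map_sub, bk_left, bk_right,
    show B Q₁ x ∘ₗ eN Q₁ w y = 0 by ext v; simp [B_comm Q₁ x w, B_comm Q₁ x y, b1, b2],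
    show eN Q₁ w y x = 0 by simp [b1, b2]] at this
  simp only [← bl_apply, map_zero, LinearMap.zero_apply, sub_zero, map_smul, LinearMap.smul_apply] at this
  exact (smul_eq_zero.1 this.symm).resolve_left (mul_ne_zero H.sz.h2 q)

/-- a maximal nonzero bracket -/
theorem max_br (h4 : 4 ≤ finrank F U) (hI : Iv (Gm Q₁) σ I) (hz : z ∈ I) (h : z ∉ CA Q₁ σ w) :
    ∃ f ∈ I, f ≠ 0 ∧ f ∈ CA Q₁ σ w ∧ bk σ (B Q₁ w) w' f = 0 := by
  by_contra! hn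
  have k : ∀ z ∈ I, z ∉ CA Q₁ σ w → ∃ y, B Q₁ w y = 0 ∧ σ (eN Q₁ w y) * z - z * σ (eN Q₁ w y) ∈ I ∧
      σ (eN Q₁ w y) * z - z * σ (eN Q₁ w y) ∉ CA Q₁ σ w := fun z hz h => by
    obtain ⟨y, hy, h⟩ : ∃ y, B Q₁ w y = 0 ∧ σ (eN Q₁ w y) * z ≠ z * σ (eN Q₁ w y) := by
      by_contra! h'
      exact h (mem_CA.2 h')
    have := hI.ad' H.sz h4 H.hw hy hz
    exact ⟨y, hy, this, fun hc => hn _ this (sub_ne_zero.2 h) hc (H.c0_ad h4 hc)⟩
  obtain ⟨a, a1, a2, a3⟩ := k _ hz h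
  obtain ⟨b, b1, b2, b3⟩ := k _ a2 a3
  obtain ⟨c, c1, c2, c3⟩ := k _ b2 b3
  obtain ⟨d, d1, d2, d3⟩ := k _ c2 c3
  obtain ⟨e, e1, -, e3⟩ := k _ d2 d3
  refine e3 ?_
  have t : ∀ {x y u : U}, B Q₁ w x = 0 → B Q₁ w y = 0 → B Q₁ w u = 0 →
      σ (eN Q₁ w x) * (σ (eN Q₁ w y) * σ (eN Q₁ w u)) = 0 := fun hx hy hu => by
    rw [← map_mul, H.eN_mul hy hu, ← map_mul, mul_smul_comm, eN_nn H.hw hx, smul_zero, map_zero]
  have t' : ∀ {x y u : U} (z : End F V), B Q₁ w x = 0 → B Q₁ w y = 0 → B Q₁ w u = 0 →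
      σ (eN Q₁ w x) * (σ (eN Q₁ w y) * (σ (eN Q₁ w u) * z)) = 0 := fun z hx hy hu => by
    rw [← mul_assoc, ← mul_assoc, mul_assoc (σ _), t hx hy hu, zero_mul]
  simp only [mul_sub, sub_mul, mul_assoc, t, t', a1, b1, c1, d1, e1, mul_zero, sub_zero, zero_sub,
    sub_self, neg_zero, zero_mem, mul_neg, neg_mul]

end Lc

theorem bk_mul_sum (ψ : Dual F U) (b : U) (x y : End F V) :
    bk σ ψ b (x * y) = ∑ i, bk σ ψ (bs F U i) x * bk σ ((bs F U).coord i) b y := by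
  have e : ∀ χ, y * σ (r1 b χ) = ∑ i, σ (r1 (bs F U i) χ) * bk σ ((bs F U).coord i) b y := fun χ => by
    simp only [← sandwich, ← Finset.sum_mul, sum_rho, one_mul]
  simp only [bk_apply ψ, blk, mul_assoc, e, Finset.mul_sum, Finset.sum_mul]
  exact Finset.sum_comm

theorem ad_bk (n1 : Nd Q₁) (nd : Nd Q) (h : Adj Q₁ Q σ) {z z' : End F V} (hz : Ad Q z z') (a b : U) :
    Ad Q (bk σ (B Q₁ a) b z) (bk σ (B Q₁ b) a z') := by
  obtain ⟨c, hc⟩ := exists_ad nd (bk σ (B Q₁ a) b z)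
  have h1 := hc.cm n1 nd h (cm_bk _ _ _)
  by_cases h0 : ∃ u : U, u ≠ 0
  swap
  · push Not at h0
    rw [h0 b, h0 a]; simp only [← bl_apply, map_zero]; exact Ad.zero
  obtain ⟨u, hu⟩ := h0
  have e := ((h.r1 u u).mul hc).unique nd (sandwich (σ := σ) z u b (B Q₁ a) (B Q₁ u) ▸
    ((h.r1 u a).mul hz).mul (h.r1 b u))
  rw [← mul_assoc, sandwich, h1, ← sub_eq_zero, ← mul_sub] at e
  rwa [sub_eq_zero.1 (nz_mul (h1.sub (cm_bk _ _ _)) (fun h => by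
    obtain ⟨x, hx⟩ := n1.exists_B_ne hu
    simpa [hx, hu] using LinearMap.congr_fun h x) e)] at hc

theorem CA.cj {g : (End F V)ˣ} (hg : Cm σ (g : End F V)) {w : U} {z : End F V} (hz : z ∈ CA Q₁ σ w) :
    g * z * ↑g⁻¹ ∈ CA Q₁ σ w := mul_mem (mul_mem (CA_of_cm hg) hz) (CA_of_cm (Cm.inv hg))

theorem cj_nC {a : U ≃ₗ[F] U} (ha : a ∈ O Q₁) {C : End F V} (hC : Cm σ C) (w : U) :
    lf σ a * (σ (nn Q₁ w) * C) * ↑(lf σ a)⁻¹ = σ (nn Q₁ (a w)) * C := by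
  have := (conf_of_O ha).nn (σ := σ) w
  rw [inv_one, one_smul] at this
  rw [← this, lf_inv_val, mul_assoc _ _ C, ← hC (a⁻¹ : U ≃ₗ[F] U)]; simp only [mul_assoc]

theorem fix_inv {a : U ≃ₗ[F] U} {w : U} (h : a w = w) : a⁻¹ w = w := by
  conv_lhs => rw [← h, inv_apply_apply]

namespace Lc
variable {w w' : U} (H : Lc Q₁ Q σ w w') {z z' : End F V}
include H

theorem fix_conj {a : U ≃ₗ[F] U} (ha : a ∈ Gm Q₁) (a1 : a w = w) (a2 : a w' = w') (hz : z ∈ CA Q₁ σ w)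
    (h0 : bk σ (B Q₁ w) w' z = 0) : (lf σ a : End F V) * z * ↑(lf σ a)⁻¹ ∈ CA Q₁ σ w ∧
      bk σ (B Q₁ w) w' (lf σ a * z * ↑(lf σ a)⁻¹) = 0 :=
  ⟨CA.conj (conf_of_O (Gm_le_O ha)) one_ne_zero (by rwa [one_smul]) hz, by
    rw [bk_conj (Gm_le_O ha), fix_inv a1, fix_inv a2, h0]⟩

theorem mul_DL (hz : z ∈ CA Q₁ σ w) (h0 : bk σ (B Q₁ w) w' z = 0) (hz' : z' ∈ CA Q₁ σ w)
    (h0' : bk σ (B Q₁ w) w' z' = 0) : z * z' ∈ DL Q (Ln σ w) := H.cent (mul_mem hz hz') fun y hy => by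
  have k : ∀ b, bk σ (B Q₁ y) b z = B Q₁ w b • bk σ (B Q₁ y) w' z := fun b => by
    rw [H.bk_col hz, show B Q₁ y ∘ₗ xb Q₁ w w' b = B Q₁ y (b - B Q₁ w b • w') • B Q₁ w + B Q₁ w b • B Q₁ y by
      ext v; simp [xb_apply, hy, B_comm Q₁ y w]; ring, ← bl_apply, map_add, map_smul, map_smul]
    simp [bl_apply, h0]
  rw [← (bs F U).sum_dual_apply_smul_coord (B Q₁ w), ← bl_apply] at h0'
  simp only [map_sum, map_smul, LinearMap.sum_apply, LinearMap.smul_apply, bl_apply] at h0'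
  rw [bk_mul_sum]
  conv_lhs => arg 2; ext i; rw [k, smul_mul_assoc, ← mul_smul_comm]
  rw [← Finset.mul_sum, h0', mul_zero]

end Lc

variable {T : Type*} [Fintype T] [DecidableEq T] {ρ : T → Fr F U V}

structure Tg (Q₁ : QuadraticForm F U) (Q : QuadraticForm F V) (ρ : T → Fr F U V) : Prop where
  sz : Sz Q₁
  h4 : 4 ≤ finrank F U
  nt : Nontrivial V
  nd : Nd Q
  adj : ∀ i, Adj Q₁ Q (ρ i)
  comm : ∀ i j, i ≠ j → Comm (ρ i) (ρ j)
  scal : ∀ c, (∀ i, Cm (ρ i) c) → ∃ s : F, c = s • 1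

namespace Tg
variable (P : Tg Q₁ Q ρ)
include P

theorem lc {w w' : U} (H : Lc Q₁ Q σ w w') (i : T) : Lc Q₁ Q (ρ i) w w' :=
  ⟨P.sz, P.nd, P.adj i, H.hw, H.hw', H.b⟩

theorem exists_lc (i : T) {w : U} (hw : Q₁ w = 0) (w0 : w ≠ 0) : ∃ w', Lc Q₁ Q (ρ i) w w' := by
  obtain ⟨w', h1, h2⟩ := P.sz.partner hw w0
  exact ⟨w', P.sz, P.nd, P.adj i, hw, h1, h2⟩

theorem cm {i l : T} (h : l ≠ i) (a : U ≃ₗ[F] U) : Cm (ρ i) (lf (ρ l) a : End F V) :=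
  cm_lf (P.comm i l h.symm) a

theorem mem_of (h1 : 1 ∈ I) (hm : ∀ x ∈ I, ∀ y ∈ I, x * y ∈ I) (S : Finset T) :
    (∀ l ∈ S, ∀ x, ρ l x ∈ I) → ∀ c, (∀ l, l ∉ S → Cm (ρ l) c) → c ∈ I := by
  induction S using Finset.induction_on with
  | empty =>
    intro _ c hc
    obtain ⟨s, rfl⟩ := P.scal c fun l => hc l (by simp)
    exact I.smul_mem _ h1
  | insert l S hl ih =>
    intro hi c hc
    rw [eq_sum_blk (ρ l) c]
    refine Submodule.sum_mem _ fun a _ => Submodule.sum_mem _ fun b _ => hm _ (hi l (by simp) _) _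
      (ih (fun k hk => hi k (by simp [hk])) _ fun k hk => ?_)
    by_cases hkl : k = l
    · rw [hkl]; exact cm_blk _ _ _
    · exact fun y => blk_comm (P.comm l k (Ne.symm hkl) y) (hc k (by simp [hkl, hk]) y) _ _

theorem kill {A : Set (End F V)} (S : Finset T)
    (hA : ∀ l ∈ S, ∀ a ∈ Gm Q₁, ∀ z ∈ A, (lf (ρ l) a : End F V) * z * ↑(lf (ρ l) a)⁻¹ ∈ A) {e : End F V}
    (h : ∀ d ∈ A, e * d = 0) {z : End F V} (hz : ∀ l, l ∉ S → Cm (ρ l) z) {d : End F V} (hd : d ∈ A) :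
    e * z * d = 0 := by
  let X : Submodule F V := Submodule.span F {w | ∃ c ∈ A, ∃ v, w = c v}
  let I : Submodule F (End F V) :=
    { carrier := {z | ∀ w ∈ X, z w ∈ X}
      add_mem' := fun ha hb w hw => X.add_mem (ha w hw) (hb w hw)
      zero_mem' := fun w _ => X.zero_mem
      smul_mem' := fun c a ha w hw => X.smul_mem c (ha w hw) }
  have hm : ∀ x ∈ I, ∀ y ∈ I, x * y ∈ I := fun x hx y hy w hw => hx _ (hy w hw)
  have h1 : 1 ∈ I := fun w hw => hw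
  have hI := P.mem_of (I := I) h1 hm S (fun l hl => P.sz.span_nn hm fun w hw hw0 => by
    obtain ⟨y, b1, q⟩ := P.sz.exists_y hw0
    have h2 : (lf (ρ l) (eich Q₁ w y) : End F V) ∈ I := fun v hv => by
      refine (Submodule.span_le (p := X.comap (lf (ρ l) (eich Q₁ w y) : End F V))).mpr ?_ hv
      rintro _ ⟨d, hd, v, rfl⟩
      exact Submodule.subset_span ⟨_, hA l hl _ (P.sz.eich_mem w y) d hd,
        (lf (ρ l) (eich Q₁ w y) : End F V) v, by simp⟩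
    have := hm _ (I.sub_mem h2 h1) _ (I.sub_mem h2 h1)
    rwa [lf_eich_sq hw b1, I.smul_mem_iff (by simp [P.sz.h2, q])] at this) z hz
  refine LinearMap.ext fun v => (Submodule.span_le (p := LinearMap.ker e)).mpr ?_
    (hI _ (Submodule.subset_span ⟨d, hd, v, rfl⟩))
  rintro _ ⟨c, hc, v, rfl⟩
  exact congrArg (fun z => z v) (h c hc)

theorem ann' {A : Set (End F V)}
    (hA : ∀ l, ∀ a ∈ Gm Q₁, ∀ z ∈ A, (lf (ρ l) a : End F V) * z * ↑(lf (ρ l) a)⁻¹ ∈ A) {d : End F V}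
    (hd : d ∈ A) (h0 : d ≠ 0) {e : End F V} (he : e ≠ 0) : ∃ d ∈ A, e * d ≠ 0 := by
  by_contra! h
  obtain ⟨w, hw⟩ : ∃ w, d w ≠ 0 := by
    by_contra! h
    exact h0 (LinearMap.ext h)
  obtain ⟨φ, hφ⟩ := H6.exists_dual_one' (F := F) hw
  refine he (LinearMap.ext fun v => ?_)
  simpa [hφ] using LinearMap.congr_fun (P.kill Finset.univ (fun l _ => hA l) h (z := r1 v φ) (by simp) hd) w

/-- products of two elements of the nilradical do not all vanish -/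
theorem nz {l : T} {w w' : U} (H : Lc Q₁ Q (ρ l) w w') {A : Set (End F V)}
    (h1 : ∀ f ∈ A, f ∈ CA Q₁ (ρ l) w ∧ bk (ρ l) (B Q₁ w) w' f = 0)
    (h2 : ∀ k, k ≠ l → ∀ a ∈ Gm Q₁, ∀ z ∈ A, (lf (ρ k) a : End F V) * z * ↑(lf (ρ k) a)⁻¹ ∈ A)
    (h3 : ∀ a ∈ Gm Q₁, a w = w → a w' = w' → ∀ z ∈ A, (lf (ρ l) a : End F V) * z * ↑(lf (ρ l) a)⁻¹ ∈ A)
    {f : End F V} (hf : f ∈ A) {x : U} (hx : B Q₁ w x = 0) (h0 : bk (ρ l) (B Q₁ x) w' f ≠ 0) :
    ∃ f ∈ A, ∃ f' ∈ A, f * f' ≠ 0 := by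
  by_contra! h
  have k : ∀ g ∈ A, ∀ z, ∑ i, bk (ρ l) (B Q₁ w') (bs F U i) g * z * bk (ρ l) ((bs F U).coord i) w' f = 0 :=
    fun g hg z => by
      rw [eq_sum_blk (ρ l) z]
      simp only [Finset.mul_sum, Finset.sum_mul]
      rw [Finset.sum_comm]
      refine Finset.sum_eq_zero fun a _ => ?_
      rw [Finset.sum_comm]
      refine Finset.sum_eq_zero fun b _ => ?_
      have e := congrArg (bk (ρ l) (B Q₁ w') w') (P.kill (Finset.univ.erase l)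
        (fun k hk => h2 k (Finset.ne_of_mem_erase hk)) (fun d => h g hg d)
        (z := blk (ρ l) z ((bs F U).coord a) (bs F U b)) (fun k hk => by
          rw [show k = l by simpa using hk]; exact cm_blk _ _ _) hf)
      rw [bk_mul_sum, map_zero] at e
      simp only [bk_mul_cm (cm_blk _ _ _)] at e
      simp only [← mul_assoc, cm_bk _ _ _ _]
      simp only [mul_assoc, ← Finset.mul_sum] at e ⊢
      rw [e, mul_zero]
  obtain ⟨u, hu⟩ : ∃ u, bk (ρ l) (B Q₁ x) w' f u ≠ 0 := by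
    by_contra! h
    exact h0 (LinearMap.ext h)
  obtain ⟨φ, hφ⟩ := H6.exists_dual_one' (F := F) hu
  obtain ⟨r, hr⟩ : ∃ r, r = ∑ i, φ (bk (ρ l) ((bs F U).coord i) w' f u) • bs F U i := ⟨_, rfl⟩
  have e1 : ∀ y, B Q₁ y r = φ (bk (ρ l) (B Q₁ y) w' f u) := fun y => by
    conv_rhs => rw [← (bs F U).sum_dual_apply_smul_coord (B Q₁ y)]
    simp only [hr, ← bl_apply, map_sum, map_smul, LinearMap.sum_apply, LinearMap.smul_apply, smul_eq_mul,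
      mul_comm]
  have e2 : B Q₁ w r = 0 := by rw [e1, (h1 f hf).2]; simp
  obtain ⟨a, ha, a1, a2, a3⟩ := H.mv e2 hx (by rw [e1, hφ]; exact one_ne_zero)
  have hg := h3 _ (inv_mem ha) (fix_inv a1) (fix_inv a2) f hf
  have e3 : bk (ρ l) (B Q₁ w') r (lf (ρ l) a⁻¹ * f * ↑(lf (ρ l) a⁻¹)⁻¹) = 0 := LinearMap.ext fun v => by
    have := LinearMap.congr_fun (k _ hg (r1 v φ)) u
    simpa [hr, ← bl_apply] using this
  rw [H.bk_row (h1 _ hg).1 (h1 _ hg).2 e2, bk_conj (inv_mem (Gm_le_O ha)), inv_inv, a2, neg_eq_zero] at e3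
  exact a3 (by rw [B_comm, e1, e3]; simp)

theorem iv {l : T} {J : Submodule F (End F V)} (h1 : ∀ c ∈ J, Cm (ρ l) c)
    (h2 : ∀ k, k ≠ l → ∀ g : (End F V)ˣ, Cm (ρ l) (g : End F V) → (∀ z ∈ I, g * z * ↑g⁻¹ ∈ I) →
      ∀ c ∈ J, g * c * ↑g⁻¹ ∈ J) (hI : ∀ k, Iv (Gm Q₁) (ρ k) I) (k : T) : Iv (Gm Q₁) (ρ k) J := by
  by_cases hk : k = l
  · exact iv_cm (hk ▸ h1)
  · exact fun a ha => h2 k hk _ (cm_lf (P.comm l k (Ne.symm hk)) a) (hI k a ha)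

theorem iv_JJ (hI : ∀ k, Iv (Gm Q₁) (ρ k) I) (l : T) (X : Set (End F U)) (k : T) :
    Iv (Gm Q₁) (ρ k) (JJ (ρ l) I X) :=
  P.iv (J := JJ (ρ l) I X) (fun _ h => h.1) (fun _ _ g hg h c hc => ⟨Cm.cj hg hc.1, fun x hx => by
    rw [cj_mul hg]; exact h _ (hc.2 x hx)⟩) hI k

theorem exists_not_CA {l : T} {e : End F V} (hne : ¬ Cm (ρ l) e) :
    ∃ w w', Lc Q₁ Q (ρ l) w w' ∧ e ∉ CA Q₁ (ρ l) w := by
  by_contra! h
  refine hne (P.sz.span_nn (cz_mul e) fun w hw w0 => ?_)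
  obtain ⟨w', H⟩ := P.exists_lc l hw w0
  exact (H.comm_n (h w w' H)).symm

theorem exists_nC {l : T} (hm : ∀ x ∈ I, ∀ y ∈ I, x * y ∈ I) (hI : ∀ k, Iv (Gm Q₁) (ρ k) I) {e : End F V}
    (he : e ∈ I) (hne : ¬ Cm (ρ l) e) : ∃ c, c ≠ 0 ∧ c ∈ JJ (ρ l) I {x | ∃ w, Q₁ w = 0 ∧ x = nn Q₁ w} := by
  obtain ⟨w, w', H, h⟩ := P.exists_not_CA hne
  obtain ⟨f, f1, f0, f2, f3⟩ := H.max_br P.h4 (hI l) he h
  obtain ⟨g, g1, g0, g2⟩ : ∃ g ∈ I, g ≠ 0 ∧ g ∈ DL Q (Ln (ρ l) w) := by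
    by_cases hy : ∀ y, B Q₁ w y = 0 → bk (ρ l) (B Q₁ y) w' f = 0
    · exact ⟨f, f1, f0, H.cent f2 hy⟩
    push Not at hy
    obtain ⟨y, y1, y2⟩ := hy
    obtain ⟨a, ha, b, hb, h0⟩ := P.nz H (A := {f | f ∈ I ∧ f ∈ CA Q₁ (ρ l) w ∧ bk (ρ l) (B Q₁ w) w' f = 0})
      (fun _ h => h.2) (fun k hk a ha z hz => ⟨hI k a ha z hz.1, CA.cj (P.cm hk a) hz.2.1, by
        rw [bk_cj (P.cm hk a), hz.2.2]; simp⟩) (fun a ha a1 a2 z hz => ⟨hI l a ha z hz.1,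
        H.fix_conj ha a1 a2 hz.2.1 hz.2.2⟩) ⟨f1, f2, f3⟩ y1 y2
    exact ⟨_, hm a ha.1 b hb.1, h0, H.mul_DL ha.2.1 ha.2.2 hb.2.1 hb.2.2⟩
  rw [H.DL_eq g2] at g1
  refine ⟨_, fun h => g0 (by rw [H.DL_eq g2, h, mul_zero]), cm_bk _ _ _, ?_⟩
  rintro _ ⟨u, hu, rfl⟩
  by_cases u0 : u = 0
  · simp [u0, nn]
  obtain ⟨a, ha, s, s0, e1⟩ := P.sz.trans H.hw H.w0 hu u0
  have := hI l a ha _ g1
  rwa [cj_nC (Gm_le_O ha) (cm_bk _ _ _), e1, nn_smul, map_smul, smul_mul_assoc,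
    I.smul_mem_iff (mul_ne_zero s0 s0)] at this

theorem step {S : Finset T} {l : T} (ih : ∀ I, Inv (Gm Q₁) ρ S I → I ≠ ⊥ → 1 ∈ I)
    (hI : Inv (Gm Q₁) ρ (insert l S) I) {e : End F V} (he : e ∈ I) (hne : ¬ Cm (ρ l) e) (x : End F U) :
    ρ l x ∈ I := by
  have hz := P.sz
  haveI := P.nt
  obtain ⟨c, c0, hc⟩ := P.exists_nC hI.mul hI.iv he hne
  obtain ⟨d, hd, d0⟩ := P.ann' (P.iv_JJ hI.iv l _) hc c0 c0
  obtain ⟨f, hf, f0⟩ := P.ann' (P.iv_JJ hI.iv l _) hc c0 d0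
  have c1 := (hc.1.mul hd.1).mul hf.1
  have k : ∀ a e b, Q₁ a = 0 → Q₁ e = 0 → Q₁ b = 0 → B Q₁ a e ≠ 0 → B Q₁ e b ≠ 0 →
      ρ l (r1 a (B Q₁ b)) * (c * d * f) ∈ I := fun a e b qa qe qb h1 h2 => by
    have := hI.mul _ (hI.mul _ (hc.2 _ ⟨a, qa, rfl⟩) _ (hd.2 _ ⟨e, qe, rfl⟩)) _ (hf.2 _ ⟨b, qb, rfl⟩)
    rwa [nn, nn, nn, rc_mul hc.1, smul_mul_assoc, rc_mul (hc.1.mul hd.1), I.smul_mem_iff h1,
      I.smul_mem_iff h2] at this
  have k1 : ∀ a, Q₁ a = 0 → a ≠ 0 → ∀ b, ρ l (r1 a (B Q₁ b)) * (c * d * f) ∈ I := fun a qa a0 b => by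
    obtain ⟨a', q', b'⟩ := hz.partner qa a0
    refine hz.sing_span qa a0 (I.comap (LinearMap.mulRight F (c * d * f) ∘ₗ (ρ l).toLinearMap ∘ₗ
      LinearMap.smulRightₗ.flip a ∘ₗ B Q₁)) (k a a' a qa q' qa (by simp [b']) (by simp [B_comm Q₁ a', b']))
      (fun z qz bz => ?_) b
    obtain ⟨y, y1, y2, y3⟩ := hz.exists_y2 P.h4 a z
    exact k a (z + y - Q₁ y • a) z qa (by
      simp [Q_sub, Q_add, Q_smul, qa, qz, y2, B_comm Q₁ z a, bz, B_comm Q₁ y a, y1])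
      qz (by simp [bz, y1, B_self, qa]) (by simpa [bz, B_comm Q₁ y z, y2, B_self, qz] using y3)
  have m5 : c * d * f ∈ JJ (ρ l) I Set.univ := ⟨c1, fun x _ => by
    rw [eq_sum_r1 x, map_sum, Finset.sum_mul]
    refine I.sum_mem fun i _ => ?_
    obtain ⟨b, hb⟩ := OO.exists_B_eq hz.n1 ((bs F U).coord i)
    obtain ⟨w, qw, w0⟩ := hz.exists_sing
    rw [← hb]
    exact hz.sing_span qw w0 (I.comap (LinearMap.mulRight F (c * d * f) ∘ₗ (ρ l).toLinearMap ∘ₗ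
      LinearMap.smulRightₗ (B Q₁ b))) (k1 w qw w0 b) (fun z qz bz => k1 z qz (by rintro rfl; simp at bz) b) _⟩
  have := ih (JJ (ρ l) I Set.univ) ⟨fun a ha b hb => ⟨ha.1.mul hb.1, fun x _ => by
    simpa [mul_assoc] using hI.mul _ (ha.2 x trivial) _ (hb.2 1 trivial)⟩, P.iv_JJ hI.iv l _,
    fun k hk a ha => by
      by_cases e : k = l
      · exact e ▸ ha.1
      · simpa using hI.cm k (by simp [e, hk]) _ (ha.2 1 trivial)⟩ ((Submodule.ne_bot_iff _).2 ⟨_, m5, f0⟩)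
  simpa using this.2 x trivial

theorem one_mem (S : Finset T) : ∀ I, Inv (Gm Q₁) ρ S I → I ≠ ⊥ → 1 ∈ I := by
  induction S using Finset.induction_on with
  | empty =>
    intro I hI h0
    obtain ⟨c, hc, hc0⟩ := Submodule.exists_mem_ne_zero_of_ne_bot h0
    obtain ⟨s, rfl⟩ := P.scal c fun i => hI.cm i (by simp) c hc
    have hs : s ≠ 0 := by rintro rfl; simp at hc0
    simpa [smul_smul, hs] using I.smul_mem s⁻¹ hc
  | insert l S hl ih =>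
    intro I hI h0
    by_cases h : ∀ e ∈ I, Cm (ρ l) e
    · refine ih I ⟨hI.mul, hI.iv, fun k hk => ?_⟩ h0
      by_cases hkl : k = l
      · rwa [hkl]
      · exact hI.cm k (by simp [hkl, hk])
    · push Not at h
      obtain ⟨e, he, hne⟩ := h
      simpa using P.step ih hI he hne 1

theorem frame_mem (hm : ∀ x ∈ I, ∀ y ∈ I, x * y ∈ I) (hI : ∀ l, Iv (Gm Q₁) (ρ l) I) {l : T} {e : End F V}
    (he : e ∈ I) (hne : ¬ Cm (ρ l) e) (x : End F U) : ρ l x ∈ I :=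
  P.step (P.one_mem Finset.univ) ⟨hm, hI, by simp⟩ he hne x

theorem comm_scal {A : Set (End F V)} (hc : ∀ x ∈ A, ∀ y ∈ A, x * y = y * x)
    (hA : ∀ l, ∀ a ∈ Gm Q₁, ∀ z ∈ A, (lf (ρ l) a : End F V) * z * ↑(lf (ρ l) a)⁻¹ ∈ A) {e : End F V}
    (he : e ∈ A) : ∃ s : F, e = s • 1 := by
  haveI := P.nt
  refine P.scal e fun l => by_contra fun hne => ?_
  have cj : ∀ (g : (End F V)ˣ) (A : Set (End F V)), (∀ z ∈ A, ↑g⁻¹ * z * g ∈ A) →
      ∀ z ∈ A.centralizer, g * z * ↑g⁻¹ ∈ A.centralizer := fun g A h z hz y hy => by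
    have := congrArg (fun w : End F V => g * w * ↑g⁻¹) (hz _ (h y hy))
    simpa [mul_assoc] using this
  have h := P.frame_mem (I := (Subalgebra.centralizer F A.centralizer).toSubmodule)
    (fun x hx y hy => Subalgebra.mul_mem _ hx hy) (fun k a ha => cj _ _ fun z hz => by
      have := cj (lf (ρ k) a)⁻¹ A (by simpa using hA k a ha) z hz
      simpa using this) (Set.subset_centralizer_centralizer he) hne
  exact not_comm_self (ρ := ρ l) P.sz.h3 fun x y =>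
    (h x _ fun z hz => h y z fun w hw => hc w hw z hz).symm

theorem self_ad {w w' : U} (hw : Q₁ w = 0) (hw' : Q₁ w' = 0)
    (b : B Q₁ w w' = 1) (S : Finset T) : ∀ C, (∀ l, l ∉ S → Cm (ρ l) C) →
    (∀ l ∈ S, ∃ x y, Cm (ρ l) x ∧ Cm (ρ l) y ∧ C = x + ρ l (nn Q₁ w) * y) → Ad Q C C := by
  induction S using Finset.induction_on with
  | empty =>
    intro C h _
    obtain ⟨s, rfl⟩ := P.scal C fun l => h l (by simp)
    exact Ad.one.smul s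
  | insert l S hl ih =>
    intro C h1 h2
    have k : ∀ ψ b, Ad Q (bk (ρ l) ψ b C) (bk (ρ l) ψ b C) := fun ψ b => ih _ (fun m hm => by
      by_cases e : m = l
      · rw [e]; exact cm_bk _ _ _
      · exact Cm.bk (P.comm l m (Ne.symm e)) (h1 m (by simp [e, hm])) _ _) fun m hm => by
      have e : l ≠ m := by rintro rfl; exact hl hm
      obtain ⟨x, y, hx, hy, rfl⟩ := h2 m (by simp [hm])
      exact ⟨_, _, Cm.bk (P.comm l m e) hx ψ b, Cm.bk (P.comm l m e) hy ψ b, by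
        rw [map_add, bk_cm_mul (P.comm l m e _)]⟩
    obtain ⟨x, y, hx, hy, rfl⟩ := h2 l (by simp)
    have k1 := k (B Q₁ w) w'
    have k2 := k (B Q₁ w') w'
    simp only [map_add, bk_cm hx, bk_mul hy, nn_apply, b, B_comm Q₁ w' w, map_smul, B_self, hw, hw',
      mul_zero, one_smul, zero_smul, add_zero, zero_add, smul_zero, smul_eq_mul, mul_one] at k1 k2
    have := ((P.adj l).r1 w w).mul k2
    rw [hy] at this
    exact k1.add this

end Tg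

end Cfsg.Agent.H2.TO
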