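import Cfsg.Agent.H2.TE1

set_option autoImplicit false
set_option linter.unusedSectionVars false
set_option linter.unusedSimpArgs false

/-! Orthogonal tensor frames in even dimension, part 2: the stabiliser of a singular line. -/

namespace Cfsg.Agent.H2.TO

open Module Cfsg.Agent.Orth Cfsg.Agent.H1.TW

variable {F : Type*} [Field F] [Finite F] {U : Type*} {V : Type*} [AddCommGroup U] [Module F U]
  [AddCommGroup V] [Module F V] [FiniteDimensional F U] [FiniteDimensional F V]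
  {Q₁ : QuadraticForm F U} {Q : QuadraticForm F V} {σ σ' τ : Fr F U V}
  {M : Subgroup (End F V)ˣ} {L : Submodule F V} {I : Submodule F (End F V)}

theorem prod_eq (nd : Nd Q) (hM : M ≤ OU Q) {g g' : (End F V)ˣ} (hg : g ∈ RL Q M L) (hg' : g' ∈ RL Q M L)
    {N N' Na : End F V} (e : ∀ x ∈ perp Q L, N x = (g : End F V) x - x)
    (e' : ∀ x ∈ perp Q L, N' x = (g' : End F V) x - x) (ha : Ad Q N' Na) (hL : L ≤ perp Q L) :
    ((g : End F V) - 1) * (g' - 1) = -(N * Na) := by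
  ext v
  have m : (g' : End F V) v - v + Na v ∈ L := nd.perp_perp L ▸ fun x hx => by
    have a1 := (inv_mem hg').2.1 _ (hg'.2.2 x hx)
    rw [map_sub, inv_app, ← e' x hx] at a1
    rw [map_add, map_sub, ← (OU.ad (hM hg'.1)).symm, ← ha, show (↑g'⁻¹ : End F V) x = x - N' x by
      rw [← a1]; abel]
    simp
  have m2 : Na v ∈ perp Q L := by simpa using sub_mem (hL m) (RL.sub_K (hM hg'.1) hg' v)
  have := hg.2.1 _ m
  rw [map_add, map_sub] at this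
  simp only [End.mul_apply, LinearMap.sub_apply, End.one_apply, LinearMap.neg_apply, e _ m2, map_sub]
  linear_combination (norm := abel) this

theorem NN.comm (nd : Nd Q) (hM : M ≤ OU Q) (hL : L ≤ perp Q L) {N N' Na Na' : End F V} (hN : N ∈ NN Q M L)
    (hN' : N' ∈ NN Q M L) (a : Ad Q N Na) (a' : Ad Q N' Na') : N' * Na - N * Na' ∈ ZZ Q M hL := by
  obtain ⟨g, hg, e⟩ := hN
  obtain ⟨g', hg', e'⟩ := hN'
  have := RL.comm hM hg hg'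
  rwa [RL.comm_eq hg hg', prod_eq nd hM hg hg' e e' a' hL, prod_eq nd hM hg' hg e' e a hL, neg_sub_neg] at this

theorem NN.zero (hL : L ≤ perp Q L) {N : End F V} (hN : N ∈ NN Q M L) {v : V} (hv : v ∈ L) : N v = 0 := by
  obtain ⟨g, hg, e⟩ := hN
  rw [e v (hL hv), hg.2.1 v hv, sub_self]

theorem CA.bk (h : Comm σ τ) {w : U} {z : End F V} (hz : z ∈ CA Q₁ τ w) (ψ : Dual F U) (b : U) :
    bk σ ψ b z ∈ CA Q₁ τ w := mem_CA.2 fun y hy => (bk_comm (h _) (mem_CA.1 hz y hy).symm ψ b).symm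

theorem cj_r1 {a : U ≃ₗ[F] U} (ha : a ∈ O Q₁) {C : End F V} (hC : Cm σ C) (x y : U) :
    lf σ a * (σ (r1 x (B Q₁ y)) * C) * ↑(lf σ a)⁻¹ = σ (r1 (a x) (B Q₁ (a y))) * C := by
  rw [lf_inv_val, lf_val, mul_assoc, mul_assoc, hC, ← mul_assoc, ← mul_assoc, ← map_mul, ← map_mul]
  congr 2; ext v; simp [O_B_inv ha]

namespace Lc
variable {w w' : U} (H : Lc Q₁ Q σ w w') {z z' : End F V}
include H

theorem lemT' (hq : 4 ≤ finrank F U) (hK : ∀ a ∈ Gm Q₁, lf σ a ∈ M)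
    (qt : QT Q₁ Q M σ w) {g : (End F V)ˣ} (hz : (g : End F V) ∈ CA Q₁ σ w) (h0 : bk σ (B Q₁ w) w' g = 1)
    (h : ∀ a ∈ Gm Q₁, g * lf σ a * g⁻¹ ∈ M) : ∀ y, B Q₁ w y = 0 → ∃ s : F, bk σ (B Q₁ y) w' g = s • 1 := by
  intro y hy
  refine Submodule.mem_span_singleton.1 (H.span_ei' hq (Z := (F ∙ (1 : End F V)).comap
    ((bl σ g).flip w' ∘ₗ B Q₁)) (Submodule.mem_span_singleton.2 ⟨1, by simp [bl_apply, h0]⟩)
    (fun a ha α κ y a0 k0 a1 a2 b e => ?_) y hy) |>.imp fun _ h => h.symm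
  have l := H.low hz h0
  obtain ⟨x, hx, e1⟩ := qt _ (RL.mono (mul_mem l (RL.conj' (H.ad.lf_mem (Gm_le_O ha)) trivial
    (stb_lf a0 a1) (inv_mem l))) (by
      simpa only [mul_assoc] using mul_mem (h a ha) (inv_mem (hK a ha))))
  have e2 : (g : End F V) = lf σ (eich Q₁ w x) * (lf σ a * g * ↑(lf σ a)⁻¹) := by
    rw [← e1]; simp [mul_assoc]
  have e3 := congrArg (bk σ (B Q₁ y) w') e2
  rw [lf_val, bk_left, show B Q₁ y ∘ₗ (eich Q₁ w x : U →ₗ[F] U) = B Q₁ (y + B Q₁ x y • w) by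
    ext v; simp [eich_apply H.hw hx, B_comm Q₁ y w, b, B_comm Q₁ y x]; ring, bk_conj (Gm_le_O ha),
    inv_eig (inv_ne_zero a0) a2, inv_inv, map_add, map_smul, inv_eig a0 a1] at e3
  have e4 := congrArg (fun u => bl σ g (B Q₁ u) w') e
  simp only [← bl_apply, map_add, map_smul, map_sub, LinearMap.add_apply, LinearMap.smul_apply,
    LinearMap.sub_apply] at e3 e4 h0
  refine (Submodule.smul_mem_iff _ k0).1 (Submodule.mem_span_singleton.2 ⟨B Q₁ x y, ?_⟩)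
  simp only [LinearMap.comp_apply, LinearMap.flip_apply, map_smul, LinearMap.smul_apply]
  rw [← e4]
  nth_rewrite 1 [e3]
  rw [h0]
  match_scalars <;> field_simp <;> ring

theorem part1' [Nontrivial V] (hq : 4 ≤ finrank F U) (hM : M ≤ OU Q)
    (hK : ∀ a ∈ Gm Q₁, lf σ a ∈ M) (qt : QT Q₁ Q M σ w) {g : (End F V)ˣ} (hg : g ∈ M)
    (hs : g ∈ Stb (Ln σ w)) : ∃ D ∈ PP Q₁ Q M σ w, ∃ d h : (End F V)ˣ, (d : End F V) = 1 + D ∧
      (↑d⁻¹ : End F V) = 1 - D ∧ g = d * h ∧ h ∈ NF σ ∧ ∀ a ∈ Gm Q₁, ∃ b ∈ Gm Q₁, h⁻¹ * lf σ a * h = lf σ b := by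
  obtain ⟨k, μ, hk, h1⟩ := H.exists_conf hM hK qt hg hs
  obtain ⟨c, c1, c2, c3⟩ := H.split h1
  have hc : Cm σ (c : End F V) := c1 ▸ cm_bk _ _ _
  have e : ∀ a, c⁻¹ * lf σ a * c = lf σ a := fun a => by rw [mul_assoc, ← Cm.lf hc, inv_mul_cancel_left]
  have h2 : ∀ a ∈ Gm Q₁, g * lf σ k * c⁻¹ * lf σ a * (g * lf σ k * c⁻¹)⁻¹ ∈ M := fun a ha => by
    convert mul_mem (mul_mem hg (hK _ (hk.gm H.sz.h2 ha))) (inv_mem hg) using 1
    rw [map_mul, map_mul, map_inv]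
    conv_rhs => rw [← e a]
    group
  obtain ⟨y, hy, D, hD, e1⟩ := H.nf' c3 c2 (H.lemT' hq hK qt c3 c2 h2)
  have e2 : g * lf σ k * c⁻¹ * (lf σ (eich Q₁ w y))⁻¹ = un D (DL.mul H.LK hD hD) := Units.ext e1
  have he := H.sz.eich_mem w y
  refine ⟨D, ⟨hD, fun a ha => ⟨_, h2 _ (mul_mem (mul_mem (inv_mem he) ha) he), ?_⟩⟩,
    un D (DL.mul H.LK hD hD), lf σ (eich Q₁ w y) * c * (lf σ k)⁻¹, rfl, rfl, by rw [← e2]; group,
    mul_mem (mul_mem (lf_mem_NF _) (NF_of_cm hc)) (inv_mem (lf_mem_NF _)), fun a ha =>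
      ⟨_, hk.gm H.sz.h2 (mul_mem (mul_mem (inv_mem he) ha) he), ?_⟩⟩
  · rw [← un_val D (DL.mul H.LK hD hD), ← un_inv D (DL.mul H.LK hD hD), ← Units.val_mul, ← Units.val_mul, ← e2]
    congr 1
    simp only [map_mul, map_inv]; group
  · rw [map_mul, map_mul, ← e (_ * _ * _)]
    simp only [map_mul, map_inv]; group

theorem NN_r1 (hK : ∀ a ∈ Gm Q₁, lf σ a ∈ M) {y : U} (b : B Q₁ w y = 0) :
    σ (r1 w (B Q₁ y)) ∈ NN Q M (Ln σ w) := by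
  refine NN.congr (neg_mem ⟨_, H.eich_RL b (hK _ (H.sz.eich_mem w y)),
    fun z _ => (rfl : ((lf σ (eich Q₁ w y) : End F V) - 1) z = _)⟩) fun z hz => ?_
  have z1 := H.mem_K.1 hz
  rw [H.perp_eq] at hz
  simp [lf_val, eich_coe1 H.hw b, z1, eN, hz (r1 y (B Q₁ w)) fun r hr => by
    simp [mem_perp_span_singleton.1 hr]]

theorem ad_of_nC {C C' : End F V} (hC : Cm σ C) (hC' : Cm σ C')
    (h : Ad Q (σ (nn Q₁ w) * C) (σ (nn Q₁ w) * C')) : Ad Q C C' := by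
  obtain ⟨D, h4⟩ := exists_ad H.nd C
  have hD := h4.cm H.sz.n1 H.nd H.ad hC
  rwa [sub_eq_zero.1 (H.nC_inj (hD.sub hC') (by rw [mul_sub, h.unique H.nd (H.ad_nC hD h4), sub_self]))] at h4

theorem K_w' (v : V) : v - σ (r1 w' (B Q₁ w)) v ∈ perp Q (Ln σ w) :=
  H.mem_K.2 (by rw [map_sub, nn, rho_r1_apply, H.b, one_smul, sub_self])

theorem w'_K {v : V} (hv : v ∈ perp Q (Ln σ w)) (a : U) : σ (r1 a (B Q₁ w)) v = 0 := by
  rw [H.perp_eq] at hv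
  exact hv _ fun r hr => by simp [mem_perp_span_singleton.1 hr]

end Lc

variable {T : Type*} [Fintype T] [DecidableEq T] {ρ : T → Fr F U V}

structure Te (Q₁ : QuadraticForm F U) (Q : QuadraticForm F V) (ρ : T → Fr F U V)
    (M : Subgroup (End F V)ˣ) : Prop extends Tg Q₁ Q ρ where
  le : M ≤ OU Q
  K : ∀ i, ∀ a ∈ Gm Q₁, lf (ρ i) a ∈ M
  cl : (∃ c, c ≠ 0 ∧ ∀ i u, Q₁ u = c → lf (ρ i) (refl Q₁ u) ∈ M) ∨ ∀ i : T, ∃ l, l ≠ i ∧ ∀ k, k = i ∨ k = l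
  perm : ∀ i l k, i ≠ l → i ≠ k → l ≠ k → ∃ p ∈ M, Same (ρ k) (cf p (ρ i)) ∧ Same (ρ i) (cf p (ρ l))

namespace Te
variable (P : Te Q₁ Q ρ M) {w w' : U} {i : T}
include P

theorem qt2 (H : Lc Q₁ Q (ρ i) w w') (hz : ZT Q M (Ln (ρ i) w)) {l : T} (hl : l ≠ i) (h2 : ∀ k, k = i ∨ k = l)
    {N : End F V} (hN : N ∈ NN Q M (Ln (ρ i) w)) (h0 : N * ρ i (r1 w' (B Q₁ w)) = 0) : Cm (ρ l) N := by
  haveI := P.nt
  by_contra hne
  obtain ⟨u, u', H', h⟩ := P.exists_not_CA hne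
  have cm := P.comm i l hl.symm
  have sc : ∀ c, Cm (ρ i) c → Cm (ρ l) c → ∃ s : F, c = s • 1 := fun c a b => P.scal c fun k => by
    rcases h2 k with rfl | rfl <;> assumption
  have cj : ∀ a ∈ Gm Q₁, ∀ z ∈ NN Q M (Ln (ρ i) w), lf (ρ l) a * z * ↑(lf (ρ l) a)⁻¹ ∈ NN Q M (Ln (ρ i) w) :=
    fun a ha z hz => NN.conj P.le (P.K l a ha) (stb_cm (P.cm hl a) w) hz
  obtain ⟨f, ⟨f1, f2⟩, f0, f3, f4⟩ := H'.max_br P.h4 (I :=
    { carrier := {N | N ∈ NN Q M (Ln (ρ i) w) ∧ N * ρ i (r1 w' (B Q₁ w)) = 0}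
      add_mem' := fun ha hb => ⟨add_mem ha.1 hb.1, by rw [add_mul, ha.2, hb.2, add_zero]⟩
      zero_mem' := ⟨zero_mem _, zero_mul _⟩
      smul_mem' := fun s a ha => ⟨H.NN_smul P.le (P.K i) s ha.1, by rw [smul_mul_assoc, ha.2, smul_zero]⟩ })
    (fun a ha z hz => ⟨cj a ha z hz.1, by
      rw [mul_assoc, Cm.inv (P.cm hl a), ← mul_assoc, mul_assoc _ z, hz.2]; simp⟩) ⟨hN, h0⟩ h
  have co : ∀ {N N' Na Na' : End F V}, N ∈ NN Q M (Ln (ρ i) w) → N' ∈ NN Q M (Ln (ρ i) w) → Ad Q N Na →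
      Ad Q N' Na' → N' * Na = N * Na' := fun a b c d =>
    sub_eq_zero.1 (hz _ (NN.comm P.nd P.le H.LK a b c d).1 (NN.comm P.nd P.le H.LK a b c d).2)
  have fL : ρ i (r1 w (B Q₁ w')) * f = f := LinearMap.ext fun v => r1_Ln_one (by
    have := NN.mem f1 (H.K_w' v)
    rwa [map_sub, ← End.mul_apply, f2, LinearMap.zero_apply, sub_zero] at this) H.b'
  have z1 : bk (ρ i) (B Q₁ w') w' f = 0 := by
    simpa [bk_right, H.b] using congrArg (bk (ρ i) (B Q₁ w') w') f2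
  have z2 : bk (ρ i) (B Q₁ w') w f = 0 := by
    simpa [bk_right, H.b'] using congrArg (bk (ρ i) (B Q₁ w') w) (show f * ρ i (r1 w (B Q₁ w')) = 0 from
      LinearMap.ext fun v => NN.zero H.LK f1 (r1_mem_Ln _ _ _))
  obtain ⟨fa, hfa⟩ := exists_ad P.nd f
  have k1 : ∀ y, B Q₁ w y = 0 → ∃ s : F, bk (ρ i) (B Q₁ w') y f = s • ρ l (nn Q₁ u) := fun y hy => by
    have e1 := co (H.NN_r1 (P.K i) hy) f1 (H.ad.r1 w y) hfa
    have e2 := hfa.mul (H.ad.r1 y w)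
    rw [← e1, ← fL, sandwich] at e2
    have e3 := H.ad_of_nC (cm_bk _ _ _) (cm_bk _ _ _) e2
    have e4 := CA.bk cm f3 (B Q₁ w') y
    have e5 : bk (ρ l) (B Q₁ u) u' (bk (ρ i) (B Q₁ w') y f) = 0 := by rw [← bk_bk cm, f4, map_zero]
    have e6 := H'.DL_eq (H'.cent e4 fun x hx => by
      obtain ⟨s, hs⟩ := sc _ (Cm.bk cm.symm (cm_bk (B Q₁ w') y f) (B Q₁ x) u') (cm_bk _ _ _)
      exact eq_zero_of_ad P.sz.h2 P.nd (hs ▸ Ad.one.smul s)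
        (H'.bk_row e4 e5 hx ▸ ad_bk P.sz.n1 P.nd H'.ad e3 x u'))
    obtain ⟨s, hs⟩ := sc _ (Cm.bk cm.symm (cm_bk (B Q₁ w') y f) (B Q₁ u') u') (cm_bk _ _ _)
    exact ⟨s, by rw [e6, hs]; simp⟩
  obtain ⟨l₀, hl₀⟩ := H6.exists_dual_one' (F := F) (one_ne_zero : (1 : End F V) ≠ 0)
  obtain ⟨r, hr⟩ := OO.exists_B_eq P.sz.n1 (l₀ ∘ₗ bk (ρ l) (B Q₁ u') u' ∘ₗ bl (ρ i) f (B Q₁ w'))
  have k2 : ∀ b, bk (ρ i) (B Q₁ w') b f = B Q₁ r b • ρ l (nn Q₁ u) := fun b => by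
    obtain ⟨s, hs⟩ := k1 (b - B Q₁ w b • w') (by simp [H.b])
    rw [← bl_apply, map_sub, map_smul, bl_apply, bl_apply, z1, smul_zero, sub_zero] at hs
    simp [hr, bl_apply, hs, bk_rho, H'.b, H'.b', hl₀]
  have n0 : ρ l (nn Q₁ u) ≠ 0 := fun h => one_ne_zero (H'.nC_inj Cm.one (by rw [h, zero_mul]))
  have r1' : B Q₁ r w' = 0 := by simpa [z1, n0] using (k2 w').symm
  have r2 : B Q₁ w r = 0 := by simpa [z2, n0, B_comm Q₁ r w] using (k2 w).symm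
  have ef : f = ρ i (r1 w (B Q₁ r)) * ρ l (nn Q₁ u) := ext_bk (σ := ρ i) fun ψ b => by
    rw [← fL, bk_left, bk_mul (cm _), show ψ ∘ₗ r1 w (B Q₁ w') = ψ w • B Q₁ w' by ext; simp [mul_comm],
      ← bl_apply, map_smul, LinearMap.smul_apply, bl_apply, k2]
    simp [smul_smul, mul_comm]
  obtain ⟨b, hb⟩ := P.sz.n1.exists_B_ne (v := r) (by rintro rfl; simp [f0] at ef)
  obtain ⟨a, ha, a1, -, a3⟩ := H.mv r2 (x := b - B Q₁ w b • w') (by simp [H.b])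
    (by simpa [B_comm Q₁ _ r, r1'] using hb)
  obtain ⟨a', ha', s, s0, e⟩ := P.sz.trans H'.hw H'.w0 H'.hw' H'.w0'
  have m := cj a' ha' _ (NN.conj P.le (P.K i a ha) (stb_lf one_ne_zero (by rwa [one_smul])) f1)
  rw [ef, cj_r1 (Gm_le_O ha) (cm _), ← cj_mul (P.cm hl a'), (conf_of_O (Gm_le_O ha')).nn, a1, e, nn_smul,
    map_smul, inv_one, one_smul] at m
  have e1 := co (ef ▸ f1) m ((H.ad.r1 w r).mul (H'.ad.r1 u u))
    ((H.ad.r1 w (a r)).mul ((H'.ad.r1 u' u').smul (s * s)))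
  rw [cm, (cm _).smul (s * s), rc_mul (cm _), rc_mul ((cm _).smul _), B_comm Q₁ (a r), ← sub_eq_zero,
    ← smul_sub, smul_eq_zero_iff_right a3, ← mul_sub] at e1
  have e2 := H.nC_inj ((((cm _).smul _).mul (cm _)).sub ((cm _).mul ((cm _).smul _))) e1
  rw [smul_mul_assoc, mul_smul_comm, ← smul_sub, smul_eq_zero_iff_right (mul_ne_zero s0 s0), ← map_mul,
    ← map_mul, sub_eq_zero] at e2
  simpa [H'.b, H'.b', H'.bw, H'.w0.symm] using LinearMap.congr_fun (H1.TW.rho_injective e2) u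

theorem qt (H : Lc Q₁ Q (ρ i) w w') (hz : ZT Q M (Ln (ρ i) w)) : QT Q₁ Q M (ρ i) w := by
  haveI := P.nt
  have ca : ∀ g ∈ RL Q M (Ln (ρ i) w), (g : End F V) ∈ CA Q₁ (ρ i) w := fun g hg =>
    CA_of_eich P.sz.h2 H.hw fun y hy => hz.comm P.le hg (H.eich_RL hy (P.K i _ (P.sz.eich_mem w y)))
  intro g hg
  have h0 := H.c0_fix (ca g hg) hg.2.1
  suffices h : ∀ y, B Q₁ w y = 0 → ∃ s : F, bk (ρ i) (B Q₁ y) w' g = s • 1 by
    obtain ⟨y, hy, D, hD, e⟩ := H.nf' (ca g hg) h0 h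
    have := hz D hD ⟨_, mul_mem hg.1 (inv_mem (P.K i _ (P.sz.eich_mem w y))), e⟩
    rw [this, add_zero, Units.val_eq_one, mul_inv_eq_one] at e
    exact ⟨y, hy, e⟩
  intro y hy
  rcases P.cl with ⟨c, c0, hc⟩ | h2
  · refine (Submodule.mem_span_singleton.1 (H.of_W0 (Z := (F ∙ (1 : End F V)).comap
      ((bl (ρ i) g).flip w' ∘ₗ B Q₁)) (Submodule.mem_span_singleton.2 ⟨1, by simp [bl_apply, h0]⟩)
      (H.span_cls P.h4 c0 fun y b b' q => ?_) y hy)).imp fun _ h => h.symm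
    have hp : Pu Q₁ w w' (refl Q₁ y) 1 c⁻¹ y := ⟨refl_mem_O _ _, one_ne_zero, inv_ne_zero c0,
      by rw [one_smul, refl_of_perp (B_comm Q₁ w y ▸ b)],
      by rw [inv_one, one_smul, refl_of_perp (B_comm Q₁ w' y ▸ b')], b, b', q ▸ c0⟩
    have he : ∀ x, B Q₁ w x = 0 → x - (1 : F) • (refl Q₁ y)⁻¹ x = (c⁻¹ * B Q₁ y x) • y := fun x _ => by
      simp [refl_inv, refl_apply, q]
    generalize c⁻¹ = κ at hp he
    have cj : ∀ g ∈ RL Q M (Ln (ρ i) w), lf (ρ i) (refl Q₁ y) * g * (lf (ρ i) (refl Q₁ y))⁻¹ ∈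
        RL Q M (Ln (ρ i) w) := fun g hg => RL.conj P.le (hc i y q) (stb_lf hp.a0 hp.aw) hg
    generalize refl Q₁ y = a at hp he cj
    obtain ⟨s, hs⟩ := P.comm_scal (A := {S | ∃ g ∈ RL Q M (Ln (ρ i) w), S = bk (ρ i) (B Q₁ y) w' g})
      (by
        rintro _ ⟨g, hg, rfl⟩ _ ⟨h, hh, rfl⟩
        obtain ⟨C, hC, e1⟩ := H.pure (ca g hg) hp he
        obtain ⟨C', hC', e2⟩ := H.pure (ca h hh) hp he
        have c1 : ∀ k ∈ RL Q M (Ln (ρ i) w), Commute (k : End F V)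
            (h - lf (ρ i) a * h * ↑(lf (ρ i) a)⁻¹) := fun k hk =>
          Commute.sub_right (hz.comm P.le hk hh) (hz.comm P.le hk (cj h hh))
        have c2 := ((c1 g hg).sub_left (c1 _ (cj g hg))).eq
        simp only [Units.val_mul] at c2
        rw [e1, e2, H.pure_mul hp.b ((cm_bk _ _ _).smul κ) hC, H.pure_mul hp.b ((cm_bk _ _ _).smul κ) hC',
          ← sub_eq_zero, ← smul_sub, smul_eq_zero_iff_right (by simp [P.sz.h2, hp.q]), ← mul_sub] at c2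
        have := H.nC_inj ((((cm_bk _ _ _).smul κ).mul ((cm_bk _ _ _).smul κ)).sub
          (((cm_bk _ _ _).smul κ).mul ((cm_bk _ _ _).smul κ))) c2
        simpa [← smul_sub, hp.k0, sub_eq_zero] using this)
      (by
        rintro l b hb _ ⟨g, hg, rfl⟩
        by_cases e : l = i
        · exact ⟨g, hg, by rw [e, lf_val, ← cm_bk, mul_assoc, ← lf_val, Units.mul_inv, mul_one]⟩
        · exact ⟨_, RL.conj P.le (P.K l b hb) (stb_cm (P.cm e b) w) hg, (bk_cj (P.cm e b) _ _ _).symm⟩)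
      ⟨g, hg, rfl⟩
    exact Submodule.mem_span_singleton.2 ⟨s, hs.symm⟩
  obtain ⟨l, hl, h2⟩ := h2 i
  have h3 := P.qt2 H hz hl h2 (N := ((g : End F V) - 1) * ρ i (1 - r1 w' (B Q₁ w)))
    ⟨g, hg, fun x hx => by simp [H.w'_K hx]⟩ (by
      rw [mul_assoc, ← map_mul, sub_mul (1 : End F U), r1_mul, H.b]; simp)
  obtain ⟨s, hs⟩ := P.scal _ fun k => show Cm (ρ k) (bk (ρ i) (B Q₁ w') y
      (((g : End F V) - 1) * ρ i (1 - r1 w' (B Q₁ w)))) by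
    rcases h2 k with rfl | rfl
    exacts [cm_bk _ _ _, Cm.bk (P.comm _ _ hl.symm) h3 _ _]
  rw [bk_right, show (1 - r1 w' (B Q₁ w) : End F U) y = y by simp [hy], H.bk_row (sub_mem (ca g hg) (one_mem _))
    (by rw [map_sub, h0, H.c0_cm Cm.one, sub_self]) hy, map_sub, bk_cm Cm.one] at hs
  exact ⟨B Q₁ y w' - s, by rw [sub_smul, ← hs]; abel⟩

theorem zero_of_col (H : Lc Q₁ Q σ w w') {C : End F V} (hC : Cm (ρ i) C) (hs : Ad Q C (-C))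
    (h1 : ∀ l, l ≠ i → C ∈ CA Q₁ (ρ l) w)
    (h2 : ∀ l, l ≠ i → ∀ y, B Q₁ w y = 0 → B Q₁ w' y = 0 → bk (ρ l) (B Q₁ y) w' C = 0) : C = 0 := by
  refine eq_zero_of_ad P.sz.h2 P.nd (P.self_ad H.hw H.hw' H.b (Finset.univ.erase i) C
    (fun l hl => by rwa [show l = i by simpa using hl]) fun l hl => ?_) hs
  have e := Finset.ne_of_mem_erase hl
  have H' := P.lc H l
  have := H'.cent (sub_mem (h1 l e) (CA_of_cm (cm_bk (B Q₁ w) w' C))) (H'.of_W0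
    (Z := LinearMap.ker ((bl (ρ l) _).flip w' ∘ₗ B Q₁)) (by
      change bk _ _ _ _ = 0
      rw [map_sub, H'.c0_cm (cm_bk _ _ _), sub_self]) fun y b b' => by
      change bk _ _ _ _ = 0
      rw [map_sub, h2 l e y b b', bk_cm (cm_bk _ _ _), B_comm, b', zero_smul, sub_self])
  exact ⟨_, _, cm_bk _ _ _, cm_bk _ _ _, by rw [← H'.DL_eq this, add_sub_cancel]⟩

theorem CA_C (H : Lc Q₁ Q (ρ i) w w') {C : End F V} (hC : Cm (ρ i) C) {l : T} (hl : l ≠ i)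
    (h : ∀ y, B Q₁ w y = 0 → lf (ρ l) (eich Q₁ w y) * (ρ i (nn Q₁ w) * C) =
      ρ i (nn Q₁ w) * C * lf (ρ l) (eich Q₁ w y)) : C ∈ CA Q₁ (ρ l) w :=
  CA_of_eich P.sz.h2 H.hw fun y hy => by
    rw [← H.bk_nC hC]; exact bk_comm (P.cm hl _) (h y hy).symm _ _

theorem fixed (H : Lc Q₁ Q (ρ i) w w') (hz : ∀ l, ZT Q M (Ln (ρ l) w)) {D : End F V}
    (hD : D ∈ PP Q₁ Q M (ρ i) w) (h : ∀ l, l ≠ i → ∀ y, B Q₁ w y = 0 →
      lf (ρ l) (eich Q₁ w y) * D = D * lf (ρ l) (eich Q₁ w y)) : D = 0 := by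
  have e := H.DL_eq hD.1
  have hC := cm_bk (σ := ρ i) (B Q₁ w') w' D
  generalize bk (ρ i) (B Q₁ w') w' D = C at e hC
  subst e
  have ca := fun l hl => P.CA_C H hC hl (h l hl)
  rw [P.zero_of_col H hC (H.skew P.le (P.K i) hC hD) ca fun l hl y b b' => ?_, mul_zero]
  have H' := P.lc H l
  have cm := P.comm l i hl
  obtain ⟨s, s0, g, hg, e⟩ := H.weyl (P.K i) hC hD
  have h1 : (g : End F V) ∈ CA Q₁ (ρ l) w := e ▸ mul_mem (add_mem (one_mem _) (mul_mem (CA_of_cm (cm _)) (ca l hl)))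
    (sub_mem (one_mem _) (Subalgebra.smul_mem _ (mul_mem (CA_of_cm (cm _)) (ca l hl)) _))
  obtain ⟨d, c1, c2, c3⟩ := H'.split h1
  have hd : Cm (ρ l) (d : End F V) := c1 ▸ cm_bk _ _ _
  obtain ⟨t, ht⟩ := H'.lemT' P.h4 (P.K l) (P.qt H' (hz l)) c3 c2 (fun a ha => by
    convert mul_mem (mul_mem hg (P.K l a ha)) (inv_mem hg) using 1
    rw [mul_inv_rev, inv_inv, mul_assoc, mul_assoc, ← mul_assoc _ d, ← Cm.lf hd]; group) y b
  rw [Units.val_mul, bk_mul_cm (Cm.inv hd), Units.mul_inv_eq_iff_eq_mul, smul_mul_assoc, one_mul, c1] at ht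
  have k : ∀ ψ b, bk (ρ i) ψ b g = ψ b • 1 + ψ (nn Q₁ w b) • C - (s * ψ (nn Q₁ w' b)) • C -
      (s * ψ (nn Q₁ w (nn Q₁ w' b))) • (C * C) := fun ψ b => by
    rw [e, mul_sub, mul_one, add_mul, one_mul, mul_smul_comm, mul_assoc, ← mul_assoc C, hC, mul_assoc,
      ← mul_assoc, ← map_mul]
    simp only [map_add, map_sub, map_smul, bk_cm Cm.one, bk_mul hC, bk_mul (hC.mul hC), smul_smul,
      End.mul_apply]
    abel
  have := H.W0_rk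
  have := P.sz.h3
  obtain ⟨x, hx, q⟩ := H.W0_nd.exists_nonsing le_rfl (by omega)
  obtain ⟨x1, x2⟩ := Lc.mem_W0.1 hx
  have e1 := congrArg (bk (ρ i) (B Q₁ x) x) ht
  have e2 := congrArg (bk (ρ i) (B Q₁ w') w') ht
  simp only [map_smul, bk_bk cm.symm, k, nn_apply, x1, x2, H.b, H.b', H.bw', zero_smul, map_zero, mul_zero,
    add_zero, sub_zero, bk_cm Cm.one, B_comm Q₁ y w', b', one_smul, smul_zero, zero_add] at e1 e2
  haveI := P.nt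
  have : t = 0 := by simpa [B_self, P.sz.h2, q] using e1.symm
  rwa [this, zero_smul] at e2

theorem fix_mod (p : ℕ) [Fact p.Prime] [CharP F p] (w : U) (A : Set (End F V))
    (hA : ∀ l, l ≠ i → ∀ a ∈ Gm Q₁, ∀ z ∈ A, lf (ρ l) a * z * ↑(lf (ρ l) a)⁻¹ ∈ A) (hw : Q₁ w = 0)
    (h0 : 0 ∈ A) (h : ∀ D ∈ A, (∀ l, l ≠ i → ∀ y, B Q₁ w y = 0 →
      lf (ρ l) (eich Q₁ w y) * D = D * lf (ρ l) (eich Q₁ w y)) → D = 0) : Nat.card A ≡ 1 [MOD p] := by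
  haveI := P.nt
  convert fix_count (p := p) {x | ∃ l y, l ≠ i ∧ B Q₁ w y = 0 ∧ x = lf (ρ l) (eich Q₁ w y)} (by
    rintro _ ⟨l, y, -, b, rfl⟩ _ ⟨m, x, -, b', rfl⟩
    by_cases e : l = m
    · rw [e, ← map_mul, ← map_mul, eich_mul hw b b', eich_mul hw b' b, add_comm]
    · exact lf_comm (P.comm m l (Ne.symm e)) _ _) (by rintro _ ⟨l, y, -, -, rfl⟩; exact lf_eich_pow p w y) A
    (by rintro _ ⟨l, y, hl, -, rfl⟩; exact hA l hl _ (P.sz.eich_mem w y))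
  exact (Nat.card_eq_one_iff_exists.2 ⟨⟨0, h0, by simp⟩, fun z => Subtype.ext
    (h _ z.2.1 fun l hl y b => z.2.2 _ ⟨l, y, hl, b, rfl⟩)⟩).symm

theorem stab (H : Lc Q₁ Q (ρ i) w w') (hz : ∀ l, ZT Q M (Ln (ρ l) w)) {g : (End F V)ˣ} (hg : g ∈ M)
    (hs : g ∈ Stb (Ln (ρ i) w)) : g ∈ NF (ρ i) := by
  haveI := P.nt
  classical
  obtain ⟨p, hp⟩ := CharP.exists F
  haveI : Fact p.Prime := ⟨CharP.char_is_prime F p⟩
  obtain ⟨D, hD, d, h, d1, d2, e, h1, h2⟩ := H.part1' P.h4 P.le (P.K i) (P.qt H (hz i)) hg hs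
  haveI := Fintype.ofFinite (PP Q₁ Q M (ρ i) w)
  have cj : ∀ l, l ≠ i → ∀ a ∈ Gm Q₁, ∀ z ∈ PP Q₁ Q M (ρ i) w,
      lf (ρ l) a * z * ↑(lf (ρ l) a)⁻¹ ∈ PP Q₁ Q M (ρ i) w := fun l hl a ha z hz =>
    PP.conj P.le hz (P.K l a ha) (P.cm hl a)
  have c1 := P.fix_mod p w _ cj H.hw ⟨zero_mem _, fun a ha => ⟨_, P.K i a ha, by simp⟩⟩
    fun D hD => P.fixed H hz hD
  have sm : ∀ (k : (End F V)ˣ) (E : End F V), (∀ z ∈ PP Q₁ Q M (ρ i) w, k * z * ↑k⁻¹ + E ∈ PP Q₁ Q M (ρ i) w) →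
      k * (∑ z : PP Q₁ Q M (ρ i) w, z.1) * ↑k⁻¹ + (Nat.card (PP Q₁ Q M (ρ i) w) : F) • E =
        ∑ z : PP Q₁ Q M (ρ i) w, z.1 := fun k E hk => by
    refine Eq.trans ?_ (Fintype.sum_bijective (fun z : PP Q₁ Q M (ρ i) w => (⟨_, hk z.1 z.2⟩ : PP Q₁ Q M (ρ i) w))
      (Finite.injective_iff_bijective.1 fun x y hxy => Subtype.ext (by simpa using hxy))
      (fun z => k * z.1 * ↑k⁻¹ + E) (fun z => z.1) fun _ => rfl)
    simp [Finset.sum_add_distrib, Finset.mul_sum, Finset.sum_mul, Nat.cast_smul_eq_nsmul]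
  have s0 : ∑ z : PP Q₁ Q M (ρ i) w, z.1 = 0 := by
    have m : ∑ z : PP Q₁ Q M (ρ i) w, z.1 ∈ DL Q (Ln (ρ i) w) := sum_mem fun z _ => z.2.1
    obtain ⟨s, hs⟩ := P.scal (bk (ρ i) (B Q₁ w') w' (∑ z : PP Q₁ Q M (ρ i) w, z.1)) fun l => by
      by_cases hl : l = i
      · rw [hl]; exact cm_bk _ _ _
      refine Cm.bk (P.comm i l (Ne.symm hl)) (P.sz.cm_of_eich fun w y _ _ _ _ => ?_) _ _
      have := sm _ 0 fun z hz => by simpa using cj l hl _ (P.sz.eich_mem w y) z hz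
      rw [smul_zero, add_zero, Units.mul_inv_eq_iff_eq_mul] at this
      exact this.symm
    rw [H.DL_eq m, eq_zero_of_ad P.sz.h2 P.nd (C := bk _ _ _ _) (hs ▸ Ad.one.smul s), mul_zero]
    rw [map_sum, ← Finset.sum_neg_distrib]
    exact Finset.sum_induction (s := Finset.univ) (fun z : PP Q₁ Q M (ρ i) w =>
      (bk (ρ i) (B Q₁ w') w' z.1, -bk (ρ i) (B Q₁ w') w' z.1)) (fun p : End F V × End F V => Ad Q p.1 p.2)
      (fun _ _ h h' => h.add h') Ad.zero (fun z _ => H.skew P.le (P.K i) (cm_bk _ _ _)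
        (H.DL_eq z.2.1 ▸ z.2)) |> fun h => by simpa only [Prod.fst_sum, Prod.snd_sum] using h
  have := sm g D fun z hz => ⟨add_mem (DL.conj (P.le hg) hs hz.1) hD.1, fun a ha => by
    obtain ⟨b, hb, e1⟩ := h2 a ha
    have m := DL.conj (P.le hg) hs hz.1
    have e2 : (lf (ρ i) a : End F V) = h * lf (ρ i) b * ↑h⁻¹ := by rw [← e1]; simp [mul_assoc]
    have e3 : 1 + (g * z * ↑g⁻¹ + D) = g * (1 + z) * ↑h⁻¹ := by
      have : (g * ↑h⁻¹ : End F V) = 1 + D := by rw [e, ← d1]; simp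
      calc _ = (1 + g * z * ↑g⁻¹) * (g * ↑h⁻¹) := by
            rw [this]; simp [mul_add, add_mul, DL.mul H.LK m hD.1]; abel
        _ = _ := by simp [mul_add, add_mul, mul_assoc]
    have e4 : 1 - (g * z * ↑g⁻¹ + D) = h * (1 - z) * ↑g⁻¹ := by
      have : (h * ↑g⁻¹ : End F V) = 1 - D := by rw [e, ← d2]; simp
      calc _ = (h * ↑g⁻¹) * (1 - g * z * ↑g⁻¹) := by
            rw [this]; simp [mul_sub, sub_mul, DL.mul H.LK hD.1 m]; abel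
        _ = _ := by simp [mul_sub, sub_mul, mul_assoc]
    convert (hz.2 b hb).conj hg using 1
    rw [e2, e3, e4]; simp [mul_assoc]⟩
  rw [s0, mul_zero, zero_mul, zero_add, (CharP.natCast_eq_natCast F p).2 c1, Nat.cast_one, one_smul] at this
  rw [this, add_zero, Units.val_eq_one] at d1
  rwa [e, d1, one_mul]

end Te

end Cfsg.Agent.H2.TO
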