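import Cfsg.Agent.H2.TE2

set_option autoImplicit false
set_option linter.unusedSectionVars false
set_option linter.unusedSimpArgs false

/-! Orthogonal tensor frames in even dimension, part 3: nontrivial centre of the radical. -/

namespace Cfsg.Agent.H2.TO

open Module Cfsg.Agent.Orth Cfsg.Agent.H1.TW

variable {F : Type*} [Field F] [Finite F] {U : Type*} {V : Type*} [AddCommGroup U] [Module F U]
  [AddCommGroup V] [Module F V] [FiniteDimensional F U] [FiniteDimensional F V]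
  {Q₁ : QuadraticForm F U} {Q : QuadraticForm F V} {σ σ' τ τ' : Fr F U V}
  {M : Subgroup (End F V)ˣ} {L : Submodule F V} {I : Submodule F (End F V)}

/-- long root type elements of a pair of frames -/
def RR (Q₁ : QuadraticForm F U) (M : Subgroup (End F V)ˣ) (σ τ : Fr F U V) : Prop :=
  ∀ w u y, Q₁ w = 0 → Q₁ u = 0 → B Q₁ u y = 0 → IM M (1 + σ (nn Q₁ w) * τ (eN Q₁ u y))

theorem RR.cf (h : RR Q₁ M σ τ) {p : (End F V)ˣ} (hp : p ∈ M) : RR Q₁ M (cf p σ) (cf p τ) :=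
  fun w u y a b c => by simpa [cf_apply, mul_assoc] using (h w u y a b c).conj' hp

theorem RR.same [Nontrivial V] (hz : Sz Q₁) (nd : Nd Q) (a1 : Adj Q₁ Q σ) (a2 : Adj Q₁ Q σ') (a3 : Adj Q₁ Q τ)
    (a4 : Adj Q₁ Q τ') (s1 : Same σ σ') (s2 : Same τ τ') (h : RR Q₁ M σ τ) : RR Q₁ M σ' τ' := by
  obtain ⟨a, μ, ha, -, e, -⟩ := same_conf hz nd a1 a2 s1
  obtain ⟨b, ν, hb, -, e', -⟩ := same_conf hz nd a3 a4 s2
  intro w u y q1 q2 q3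
  have := h (a w) (b u) ((μ⁻¹ * ν⁻¹) • b y) (by rw [ha.qq hz.h2, q1, mul_zero])
    (by rw [hb.qq hz.h2, q2, mul_zero]) (by simp [hb.2, q3])
  have e1 := ha.nn (σ := σ) w
  have e2 := hb.eN (σ := τ) u y
  rw [lf_inv_val, lf_val, ← map_mul, ← map_mul] at e1 e2
  rwa [e, e', e1, e2, smul_mul_smul_comm, ← mul_smul_comm, ← map_smul, ← eN_smul]

namespace Lc
variable {w w' : U} (H : Lc Q₁ Q σ w w') {z z' : End F V}
include H

/-- the multipliers of the radical -/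
def IA (hM : M ≤ OU Q) (hK : ∀ a ∈ Gm Q₁, lf σ a ∈ M) : Submodule F (End F V) where
  carrier := {a | Cm σ a ∧ ∀ N ∈ NN Q M (Ln σ w), a * N ∈ NN Q M (Ln σ w)}
  add_mem' ha hb := ⟨ha.1.add hb.1, fun N hN => by rw [add_mul]; exact add_mem (ha.2 N hN) (hb.2 N hN)⟩
  zero_mem' := ⟨Cm.zero, fun N _ => by rw [zero_mul]; exact zero_mem _⟩
  smul_mem' s a ha := ⟨ha.1.smul s, fun N hN => by
    rw [smul_mul_assoc]; exact H.NN_smul hM hK s (ha.2 N hN)⟩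

variable (hM : M ≤ OU Q) (hK : ∀ a ∈ Gm Q₁, lf σ a ∈ M)
include hM hK

theorem IA_mul : ∀ x ∈ H.IA hM hK, ∀ y ∈ H.IA hM hK, x * y ∈ H.IA hM hK :=
  fun x hx y hy => ⟨hx.1.mul hy.1, fun N hN => by rw [mul_assoc]; exact hx.2 _ (hy.2 N hN)⟩

theorem RR_of (a : Adj Q₁ Q τ) (h : ∀ x, τ x ∈ H.IA hM hK) : RR Q₁ M σ τ := by
  obtain ⟨x, b, q⟩ := H.sz.exists_y H.w0
  have k : ∀ u y, IM M (1 + σ (nn Q₁ w) * τ (eN Q₁ u y)) := fun u y => by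
    have := (NN.comm H.nd hM H.LK (H.NN_r1 hK b) ((h (r1 ((2 * Q₁ x)⁻¹ • y) (B Q₁ u))).2 _ (H.NN_r1 hK b))
      (H.ad.r1 w x) ((a.r1 _ u).mul (H.ad.r1 w x))).2
    rwa [mul_assoc, ← mul_assoc (σ _), rho_r1_mul, mul_smul_comm, (h _).1, ← smul_mul_assoc, ← mul_sub,
      ← map_sub, ← eN, eN_smul, map_smul, smul_mul_smul_comm, B_self, mul_inv_cancel₀ (mul_ne_zero H.sz.h2 q), one_smul] at this
  intro w₂ u y q2 _ _
  by_cases w0 : w₂ = 0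
  · simpa [w0, nn] using IM.one
  obtain ⟨a, ha, s, s0, e⟩ := H.sz.trans H.hw H.w0 q2 w0
  have := (k u ((s * s)⁻¹ • y)).conj' (hK a ha)
  rwa [cj_nC (Gm_le_O ha) (h _).1, e, nn_smul, eN_smul, map_smul, map_smul, smul_mul_smul_comm,
    mul_inv_cancel₀ (mul_ne_zero s0 s0), one_smul] at this

theorem of_RR (hc : Comm σ τ) (h : RR Q₁ M σ τ) (x : End F U) : τ x ∈ H.IA hM hK :=
  H.sz.span_nn (H.IA_mul hM hK) (fun u hu u0 => by
    obtain ⟨y, b, q⟩ := H.sz.exists_y u0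
    refine (Submodule.smul_mem_iff _ (neg_ne_zero.2 (mul_ne_zero H.sz.h2 q))).1 ⟨(hc _).smul _, fun N hN => ?_⟩
    have := H.levi hM hK (hc _) (hc _) (h w u y H.hw hu b) (h w u y H.hw hu b) (by
      rw [← map_mul, eN_sq hu b, ← map_mul, mul_smul_comm, eN_nn hu b, smul_zero, map_zero]) hN
    rwa [← map_mul, eN_sq hu b, map_smul] at this) x

end Lc

theorem RR.symm [Nontrivial V] (hz : Sz Q₁) (nd : Nd Q) (hM : M ≤ OU Q) (a1 : Adj Q₁ Q σ) (a2 : Adj Q₁ Q τ) (hc : Comm σ τ)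
    (hK : ∀ a ∈ Gm Q₁, lf σ a ∈ M) (h : RR Q₁ M σ τ) : RR Q₁ M τ σ := by
  intro u w y qu qw b
  by_cases u0 : u = 0
  · simpa [u0, nn] using IM.one
  by_cases w0 : w = 0
  · simpa [w0, eN] using IM.one
  obtain ⟨u', c1, c2⟩ := hz.partner qu u0
  obtain ⟨w', c3, c4⟩ := hz.partner qw w0
  have H : Lc Q₁ Q τ u u' := ⟨hz, nd, a2, qu, c1, c2⟩
  have cs := hc.symm
  have k : ∀ w x, Q₁ w = 0 → B Q₁ u x = 0 → τ (r1 u (B Q₁ x)) * σ (nn Q₁ w) ∈ NN Q M (Ln τ u) :=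
    fun w x q c => by
      obtain ⟨g, hg, e⟩ := h w u x q qu c
      have e1 : ∀ v ∈ perp Q (Ln τ u), (g : End F V) v - v = -(τ (r1 u (B Q₁ x)) * σ (nn Q₁ w)) v :=
        fun v hv => by simp [e, eN, H.w'_K hv, (cs _).apply]
      refine NN.congr (neg_mem ⟨g, ⟨hg, fun v hv => ?_, fun v hv => ?_⟩, fun _ _ =>
        (rfl : ((g : End F V) - 1) _ = _)⟩) fun v hv => by simpa using neg_eq_iff_eq_neg.1 (e1 v hv).symm
      · simp [e, hv (eN Q₁ u x) (by simp [H.bw, B_comm Q₁ x u, c])]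
      · rw [e1 v hv]; exact neg_mem (r1_mem_Ln _ _ _)
  obtain ⟨x, d, q⟩ := hz.exists_y u0
  have m := NN.comm nd hM H.LK (k w ((2 * Q₁ x)⁻¹ • x) qw (by simp [d])) (k w' x c3 d)
    ((a2.r1 _ _).mul (a1.r1 w w)) ((a2.r1 _ _).mul (a1.r1 w' w'))
  have e : ∀ z, τ (nn Q₁ u) * σ (eN Q₁ w z) ∈ ZZ Q M H.LK → ∀ t : F,
      τ (nn Q₁ u) * σ (eN Q₁ w (z + y - t • w)) ∈ ZZ Q M H.LK → IM M (1 + τ (nn Q₁ u) * σ (eN Q₁ w y)) :=
    fun z h1 t h2 => by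
      have := (sub_mem h2 h1).2
      rwa [← mul_sub, ← map_sub, eN_sub, eN_add, eN_smul, show eN Q₁ w w = 0 by simp [eN], smul_zero, sub_zero,
        add_sub_cancel_left] at this
  have m1 : τ (nn Q₁ u) * σ (eN Q₁ w w') ∈ ZZ Q M H.LK := by
    rw [cs _ _, cs _ _, rc_mul (cs _), rc_mul (cs _), nn, nn, rho_r1_mul, rho_r1_mul] at m
    convert m using 1
    simp [B_self, hz.h2, q, c4, B_comm Q₁ w' w, mul_sub, nn, eN, mul_assoc]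
  have hg := cm_lf cs (eich Q₁ w y)
  refine e w' m1 (B Q₁ y w' + Q₁ y) ?_
  have m2 : τ (nn Q₁ u) * (lf σ (eich Q₁ w y) * σ (eN Q₁ w w') * ↑(lf σ (eich Q₁ w y))⁻¹) ∈ ZZ Q M H.LK := by
    rw [cj_mul hg]
    exact ⟨DL.conj (hM (hK _ (hz.eich_mem w y))) (stb_cm hg u) m1.1, m1.2.conj' (hK _ (hz.eich_mem w y))⟩
  simpa [(conf_of_O (eich_mem_O w y)).eN, eich_apply_self qw b, eich_apply qw b w', c4] using m2

variable {T : Type*} [Fintype T] [DecidableEq T] {ρ : T → Fr F U V}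

namespace Te
variable (P : Te Q₁ Q ρ M) {w w' : U} {i : T}
include P

theorem exists_fixed (H : Lc Q₁ Q (ρ i) w w') (hz : ¬ ZT Q M (Ln (ρ i) w)) : ∃ C, Cm (ρ i) C ∧ C ≠ 0 ∧
    IM M (1 + ρ i (nn Q₁ w) * C) ∧ ∀ l, l ≠ i → C ∈ CA Q₁ (ρ l) w := by
  haveI := P.nt
  obtain ⟨p, hp⟩ := CharP.exists F
  haveI : Fact p.Prime := ⟨CharP.char_is_prime F p⟩
  by_contra! h
  refine hz fun D h1 h2 => by_contra fun h0 => ?_
  have c1 := P.fix_mod (i := i) p w (ZZ Q M H.LK) (fun l hl a ha z hz => ⟨DL.conj (P.le (P.K l a ha))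
    (stb_cm (P.cm hl a) w) hz.1, hz.2.conj' (P.K l a ha)⟩) H.hw (zero_mem _) fun D hD hf => by
      by_contra h0
      have e := H.DL_eq hD.1
      obtain ⟨l, hl, h3⟩ := h _ (cm_bk (B Q₁ w') w' D) (fun h3 => h0 (by rw [e, h3, mul_zero])) (e ▸ hD.2)
      exact h3 (P.CA_C H (cm_bk _ _ _) hl (e ▸ hf l hl))
  have c2 := addOrderOf_dvd_natCard (⟨D, h1, h2⟩ : ZZ Q M H.LK)
  rw [addOrderOf_eq_prime (p := p) (Subtype.ext (by
    simp [← Nat.cast_smul_eq_nsmul F])) (by simpa [Subtype.ext_iff] using h0)] at c2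
  exact (Fact.out : p.Prime).one_lt.ne' (Nat.dvd_one.1 ((c1.dvd_iff dvd_rfl).1 c2))

theorem exists_nil (H : Lc Q₁ Q (ρ i) w w') (hz : ¬ ZT Q M (Ln (ρ i) w)) : ∃ l, l ≠ i ∧ ∃ e, Cm (ρ i) e ∧
    ¬ Cm (ρ l) e ∧ ∀ N ∈ NN Q M (Ln (ρ i) w), e * N ∈ NN Q M (Ln (ρ i) w) := by
  obtain ⟨C, hC, c0, h1, h2⟩ := P.exists_fixed H hz
  have m : ∀ {C}, Cm (ρ i) C → IM M (1 + ρ i (nn Q₁ w) * C) → ρ i (nn Q₁ w) * C ∈ ZZ Q M H.LK :=
    fun hC h => ⟨H.nC_mem hC, h⟩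
  have cj : ∀ {C}, IM M (1 + ρ i (nn Q₁ w) * C) → ∀ l, l ≠ i → ∀ a ∈ Gm Q₁,
      IM M (1 + ρ i (nn Q₁ w) * (lf (ρ l) a * C * ↑(lf (ρ l) a)⁻¹)) := fun h l hl a ha => by
    rw [cj_mul (P.cm hl a)]; exact h.conj' (P.K l a ha)
  obtain ⟨l, hl, f, y, hf, b, h3⟩ : ∃ l, l ≠ i ∧ ∃ f y, (Cm (ρ i) f ∧ IM M (1 + ρ i (nn Q₁ w) * f) ∧
      f ∈ CA Q₁ (ρ l) w ∧ bk (ρ l) (B Q₁ w) w' f = 0) ∧ B Q₁ w y = 0 ∧ bk (ρ l) (B Q₁ y) w' f ≠ 0 := by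
    by_contra! h
    refine c0 (P.zero_of_col H hC (H.ad_of_nC hC (by simpa using Cm.zero.sub hC) ?_) h2 fun l hl y b b' => ?_)
    · simpa using skew_of_im P.le (DL.mul H.LK (H.nC_mem hC) (H.nC_mem hC)) h1
    have := H.span_ei' P.h4 (Z := LinearMap.ker ((bl (ρ l) (C - bk (ρ l) (B Q₁ w) w' C)).flip w' ∘ₗ B Q₁))
      (by simp [bl_apply, (P.lc H l).c0_cm (cm_bk _ _ _)]) (fun a ha α κ y a0 k0 a1 a2 b e => ?_) y b
    · simpa [bl_apply, bk_cm (cm_bk _ _ _), B_comm Q₁ y w', b'] using this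
    have e1 : ∀ x, bk (ρ l) (B Q₁ x) w' (C - lf (ρ l) a * C * ↑(lf (ρ l) a)⁻¹) =
        bk (ρ l) (B Q₁ (x - α • a⁻¹ x)) w' C := fun x => by
      rw [map_sub, bk_conj (Gm_le_O ha), inv_eig (inv_ne_zero a0) a2, inv_inv]
      simp [← bl_apply]
    have e2 := h l hl _ y ⟨hC.sub (Cm.cj (P.cm hl a) hC), by
      rw [mul_sub]; exact (sub_mem (m hC h1) (m (Cm.cj (P.cm hl a) hC) (cj h1 l hl a ha))).2,
      sub_mem (h2 l hl) (CA.conj (conf_of_O (Gm_le_O ha)) a0 a1 (h2 l hl)), by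
        rw [e1, inv_eig a0 a1, smul_inv_smul₀ a0, sub_self, ← bl_apply]; simp⟩ b
    have e3 : B Q₁ y w' = 0 := by
      have := congrArg (fun u => B Q₁ u w') e
      simp only [map_sub, map_smul, LinearMap.sub_apply, LinearMap.smul_apply, smul_eq_mul] at this
      rw [← O_B (Gm_le_O ha) (a⁻¹ y), apply_inv_apply, a2] at this
      simpa [a0, k0] using this
    rw [e1, e, ← bl_apply] at e2
    simpa [k0, bl_apply, bk_cm (cm_bk _ _ _), e3] using e2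
  have H' := P.lc H l
  obtain ⟨f, ⟨a1, a2, a3, a4⟩, g, ⟨b1, b2, b3, b4⟩, h0⟩ := P.nz H' (A := {f | Cm (ρ i) f ∧
    IM M (1 + ρ i (nn Q₁ w) * f) ∧ f ∈ CA Q₁ (ρ l) w ∧ bk (ρ l) (B Q₁ w) w' f = 0}) (fun _ h => h.2.2)
    (fun k hk a ha z hz => by
      by_cases e : k = i
      · rw [e, lf_val, ← hz.1, mul_assoc, ← lf_val, Units.mul_inv, mul_one]; exact hz
      exact ⟨Cm.cj (P.cm e a) hz.1, cj hz.2.1 k e a ha, CA.cj (P.cm hk a) hz.2.2.1, by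
        rw [bk_cj (P.cm hk a), hz.2.2.2]; simp⟩)
    (fun a ha a1 a2 z hz => ⟨Cm.cj (P.cm hl a) hz.1, cj hz.2.1 l hl a ha, H'.fix_conj ha a1 a2 hz.2.2.1 hz.2.2.2⟩)
    hf b h3
  have e := H'.DL_eq (H'.mul_DL a3 a4 b3 b4)
  refine ⟨l, hl, _, a1.mul b1, fun hc => h0 ?_, fun N => H.levi P.le (P.K i) b1 a1 b2 a2 ?_⟩
  · rw [e, bk_cm hc, H.bw', zero_smul, mul_zero]
  · rw [e, ← mul_assoc, nn, H'.mul_r1w b3, b4, mul_zero, zero_mul]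

theorem full_line (H : Lc Q₁ Q (ρ i) w w') (hz : ¬ ZT Q M (Ln (ρ i) w)) : FL Q M (Ln (ρ i) w) := by
  haveI := P.nt
  obtain ⟨l, hl, e, e1, e2, e3⟩ := P.exists_nil H hz
  have hm := H.IA_mul P.le (P.K i)
  have h1 := H.RR_of P.le (P.K i) (P.adj l) (P.frame_mem hm (fun k => by
    by_cases hk : k = i
    · exact iv_cm fun z hz => hk ▸ hz.1
    · exact fun a ha z hz => ⟨Cm.cj (P.cm hk a) hz.1, fun N hN => by
        simpa [mul_assoc] using NN.conj P.le (P.K k a ha) (stb_cm (P.cm hk a) w) (hz.2 _ (NN.conj P.le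
          (inv_mem (P.K k a ha)) (inv_mem (stb_cm (P.cm hk a) w)) hN))⟩) ⟨e1, e3⟩ e2)
  refine H.FL_of_cm P.le (P.K i) fun c hc => (P.mem_of (I := H.IA P.le (P.K i)) ⟨Cm.one, by simp⟩ hm (Finset.univ.erase i)
    (fun k hk => H.of_RR P.le (P.K i) (P.comm i k (Finset.ne_of_mem_erase hk).symm) ?_) c
    fun k hk => by rwa [show k = i by simpa using hk]).2
  have hk := Finset.ne_of_mem_erase hk
  by_cases hkl : l = k
  · exact hkl ▸ h1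
  obtain ⟨p, hp, s1, s2⟩ := P.perm i l k hl.symm hk.symm hkl
  exact ((h1.cf hp).same P.sz P.nd ((P.adj i).cf (P.le hp)) (P.adj k) ((P.adj l).cf (P.le hp)) (P.adj i)
    s1.symm s2.symm).symm P.sz P.nd P.le (P.adj k) (P.adj i) (P.comm k i hk) (P.K k)

theorem EO_le (h5 : 5 ≤ finrank F V) (H : Lc Q₁ Q (ρ i) w w') (hz : ¬ ZT Q M (Ln (ρ i) w)) : EO Q ≤ tM M := by
  haveI := P.nt
  have h2 := P.sz.h2
  have hM := tM_le h2 P.le
  have h1 := P.full_line H hz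
  have h1' : FL Q M (Ln (ρ i) w') := by
    obtain ⟨a, ha, s, s0, e⟩ := P.sz.trans H.hw H.w0 H.hw' H.w0'
    simpa [map_Ln_lf, e, Ln_smul s0] using h1.map h2 P.le (P.K i a ha)
  have q : ∀ {w w'}, Lc Q₁ Q (ρ i) w w' → ∀ v ∈ Ln (ρ i) w, Q v = 0 := fun H v hv =>
    mul_left_cancel₀ h2 (by rw [← B_self, H.LK hv v hv, mul_zero])
  obtain ⟨y, b, b', qy⟩ := P.sz.exists_y2 P.h4 w w'
  obtain ⟨x, x', m, m', hx⟩ : ∃ x x', x ∈ Ln (ρ i) y ∧ x' ∈ Ln (ρ i) y ∧ B Q x x' = 1 := by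
    obtain ⟨x, hx, x0⟩ := Ln_ne_bot (ρ := ρ i) (ne_zero_of_Q qy)
    obtain ⟨x', hx', h⟩ := (refl_data P.sz P.nd H.ad qy).1.exists_B_ne hx x0
    exact ⟨x, (B Q x x')⁻¹ • x', hx, Submodule.smul_mem _ _ hx', by simp [h]⟩
  have k : ∀ {w w'}, Lc Q₁ Q (ρ i) w w' → B Q₁ w y = 0 → B Q₁ w' y = 0 → FL Q M (Ln (ρ i) w) →
      FL Q M (Ln (ρ i) w') → ∀ v ∈ Ln (ρ i) w, Full Q (tM M) v := fun {w w'} H b b' h h' v hv z hz => by
    have p : ∀ {w w'}, Lc Q₁ Q (ρ i) w w' → B Q₁ w y = 0 → Ln (ρ i) y ≤ perp Q (Ln (ρ i) w) := fun H b =>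
      H.perp_eq ▸ Ln_le_Sp (mem_perp_span_singleton.2 b)
    have hv' := r1_mem_Ln (ρ := ρ i) w' (B Q₁ w) z
    have c1 := H.K_w' z
    generalize ρ i (r1 w' (B Q₁ w)) z = v' at hv' c1
    have c2 : B Q v v' = 0 := by simpa [hz] using c1 v hv
    have c3 := p H b m v hv
    have c4 := p H b m' v hv
    have c5 := p H.symm b' m v' hv'
    have c6 := p H.symm b' m' v' hv'
    have e := eich_conj_mem hM (h' v' hv' x (p H.symm b' m)) (h v hv x' (p H b m'))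
    rw [eich_apply_of_perp (B_comm Q v v' ▸ c2) (B_comm Q v x ▸ c3),
      eich_apply_of_perp_left (q H.symm v' hv') c5 c6, hx, one_smul] at e
    have := mul_mem (mul_mem (h v hv _ c1) (h v hv x' (p H b m'))) (inv_mem e)
    rwa [eich_inv (q H v hv) (by simp [c2, c4]), eich_mul (q H v hv) (c1 v hv) c4,
      eich_mul (q H v hv) (by simp [c1 v hv, c4]) (by simp [c2, c4]), show z - v' + x' + -(x' - v') = z by abel]
      at this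
  obtain ⟨v, hv, v0⟩ := Ln_ne_bot (ρ := ρ i) H.w0
  obtain ⟨z, hz⟩ := P.nd.exists_B_ne v0
  refine EO_le_of_full P.nd h5 hM (q H v hv) (q H.symm _ (r1_mem_Ln w' (B Q₁ w) z)) (k H b b' h1 h1' v hv)
    (k H.symm b' b h1' h1 _ (r1_mem_Ln _ _ _)) ?_
  rwa [← H.ad.r1 w w', r1_Ln_one hv H.b']

end Te

end Cfsg.Agent.H2.TO
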