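import Cfsg.Agent.H2.TE3

set_option autoImplicit false
set_option linter.unusedSectionVars false
set_option linter.unusedSimpArgs false

/-! Orthogonal tensor frames in even dimension, part 4: partial traces. -/

namespace Cfsg.Agent.H2.TO

open Module Cfsg.Agent.Orth Cfsg.Agent.H1.TW

theorem sum_free {G A Z : Type*} [AddGroup G] [Fintype G] [AddCommGroup Z] (act : G → A → A)
    (h0 : ∀ a, act 0 a = a) (h1 : ∀ p q a, act (p + q) a = act p (act q a)) (f : A → Z) (K : AddSubgroup Z)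
    (S : Finset A) : (∀ a ∈ S, ∀ p, act p a ∈ S) → (∀ a ∈ S, ∀ p, act p a = a → p = 0) →
      (∀ a ∈ S, ∑ p, f (act p a) ∈ K) → ∑ a ∈ S, f a ∈ K := by
  classical
  induction S using Finset.strongInduction with
  | H S ih =>
  intro h2 h3 h4
  rcases S.eq_empty_or_nonempty with rfl | ⟨a, ha⟩
  · simp
  have hO : Finset.univ.image (act · a) ⊆ S := fun b hb => by
    obtain ⟨p, -, rfl⟩ := Finset.mem_image.1 hb
    exact h2 a ha p
  rw [← Finset.sum_sdiff hO, Finset.sum_image fun p _ q _ e => neg_add_eq_zero.1 (h3 a ha _ (by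
    rw [h1, ← e, ← h1, neg_add_cancel, h0]))]
  refine add_mem (ih _ (Finset.sdiff_ssubset hO ⟨a, Finset.mem_image.2 ⟨0, by simp, h0 a⟩⟩)
    (fun b hb p => ?_) (fun b hb => h3 b (Finset.mem_sdiff.1 hb).1) fun b hb => h4 b (Finset.mem_sdiff.1 hb).1)
    (h4 a ha)
  obtain ⟨b1, b2⟩ := Finset.mem_sdiff.1 hb
  refine Finset.mem_sdiff.2 ⟨h2 b b1 p, fun h => b2 ?_⟩
  obtain ⟨q, -, e⟩ := Finset.mem_image.1 h
  exact Finset.mem_image.2 ⟨-p + q, by simp, by rw [h1, e, ← h1, neg_add_cancel, h0]⟩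

variable {F : Type*} [Field F] [Finite F] {U : Type*} {V : Type*} [AddCommGroup U] [Module F U]
  [AddCommGroup V] [Module F V] [FiniteDimensional F U] [FiniteDimensional F V]
  {Q₁ : QuadraticForm F U} {Q : QuadraticForm F V} {σ σ' τ τ' : Fr F U V}
  {M : Subgroup (End F V)ˣ} {L : Submodule F V} {I : Submodule F (End F V)}

theorem sum_poly {F Z : Type*} [Field F] [Fintype F] [AddCommGroup Z] [Module F Z] (h2 : (2 : F) ≠ 0)
    (g₀ g₁ h₀ h₁ : F → Z) : ∑ p : F × F, (g₀ p.2 + p.1 • g₁ p.2 + (h₀ p.1 + p.2 • h₁ p.1)) = 0 := by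
  have e : ∑ s : F, s = 0 := mul_left_cancel₀ h2 (by
    rw [two_mul, mul_zero]
    nth_rewrite 1 [← Equiv.sum_comp (Equiv.neg F)]
    simp [← Finset.sum_add_distrib])
  have k : ∀ g₀ g₁ : F → Z, ∑ t, ∑ s : F, (g₀ t + s • g₁ t) = 0 := fun g₀ g₁ =>
    Finset.sum_eq_zero fun t _ => by
      rw [Finset.sum_add_distrib, ← Finset.sum_smul, e, Finset.sum_const, ← Nat.cast_smul_eq_nsmul F]; simp
  rw [Finset.sum_add_distrib, Fintype.sum_prod_type_right, Fintype.sum_prod_type]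
  simp only [k, add_zero]

/-- the partial trace -/
noncomputable def pT (σ : Fr F U V) : End F V →ₗ[F] End F U where
  toFun D := ∑ i, r1 (bs F U i) (LinearMap.trace F V ∘ₗ LinearMap.mulLeft F D ∘ₗ σ.toLinearMap ∘ₗ
    LinearMap.smulRightₗ ((bs F U).coord i))
  map_add' x y := by ext b; simp [add_mul, add_smul, Finset.sum_add_distrib]
  map_smul' c x := by ext b; simp [Finset.smul_sum, smul_smul]

theorem pT_spec (D : End F V) (ψ : Dual F U) (b : U) :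
    ψ (pT σ D b) = LinearMap.trace F V (D * σ (r1 b ψ)) := by
  have : r1 b ψ = ∑ i, ψ (bs F U i) • r1 b ((bs F U).coord i) := by
    conv_lhs => rw [← (bs F U).sum_dual_apply_smul_coord ψ]
    ext x
    simp only [r1_apply, LinearMap.sum_apply, LinearMap.smul_apply, Finset.sum_smul, smul_smul, smul_eq_mul]
  rw [this]
  simp [pT, Finset.mul_sum, mul_comm, r1]

theorem pT_ext {D : End F V} {x : End F U} (h : ∀ ψ b, LinearMap.trace F V (D * σ (r1 b ψ)) = ψ (x b)) :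
    pT σ D = x := LinearMap.ext fun b => (bs F U).ext_elem fun i =>
  (pT_spec D ((bs F U).coord i) b).trans (h _ b)

theorem tr_r1 {c : End F V} (hc : Cm σ c) {u : U} {φ : Dual F U} (h : φ u = 1) (x : U) (ψ : Dual F U) :
    LinearMap.trace F V (σ (r1 x ψ) * c) = ψ x * LinearMap.trace F V (σ (r1 u φ) * c) := by
  rw [show σ (r1 x ψ) = σ (r1 x φ) * σ (r1 u ψ) by rw [rho_r1_mul, h, one_smul], mul_assoc,
    LinearMap.trace_mul_comm, mul_assoc, hc, ← mul_assoc, rho_r1_mul]; simp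

theorem pT_mul {c : End F V} (hc : Cm σ c) {u : U} {φ : Dual F U} (h : φ u = 1) (a : End F U) :
    pT σ (σ a * c) = LinearMap.trace F V (σ (r1 u φ) * c) • a := pT_ext fun ψ b => by
  rw [mul_assoc, hc, ← mul_assoc, ← map_mul, mul_r1, tr_r1 hc h]; simp [mul_comm]

theorem pT_comm (hz : Sz Q₁) (h : Comm σ τ) {c : End F V} (hc : Cm σ c) (x y : U) :
    pT τ (σ (eN Q₁ x y) * c) = 0 := pT_ext fun ψ b => by
  obtain ⟨u, -, hu⟩ := hz.exists_sing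
  obtain ⟨φ, hφ⟩ := H6.exists_dual_one' (F := F) hu
  rw [mul_assoc, eN, map_sub, sub_mul, map_sub, tr_r1 (hc.mul (h _)) hφ y, tr_r1 (hc.mul (h _)) hφ x, B_comm]
  simp

theorem exists_c [Nontrivial V] (hz : Sz Q₁) (nd : Nd Q) (h : Adj Q₁ Q σ) :
    ∃ c, Cm σ c ∧ Ad Q c c ∧ ∀ a, pT σ (σ a * c) = a := by
  obtain ⟨u, hu⟩ := hz.exists_Q 1
  have q : Q₁ u ≠ 0 := by simp [hu]
  obtain ⟨v, hv, qv⟩ := Oel.NdOn.exists_nonsing' (refl_data hz nd h q).1 ((Submodule.ne_bot_iff _).2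
    (Ln_ne_bot (ne_zero_of_Q q)))
  have h2 := hz.h2
  refine ⟨(4 * Q v)⁻¹ • bk σ (B Q₁ u) u (nn Q v), (cm_bk _ _ _).smul _,
    (ad_bk hz.n1 nd h (ad_r1 v v) u u).smul _, fun a => ?_⟩
  rw [pT_mul ((cm_bk _ _ _).smul _) (u := u) (φ := (2 : F)⁻¹ • B Q₁ u) (by simp [B_self, hu, h2]),
    mul_smul_comm, ← sandwich, nn, mul_r1, r1_mul', map_smul, r1, LinearMap.trace_smulRight]
  have e : (4 : F) ≠ 0 := by convert mul_ne_zero h2 h2 using 1; norm_num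
  simp only [LinearMap.comp_apply, r1_Ln hv, map_smul, LinearMap.smul_apply, B_self, hu, smul_eq_mul]
  rw [show (4 * Q v)⁻¹ * (2 * 1 * (2⁻¹ * (2 * 1) * (2 * Q v))) = 1 by field_simp; norm_num, one_smul]

/-- the projection onto a frame -/
noncomputable def pj (σ : Fr F U V) : End F V →ₗ[F] End F V := σ.toLinearMap ∘ₗ pT σ

theorem pj_apply (D : End F V) : pj σ D = σ (pT σ D) := rfl

theorem pj_same (h : Same σ σ') : pj σ' = pj σ := by
  obtain ⟨k, hk⟩ := h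
  ext1 D
  rw [pj_apply, pj_apply, pT_ext (x := (↑k⁻¹ : End F U) * pT σ D * (k : End F U)) fun ψ b => ?_, hk]
  · simp [mul_assoc, -map_mul]
  rw [hk, mul_r1, r1_mul', ← pT_spec]; rfl

/-- conjugation of maps -/
def cA (g : (End F V)ˣ) (π : End F V →ₗ[F] End F V) : End F V →ₗ[F] End F V :=
  LinearMap.mulLeft F (g : End F V) ∘ₗ LinearMap.mulRight F (↑g⁻¹ : End F V) ∘ₗ π ∘ₗ
    LinearMap.mulLeft F (↑g⁻¹ : End F V) ∘ₗ LinearMap.mulRight F (g : End F V)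

theorem cA_apply (g : (End F V)ˣ) (π : End F V →ₗ[F] End F V) (D : End F V) :
    cA g π D = g * π (↑g⁻¹ * D * g) * ↑g⁻¹ := by simp [cA, mul_assoc]

theorem cA_one (π : End F V →ₗ[F] End F V) : cA 1 π = π := by ext1; simp [cA_apply]

theorem cA_mul (g h : (End F V)ˣ) (π : End F V →ₗ[F] End F V) : cA (g * h) π = cA g (cA h π) := by
  ext1; simp [cA_apply, mul_assoc]

theorem pj_cf (g : (End F V)ˣ) : pj (cf g σ) = cA g (pj σ) := by
  ext1 D
  rw [cA_apply, pj_apply, pj_apply, cf_apply, pT_ext (x := pT σ (↑g⁻¹ * D * g)) fun ψ b => ?_]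
  rw [pT_spec, cf_apply, ← mul_assoc, LinearMap.trace_mul_comm]; simp only [mul_assoc]

theorem same_of_pj [Nontrivial V] (hz : Sz Q₁) (nd : Nd Q) (h : Adj Q₁ Q σ') (e : pj σ = pj σ') : Same σ σ' := by
  obtain ⟨c, -, -, hc⟩ := exists_c hz nd h
  exact same_of_range fun x => ⟨_, by rw [← pj_apply, e, pj_apply, hc]⟩

theorem split_x [Nontrivial V] (hz : Sz Q₁) (h4 : 4 ≤ finrank F U) (nd : Nd Q) (h : Adj Q₁ Q σ)
    (h' : Adj Q₁ Q σ') {w y : U} (hw : Q₁ w = 0) (hw0 : w ≠ 0) (hy : B Q₁ w y = 0) (hy0 : Q₁ y ≠ 0)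
    (hn : lf σ' (eich Q₁ w y) ∈ NF σ) :
    Cm σ (lf σ' (eich Q₁ w y) : End F V) ∨ ∃ a, lf σ' (eich Q₁ w y) = lf σ a := by
  obtain ⟨p, hp⟩ := CharP.exists F
  haveI : Fact p.Prime := ⟨CharP.char_is_prime F p⟩
  obtain ⟨a, ha, c, hc, e, h1, h2⟩ := dec_odd hz nd h (h'.lf_mem (eich_mem_O w y)) hn
    (OO.odd_char (p := p) hz.h2) (lf_eich_pow p w y)
  by_cases ha1 : a = 1
  · exact Or.inl (by rwa [e, ha1, map_one, one_mul])
  by_cases hc1 : c = 1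
  · exact Or.inr ⟨a, by rw [e, hc1, mul_one]⟩
  have f1 := rk_x (σ := σ) hz h4 ha (OO.nil_of_pow h1) ha1 hc
    (nil_of_pow' (p := p) (by rw [← Units.val_pow_eq_pow_val, h2, Units.val_one]))
    (fun h => hc1 (Units.ext h)) hw0
  have f2 := finrank_ker_x (σ := σ) (σ' := σ') hz hw hw0 hy hy0 hw0
  rw [e, Units.val_mul, lf_val] at f2
  omega

namespace Lc
variable {w w' : U} (H : Lc Q₁ Q σ w w')
include H

theorem aniso (h4 : 4 ≤ finrank F U) : ∃ x y, B Q₁ w x = 0 ∧ B Q₁ w y = 0 ∧ B Q₁ x y = 0 ∧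
    ∀ s t : F, s * s * Q₁ x + t * t * Q₁ y = 0 → s = 0 ∧ t = 0 := by
  have h2 := H.sz.h2
  obtain ⟨x, a1, a2, q⟩ := H.sz.exists_y2 h4 w w'
  by_cases h5 : finrank F U < 5
  · obtain ⟨y, b1, b2, q'⟩ := H.sz.exists_y2 h4 w x
    refine ⟨x, y, a1, b1, b2, fun s t h => ?_⟩
    obtain ⟨c, hc⟩ := H.sz.par h5 H.hw H.w0 (y := s • x + t • y) (by simp [a1, b1])
      (by simpa [Q_add, Q_smul, b2] using h)
    have e1 := congrArg (B Q₁ x) hc
    have e2 := congrArg (B Q₁ y) hc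
    simp [B_comm Q₁ x w, B_comm Q₁ y w, B_comm Q₁ y x, a1, b1, b2, B_self, h2, q, q'] at e1 e2
    exact ⟨e1, e2⟩
  obtain ⟨ε, e0, e1⟩ := Oel.exists_nonsquare h2
  have r := H.W0_rk
  have := finrank_inf_perp_ge (Q := Q₁) (perp Q₁ (Submodule.span F {w, w'})) (F ∙ x)
  have := finrank_span_singleton_le (F := F) x
  obtain ⟨y, ⟨u1, u2⟩, u3⟩ := (H.W0_nd.inf_perp (OO.ndOn_one h2 q) ((Submodule.span_singleton_le_iff_mem _ _).2
    (mem_W0.2 ⟨a1, a2⟩))).exists_Q_eq le_rfl (by omega) (-ε * Q₁ x)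
  refine ⟨x, y, a1, (mem_W0.1 u1).1, mem_perp_span_singleton.1 u2, fun s t h => ?_⟩
  have e : s * s = ε * (t * t) := mul_right_cancel₀ q (by rw [u3] at h; linear_combination h)
  have : t = 0 := by_contra fun ht => e1 ⟨s / t, by field_simp; linear_combination -e⟩
  exact ⟨by simpa [this] using e, this⟩

theorem orbit_sum [Fintype F] {x y : U} (a : B Q₁ w x = 0) (b : B Q₁ w y = 0) (c : B Q₁ x y = 0) (e : End F V) :
    ∑ p : F × F, (lf σ (eich Q₁ w (p.1 • x + p.2 • y)) : End F V) * e *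
      ↑(lf σ (eich Q₁ w (p.1 • x + p.2 • y)))⁻¹ ∈ DL Q (Ln σ w) := by
  obtain ⟨N, hN⟩ : ∃ N, N = σ (eN Q₁ w x) := ⟨_, rfl⟩
  obtain ⟨N', hN'⟩ : ∃ N, N = σ (eN Q₁ w y) := ⟨_, rfl⟩
  obtain ⟨n, hn⟩ : ∃ n, n = σ (nn Q₁ w) := ⟨_, rfl⟩
  have := sum_poly H.sz.h2 (fun t => (1 + t • N' - (t * t * Q₁ y) • n) * e * (1 - t • N' - (t * t * Q₁ y) • n))
    (fun t => N * e * (1 - t • N' - (t * t * Q₁ y) • n) - (1 + t • N' - (t * t * Q₁ y) • n) * e * N)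
    (fun s => (s * s) • (-Q₁ x • (n * e + e * n) - N * e * N) + (s * s * s * Q₁ x) • (n * e * N - N * e * n) +
      (s * s * s * s * Q₁ x * Q₁ x) • (n * e * n)) (fun s => (s * s * Q₁ x) • (n * e * N' - N' * e * n))
  have m : n * e * n ∈ DL Q (Ln σ w) := by rw [hn, nn, sandwich]; exact H.nC_mem (cm_bk _ _ _)
  convert add_mem (this ▸ zero_mem _ : _ ∈ DL Q (Ln σ w)) (sum_mem (t := Finset.univ) fun (p : F × F) _ =>
    Submodule.smul_mem _ (2 * (p.1 * p.1 * Q₁ x) * (p.2 * p.2 * Q₁ y)) m) using 1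
  rw [← Finset.sum_add_distrib]
  refine Finset.sum_congr rfl fun p _ => ?_
  have d : B Q₁ w (p.1 • x + p.2 • y) = 0 := by simp [a, b]
  have d' : B Q₁ w (-(p.1 • x + p.2 • y)) = 0 := by simp [a, b]
  rw [lf_inv_val, lf_val, eich_inv H.hw d, eich_coe1 H.hw d, eich_coe1 H.hw d', QuadraticMap.map_neg,
    ← neg_one_smul F (p.1 • x + _), eN_smul]
  simp only [eN_add, eN_smul, Q_add, Q_smul, map_add, map_sub, map_smul, map_one, LinearMap.smul_apply, c,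
    ← hN, ← hN', ← hn, mul_add, add_mul, mul_sub, sub_mul, smul_mul_assoc, mul_smul_comm, mul_one, one_mul,
    smul_add, smul_eq_mul, mul_zero]
  module

end Lc

theorem bk2 (h : Comm σ τ) {ψ χ : Dual F U} {u v : U} (hu : ψ u = 0) (hv : χ v = 0) (a b c d : End F U)
    {A B' : End F V} (a1 : Cm σ A) (a2 : Cm τ A) (b1 : Cm σ B') (b2 : Cm τ B') :
    bk τ χ v (bk σ ψ u ((σ a + (τ b + A)) * (σ c + (τ d + B')))) = (ψ (a u) * χ (d v) + ψ (c u) * χ (b v)) • 1 := by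
  have c1 := (h b).add a1
  have c2 := (h d).add b1
  rw [add_mul, mul_add, mul_add, mul_add (τ b + A), c1, ← map_mul]
  simp only [map_add, bk_rho, bk_mul (h d), bk_mul b1, bk_mul c1, bk_cm (c1.mul c2), map_smul, bk_cm Cm.one,
    bk_cm a2, bk_cm b2, hu, hv, zero_smul, smul_zero, add_zero, zero_add, map_zero]
  module

variable {T : Type*} [Fintype T] [DecidableEq T] {ρ : T → Fr F U V}

theorem Tg.skew (P : Tg Q₁ Q ρ) (hJ : ∀ j x y c, Cm (ρ j) c → ρ j (eN Q₁ x y) * c ∈ I) (S : Finset T) :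
    ∀ D c, (∀ l, l ∉ S → Cm (ρ l) D) → (∀ l ∈ S, Cm (ρ l) c) → ∃ D', Ad Q D D' ∧ c * (D - D') ∈ I := by
  induction S using Finset.induction_on with
  | empty =>
    intro D c h _
    obtain ⟨s, rfl⟩ := P.scal D fun l => h l (by simp)
    exact ⟨_, Ad.one.smul s, by simp⟩
  | insert l S hl ih =>
    intro D c h hc
    rw [eq_sum_blk (ρ l) D, ← Finset.sum_product']
    refine Finset.sum_induction _ (fun D => ∃ D', Ad Q D D' ∧ c * (D - D') ∈ I)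
      (fun a b ⟨a', a1, a2⟩ ⟨b', b1, b2⟩ => ⟨_, a1.add b1, by
        rw [add_sub_add_comm, mul_add]; exact add_mem a2 b2⟩) ⟨0, Ad.zero, by simp⟩ fun p _ => ?_
    obtain ⟨m, hm⟩ := OO.exists_B_eq P.sz.n1 ((bs F U).coord p.2)
    obtain ⟨b', b1, b2⟩ := ih (bk (ρ l) ((bs F U).coord p.1) (bs F U p.2) D) (c * ρ l (r1 (bs F U p.1) (B Q₁ m)))
      (fun k hk => by
        by_cases e : k = l
        · rw [e]; exact cm_bk _ _ _
        · exact Cm.bk (P.comm l k (Ne.symm e)) (h k (by simp [e, hk])) _ _)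
      fun k hk => (hc k (by simp [hk])).mul (P.comm k l (by rintro rfl; exact hl hk) _)
    have b3 := b1.cm P.sz.n1 P.nd (P.adj l) (cm_bk _ _ _)
    have b4 := ((P.adj l).r1 (bs F U p.1) m).mul b1
    nth_rewrite 1 [hm] at b4
    refine ⟨_, b4, ?_⟩
    convert add_mem b2 (hJ l m (bs F U p.1) _ ((hc l (by simp)).mul b3)) using 1
    rw [eN, map_sub, sub_mul, ← mul_assoc, ← mul_assoc, ← hc l (by simp), ← hc l (by simp), b3, hm, bk_apply]
    noncomm_ring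

theorem Tg.single (P : Tg Q₁ Q ρ) (i : T) {a b : T → End F U} {p q : F}
    (h : ∀ s t : F, s * s * p + t * t * q = 0 → s = 0 ∧ t = 0) (h1 : (∑ k, ρ k (a k)) * ∑ k, ρ k (b k) = 0)
    (h2 : q • ((∑ k, ρ k (a k)) * ∑ k, ρ k (a k)) = p • ((∑ k, ρ k (b k)) * ∑ k, ρ k (b k))) :
    ∃ j, ∀ l, l ≠ j → Cm (ρ l) (∑ k, ρ k (a k)) := by
  haveI := P.nt
  obtain ⟨j, hj⟩ : ∃ j, ∀ l, l ≠ j → ∃ s : F, a l = s • 1 := by
    by_contra! hn
    obtain ⟨j, -, hj⟩ := hn i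
    obtain ⟨l, hl, hl'⟩ := hn j
    have k : ∀ x : End F U, (∀ s : F, x ≠ s • 1) → ∃ (ψ : Dual F U) (u : U), ψ u = 0 ∧ ψ (x u) = 1 := fun x hx => by
      obtain ⟨u, hu⟩ := exists_ne_eig (k := x) (by simpa using hx)
      obtain ⟨ψ, e1, e2⟩ := exists_dual_ann hu
      exact ⟨ψ, u, e2 u (Submodule.mem_span_singleton_self u), e1⟩
    obtain ⟨ψ, u, c1, c2⟩ := k _ hj
    obtain ⟨χ, v, d1, d2⟩ := k _ hl'
    have e : ∀ a : T → End F U, ∃ A, Cm (ρ j) A ∧ Cm (ρ l) A ∧ ∑ k, ρ k (a k) = ρ j (a j) + (ρ l (a l) + A) :=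
      fun a => ⟨∑ k ∈ (Finset.univ.erase j).erase l, ρ k (a k),
        Cm.sum _ fun k hk => P.comm j k (by simp at hk; tauto) _,
        Cm.sum _ fun k hk => P.comm l k (by simp at hk; tauto) _, by
        rw [Finset.add_sum_erase _ (fun k => ρ k (a k)) (by simpa using hl),
          Finset.add_sum_erase _ (fun k => ρ k (a k)) (by simp)]⟩
    obtain ⟨A, a1, a2, ea⟩ := e a
    obtain ⟨B', b1, b2, eb⟩ := e b
    have cm := P.comm j l hl.symm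
    have e1 := congrArg (fun z => bk (ρ l) χ v (bk (ρ j) ψ u z)) h1
    have e2 := congrArg (fun z => bk (ρ l) χ v (bk (ρ j) ψ u z)) h2
    simp only [ea, eb, map_smul, bk2 cm c1 d1 _ _ _ _ a1 a2 b1 b2, bk2 cm c1 d1 _ _ _ _ a1 a2 a1 a2,
      bk2 cm c1 d1 _ _ _ _ b1 b2 b1 b2, c2, d2, map_zero, smul_smul] at e1 e2
    replace e1 := (smul_eq_zero.1 e1).resolve_right one_ne_zero
    replace e2 := smul_left_injective F one_ne_zero e2
    exact one_ne_zero (h (ψ (b j u)) 1 (mul_left_cancel₀ P.sz.h2 (by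
      linear_combination e2 + 2 * p * ψ (b j u) * e1))).2
  refine ⟨j, fun l hl => Cm.sum _ fun k _ => ?_⟩
  by_cases e : l = k
  · obtain ⟨s, hs⟩ := hj l hl
    rw [← e, hs, map_smul, map_one]; exact Cm.one.smul s
  · exact P.comm l k e _

namespace Te
variable (P : Te Q₁ Q ρ M) (hz : ∀ l w, Q₁ w = 0 → w ≠ 0 → ZT Q M (Ln (ρ l) w)) {w : U}
include P

theorem fam : Fam Q₁ Q ρ Finset.univ :=
  ⟨P.sz, P.nd, P.nt, fun i _ => P.adj i, fun i _ j _ => P.comm i j⟩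

theorem adj' (h : Cf ρ Finset.univ M σ) : Adj Q₁ Q σ := by
  obtain ⟨i, -, k, hk, rfl⟩ := h
  exact (P.adj i).cf (P.le hk)

theorem K' (h : Cf ρ Finset.univ M σ) {a : U ≃ₗ[F] U} (ha : a ∈ Gm Q₁) : lf σ a ∈ M := by
  obtain ⟨i, -, k, hk, rfl⟩ := h
  rw [lf_cf]
  exact mul_mem (mul_mem hk (P.K i a ha)) (inv_mem hk)

include hz

theorem stab' (h : Cf ρ Finset.univ M σ) (hw : Q₁ w = 0) (w0 : w ≠ 0) {g : (End F V)ˣ} (hg : g ∈ M)
    (hc : g * σ (nn Q₁ w) = σ (nn Q₁ w) * g) : g ∈ NF σ := by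
  obtain ⟨i, -, k, hk, rfl⟩ := h
  obtain ⟨w', H⟩ := P.exists_lc i hw w0
  have := P.stab H (fun l => hz l w hw w0) (mul_mem (mul_mem (inv_mem hk) hg) hk) fun v hv => by
    have e := map_range_of_comm hc
    rw [range_nn P.sz.n1 w0] at e
    simpa using (mem_Ln_cf (g := k) (v := (↑k⁻¹ : End F V) ((g : End F V) ((k : End F V) v)))).1 (by
      simpa using e.le ⟨_, mem_Ln_cf.2 hv, rfl⟩)
  simpa [mul_assoc] using (NF_cf (g := k)).2 this

theorem comm_of (h : Cf ρ Finset.univ M σ) (h' : Cf ρ Finset.univ M σ') (hw : Q₁ w = 0) (w0 : w ≠ 0)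
    (hc : Cm σ (σ' (nn Q₁ w))) : Comm σ σ' := fun x => P.sz.cm_of_eich fun u y qu u0 b qy => by
  haveI := P.nt
  rcases split_x P.sz P.h4 P.nd (P.adj' h') (P.adj' h) qu u0 b qy
    (P.stab' hz h' hw w0 (P.K' h (P.sz.eich_mem u y)) (hc _).symm) with e | ⟨a, e⟩
  · exact (e x).symm
  obtain ⟨w', -, h5⟩ := P.sz.partner hw w0
  have h1 := hc (eich Q₁ u y : U →ₗ[F] U)
  rw [← lf_val, e, lf_val, ← map_mul, ← map_mul] at h1
  have h2 := LinearMap.congr_fun (H1.TW.rho_injective h1) w'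
  simp only [End.mul_apply, nn_apply, h5, one_smul, LinearEquiv.coe_coe] at h2
  refine absurd (nz_mul hc (x := (eich Q₁ u y : U →ₗ[F] U) - B Q₁ w (a w') • (1 : End F U)) (fun e =>
    eich_ne_scal P.sz qu u0 b qy _ fun v => LinearMap.congr_fun (sub_eq_zero.1 e) v) ?_)
    (rho_ne_zero fun e => w0 (by simpa [h5] using LinearMap.congr_fun e w'))
  rw [map_sub, ← lf_val, e, lf_val, map_smul, map_one, sub_mul, ← map_mul, nn, mul_r1, LinearEquiv.coe_coe, ← h2]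
  simp [r1_smul_left]

theorem good (h : Cf ρ Finset.univ M σ) (hw : Q₁ w = 0) (w0 : w ≠ 0) {j : T}
    (hc : ∀ l, l ≠ j → Cm (ρ l) (σ (nn Q₁ w))) : Same (ρ j) σ := by
  haveI := P.nt
  exact same_of_range fun x => P.mem_of (I := LinearMap.range (ρ j).toLinearMap) ⟨1, map_one (ρ j)⟩
    (by rintro _ ⟨a, rfl⟩ _ ⟨b, rfl⟩; exact ⟨a * b, map_mul (ρ j) a b⟩) {j} (by simp) _ fun l hl =>
      P.comm_of hz (Cf.of_mem (by simp)) h hw w0 (hc l (by simpa using hl)) x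

theorem rel (h : Cf ρ Finset.univ M σ) (hw : Q₁ w = 0) (w0 : w ≠ 0) {y : U} (b : B Q₁ w y = 0) (q : Q₁ y ≠ 0)
    {j : T} (hn : lf (ρ j) (eich Q₁ w y) ∈ NF σ) : Same σ (ρ j) ∨ Comm σ (ρ j) := by
  haveI := P.nt
  rcases split_x P.sz P.h4 P.nd (P.adj' h) (P.adj j) hw w0 b q hn with e | ⟨a, e⟩
  · exact Or.inr (P.comm_of hz h (Cf.of_mem (by simp)) hw w0 fun x => (comm_nn P.sz.h2 hw b q (e x).symm).symm)
  obtain ⟨i, -, k, hk, rfl⟩ := h
  have := (P.good hz ((Cf.of_mem (i := j) (by simp)).cf (inv_mem hk)) hw w0 (j := i) fun l hl x =>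
    (comm_nn P.sz.h2 hw b q (by
      rw [lf_cf, e, lf_cf, show k⁻¹ * (k * lf (ρ i) a * k⁻¹) * k⁻¹⁻¹ = lf (ρ i) a by group]
      exact (P.cm hl.symm a x).symm)).symm).cf k
  exact Or.inl (by rwa [cf_cf_inv] at this)

theorem theta {Φ : Finset (End F V →ₗ[F] End F V)} (hΦ : ∀ π, π ∈ Φ ↔ ∃ σ, Cf ρ Finset.univ M σ ∧ π = pj σ)
    (eq : ∀ g ∈ M, cA g (∑ π ∈ Φ, π) = ∑ π ∈ Φ, π) (j : T) {c : End F V} (hc : Cm (ρ j) c) (hw : Q₁ w = 0)
    {y : U} (b : B Q₁ w y = 0) : (∑ π ∈ Φ, π) (ρ j (eN Q₁ w y) * c) = pj (ρ j) (ρ j (eN Q₁ w y) * c) := by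
  classical
  haveI := P.nt
  haveI := Fintype.ofFinite F
  by_cases w0 : w = 0
  · simp [w0, eN]
  obtain ⟨w', H⟩ := P.exists_lc j hw w0
  obtain ⟨x₁, x₂, a1, a2, a3, a4⟩ := H.aniso P.h4
  let X : F × F → (End F V)ˣ := fun p => lf (ρ j) (eich Q₁ w (p.1 • x₁ + p.2 • x₂))
  have d : ∀ p : F × F, B Q₁ w (p.1 • x₁ + p.2 • x₂) = 0 := fun p => by simp [a1, a2]
  have X0 : ∀ π, cA (X 0) π = π := fun π => by simp [X, eich_zero, cA_one]
  have X1 : ∀ p q, X (p + q) = X p * X q := fun p q => by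
    simp only [X, ← map_mul, eich_mul hw (d _) (d _), Prod.fst_add, Prod.snd_add, add_smul]; congr 2; abel
  have XM : ∀ p, X p ∈ M := fun p => P.K j _ (P.sz.eich_mem _ _)
  have R : ∀ y, B Q₁ w y = 0 → ((∑ π ∈ Φ, π) - pj (ρ j)) (ρ j (eN Q₁ w y) * c) ∈ DL Q (Ln (ρ j) w) := fun y b => by
    have fx : ∀ p, ↑(X p)⁻¹ * (ρ j (eN Q₁ w y) * c) * X p = ρ j (eN Q₁ w y) * c := fun p => by
      rw [mul_assoc, mul_assoc, lf_val, hc, ← mul_assoc (ρ j _), ← lf_val, mem_CA.1 (H.eich_CA (d p)) y b]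
      simp [← mul_assoc, X]
    rw [← Finset.sum_filter_add_sum_filter_not Φ (fun π => ∀ p, cA (X p) π = π → p = 0), add_sub_assoc,
      LinearMap.add_apply, LinearMap.sub_apply, LinearMap.sum_apply, LinearMap.sum_apply,
      Finset.sum_eq_single_of_mem (s := Φ.filter fun π => ¬ ∀ p, cA (X p) π = π → p = 0) (pj (ρ j)) (by
        simp only [Finset.mem_filter, hΦ, not_forall]
        exact ⟨⟨_, Cf.of_mem (by simp), rfl⟩, (1, 0), by rw [← pj_cf, pj_same (same_lf _)], by simp⟩)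
      (fun π hπ hne => ?_), sub_self, add_zero]
    · refine sum_free (fun p => cA (X p)) X0 (fun p q π => by rw [X1, cA_mul])
        (fun π => π (ρ j (eN Q₁ w y) * c)) (DL Q (Ln (ρ j) w)).toAddSubgroup _ (fun π hπ p => ?_)
        (fun π hπ => (Finset.mem_filter.1 hπ).2) fun π _ => by
          simp only [cA_apply, fx]; exact H.orbit_sum a1 a2 a3 _
      obtain ⟨h1, h2⟩ := Finset.mem_filter.1 hπ
      obtain ⟨σ, h3, rfl⟩ := (hΦ _).1 h1
      refine Finset.mem_filter.2 ⟨(hΦ _).2 ⟨_, h3.cf (XM p), (pj_cf _).symm⟩, fun q e => h2 q ?_⟩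
      have := congrArg (cA (X (-p))) e
      rwa [← cA_mul, ← cA_mul, ← cA_mul, ← X1, ← X1, ← X1, neg_add_cancel, X0,
        show -p + q + p = q by abel] at this
    simp only [Finset.mem_filter, hΦ, not_forall] at hπ
    obtain ⟨⟨σ, h3, rfl⟩, p, e, p0⟩ := hπ
    rw [← pj_cf] at e
    rcases P.rel hz h3 hw w0 (d p) (fun h => p0 (Prod.ext_iff.2 (a4 p.1 p.2 (by
      simpa [Q_add, Q_smul, a3] using h)))) (same_of_pj P.sz P.nd (P.adj' (h3.cf (XM p))) e.symm) with h | h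
    · exact absurd (pj_same h).symm hne
    · rw [pj_apply, pT_comm P.sz h.symm hc, map_zero]
  refine sub_eq_zero.1 (H.span_ei' P.h4 (Z := LinearMap.ker (((∑ π ∈ Φ, π) - pj (ρ j)) ∘ₗ LinearMap.mulRight F c ∘ₗ
    (ρ j).toLinearMap ∘ₗ LinearMap.mk ⟨eN Q₁ w, eN_add w⟩ fun s y => eN_smul s w y)) (by simp [eN])
    (fun a ha α κ y a0 k0 e1 _ b e => ?_) y b)
  have m := R (a⁻¹ y) (by rw [← O_B (Gm_le_O ha), apply_inv_apply, e1]; simp [b])
  have e2 := congrArg (fun π => π (ρ j (eN Q₁ w y) * c)) (show cA (lf (ρ j) a) ((∑ π ∈ Φ, π) - pj (ρ j)) =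
    (∑ π ∈ Φ, π) - pj (ρ j) by
      conv_rhs => rw [← eq _ (P.K j a ha), ← pj_same (same_lf a), pj_cf]
      ext1; simp [cA_apply, mul_sub, sub_mul])
  have e3 := (conf_of_O (inv_mem (Gm_le_O ha))).eN (σ := ρ j) w y
  rw [map_inv, inv_inv, inv_eig a0 e1, eN_smul_left, inv_one, one_smul, map_smul] at e3
  generalize (∑ π ∈ Φ, π) - pj (ρ j) = Θ at m e2 ⊢
  simp only [cA_apply] at e2
  rw [show ↑(lf (ρ j) a)⁻¹ * (ρ j (eN Q₁ w y) * c) * (lf (ρ j) a : End F V) = α⁻¹ • ρ j (eN Q₁ w (a⁻¹ y)) * c by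
      rw [← e3, mul_assoc, mul_assoc, lf_val, hc]; simp only [mul_assoc], smul_mul_assoc, map_smul, H.DL_eq m, mul_smul_comm, smul_mul_assoc, cj_nC (Gm_le_O ha) (cm_bk _ _ _), e1,
    nn_smul, map_smul, smul_mul_assoc, ← H.DL_eq m, smul_smul, inv_mul_cancel_left₀ a0] at e2
  refine (Submodule.smul_mem_iff _ k0).1 ?_
  rw [← e]
  change Θ (ρ j (eN Q₁ w _) * c) = 0
  simp only [eN_sub, eN_smul, sub_mul, map_sub, map_smul, smul_mul_assoc, e2, sub_self]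

theorem le_HH : M ≤ HH P.fam := by
  classical
  haveI := P.nt
  haveI : Finite (End F V →ₗ[F] End F V) := Module.finite_of_finite F
  haveI := Fintype.ofFinite (End F V →ₗ[F] End F V)
  obtain ⟨Φ, hΦ⟩ : ∃ Φ : Finset (End F V →ₗ[F] End F V), ∀ π, π ∈ Φ ↔ ∃ σ, Cf ρ Finset.univ M σ ∧ π = pj σ :=
    ⟨Finset.univ.filter fun π => ∃ σ, Cf ρ Finset.univ M σ ∧ π = pj σ, by simp⟩
  have eq : ∀ g ∈ M, cA g (∑ π ∈ Φ, π) = ∑ π ∈ Φ, π := fun g hg => by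
    have k : ∀ g ∈ M, ∀ π ∈ Φ, cA g π ∈ Φ := fun g hg π hπ => by
      obtain ⟨σ, h3, rfl⟩ := (hΦ _).1 hπ
      exact (hΦ _).2 ⟨_, h3.cf hg, (pj_cf _).symm⟩
    refine Eq.trans ?_ (Finset.sum_nbij' (f := cA g) (cA g) (cA g⁻¹) (k g hg) (k _ (inv_mem hg))
      (fun π _ => by rw [← cA_mul, inv_mul_cancel, cA_one]) (fun π _ => by rw [← cA_mul, mul_inv_cancel, cA_one])
      fun _ _ => rfl)
    ext1; simp [cA_apply, Finset.mul_sum, Finset.sum_mul]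
  let h : Submodule F (End F V) := LinearMap.range (∑ k, (ρ k).toLinearMap ∘ₗ LinearMap.proj k :
    (T → End F U) →ₗ[F] End F V)
  have hJ := P.skew (I := h.comap (∑ π ∈ Φ, π)) (fun j x y c hc => eN_all' P.sz
    (h.comap ((∑ π ∈ Φ, π) ∘ₗ LinearMap.mulRight F c ∘ₗ (ρ j).toLinearMap)) (fun u v hu hv => by
      change (∑ π ∈ Φ, π) (ρ j (eN Q₁ u v) * c) ∈ h
      rw [P.theta hz hΦ eq j hc hu hv]
      exact ⟨Pi.single j (pT (ρ j) (ρ j (eN Q₁ u v) * c)), by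
        simp [pj_apply, Pi.single_apply, apply_ite]⟩) x y) Finset.univ
  intro g hg i _
  obtain ⟨w, hw, w0⟩ := P.sz.exists_sing
  obtain ⟨w', H⟩ := P.exists_lc i hw w0
  obtain ⟨c, c1, c2, c3⟩ := exists_c P.sz P.nd (P.adj i)
  have k : ∀ y, B Q₁ w y = 0 → ∃ a : T → End F U, cf g (ρ i) (eN Q₁ w y) = ∑ k, ρ k (a k) := fun y b => by
    obtain ⟨D', d1, d2⟩ := hJ (g * (ρ i (eN Q₁ w y) * c) * ↑g⁻¹) 1 (by simp) fun _ _ => Cm.one
    have d3 := ((OU.ad (P.le hg)).mul (((H.ad.r1 y w).sub (H.ad.r1 w y)).mul c2)).mul (OU.ad (P.le (inv_mem hg)))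
    rw [← map_sub, ← map_sub, ← eN, ← neg_sub, ← eN, c1, map_neg] at d3
    rw [d1.unique P.nd d3, one_mul] at d2
    obtain ⟨a, ha⟩ := h.smul_mem (2 : F)⁻¹ d2
    refine ⟨a, ?_⟩
    have e := congrArg (fun π => π (g * (ρ i (eN Q₁ w y) * c) * ↑g⁻¹)) (eq g hg)
    simp only [cA_apply, ← mul_assoc, Units.inv_mul, one_mul, Units.inv_mul_cancel_right] at e
    rw [P.theta hz hΦ eq i c1 hw b, pj_apply, c3] at e
    rw [cf_apply, e]
    simpa [mul_assoc, ← two_smul F, smul_smul, P.sz.h2] using ha.symm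
  obtain ⟨x₁, x₂, a1, a2, a3, a4⟩ := H.aniso P.h4
  obtain ⟨a, ha⟩ := k x₁ a1
  obtain ⟨b, hb⟩ := k x₂ a2
  obtain ⟨j, hj⟩ := P.single i (a := a) (b := b) a4 (by rw [← ha, ← hb, ← map_mul, H.eN_mul a1 a2, a3]; simp) (by
    rw [← ha, ← hb, ← map_mul, ← map_mul, eN_sq hw a1, eN_sq hw a2, map_smul, map_smul]; module)
  refine ⟨j, by simp, P.good hz ((Cf.of_mem (by simp)).cf hg) hw w0 fun l hl => ?_⟩
  have q : Q₁ x₁ ≠ 0 := fun h => one_ne_zero (a4 1 0 (by simp [h])).1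
  have := ((hj l hl).mul (hj l hl)).smul (-(2 * Q₁ x₁))⁻¹
  rwa [← ha, ← map_mul, eN_sq hw a1, map_smul, inv_smul_smul₀ (by simp [P.sz.h2, q])] at this

omit hz in
theorem main (h5 : 5 ≤ finrank F V) : M ≤ HH P.fam ∨ EO Q ≤ tM M := by
  by_cases hz : ∀ l w, Q₁ w = 0 → w ≠ 0 → ZT Q M (Ln (ρ l) w)
  · exact Or.inl (P.le_HH hz)
  push Not at hz
  obtain ⟨l, w, hw, w0, hz⟩ := hz
  obtain ⟨w', H⟩ := P.exists_lc l hw w0
  exact Or.inr (P.EO_le h5 H hz)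

end Te

end Cfsg.Agent.H2.TO
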