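import Cfsg.Agent.H2.TE4

set_option autoImplicit false
set_option linter.unusedSectionVars false
set_option linter.unusedSimpArgs false

/-! Orthogonal tensor frames in even dimension, part 5: the matrix statement. -/

namespace Cfsg.Agent.H2.TO

open Module Cfsg.Agent.Orth Cfsg.Agent.H1.TW

section
variable {F : Type*} [Field F] [Finite F] {U : Type*} {V : Type*} [AddCommGroup U] [Module F U]
  [AddCommGroup V] [Module F V] [FiniteDimensional F U] [FiniteDimensional F V]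
  {Q₁ : QuadraticForm F U} {Q : QuadraticForm F V} {σ σ' τ κ : Fr F U V}

theorem neg_sim' (hQ : Nd Q) (h2 : (2 : F) ≠ 0) {D θ : (V ≃ₗ[F] V) → Prop} (S : Oel.Spin Q D θ) {f : End F V}
    {ε : F} (e0 : ε ≠ 0) (n : ℕ) : ∀ (W W' : Submodule F V) (g g' : V ≃ₗ[F] V),
    NdOn Q W → NdOn Q W' → finrank F W = n → finrank F W' = n → g ∈ Oel.OW Q W → g' ∈ Oel.OW Q W' →
    (∀ v ∈ W, g v = -v) → (∀ v ∈ W', g' v = -v) → (∀ v ∈ W, f v ∈ W') →
    (∀ x ∈ W, ∀ y ∈ W, B Q (f x) (f y) = ε * B Q x y) → ((θ g ↔ θ g') ↔ IsSquare ε ∨ Even n) := by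
  induction n with
  | zero =>
    intro W W' g g' hW hW' d d' hg hg' _ _ _ _
    rw [Submodule.finrank_eq_zero] at d d'
    subst d d'
    rw [Oel.eq_one_of_OW hW hg (by simp), Oel.eq_one_of_OW hW hg' (by simp)]
    simp
  | succ n ih =>
    intro W W' g g' hW hW' d d' hg hg' hn hn' h1 h3
    obtain ⟨a, ha, qa⟩ := Oel.NdOn.exists_nonsing' hW (by rintro rfl; simp at d)
    have q : Q (f a) = ε * Q a := mul_left_cancel₀ h2 (by rw [← B_self, h3 a ha a ha, B_self]; ring)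
    have qa' : Q (f a) ≠ 0 := q ▸ mul_ne_zero e0 qa
    obtain ⟨s1, s2, -⟩ := H8.split_line h2 hW ha qa
    obtain ⟨t1, t2, -⟩ := H8.split_line h2 hW' (h1 a ha) qa'
    obtain ⟨p1, p2⟩ := Oel.neg_peel hQ h2 hg hn ha qa
    obtain ⟨r1, r2⟩ := Oel.neg_peel hQ h2 hg' hn' (h1 a ha) qa'
    have := ih _ _ _ _ s1 t1 (by omega) (by omega) p1 r1 p2 r2 (fun v hv => ⟨h1 v hv.1,
      mem_perp_span_singleton.2 (by rw [h3 a ha v hv.1, mem_perp_span_singleton.1 hv.2, mul_zero])⟩)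
      fun x hx y hy => h3 x hx.1 y hy.1
    rw [S.mθ.refl_mul hg.1 a, S.mθ.refl_mul hg'.1 (f a), S.θ_refl a qa, S.θ_refl _ qa', q,
      Oel.isSquare_mul_iff e0 qa, Nat.even_add_one]
    tauto

/-- a frame acting on a line of another frame -/
def Ps (h : Comm σ τ) {e : End F U} (he : e * e = e) : End F U →* End F V where
  toFun a := 1 - σ e + σ e * τ a
  map_one' := by simp
  map_mul' a b := by
    have k : ∀ z, σ e * (σ e * z) = σ e * z := fun z => by rw [← mul_assoc, ← map_mul, he]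
    have k' : ∀ z, τ a * (σ e * z) = σ e * (τ a * z) := fun z => by rw [← mul_assoc, h, mul_assoc]
    simp only [map_mul, add_mul, mul_add, sub_mul, mul_sub, mul_assoc, k, k', h a e, one_mul, mul_one]
    rw [← map_mul σ, he]; abel

/-- the same, on automorphisms -/
def ps (h : Comm σ τ) {e : End F U} (he : e * e = e) : (U ≃ₗ[F] U) →* (End F V)ˣ where
  toFun a := Units.map (Ps h he) (tu a)
  map_one' := by ext1; exact map_one (Ps h he)
  map_mul' a b := by ext1; exact map_mul (Ps h he) _ _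

theorem ps_val (h : Comm σ τ) {e : End F U} (he : e * e = e) (a : U ≃ₗ[F] U) :
    (ps h he a : End F V) = 1 - σ e + σ e * τ (a : U →ₗ[F] U) := rfl

theorem ad_pu (u : U) : Ad Q₁ (pu Q₁ u) (pu Q₁ u) := by
  rw [pu, r1_smul_right]; exact (ad_r1 u u).smul _

theorem refl_EO [Nontrivial V] (hz : Sz Q₁) (nd : Nd Q) (h5 : 5 ≤ finrank F V) (he : Even (finrank F U))
    (a1 : Adj Q₁ Q σ) (a2 : Adj Q₁ Q τ) (h : Comm σ τ) (c1 : Comm κ σ) (c2 : Comm κ τ) {u : U} (hu : Q₁ u ≠ 0) :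
    te (lf σ (refl Q₁ u)) ∈ EO Q := by
  have h2 := hz.h2
  obtain ⟨D, θ, S⟩ := Oel.exists_spin nd h5 h2
  have e : pu Q₁ u * pu Q₁ u = pu Q₁ u := by
    rw [pu, r1_mul, LinearMap.smul_apply, B_self, smul_eq_mul, inv_mul_cancel₀ (mul_ne_zero h2 hu), one_smul]
  have k : ∀ x, Q₁ x ≠ 0 → NdOn Q (Ln σ u ⊓ Ln τ x) ∧ te (ps h e (refl Q₁ x)) ∈ Oel.OW Q (Ln σ u ⊓ Ln τ x) ∧
      ∀ v ∈ Ln σ u ⊓ Ln τ x, te (ps h e (refl Q₁ x)) v = -v := fun x hx => by
    obtain ⟨E, hE⟩ : ∃ E, E = σ (pu Q₁ u) * τ (pu Q₁ x) := ⟨_, rfl⟩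
    have e1 : ∀ v, E v ∈ Ln σ u ⊓ Ln τ x := fun v =>
      ⟨hE ▸ r1_mem_Ln _ _ _, by rw [hE, ← h]; exact r1_mem_Ln _ _ _⟩
    have e2 : ∀ v ∈ Ln σ u ⊓ Ln τ x, E v = v := fun v hv => by
      rw [hE, End.mul_apply, pu_fix h2 hx hv.2, pu_fix h2 hu hv.1]
    have e3 : Ad Q E E := by
      have := (a1 _ _ (ad_pu u)).mul (a2 _ _ (ad_pu x))
      rwa [h, ← hE] at this
    have e4 : ∀ v, te (ps h e (refl Q₁ x)) v = v - (2 : F) • E v := fun v => by
      simp [ps_val, refl_eq_pu h2, hE, mul_sub]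
    refine ⟨fun v hv h0 => nd v fun z => by rw [← e2 v hv, ← e3, h0 _ (e1 z)], ⟨OO.mem_O_of_B h2 fun a b => ?_,
      fun v hv => ?_⟩, fun v hv => by rw [e4, e2 v hv]; module⟩
    · simp only [e4, map_sub, map_smul, LinearMap.sub_apply, LinearMap.smul_apply, e3 a, e2 _ (e1 b), smul_eq_mul]
      ring
    · rw [e4, nd (E v) fun z => by rw [← e3, hv _ (e1 z)]]; simp
  have d : ∀ x, x ≠ 0 → finrank F (Ln σ u) = finrank F U * finrank F (Ln σ u ⊓ Ln τ x : Submodule F V) :=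
    fun x hx => finrank_inv _ (fun y v hv => (h y).mem_Ln hv) hx
  have ev : ∀ x, Even (finrank F (Ln σ u ⊓ Ln τ x : Submodule F V)) := fun x => by
    rw [finrank_inv (ρ := κ) (Ln σ u ⊓ Ln τ x) (fun y v hv => ⟨(c1.symm y).mem_Ln hv.1, (c2.symm y).mem_Ln hv.2⟩)
      (ne_zero_of_Q hu)]
    exact he.mul_right _
  let Γ : Subgroup (U ≃ₗ[F] U) := (tM ⊤ ⊓ EO Q).comap (LinearMap.GeneralLinearGroup.generalLinearEquiv F V
    |>.toMonoidHom.comp (ps h e))
  have hΓ : ∀ a, a ∈ Γ ↔ te (ps h e a) ∈ EO Q := fun a => ⟨fun h => h.2, fun h => ⟨trivial, h⟩⟩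
  have rr : ∀ x y, Q₁ x ≠ 0 → Q₁ y ≠ 0 → refl Q₁ x * refl Q₁ y ∈ Γ := fun x y hx hy => by
    obtain ⟨x1, x2, x3⟩ := k x hx
    obtain ⟨y1, y2, y3⟩ := k y hy
    have d' : finrank F (Ln σ u ⊓ Ln τ y : Submodule F V) = finrank F (Ln σ u ⊓ Ln τ x : Submodule F V) :=
      Nat.eq_of_mul_eq_mul_left (by have := hz.h3; omega) ((d y (ne_zero_of_Q hy)).symm.trans (d x (ne_zero_of_Q hx)))
    rw [hΓ, map_mul, te_mul, S.mem _ (mul_mem x2.1 y2.1), S.mD _ x2.1 _ y2.1, S.mθ _ x2.1 _ y2.1,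
      S.neg_D nd h2 _ _ _ x1 rfl x2 x3, S.neg_D nd h2 _ _ _ y1 rfl y2 y3]
    refine ⟨iff_of_true (ev x) (ev y), (neg_sim' nd h2 S (f := τ (r1 y (B Q₁ x))) (mul_ne_zero (mul_ne_zero h2 hy)
      (mul_ne_zero h2 hx)) _ _ _ _ _ x1 y1 rfl d' x2 y2 x3 y3 (fun v hv => ⟨(h _).mem_Ln hv.1, r1_mem_Ln _ _ _⟩)
      fun a _ b hb => ?_).2 (Or.inr (ev x))⟩
    simp only [a2.r1 y x a, rho_r1_apply, r1_Ln hb.2, B_self, map_smul, smul_eq_mul, mul_assoc]
  have o1 := OO.ndOn_one h2 hu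
  obtain ⟨b, hb, qb, A, hA, f1, f2⟩ := OO.exists_neg hz.n1 h2 Γ (fun x y hx e => rr x y hx (e ▸ hx)) _
    (o1.perp hz.n1) (by
      have := hz.n1.finrank_perp (F ∙ u)
      rw [finrank_span_singleton (ne_zero_of_Q hu)] at this
      rw [← this, Nat.even_add_one] at he
      exact Nat.not_even_iff_odd.1 he)
  have := (hΓ _).1 (mul_mem (rr u b hu qb) hA)
  rw [show refl Q₁ u * refl Q₁ b * A = OO.ng F U from LinearEquiv.ext fun x => by
    obtain ⟨y, hy, z, hz', rfl⟩ := o1.exists_decomp x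
    obtain ⟨s, rfl⟩ := Submodule.mem_span_singleton.1 hy
    simp only [mul_app, map_add, map_smul, f1 z hz', f2 u (by
      rw [hz.n1.perp_perp]; exact Submodule.mem_span_singleton_self u), map_neg, refl_self hu,
      refl_of_perp (B_comm Q₁ u b ▸ mem_perp_span_singleton.1 hb), refl_of_perp (mem_perp_span_singleton.1 hz'),
      OO.ng_apply, smul_neg]] at this
  convert this using 2
  ext1
  rw [ps_val, lf_val, refl_eq_pu h2, show ((OO.ng F U : U ≃ₗ[F] U) : U →ₗ[F] U) = -(1 : End F U) from rfl]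
  simp [two_smul]; abel

variable {T : Type*} [Fintype T] [DecidableEq T] {ρ : T → Fr F U V}

theorem core' [Nontrivial T] (h : Fam Q₁ Q ρ Finset.univ) (scal : ∀ c, (∀ i, Cm (ρ i) c) → ∃ s : F, c = s • 1)
    (h4 : 4 ≤ finrank F U) (h5 : 5 ≤ finrank F V) (he : Even (finrank F U))
    (swap : ∀ i j, ∃ p ∈ OU Q, ∀ l, cf p (ρ l) = ρ (Equiv.swap i j l))
    {M : Subgroup (V ≃ₗ[F] V)} (h1 : M ≤ EO Q) (h2 : ∀ g ∈ EO Q, Nm ρ (g : End F V) → g ∈ M) :
    (∀ g ∈ M, Nm ρ (g : End F V)) ∨ EO Q ≤ M := by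
  haveI := h.nt
  let G : Subgroup (End F V)ˣ :=
    { carrier := {g | te g ∈ M}
      mul_mem' := fun ha hb => M.mul_mem ha hb
      one_mem' := M.one_mem
      inv_mem' := fun ha => M.inv_mem ha }
  have k : ∀ g ∈ HH h, te g ∈ EO Q → g ∈ G := fun g hg h3 => h2 _ h3 ((HH_iff h).1 hg)
  have ad := fun i => h.adj i (Finset.mem_univ i)
  have cm := fun i j => h.comm i (Finset.mem_univ _) j (Finset.mem_univ _)
  have P : Te Q₁ Q ρ G :=
    { sz := h.sz, h4 := h4, nt := h.nt, scal := scal, nd := h.nd, comm := cm, adj := ad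
      le := fun g hg => tu_mem (EO_le_O (h1 hg))
      K := fun i a ha => k _ (h.lf_mem (Finset.mem_univ i) a) ((Subgroup.closure_le (GE Q ρ (EO Q))).2 (by
        rintro _ ⟨x, y, a, b, rfl⟩ i
        exact rr_EO h.sz h.nd (ad i) h5 a b) ha i)
      cl := by
        refine or_iff_not_imp_right.2 fun hn => ⟨1, one_ne_zero, fun i u hu => ?_⟩
        push Not at hn
        obtain ⟨a, ha⟩ := hn
        obtain ⟨b, hb⟩ := exists_ne a
        obtain ⟨c, h3, h4⟩ := ha b hb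
        obtain ⟨l, m, e1, e2, e3⟩ : ∃ l m, i ≠ l ∧ m ≠ i ∧ m ≠ l := by
          by_cases e : i = a
          · exact ⟨b, c, e ▸ hb.symm, e ▸ h3, h4⟩
          by_cases e' : i = b
          · exact ⟨a, c, e, e' ▸ h4, h3⟩
          exact ⟨a, b, e, Ne.symm e', hb⟩
        exact k _ (h.lf_mem (Finset.mem_univ i) _) (refl_EO h.sz h.nd h5 he (ad i) (ad l) (cm _ _ e1) (cm _ _ e2)
          (cm _ _ e3) (by simp [hu]))
      perm := fun i l m a b c => by
        obtain ⟨g, g1, g2⟩ := swap m l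
        obtain ⟨f, f1, f2⟩ := swap i m
        have g3 : ∀ x, cf g⁻¹ (ρ x) = ρ (Equiv.swap m l x) := fun x => by
          conv_lhs => rw [← Equiv.swap_apply_self m l x, ← g2, cf_inv_cf]
        have f3 : ∀ x, cf f⁻¹ (ρ x) = ρ (Equiv.swap i m x) := fun x => by
          conv_lhs => rw [← Equiv.swap_apply_self i m x, ← f2, cf_inv_cf]
        have e : ∀ x, ∃ y, cf (g * f * g⁻¹ * f⁻¹) (ρ x) = ρ y ∧
            y = Equiv.swap m l (Equiv.swap i m (Equiv.swap m l (Equiv.swap i m x))) := fun x =>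
          ⟨_, by simp only [cf_mul, g2, g3, f2, f3], rfl⟩
        refine ⟨_, k (g * f * g⁻¹ * f⁻¹) (fun x _ => ?_) (h.nd.commutator_mem_EO h5 (te_mem h.sz.h2 g1)
          (te_mem h.sz.h2 f1)), ?_, ?_⟩
        · obtain ⟨y, hy, -⟩ := e x
          exact ⟨y, by simp, hy ▸ Same.refl _⟩
        · obtain ⟨y, hy, rfl⟩ := e i
          rw [hy]
          simpa [Equiv.swap_apply_of_ne_of_ne a.symm c] using Same.refl _
        · obtain ⟨y, hy, rfl⟩ := e l
          rw [hy]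
          simpa [Equiv.swap_apply_of_ne_of_ne a.symm c, Equiv.swap_apply_of_ne_of_ne b a] using Same.refl _ }
  exact (P.main h5).imp (fun h3 g hg => (HH_iff h (g := tu g)).1 (h3 hg)) fun h3 g hg => h3 hg

end

open Cfsg.Agent.H1.TF

variable {ι : Type} [Fintype ι] [DecidableEq ι] {F : Type*} [Field F] {k t : ℕ}

theorem maximal_even [Fintype F] {Q : (ι → F) → F} (hQ : Geo.IsNondegenerateQuadraticForm Q)
    (hodd : Odd (Fintype.card F)) (he : Even k) (hk : 4 ≤ k) (ht : 2 ≤ t) (e : ι ≃ (Fin t → Fin k)) (P : GL ι F)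
    {f₁ : (Fin k → F) → (Fin k → F) → F} (hf₁ : Geo.IsSymmetricForm f₁)
    (h4 : k = 4 → ¬ Geo.IsPlusTypeOn (fun v : Fin k → F => f₁ v v) ⊤)
    (hT : Geo.IsTensorPowerFormStructure id (QuadraticMap.polar Q) f₁ e P) :
    Geo.IsMaximalIn (Geo.omegaGL Q) (Geo.tensorWreathSubgroup k t e P ⊓ Geo.omegaGL Q) := by
  have h2 := two_ne_of_odd hodd
  obtain ⟨c, -, T⟩ := tq_of h2 hQ hf₁ hT
  have hz : Sz (qf hf₁) := ⟨h2, nd_qf h2 hf₁, by simp; omega, fun h W hW => by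
    by_contra! hn
    have := (nd_qf h2 hf₁).ndOn_top.ts_finrank_le le_top hW.le_perp
    exact h4 (by simpa using h) ⟨W, le_top, fun w hw => by
      simp only [← B_qf h2 hf₁, B_self, hW w hw, mul_zero], by rw [finrank_top] at *; omega⟩,
    fun h => by simp at h; omega⟩
  have h := T.fam hz (nd_toQF hQ)
  haveI : Nonempty (Fin k) := ⟨⟨0, by omega⟩⟩
  haveI : Nontrivial (Fin t) := Fin.nontrivial_iff_two_le.2 ht
  have h5 : 5 ≤ Fintype.card ι := by
    have hc : Fintype.card ι = k ^ t := by simpa using Fintype.card_congr e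
    have := Nat.pow_le_pow_right (n := k) (by omega) ht
    nlinarith
  have h5' : 5 ≤ finrank F (ι → F) := by rwa [finrank_fintype_fun_eq_card]
  exact isMaximalIn_of hQ h5 _ (fun g => Nm (fr e P) (g : End F _))
    (fun g _ => nm_iff e P (by omega) (by omega) g)
    (proper h h5' (i := ⟨0, by omega⟩) (fun u hu => finrank_Ln_fr e P _ hu (by omega))
      fun u hu => ⟨_, pv_ne hu, pv_mem fun _ => u⟩)
    fun M h1 h2 => core' h (fr_scal e P) (by simpa) h5' (by simpa)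
      (fun i j => ⟨_, T.pm (Equiv.swap i j), cf_pm _⟩) h1 h2

end Cfsg.Agent.H2.TO
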