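import Cfsg.Agent.H1.TW5
import Cfsg.Agent.Orth.OO8

set_option autoImplicit false
set_option linter.unusedSectionVars false
set_option linter.unusedSimpArgs false

/-! Orthogonal tensor frames, part 1: adjoints, lifts, the subspaces `R ⊗ W`. -/

namespace Cfsg.Agent.H2.TO

open Module Cfsg.Agent.Orth Cfsg.Agent.H1.TW

variable {F : Type*} [Field F] {U V : Type*} [AddCommGroup U] [Module F U] [AddCommGroup V]
  [Module F V] [FiniteDimensional F U] [FiniteDimensional F V]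

/-- `y` is the adjoint of `x` -/
def Ad (Q : QuadraticForm F V) (x y : End F V) : Prop := ∀ a b, B Q (x a) b = B Q a (y b)

section
variable {Q : QuadraticForm F V} {x y x' y' : End F V}

theorem Ad.symm (h : Ad Q x y) : Ad Q y x := fun a b => by rw [B_comm, ← h, B_comm]
theorem Ad.one : Ad Q 1 1 := fun _ _ => rfl
theorem Ad.zero : Ad Q 0 0 := fun _ _ => by simp
theorem Ad.mul (h : Ad Q x y) (h' : Ad Q x' y') : Ad Q (x * x') (y' * y) := fun a b => by
  rw [End.mul_apply, h, h', End.mul_apply]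
theorem Ad.add (h : Ad Q x y) (h' : Ad Q x' y') : Ad Q (x + x') (y + y') := fun a b => by
  simp [h a b, h' a b]
theorem Ad.sub (h : Ad Q x y) (h' : Ad Q x' y') : Ad Q (x - x') (y - y') := fun a b => by
  simp [h a b, h' a b]
theorem Ad.neg (h : Ad Q x y) : Ad Q (-x) (-y) := fun a b => by simp [h a b]
theorem Ad.smul (h : Ad Q x y) (c : F) : Ad Q (c • x) (c • y) := fun a b => by simp [h a b]
theorem Ad.unique (hQ : Nd Q) (h : Ad Q x y) (h' : Ad Q x y') : y = y' := by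
  ext b
  exact OO.B_ext hQ fun z => by rw [← h, h']
theorem ad_r1 (a b : V) : Ad Q (r1 a (B Q b)) (r1 b (B Q a)) := fun s t => by
  simp [B_comm Q s b, mul_comm]
theorem exists_ad (hQ : Nd Q) (x : End F V) : ∃ y, Ad Q x y := by
  choose f hf using fun i => OO.exists_B_eq hQ ((bs F V).coord i)
  refine ⟨∑ i, r1 (f i) (B Q (x (bs F V i))), ?_⟩
  conv => arg 2; rw [eq_sum_r1 x]
  refine Finset.sum_induction (s := Finset.univ)
    (fun i => (r1 (x (bs F V i)) ((bs F V).coord i), r1 (f i) (B Q (x (bs F V i)))))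
    (fun p : End F V × End F V => Ad Q p.1 p.2) (fun _ _ h h' => h.add h') Ad.zero
    (fun i _ => by rw [← hf]; exact ad_r1 _ _) |> fun h => by
      simpa [Prod.fst_sum, Prod.snd_sum] using h
end

/-- isometries, as units -/
def OU (Q : QuadraticForm F V) : Subgroup (End F V)ˣ where
  carrier := {g | ∀ x y, B Q ((g : End F V) x) ((g : End F V) y) = B Q x y}
  mul_mem' ha hb x y := by rw [Units.val_mul, End.mul_apply, End.mul_apply, ha, hb]
  one_mem' _ _ := rfl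
  inv_mem' {a} ha x y := by rw [← ha, app_inv, app_inv]

variable {Q₁ : QuadraticForm F U} {Q : QuadraticForm F V}

theorem OU.ad {g : (End F V)ˣ} (hg : g ∈ OU Q) : Ad Q g ↑g⁻¹ := fun a b => by
  rw [← hg a, app_inv]

theorem mem_OU_of_ad {g : (End F V)ˣ} (h : Ad Q g ↑g⁻¹) : g ∈ OU Q := fun a b => by
  rw [h, inv_app]

theorem neg_one_mem_OU : (-1 : (End F V)ˣ) ∈ OU Q := fun a b => by simp

/-- units from equivalences -/
def tu (a : U ≃ₗ[F] U) : (End F U)ˣ := LinearMap.GeneralLinearGroup.ofLinearEquiv a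

/-- equivalences from units -/
def te (a : (End F U)ˣ) : U ≃ₗ[F] U := LinearMap.GeneralLinearGroup.toLinearEquiv a

@[simp] theorem tu_val (a : U ≃ₗ[F] U) : (tu a : End F U) = (a : U →ₗ[F] U) := rfl
@[simp] theorem tu_inv_val (a : U ≃ₗ[F] U) : ((tu a)⁻¹ : (End F U)ˣ) = tu a⁻¹ := rfl
@[simp] theorem te_coe (a : (End F U)ˣ) : (te a : U →ₗ[F] U) = a := rfl
@[simp] theorem te_apply (a : (End F U)ˣ) (x : U) : te a x = (a : End F U) x := rfl
theorem te_inv (a : (End F U)ˣ) : (te a)⁻¹ = te a⁻¹ := rfl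
theorem coe_mul' (a b : U ≃ₗ[F] U) :
    ((a * b : U ≃ₗ[F] U) : U →ₗ[F] U) = (a : End F U) * (b : End F U) := rfl
theorem coe_one' : ((1 : U ≃ₗ[F] U) : U →ₗ[F] U) = (1 : End F U) := rfl

/-- lift of an automorphism of `U` through a frame -/
def lf (ρ : Fr F U V) : (U ≃ₗ[F] U) →* (End F V)ˣ where
  toFun a := Units.map (ρ : End F U →* End F V) (tu a)
  map_one' := by ext1; exact map_one ρ
  map_mul' a b := by ext1; exact map_mul ρ _ _

variable {ρ σ σ' : Fr F U V}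

theorem lf_val (a : U ≃ₗ[F] U) : (lf ρ a : End F V) = ρ (a : U →ₗ[F] U) := rfl
theorem lf_inv_val (a : U ≃ₗ[F] U) : ((lf ρ a)⁻¹ : (End F V)ˣ) = ρ ((a⁻¹ : U ≃ₗ[F] U) : U →ₗ[F] U) := rfl

theorem lf_cf (g : (End F V)ˣ) (a : U ≃ₗ[F] U) : lf (cf g ρ) a = g * lf ρ a * g⁻¹ := by
  ext1; rfl

theorem lf_inj [Nontrivial V] : Function.Injective (lf ρ) := fun _ _ h =>
  LinearEquiv.toLinearMap_injective (H1.TW.rho_injective (ρ := ρ) (congrArg Units.val h))

theorem same_lf (a : U ≃ₗ[F] U) : Same ρ (cf (lf ρ a) ρ) :=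
  ⟨tu a, fun x => by rw [cf_apply, map_mul, map_mul]; rfl⟩

theorem Cm.lf {c : (End F V)ˣ} (hc : Cm ρ (c : End F V)) (a : U ≃ₗ[F] U) :
    c * lf ρ a = lf ρ a * c := by
  ext1; exact hc _

theorem cm_lf (h : Comm ρ σ) (a : U ≃ₗ[F] U) : Cm ρ (lf σ a : End F V) := h _

theorem lf_comm (h : Comm ρ σ) (a b : U ≃ₗ[F] U) : lf σ a * lf ρ b = lf ρ b * lf σ a :=
  Cm.lf (cm_lf h a) b

theorem Cm.inv {c : (End F V)ˣ} (hc : Cm ρ (c : End F V)) : Cm ρ (↑c⁻¹ : End F V) := fun x => by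
  rw [Units.inv_mul_eq_iff_eq_mul, ← mul_assoc, hc, Units.mul_inv_cancel_right]

theorem lf_neg (a : U ≃ₗ[F] U) : lf ρ (OO.ng F U * a) = -lf ρ a := by
  ext1
  rw [lf_val, Units.val_neg, lf_val, ← map_neg]
  congr 1

/-- frames compatible with the adjoints -/
def Adj (Q₁ : QuadraticForm F U) (Q : QuadraticForm F V) (ρ : Fr F U V) : Prop :=
  ∀ x y, Ad Q₁ x y → Ad Q (ρ x) (ρ y)

theorem Adj.cf (h : Adj Q₁ Q ρ) {g : (End F V)ˣ} (hg : g ∈ OU Q) : Adj Q₁ Q (cf g ρ) :=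
  fun x y hxy => by
    rw [cf_apply, cf_apply, mul_assoc (g : End F V) (ρ y)]
    simpa using ((OU.ad hg).mul (h x y hxy)).mul (OU.ad (inv_mem hg))

theorem ad_O {a : U ≃ₗ[F] U} (ha : a ∈ O Q₁) :
    Ad Q₁ (a : U →ₗ[F] U) ((a⁻¹ : U ≃ₗ[F] U) : U →ₗ[F] U) := fun x y => O_B_inv ha x y

theorem Adj.lf_mem (h : Adj Q₁ Q ρ) {a : U ≃ₗ[F] U} (ha : a ∈ O Q₁) : lf ρ a ∈ OU Q :=
  mem_OU_of_ad (h _ _ (ad_O ha))

theorem Adj.r1 (h : Adj Q₁ Q ρ) (a b : U) : Ad Q (ρ (r1 a (B Q₁ b))) (ρ (r1 b (B Q₁ a))) :=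
  h _ _ (ad_r1 a b)

/-- equivalent orthogonal frames differ by a conformal map -/
theorem conf_of_same [Nontrivial V] [Nontrivial U] (n1 : Nd Q₁) (nd : Nd Q) (h : Adj Q₁ Q σ)
    (h' : Adj Q₁ Q σ') {k : (End F U)ˣ} (hk : ∀ x, σ' x = σ (k * x * ↑k⁻¹)) :
    ∃ μ : F, μ ≠ 0 ∧ ∀ x y, B Q₁ ((k : End F U) x) ((k : End F U) y) = μ * B Q₁ x y := by
  have key : ∀ a b, Ad Q₁ (k * r1 a (B Q₁ b) * ↑k⁻¹) (k * r1 b (B Q₁ a) * ↑k⁻¹) := fun a b => by
    obtain ⟨z, hz⟩ := exists_ad n1 (k * r1 a (B Q₁ b) * ↑k⁻¹)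
    have h1 := h'.r1 a b
    rw [hk, hk] at h1
    rwa [H1.TW.rho_injective ((h _ _ hz).unique nd h1)] at hz
  obtain ⟨b, hb⟩ := exists_ne (0 : U)
  obtain ⟨s, hs⟩ := H6.exists_apply_eq_one (OO.B_ne_zero n1 hb)
  have h2 : ∀ x y, B Q₁ ((k : End F U) x) ((k : End F U) y) =
      B Q₁ ((k : End F U) s) ((k : End F U) b) * B Q₁ x y := fun x y => by
    have := key x b ((k : End F U) s) ((k : End F U) y)
    simpa [hs, mul_comm] using this
  refine ⟨_, fun h0 => hb (unit_eq_zero k (n1 _ fun x => ?_)), h2⟩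
  rw [← app_inv k x, h2, h0, zero_mul]

/-! ### the subspaces `R ⊗ W` -/

def Sp (σ : Fr F U V) (R : Submodule F U) : Submodule F V where
  carrier := {v | ∀ x : End F U, (∀ r ∈ R, x r = 0) → σ x v = 0}
  add_mem' ha hb x hx := by rw [map_add, ha x hx, hb x hx, add_zero]
  zero_mem' x _ := map_zero _
  smul_mem' c v hv x hx := by rw [map_smul, hv x hx, smul_zero]

variable {R R' : Submodule F U}

theorem mem_Sp {v : V} : v ∈ Sp σ R ↔ ∀ x : End F U, (∀ r ∈ R, x r = 0) → σ x v = 0 := Iff.rfl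

theorem Sp_span (u : U) : Sp σ (F ∙ u) = Ln σ u := by
  ext v
  refine forall_congr' fun x => imp_congr_left ⟨fun h => h u (Submodule.mem_span_singleton_self u),
    fun h r hr => ?_⟩
  obtain ⟨c, rfl⟩ := Submodule.mem_span_singleton.1 hr
  simp [h]

theorem Sp_mono (h : R ≤ R') : Sp σ R ≤ Sp σ R' := fun _ hv x hx => hv x fun r hr => hx r (h hr)

theorem Ln_le_Sp {u : U} (hu : u ∈ R) : Ln σ u ≤ Sp σ R := fun _ hv x hx => hv x (hx u hu)

theorem Sp_top : Sp σ ⊤ = ⊤ := by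
  rw [eq_top_iff]
  intro v _ x hx
  rw [show x = 0 from LinearMap.ext fun r => hx r trivial]; simp

theorem Sp_bot : Sp σ ⊥ = ⊥ := by
  rw [eq_bot_iff]
  intro v hv
  simpa using hv 1 (by simp)

theorem Sp_congr {v : V} (hv : v ∈ Sp σ R) {x y : End F U} (h : ∀ r ∈ R, x r = y r) :
    σ x v = σ y v := by
  have := hv (x - y) (fun r hr => by simp [h r hr])
  rwa [map_sub, LinearMap.sub_apply, sub_eq_zero] at this

theorem Sp_map {v : V} (hv : v ∈ Sp σ R) {x : End F U} (h : ∀ r ∈ R, x r ∈ R') : σ x v ∈ Sp σ R' := by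
  intro y hy
  rw [← End.mul_apply, ← map_mul]
  exact hv _ fun r hr => hy _ (h r hr)

theorem Sp_range {x : End F U} (h : ∀ r, x r ∈ R) (v : V) : σ x v ∈ Sp σ R :=
  Sp_map (R := ⊤) (by rw [Sp_top]; trivial) fun r _ => h r

theorem Cm.mem_Sp {c : End F V} (h : Cm σ c) {v : V} (hv : v ∈ Sp σ R) : c v ∈ Sp σ R := by
  intro x hx
  rw [← h.apply, hv x hx, map_zero]

theorem mem_Sp_iff {v : V} :
    v ∈ Sp σ R ↔ ∀ φ ∈ R.dualAnnihilator, ∀ a, σ (r1 a φ) v = 0 := by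
  constructor
  · intro h φ hφ a
    exact h _ fun r hr => by simp [(Submodule.mem_dualAnnihilator φ).1 hφ r hr]
  · intro h x hx
    rw [eq_sum_r1' x, map_sum, LinearMap.sum_apply]
    exact Finset.sum_eq_zero fun i _ => h _ ((Submodule.mem_dualAnnihilator _).2 fun r hr => by
      simp [hx r hr]) _

theorem Sp_inf : Sp σ R ⊓ Sp σ R' = Sp σ (R ⊓ R') := by
  refine le_antisymm (fun v hv => mem_Sp_iff.2 fun φ hφ a => ?_)
    (le_inf (Sp_mono inf_le_left) (Sp_mono inf_le_right))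
  rw [Subspace.dualAnnihilator_inf_eq] at hφ
  obtain ⟨ψ, h1, χ, h2, rfl⟩ := Submodule.mem_sup.1 hφ
  rw [r1_add_right, map_add, LinearMap.add_apply, mem_Sp_iff.1 hv.1 ψ h1, mem_Sp_iff.1 hv.2 χ h2,
    add_zero]

theorem exists_proj (R : Submodule F U) : ∃ π : End F U, (∀ r ∈ R, π r = r) ∧ ∀ x, π x ∈ R := by
  obtain ⟨R', h⟩ := R.exists_isCompl
  exact ⟨R.subtype ∘ₗ R.linearProjOfIsCompl R' h, fun r hr =>
    congrArg Subtype.val (Submodule.linearProjOfIsCompl_apply_left h ⟨r, hr⟩),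
    fun x => Subtype.prop _⟩

theorem Sp_ind {Z : Submodule F V} (h : ∀ u ∈ R, u ≠ 0 → Ln σ u ≤ Z) : Sp σ R ≤ Z := by
  intro v hv
  obtain ⟨π, h1, h2⟩ := exists_proj R
  have : v = σ π v := by rw [Sp_congr hv (y := 1) h1]; simp
  rw [this, eq_sum_r1 π, map_sum, LinearMap.sum_apply]
  refine Z.sum_mem fun i _ => ?_
  by_cases h0 : π (bs F U i) = 0
  · simp [h0]
  · exact h _ (h2 _) h0 (r1_mem_Ln _ _ _)

theorem Sp_sup : Sp σ (R ⊔ R') = Sp σ R ⊔ Sp σ R' := by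
  refine le_antisymm (Sp_ind fun u hu hu0 v hv => ?_)
    (sup_le (Sp_mono le_sup_left) (Sp_mono le_sup_right))
  obtain ⟨a, ha, b, hb, rfl⟩ := Submodule.mem_sup.1 hu
  obtain ⟨φ, hφ⟩ := H6.exists_dual_one' (F := F) hu0
  rw [← r1_Ln_one hv hφ, r1_add_left, map_add, LinearMap.add_apply]
  exact Submodule.add_mem_sup (Ln_le_Sp ha (r1_mem_Ln _ _ _)) (Ln_le_Sp hb (r1_mem_Ln _ _ _))

theorem Sp_ker (x : End F U) : LinearMap.ker (σ x) = Sp σ (LinearMap.ker x) := by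
  ext v
  constructor
  · intro hv y hy
    obtain ⟨z, hz⟩ : ∃ z : End F U, y = z * x := by
      obtain ⟨z, hz⟩ := LinearMap.exists_extend
        ((LinearMap.ker x).liftQ y hy ∘ₗ x.quotKerEquivRange.symm.toLinearMap)
      refine ⟨z, LinearMap.ext fun u => ?_⟩
      have := LinearMap.congr_fun hz ⟨x u, LinearMap.mem_range_self x u⟩
      simp only [LinearMap.comp_apply, Submodule.subtype_apply, LinearEquiv.coe_coe,
        LinearMap.quotKerEquivRange_symm_apply_image, Submodule.mkQ_apply,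
        Submodule.liftQ_apply] at this
      exact this.symm
    rw [hz, map_mul, End.mul_apply, LinearMap.mem_ker.1 hv, map_zero]
  · exact fun hv => hv x fun r hr => hr

theorem Sp_range_eq (x : End F U) : LinearMap.range (σ x) = Sp σ (LinearMap.range x) := by
  refine le_antisymm ?_ (Sp_ind ?_)
  · rintro _ ⟨v, rfl⟩
    exact Sp_range (fun r => LinearMap.mem_range_self x r) v
  · rintro _ ⟨u, rfl⟩ hu v hv
    obtain ⟨φ, hφ⟩ := H6.exists_dual_one' (F := F) hu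
    exact ⟨σ (r1 u φ) v, by rw [← End.mul_apply, ← map_mul, mul_r1, r1_Ln_one hv hφ]⟩

theorem finrank_Sp_inf (S : Submodule F V) (hS : ∀ x, ∀ v ∈ S, σ x v ∈ S) (R : Submodule F U) :
    finrank F U * finrank F (S ⊓ Sp σ R : Submodule F V) = finrank F R * finrank F S := by
  induction hn : finrank F R generalizing R with
  | zero =>
    rw [Submodule.finrank_eq_zero.1 hn, Sp_bot, inf_bot_eq, finrank_bot]; simp
  | succ n ih =>
    obtain ⟨u, hu, hu0⟩ := R.exists_mem_ne_zero_of_ne_bot (by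
      rintro rfl; simp at hn)
    obtain ⟨C, h1, h2, h3⟩ := exists_compl_in R (F ∙ u)
      ((Submodule.span_singleton_le_iff_mem _ _).2 hu)
    rw [finrank_span_singleton hu0] at h3
    have hC : C ⊔ (F ∙ u) = R := Submodule.eq_of_le_of_finrank_le
      (sup_le h1 ((Submodule.span_singleton_le_iff_mem _ _).2 hu)) (by
        have := Submodule.finrank_sup_add_finrank_inf_eq C (F ∙ u)
        rw [h2.eq_bot, finrank_bot, finrank_span_singleton hu0] at this
        omega)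
    have e1 : S ⊓ Sp σ R = (S ⊓ Sp σ C) ⊔ (S ⊓ Ln σ u) := by
      refine le_antisymm (fun v hv => ?_) (sup_le (inf_le_inf_left _ (Sp_mono h1))
        (inf_le_inf_left _ (Ln_le_Sp hu)))
      obtain ⟨φ, hφ1, hφ2⟩ : ∃ φ : Dual F U, φ ∈ C.dualAnnihilator ∧ φ u = 1 := by
        obtain ⟨φ, h4, h5⟩ := Submodule.exists_dual_map_eq_bot_of_notMem (p := C) (x := u)
          (fun h => hu0 (Submodule.disjoint_def.1 h2 u h (Submodule.mem_span_singleton_self u)))
          inferInstance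
        refine ⟨(φ u)⁻¹ • φ, (Submodule.mem_dualAnnihilator _).2 fun r hr => ?_, by simp [h4]⟩
        have : φ r = 0 := by simpa using h5.le (Submodule.mem_map_of_mem hr)
        simp [this]
      have e : v = σ (1 - r1 u φ) v + σ (r1 u φ) v := by simp
      rw [e]
      refine Submodule.add_mem_sup ⟨hS _ _ hv.1, Sp_map hv.2 fun r hr => ?_⟩
        ⟨hS _ _ hv.1, r1_mem_Ln _ _ _⟩
      obtain ⟨a, ha, b, hb, rfl⟩ := Submodule.mem_sup.1 (hC ▸ hr)
      obtain ⟨c, rfl⟩ := Submodule.mem_span_singleton.1 hb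
      simpa [(Submodule.mem_dualAnnihilator _).1 hφ1 a ha, hφ2] using ha
    have e2 : (S ⊓ Sp σ C) ⊓ (S ⊓ Ln σ u) = ⊥ := by
      rw [eq_bot_iff]
      intro v hv
      have : v ∈ Sp σ C ⊓ Sp σ (F ∙ u) := ⟨hv.1.2, by rw [Sp_span]; exact hv.2.2⟩
      rwa [Sp_inf, h2.eq_bot, Sp_bot] at this
    have e3 := Submodule.finrank_sup_add_finrank_inf_eq (S ⊓ Sp σ C) (S ⊓ Ln σ u)
    rw [e2, finrank_bot, ← e1, add_zero] at e3
    rw [e3, mul_add, ih C (by omega), ← finrank_inv S hS hu0]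
    ring

theorem finrank_Sp (R : Submodule F U) :
    finrank F U * finrank F (Sp σ R) = finrank F R * finrank F V := by
  have := finrank_Sp_inf (σ := σ) ⊤ (fun _ _ _ => trivial) R
  rwa [top_inf_eq, finrank_top] at this

/-- the dimension of a line -/
theorem finrank_Sp' {u : U} (hu : u ≠ 0) (R : Submodule F U) :
    finrank F (Sp σ R) = finrank F R * finrank F (Ln σ u) := by
  have h1 := finrank_Sp (σ := σ) R
  have h2 := finrank_Ln (ρ := σ) hu
  have : 0 < finrank F U := finrank_pos_iff_exists_ne_zero.2 ⟨u, hu⟩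
  rw [h2] at h1
  exact Nat.eq_of_mul_eq_mul_left this (by rw [h1]; ring)

theorem Sp_cf (g : (End F V)ˣ) {v : V} : (g : End F V) v ∈ Sp (cf g σ) R ↔ v ∈ Sp σ R := by
  simp only [mem_Sp, cf_app]
  exact forall₂_congr fun x _ => ⟨unit_eq_zero g, fun h => by rw [h, map_zero]⟩

theorem Sp_perp_le (h : Adj Q₁ Q σ) (n1 : Nd Q₁) {v v' : V} (hv : v ∈ Sp σ R)
    (hv' : v' ∈ Sp σ (perp Q₁ R)) : B Q v v' = 0 := by
  obtain ⟨π, h1, h2⟩ := exists_proj (perp Q₁ R)
  obtain ⟨y, hy⟩ := exists_ad n1 π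
  have : v' = σ π v' := by rw [Sp_congr hv' (y := 1) h1]; simp
  rw [this, ← (h _ _ hy).symm, hv y fun r hr => n1 _ fun x => by
    rw [← hy, B_comm]; exact h2 x r hr]
  simp

theorem perp_Sp (h : Adj Q₁ Q σ) (n1 : Nd Q₁) (nd : Nd Q) [Nontrivial U] (R : Submodule F U) :
    perp Q (Sp σ R) = Sp σ (perp Q₁ R) := by
  symm
  refine Submodule.eq_of_le_of_finrank_le (fun v hv x hx => Sp_perp_le h n1 hx hv) ?_
  obtain ⟨u, hu⟩ := exists_ne (0 : U)
  have h1 := nd.finrank_perp (Sp σ R)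
  have h2 := n1.finrank_perp R
  rw [finrank_Sp' hu, finrank_Ln (ρ := σ) hu, ← h2] at h1
  rw [finrank_Sp' hu]
  nlinarith

end Cfsg.Agent.H2.TO
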