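import Cfsg.Agent.H2.TO9

set_option autoImplicit false
set_option linter.unusedSectionVars false
set_option linter.unusedSimpArgs false

/-! Orthogonal tensor frames, part 10: products of class reflections at distinct points have odd
order. -/

namespace Cfsg.Agent.H2.TO

open Module Cfsg.Agent.Orth Cfsg.Agent.H1.TW

variable {F : Type*} [Field F] [Finite F] {U : Type*} {V : Type*} [AddCommGroup U] [Module F U]
  [AddCommGroup V] [Module F V] [FiniteDimensional F U] [FiniteDimensional F V]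
  {Q₁ : QuadraticForm F U} {Q : QuadraticForm F V} {σ σ' τ : Fr F U V}

theorem delta (h2 : (2 : F) ≠ 0) {a : U ≃ₗ[F] U} (ha : a * a = 1) {e : (End F V)ˣ} (he : e * e = 1)
    (hc : Cm σ (e : End F V)) :
    finrank F U * finrank F (EV (lf σ a * e) (-1)) + 2 * finrank F (OO.Eg a (-1)) * finrank F (EV e (-1)) =
      finrank F (OO.Eg a (-1)) * finrank F V + finrank F U * finrank F (EV e (-1)) := by
  have inv : ∀ c x, ∀ v ∈ EV e c, σ x v ∈ EV e c := fun c x v hv => by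
    rw [mem_EV] at hv ⊢; rw [hc.apply, hv, map_smul]
  have h1 := finrank_Sp_inf (σ := σ) _ (inv 1) (OO.Eg a (-1))
  have h3 := finrank_Sp_inf (σ := σ) _ (inv (-1)) (OO.Eg a 1)
  have h4 := Submodule.finrank_add_eq_of_isCompl (isCompl_EV h2 he)
  have h5 := Submodule.finrank_add_eq_of_isCompl (OO.isCompl_Eg h2 ha)
  have h6 := Submodule.finrank_sup_add_finrank_inf_eq (EV e 1 ⊓ Sp σ (OO.Eg a (-1)))
    (EV e (-1) ⊓ Sp σ (OO.Eg a 1))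
  rw [((isCompl_EV h2 he).disjoint.mono inf_le_left inf_le_left).eq_bot, finrank_bot,
    show EV e 1 ⊓ Sp σ (OO.Eg a (-1)) ⊔ EV e (-1) ⊓ Sp σ (OO.Eg a 1) = EV (lf σ a * e) (-1) by
      rw [← EV_lf, ← EV_lf]
      refine le_antisymm (sup_le (fun v hv => ?_) fun v hv => ?_) fun v hv => ?_
      · rw [mem_EV2, Units.val_mul, End.mul_apply, mem_EV1.1 hv.1, mem_EV2.1 hv.2]
      · rw [mem_EV2, Units.val_mul, End.mul_apply, mem_EV2.1 hv.1, map_neg, mem_EV1.1 hv.2]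
      · rw [mem_EV2, Units.val_mul, End.mul_apply] at hv
        have h7 : (lf σ a : End F V) v = -(e : End F V) v := by
          rw [← map_neg, ← hv, lf_val, hc.apply, inv_app' he]
        rw [show v = (2 : F)⁻¹ • (v + (e : End F V) v) + (2 : F)⁻¹ • (v - (e : End F V) v) by
          match_scalars <;> field_simp <;> ring]
        refine Submodule.add_mem_sup (Submodule.smul_mem _ _ ⟨?_, ?_⟩) (Submodule.smul_mem _ _ ⟨?_, ?_⟩)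
        · exact mem_EV1.2 (by rw [map_add, inv_app' he, add_comm])
        · exact mem_EV2.2 (by rw [map_add, h7, hv]; abel)
        · exact mem_EV2.2 (by rw [map_sub, inv_app' he]; abel)
        · exact mem_EV1.2 (by rw [map_sub, h7, hv]; abel)] at h6
  rw [add_zero] at h6
  rw [h6, mul_add, h1, h3, ← h4, ← h5]
  ring

theorem rr_comm {a b : U} (h : B Q₁ a b = 0) : refl Q₁ a * refl Q₁ b = refl Q₁ b * refl Q₁ a := by
  have := conj_refl (refl_mem_O Q₁ a) b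
  rw [refl_of_perp h] at this
  rw [← this, inv_mul_cancel_right]; exact this.symm ▸ rfl

theorem rr_sq {a b : U} (h : B Q₁ a b = 0) : refl Q₁ a * refl Q₁ b * (refl Q₁ a * refl Q₁ b) = 1 := by
  nth_rewrite 1 [rr_comm h]
  rw [mul_assoc, ← mul_assoc (refl Q₁ a), refl_mul_self, one_mul, refl_mul_self]

theorem perp_of_sq (h2 : (2 : F) ≠ 0) {a b : U} (ha : Q₁ a ≠ 0) (hb : Q₁ b ≠ 0)
    (h : refl Q₁ a * refl Q₁ b * (refl Q₁ a * refl Q₁ b) = 1) (h1 : refl Q₁ a * refl Q₁ b ≠ 1) :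
    B Q₁ a b = 0 := by
  by_contra h0
  have h3 : refl Q₁ b = refl Q₁ (refl Q₁ a b) := by
    rw [← conj_refl (refl_mem_O Q₁ a), refl_inv, ← refl_inv Q₁ b, eq_comm, ← mul_eq_one_iff_eq_inv,
      refl_inv, mul_assoc, h]
  obtain ⟨c, hc⟩ := OO.eq_smul_of_refl h2 hb (by rwa [refl_mem_O]) h3
  rw [refl_apply] at hc
  have h4 : a = (((Q₁ a)⁻¹ * B Q₁ a b)⁻¹ * (1 - c)) • b := by
    rw [mul_smul, eq_inv_smul_iff₀ (by simp [ha, h0])]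
    linear_combination (norm := module) hc
  refine h1 ?_
  rw [h4, refl_smul (fun e => ha (by rw [h4, e]; simp)), refl_mul_self]

theorem Eg_rr (h2 : (2 : F) ≠ 0) {a b : U} (ha : Q₁ a ≠ 0) (hb : Q₁ b ≠ 0) (h : B Q₁ a b = 0) :
    finrank F (OO.Eg (refl Q₁ a * refl Q₁ b) (-1)) = 2 := by
  have li : LinearIndependent F ![a, b] := LinearIndependent.pair_iff.2 fun s t e => by
    have e1 := congrArg (B Q₁ a) e
    have e2 := congrArg (B Q₁ b) e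
    simp [B_self, h, B_comm Q₁ b a, h2, ha, hb] at e1 e2
    exact ⟨e1, e2⟩
  have := finrank_span_eq_card li
  rw [Matrix.range_cons_cons_empty] at this
  suffices h0 : OO.Eg (refl Q₁ a * refl Q₁ b) (-1) = Submodule.span F {a, b} by rw [h0, this]; simp
  refine le_antisymm (fun x hx => ?_) (Submodule.span_le.2 ?_)
  · rw [OO.mem_Eg2, mul_app, refl_apply, refl_apply Q₁ b] at hx
    refine Submodule.mem_span_pair.2 ⟨2⁻¹ * ((Q₁ a)⁻¹ * B Q₁ a (x - ((Q₁ b)⁻¹ * B Q₁ b x) • b)),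
      2⁻¹ * ((Q₁ b)⁻¹ * B Q₁ b x), smul_right_injective U h2 ?_⟩
    simp only [smul_add, smul_smul, mul_inv_cancel_left₀ h2]
    linear_combination (norm := module) -hx
  · rintro _ (rfl | rfl)
    · exact OO.mem_Eg2.2 (by rw [mul_app, refl_of_perp (a := b) ((B_comm _ _ _).trans h), refl_self ha])
    · exact OO.mem_Eg2.2 (by rw [mul_app, refl_self hb, map_neg, refl_of_perp h])

theorem rr_fix {a b x : U} (ha : B Q₁ a x = 0) (hb : B Q₁ b x = 0) : (refl Q₁ a * refl Q₁ b) x = x := by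
  rw [mul_app, refl_of_perp hb, refl_of_perp ha]

theorem cm_neg_one : Cm σ ((-1 : (End F V)ˣ) : End F V) := fun x => by simp

theorem tri (hz : Sz Q₁) (h3 : finrank F U = 3) {a b c : U} (ha : Q₁ a ≠ 0) (hb : Q₁ b ≠ 0)
    (hc : Q₁ c ≠ 0) (h : B Q₁ a b = 0) (h1 : B Q₁ a c = 0) (h2 : B Q₁ b c = 0) :
    refl Q₁ a * refl Q₁ b = OO.ng F U * refl Q₁ c := by
  have h4 := Eg_rr hz.h2 ha hb h
  have h5 := hz.n1.finrank_perp (F ∙ c)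
  rw [finrank_span_singleton (ne_zero_of_Q hc)] at h5
  have h6 : (refl Q₁ a * refl Q₁ b) c = c := rr_fix h1 h2
  have h7 : OO.Eg (refl Q₁ a * refl Q₁ b) (-1) = perp Q₁ (F ∙ c) := Submodule.eq_of_le_of_finrank_le
    (fun x hx => mem_perp_span_singleton.2 (OO.Eg_perp hz.h2 (mul_mem (refl_mem_O _ _) (refl_mem_O _ _)) h6
      (OO.mem_Eg2.1 hx))) (by omega)
  ext x
  have h8 : x - ((2 * Q₁ c)⁻¹ * B Q₁ c x) • c ∈ perp Q₁ (F ∙ c) := mem_perp_span_singleton.2 (by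
    have := hz.h2
    simp [B_self]; field_simp; ring)
  have h9 := OO.mem_Eg2.1 (h7 ▸ h8)
  rw [map_sub, map_smul, h6] at h9
  rw [mul_app (OO.ng F U), OO.ng_apply, refl_apply Q₁ c, eq_add_of_sub_eq h9]
  have := hz.h2
  match_scalars <;> field_simp <;> ring

theorem lf_tri (hz : Sz Q₁) (h3 : finrank F U = 3) {a b c : U} (ha : Q₁ a ≠ 0) (hb : Q₁ b ≠ 0)
    (hc : Q₁ c ≠ 0) (h : B Q₁ a b = 0) (h1 : B Q₁ a c = 0) (h2 : B Q₁ b c = 0) :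
    lf σ (refl Q₁ a) * lf σ (refl Q₁ b) = -lf σ (refl Q₁ c) := by
  rw [← map_mul, tri hz h3 ha hb hc h h1 h2, lf_neg]

theorem Sz.exists_third (hz : Sz Q₁) {a b : U} (ha : Q₁ a ≠ 0) (hb : Q₁ b ≠ 0) (h : B Q₁ a b = 0) :
    ∃ c, Q₁ c ≠ 0 ∧ B Q₁ a c = 0 ∧ B Q₁ b c = 0 := by
  have h1 := (OO.ndOn_two hz.h2 ha hb h).perp hz.n1
  by_contra! h2
  refine hz.perp_ne_bot (R := Submodule.span F {a, b}) ?_ ((Submodule.eq_bot_iff _).2 fun v hv =>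
    h1 v hv fun x hx => ?_)
  · classical
    have := (finrank_span_finset_le_card (R := F) ({a, b} : Finset U)).trans Finset.card_le_two
    rwa [Finset.coe_pair] at this
  have h3 : ∀ y ∈ perp Q₁ (Submodule.span F {a, b}), Q₁ y = 0 := fun y hy => by
    by_contra h4
    exact h2 y h4 (hy a (Submodule.subset_span (by simp))) (hy b (Submodule.subset_span (by simp)))
  have := h3 _ (add_mem hx hv)
  rwa [Q_add, h3 x hx, h3 v hv, zero_add, zero_add] at this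

theorem not_cm_refl [Nontrivial V] (hz : Sz Q₁) {a : U} (ha : Q₁ a ≠ 0) :
    ¬ Cm σ (lf σ (refl Q₁ a) : End F V) := fun h => by
  obtain ⟨s, hs⟩ := scal_of_cm h
  obtain ⟨b, h1, h2⟩ := hz.exists_perp ha (Q₁ a)
  have h3 : refl Q₁ a a = s • a := LinearMap.congr_fun hs a
  have h4 : refl Q₁ a b = s • b := LinearMap.congr_fun hs b
  rw [refl_self ha] at h3
  rw [refl_of_perp h1] at h4
  have : s = 1 := smul_left_injective F (ne_zero_of_Q (h2 ▸ ha)) (by simpa using h4.symm)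
  rw [this, one_smul, neg_eq_iff_add_eq_zero, ← two_smul F] at h3
  exact smul_ne_zero hz.h2 (ne_zero_of_Q ha) h3

theorem not_cm_rr [Nontrivial V] (hz : Sz Q₁) {a b : U} (ha : Q₁ a ≠ 0) (hb : Q₁ b ≠ 0)
    (hab : B Q₁ a b = 0) : ¬ Cm σ (lf σ (refl Q₁ a * refl Q₁ b) : End F V) := fun h => by
  obtain ⟨s, hs⟩ := scal_of_cm h
  obtain ⟨c, h0, h1, h2⟩ := hz.exists_third ha hb hab
  have h3 : (refl Q₁ a * refl Q₁ b) b = s • b := LinearMap.congr_fun hs b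
  have h4 : (refl Q₁ a * refl Q₁ b) c = s • c := LinearMap.congr_fun hs c
  rw [rr_fix h1 h2] at h4
  have : s = 1 := smul_left_injective F (ne_zero_of_Q h0) (by simpa using h4.symm)
  rw [mul_app, refl_self hb, map_neg, refl_of_perp hab, this, one_smul, neg_eq_iff_add_eq_zero,
    ← two_smul F] at h3
  exact smul_ne_zero hz.h2 (ne_zero_of_Q hb) h3

variable {T : Type*} [DecidableEq T] {ρ ρ' : T → Fr F U V} {S : Finset T} {G : Subgroup (End F V)ˣ}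

structure Cz (Q₁ : QuadraticForm F U) (Q : QuadraticForm F V) (ρ : T → Fr F U V) (S : Finset T)
    (G : Subgroup (End F V)ˣ) : Prop extends Cy Q₁ Q ρ S G where
  rs : RS toFam G

theorem Cz.conj (hC : Cz Q₁ Q ρ S G) {g : (End F V)ˣ} (hg : g ∈ G) :
    Cz Q₁ Q (fun i => cf g (ρ i)) S G :=
  ⟨hC.toCy.conj hg, fun i hi u hu hs c hc e => by
    rw [lf_cf] at hs e
    refine (HH_conj hC.toFam _).2 (hC.rs i hi u hu (by
      simpa [mul_assoc] using mul_mem (mul_mem (inv_mem hg) hs) hg)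
      _ (mul_mem (mul_mem (inv_mem hg) hc) hg) ?_)
    simpa [mul_assoc] using (HH_conj hC.toFam _).1 e⟩

/-- class reflections in the frame `σ` -/
def Df (Q₁ : QuadraticForm F U) (G : Subgroup (End F V)ˣ) (σ : Fr F U V) (s : (End F V)ˣ) : Prop :=
  s ∈ G ∧ ∃ u, Q₁ u ≠ 0 ∧ s = lf σ (refl Q₁ u)

variable {s t s₂ t₂ : (End F V)ˣ}

theorem Df.sq (h : Df Q₁ G σ s) : s * s = 1 := by
  obtain ⟨-, u, -, rfl⟩ := h; exact lf_refl_sq u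

theorem Df.inv (h : Df Q₁ G σ s) : s⁻¹ = s := inv_eq_of_mul_eq_one_right h.sq

theorem Df.cm (h : Df Q₁ G σ s) (hc : Comm τ σ) : Cm τ (s : End F V) := by
  obtain ⟨-, u, -, rfl⟩ := h; exact cm_lf hc _

theorem Df.comm (h : Df Q₁ G σ s) (h' : Df Q₁ G τ t) (hc : Comm τ σ) : s * t = t * s := by
  obtain ⟨-, u, -, rfl⟩ := h'; exact Cm.lf (h.cm hc) _

theorem Df.rk (h2 : (2 : F) ≠ 0) (h : Df Q₁ G σ s) :
    finrank F V = finrank F U * finrank F (EV s (-1)) := by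
  obtain ⟨-, u, hu, rfl⟩ := h
  rw [EV_refl_neg h2 hu, finrank_Ln (ne_zero_of_Q hu)]

theorem Df.mem (hF : Fam Q₁ Q ρ S) {i : T} (hi : i ∈ S) (h : Df Q₁ G (ρ i) s) : s ∈ HH hF := by
  obtain ⟨-, u, -, rfl⟩ := h; exact hF.lf_mem hi _

theorem Df.cf (h : Df Q₁ G σ s) {g : (End F V)ˣ} (hg : g ∈ G) : Df Q₁ G (cf g σ) (g * s * g⁻¹) := by
  obtain ⟨h1, u, hu, rfl⟩ := h
  exact ⟨mul_mem (mul_mem hg h1) (inv_mem hg), u, hu, (lf_cf g _).symm⟩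

theorem Cz.rs' (hC : Cz Q₁ Q ρ S G) {i : T} (hi : i ∈ S) (h : Df Q₁ G (ρ i) s) {c : (End F V)ˣ}
    (hc : c ∈ G) (e : c * s * c⁻¹ ∈ HH hC.toFam) : c ∈ HH hC.toFam := by
  obtain ⟨h1, u, hu, rfl⟩ := h
  exact hC.rs i hi u hu h1 c hc e

theorem Df.same [Nontrivial V] (hz : Sz Q₁) (nd : Nd Q) (h1 : Adj Q₁ Q σ) (h2 : Adj Q₁ Q τ)
    (hs : Same σ τ) (h : Df Q₁ G τ s) : Df Q₁ G σ s := by
  obtain ⟨h3, u, hu, rfl⟩ := h
  obtain ⟨a, μ, h4, h5, -⟩ := same_conf hz nd h1 h2 hs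
  exact ⟨h3, a u, by rw [h4.qq hz.h2]; exact mul_ne_zero h4.1 hu, by rw [h5, h4.refl hz.h2]⟩

theorem Cz.df (hC : Cz Q₁ Q ρ S G) {i : T} (hi : i ∈ S) (h : Df Q₁ G (ρ i) s) {c : (End F V)ˣ}
    (hc : c ∈ G) (e : c * s * c⁻¹ ∈ HH hC.toFam) : ∃ j ∈ S, Df Q₁ G (ρ j) (c * s * c⁻¹) := by
  haveI := hC.nt
  obtain ⟨j, hj, h1⟩ := hC.rs' hi h hc e i hi
  exact ⟨j, hj, (h.cf hc).same hC.sz hC.nd (hC.adj j hj) ((hC.adj i hi).cf (hC.le hc)) h1⟩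

/-- two distinct points -/
structure Pr (Q₁ : QuadraticForm F U) (Q : QuadraticForm F V) (ρ ρ' : T → Fr F U V) (S : Finset T)
    (G : Subgroup (End F V)ˣ) : Prop where
  c : Cz Q₁ Q ρ S G
  c' : Cz Q₁ Q ρ' S G
  cj : ∃ g ∈ G, g ∉ HH c.toFam ∧ ∀ i, ρ' i = cf g (ρ i)

namespace Pr
variable (P : Pr Q₁ Q ρ ρ' S G) {i j : T}
include P

theorem symm : Pr Q₁ Q ρ' ρ S G := by
  obtain ⟨g, h1, h2, h3⟩ := P.cj
  obtain rfl : ρ' = fun i => cf g (ρ i) := funext h3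
  exact ⟨P.c', P.c, g⁻¹, inv_mem h1, fun h => h2 (by
    simpa using inv_mem ((HH_conj P.c.toFam _).1 h)), fun i => by simp⟩

theorem df (hj : j ∈ S) (h : Df Q₁ G (ρ' j) t) {c : (End F V)ˣ} (hc : c ∈ G)
    (e : c * t * c⁻¹ ∈ HH P.c.toFam) : ∃ i ∈ S, Df Q₁ G (ρ i) (c * t * c⁻¹) := by
  obtain ⟨g, h1, -, h3⟩ := P.cj
  have := h.cf (inv_mem h1)
  rw [h3, cf_icf] at this
  simpa [mul_assoc] using P.c.df hj this (mul_mem hc h1) (by simpa [mul_assoc] using e)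

theorem ne (hj : j ∈ S) (h : Df Q₁ G (ρ' j) t) : t ∉ HH P.c.toFam := fun e => by
  obtain ⟨g, h1, h2, h3⟩ := P.cj
  have := h.cf (inv_mem h1)
  rw [h3, cf_icf] at this
  exact h2 (P.c.rs' hj this h1 (by simpa [mul_assoc] using e))

theorem nosf (hi : i ∈ S) (hj : j ∈ S) (h1 : Df Q₁ G (ρ i) s) (h2 : Df Q₁ G (ρ i) s₂)
    (ht : Df Q₁ G (ρ' j) t) (h0 : s * s₂ ≠ 1) : t * (s * s₂) ≠ s * s₂ * t := fun e => by
  obtain ⟨-, u, hu, rfl⟩ := h1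
  obtain ⟨h3, v, hv, rfl⟩ := h2
  rw [← map_mul] at h0 e
  exact P.ne hj ht ((P.c.sf hi hv hu h3 (fun h => h0 (by rw [h, map_one])) ht.1 e).elim
    (P.c.rs i hi v hv h3 t ht.1) id)

theorem half (hi : i ∈ S) (hj : j ∈ S) (hs : Df Q₁ G (ρ i) s) (ht : Df Q₁ G (ρ' j) t)
    {z c : (End F V)ˣ} (hz : z ∈ G) (hc : c ∈ G) (h0 : z ≠ 1) (h1 : z * s = s * z) (h2 : z * t = t * z)
    (h : z * s = c * s * c⁻¹ ∨ z * s = c * t * c⁻¹) :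
    ∃ i₂ ∈ S, i₂ ≠ i ∧ ∃ s₂, Df Q₁ G (ρ i₂) s₂ ∧ z = s * s₂ := by
  have h3 := mul_mem (P.c.rs' hi hs hz (by rw [h1, mul_inv_cancel_right]; exact hs.mem _ hi)) (hs.mem _ hi)
  have e : z = s * (z * s) := by rw [h1, ← mul_assoc, hs.sq, one_mul]
  obtain ⟨i₂, h4, h5⟩ : ∃ i₂ ∈ S, Df Q₁ G (ρ i₂) (z * s) := by
    rcases h with h | h <;> rw [h] at h3 ⊢
    exacts [P.c.df hi hs hc h3, P.df hj ht hc h3]
  exact ⟨i₂, h4, fun e' => P.nosf hi hj hs (e' ▸ h5) ht (e ▸ h0) (e ▸ h2.symm), _, h5, e⟩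

theorem partner (hi : i ∈ S) (hj : j ∈ S) (hs : Df Q₁ G (ρ i) s) (ht : Df Q₁ G (ρ' j) t)
    (h : ¬ Odd (orderOf (s * t))) : ∃ i₂ ∈ S, i₂ ≠ i ∧ ∃ s₂, Df Q₁ G (ρ i₂) s₂ ∧ ∃ j₂ ∈ S, j₂ ≠ j ∧
      ∃ t₂, Df Q₁ G (ρ' j₂) t₂ ∧ s * s₂ = t * t₂ ∧ ∃ m : ℕ, s * s₂ = (s * t) ^ m := by
  obtain ⟨m, n, h1, h2, h3, h4⟩ := OO.dih_even' hs.sq ht.sq (Nat.not_odd_iff_even.1 h)
  have hY := fun n : ℕ => pow_mem (mul_mem hs.1 ht.1) n
  obtain ⟨i₂, a1, a2, s₂, a3, a4⟩ : ∃ i₂ ∈ S, i₂ ≠ i ∧ ∃ s₂, Df Q₁ G (ρ i₂) s₂ ∧ (s * t) ^ m = s * s₂ :=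
    h4.elim (fun h => P.half hi hj hs ht (hY m) (hY _) h1 h2 h3 (Or.inl h.1))
      fun h => P.half hi hj hs ht (hY m) (hY _) h1 h2 h3 (Or.inr h.1)
  obtain ⟨j₂, b1, b2, t₂, b3, b4⟩ : ∃ j₂ ∈ S, j₂ ≠ j ∧ ∃ t₂, Df Q₁ G (ρ' j₂) t₂ ∧ (s * t) ^ m = t * t₂ :=
    h4.elim (fun h => P.symm.half hj hi ht hs (hY m) (hY _) h1 h3 h2 (Or.inl h.2))
      fun h => P.symm.half hj hi ht hs (hY m) (hY _) h1 h3 h2 (Or.inr h.2)
  exact ⟨i₂, a1, a2, s₂, a3, j₂, b1, b2, t₂, b3, a4.symm.trans b4, m, a4.symm⟩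

theorem stepB (hi : i ∈ S) (hj : j ∈ S) {u u' : U} (hu : Q₁ u ≠ 0) (hu' : Q₁ u' ≠ 0)
    (hb : B Q₁ u u' = 0) (h1 : lf (ρ i) (refl Q₁ u) ∈ G) (h1' : lf (ρ i) (refl Q₁ u') ∈ G)
    (ht : Df Q₁ G (ρ' j) t) {i₂ j₂ : T} (hi₂ : i₂ ∈ S) (hj₂ : j₂ ∈ S) (ni : i₂ ≠ i) (nj : j₂ ≠ j) {u₂ : U}
    (hu₂ : Q₁ u₂ ≠ 0) (h2 : lf (ρ i₂) (refl Q₁ u₂) ∈ G) (ht₂ : Df Q₁ G (ρ' j₂) t₂)
    (e : lf (ρ i) (refl Q₁ u) * lf (ρ i₂) (refl Q₁ u₂) = t * t₂) :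
    finrank F U = 3 ∧ ∃ v, Q₁ v ≠ 0 ∧ B Q₁ u₂ v = 0 ∧ ∃ j₃ ∈ S, j₃ ≠ j ∧ ∃ t₃, Df Q₁ G (ρ' j₃) t₃ ∧
      lf (ρ i) (refl Q₁ u') * lf (ρ i₂) (refl Q₁ v) = t * t₃ := by
  haveI := P.c.nt
  have hz := P.c.sz
  have h3 := hz.h3
  have hs : Df Q₁ G (ρ i) _ := ⟨h1, u, hu, rfl⟩
  have hs' : Df Q₁ G (ρ i) _ := ⟨h1', u', hu', rfl⟩
  have hs₂ : Df Q₁ G (ρ i₂) _ := ⟨h2, u₂, hu₂, rfl⟩
  have k1 : lf (ρ i) (refl Q₁ u) * lf (ρ i) (refl Q₁ u') = lf (ρ i) (refl Q₁ u * refl Q₁ u') :=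
    (map_mul _ _ _).symm
  have k2 : lf (ρ i) (refl Q₁ u) * lf (ρ i) (refl Q₁ u') = lf (ρ i) (refl Q₁ u') * lf (ρ i) (refl Q₁ u) := by
    rw [← map_mul, rr_comm hb, map_mul]
  have nc := not_cm_rr (σ := ρ i) hz hu hu' hb
  have dl := fun (e : (End F V)ˣ) he hc => delta (σ := ρ i) hz.h2 (rr_sq hb) (e := e) he hc
  rw [Eg_rr hz.h2 hu hu' hb, ← k1] at dl
  rw [← k1] at nc
  generalize lf (ρ i) (refl Q₁ u) = s at *
  generalize lf (ρ i) (refl Q₁ u') = z at *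
  have c2 := P.c.comm i hi i₂ hi₂ ni.symm
  have c3 := P.c'.comm j hj j₂ hj₂ nj.symm
  have r0 := hs.rk hz.h2
  have pos : 0 < finrank F (EV s (-1)) := Nat.pos_of_mul_pos_left (r0 ▸ finrank_pos)
  have rk : ∀ {σ x}, Df Q₁ G σ x → finrank F (EV x (-1)) = finrank F (EV s (-1)) := fun h =>
    Nat.eq_of_mul_eq_mul_left (by omega) ((h.rk hz.h2).symm.trans r0)
  have rk2 : ∀ {σ τ x y}, Df Q₁ G σ x → Df Q₁ G τ y → Comm σ τ →
      finrank F U * finrank F (EV (x * y) (-1)) + 2 * finrank F (EV s (-1)) =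
        2 * finrank F U * finrank F (EV s (-1)) := fun {σ τ x y} hx hy hc => by
    obtain ⟨-, a, ha, rfl⟩ := hx
    have := delta hz.h2 (refl_mul_self Q₁ a) hy.sq (hy.cm hc)
    rw [OO.Eg_refl_neg hz.h2 ha, finrank_span_singleton (ne_zero_of_Q ha), rk hy, r0] at this
    linarith
  have z1 : z * (t * t₂) = t * t₂ * z := by
    rw [← e, ← mul_assoc, ← k2, mul_assoc, ← hs₂.comm hs' c2, mul_assoc]
  have z2 : t * (t * t₂) = t * t₂ * t := by rw [mul_assoc, ht₂.comm ht c3]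
  have z3 : Commute (z * t) (t * t₂) := Commute.mul_left z1 z2
  obtain ⟨i₃, hi₃, n3, z₂, hz₂, j₃, hj₃, n4, t₃, ht₃, e', m, hm⟩ := P.partner hi hj hs' ht fun ho => by
    obtain ⟨n, r, -, a1, -, a2⟩ := OO.swap_of_odd (Y := ⊤) trivial trivial hs'.sq ht.sq ho
    have a3 : Commute r (t * t₂) := a1 ▸ ((z3.pow_left n).mul_left z1).mul_left (z3.pow_left n).inv_left
    have a4 : t₂ = r * (s * z * lf (ρ i₂) (refl Q₁ u₂)) * r⁻¹ := by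
      rw [k2, mul_assoc z, e, ← conj_mul, a2, a3.eq, mul_inv_cancel_right, ← mul_assoc, ht.sq, one_mul]
    have a5 := dl _ hs₂.sq (hs₂.cm c2)
    rw [← finrank_EV_conj r, ← a4, rk ht₂, rk hs₂, r0] at a5
    nlinarith
  have c4 := P.c.comm i hi i₃ hi₃ n3.symm
  have c5 := P.c'.comm j hj j₃ hj₃ n4.symm
  have e1 : t₂ * t₃ = t * t₂ * (t * t₃) := by
    rw [← ht₂.comm ht c3, mul_assoc, ← mul_assoc t, ht.sq, one_mul]
  have e2 : t₂ * t₃ = s * z * (lf (ρ i₂) (refl Q₁ u₂) * z₂) := by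
    rw [e1, ← e, ← e', mul_assoc, ← mul_assoc _ z, hs₂.comm hs' c2]; simp only [mul_assoc]
  have cm : Cm (ρ i) (lf (ρ i₂) (refl Q₁ u₂) * z₂ : (End F V)ˣ) := (hs₂.cm c2).mul (hz₂.cm c4)
  have cs : Commute s (lf (ρ i₂) (refl Q₁ u₂) * z₂) :=
    Commute.mul_right (hs₂.comm hs c2).symm (hz₂.comm hs c4).symm
  have cz : Commute z (lf (ρ i₂) (refl Q₁ u₂) * z₂) :=
    Commute.mul_right (hs₂.comm hs' c2).symm (hz₂.comm hs' c4).symm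
  have n5 : j₂ ≠ j₃ := by
    rintro rfl
    refine P.symm.nosf hj₂ hi ht₂ ht₃ hs (fun h => nc ?_) ?_
    · rw [e2, mul_eq_one_iff_eq_inv] at h
      rw [h]; exact Cm.inv cm
    · rw [e2]; exact ((Commute.refl s).mul_right k2).mul_right cs
  have c6 := P.c'.comm j₂ hj₂ j₃ hj₃ n5
  have q1 : lf (ρ i₂) (refl Q₁ u₂) * z₂ * (lf (ρ i₂) (refl Q₁ u₂) * z₂) = 1 := by
    have : t₂ * t₃ * (t₂ * t₃) = 1 := by
      nth_rewrite 1 [← ht₃.comm ht₂ c6]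
      rw [mul_assoc, ← mul_assoc t₂, ht₂.sq, one_mul, ht₃.sq]
    rwa [e2, (cs.mul_left cz).symm.mul_mul_mul_comm, show s * z * (s * z) = 1 by
        nth_rewrite 1 [k2]; rw [mul_assoc, ← mul_assoc s, hs.sq, one_mul, hs'.sq], one_mul] at this
  have q2 : lf (ρ i₂) (refl Q₁ u₂) * z₂ ≠ 1 := fun h => by
    rw [h, mul_one] at e2
    refine P.nosf hi hj hs hs' ht (fun h => nc (h ▸ Cm.one)) ?_
    rw [← e2]
    exact Commute.mul_right (ht₂.comm ht c3).symm (ht₃.comm ht c5).symm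
  have f1 := rk2 ht₂ ht₃ c6
  have f2 := dl _ q1 cm
  rw [← e2, r0] at f2
  by_cases e3 : i₂ = i₃
  · subst e3
    obtain ⟨-, v, hv, rfl⟩ := hz₂
    rw [← map_mul] at q1 q2 f2
    rw [← map_mul, ← map_one (lf (ρ i₂))] at q1
    have b1 := perp_of_sq hz.h2 hu₂ hv (lf_inj q1) fun h => q2 (by rw [h, map_one])
    rw [EV_lf, finrank_Sp' (ne_zero_of_Q hu₂), Eg_rr hz.h2 hu₂ hv b1, ← EV_refl_neg hz.h2 hu₂, rk hs₂] at f2
    exact ⟨by nlinarith, v, hv, b1, j₃, hj₃, n4, t₃, ht₃, e'⟩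
  exfalso
  have f3 := rk2 hs₂ hz₂ (P.c.comm i₂ hi₂ i₃ hi₃ e3)
  obtain ⟨k, hk⟩ : ∃ k, finrank F U = k + 3 := ⟨finrank F U - 3, by omega⟩
  rw [hk] at f1 f2 f3
  nlinarith [Nat.mul_pos (Nat.succ_pos k) (Nat.mul_pos (Nat.succ_pos k) pos)]

theorem odd (hi : i ∈ S) (hj : j ∈ S) (hs : Df Q₁ G (ρ i) s) (ht : Df Q₁ G (ρ' j) t) :
    Odd (orderOf (s * t)) := by
  by_contra h
  haveI := P.c.nt
  have hz := P.c.sz
  obtain ⟨i₂, hi₂, ni, s₂, hs₂, j₂, hj₂, nj, t₂, ht₂, e, -⟩ := P.partner hi hj hs ht h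
  obtain ⟨h1, u, hu, rfl⟩ := hs
  obtain ⟨h2, u₂, hu₂, rfl⟩ := hs₂
  obtain ⟨c, hc, h4⟩ := P.c.cls
  obtain ⟨u', b1, q1⟩ := hz.exists_perp hu c
  have hu' : Q₁ u' ≠ 0 := q1 ▸ hc
  obtain ⟨h3, v, hv, b2, j₃, hj₃, n3, t₃, ht₃, e3⟩ :=
    P.stepB hi hj hu hu' b1 h1 (h4 i hi _ q1) ht hi₂ hj₂ ni nj hu₂ h2 ht₂ e
  obtain ⟨u'', hu'', b3, b4⟩ := hz.exists_third hu hu' b1
  have k1 := lf_tri (σ := ρ i) hz h3 hu hu' hu'' b1 b3 b4
  have k2 := lf_tri (σ := ρ i) hz h3 hu' hu'' hu b4 (B_comm Q₁ u u' ▸ b1) (B_comm Q₁ u u'' ▸ b3)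
  obtain ⟨-, v', hv', b5, j₄, hj₄, n4, t₄, ht₄, e4⟩ := P.stepB hi hj hu hu'' b3 h1 (by
    rw [← neg_neg (lf (ρ i) _), ← k1, ← neg_one_mul]
    exact mul_mem P.c.neg (mul_mem h1 (h4 i hi _ q1))) ht hi₂ hj₂ ni nj hu₂ h2 ht₂ e
  have c2 := P.c.comm i hi i₂ hi₂ ni.symm
  have hs : Df Q₁ G (ρ i) _ := ⟨h1, u, hu, rfl⟩
  have e5 : t₃ * t₄ = -(lf (ρ i) (refl Q₁ u) * lf (ρ i₂) (refl Q₁ v * refl Q₁ v')) := by
    have : t₃ * t₄ = (t * t₃)⁻¹ * (t * t₄) := by rw [mul_inv_rev, ht₃.inv]; group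
    rw [this, ← e3, ← e4, mul_inv_rev, ← map_inv, ← map_inv, refl_inv, refl_inv, mul_assoc,
      ← mul_assoc (lf (ρ i) _), k2, map_mul, neg_mul, mul_neg, ← mul_assoc, lf_comm c2, mul_assoc]
  have cs : lf (ρ i) (refl Q₁ u) * lf (ρ i₂) (refl Q₁ v * refl Q₁ v') =
    lf (ρ i₂) (refl Q₁ v * refl Q₁ v') * lf (ρ i) (refl Q₁ u) := (lf_comm c2 _ _).symm
  by_cases e6 : j₃ = j₄
  · subst e6
    refine P.symm.nosf hj₃ hi ht₃ ht₄ hs (fun h => not_cm_refl (σ := ρ i) hz hu ?_) ?_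
    · rw [e5, neg_eq_iff_eq_neg, cs, ← eq_inv_mul_iff_mul_eq] at h
      rw [h]
      exact (Cm.inv (cm_lf c2 _)).mul cm_neg_one
    · rw [e5, mul_neg, neg_mul, mul_assoc, ← cs]
  have c6 := P.c'.comm j₃ hj₃ j₄ hj₄ e6
  have q2 : refl Q₁ v * refl Q₁ v' * (refl Q₁ v * refl Q₁ v') = 1 := lf_inj (ρ := ρ i₂) (by
    have : t₃ * t₄ * (t₃ * t₄) = 1 := by
      nth_rewrite 1 [← ht₄.comm ht₃ c6]
      rw [mul_assoc, ← mul_assoc t₃, ht₃.sq, one_mul, ht₄.sq]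
    rw [e5, neg_mul_neg] at this
    nth_rewrite 1 [cs] at this
    rwa [mul_assoc, ← mul_assoc (lf (ρ i) _), hs.sq, one_mul, ← map_mul, ← map_one (lf (ρ i₂))] at this)
  by_cases e7 : refl Q₁ v * refl Q₁ v' = 1
  · rw [e7, map_one, mul_one, ← neg_eq_iff_eq_neg, ← neg_one_mul] at e5
    exact P.symm.ne hi hs (e5 ▸ mul_mem (P.c'.mem_of_NF fun l _ => NF_of_cm cm_neg_one)
      (mul_mem (ht₃.mem _ hj₃) (ht₄.mem _ hj₄)))
  rw [map_mul, lf_tri hz h3 hv hv' hu₂ (perp_of_sq hz.h2 hv hv' q2 e7) (B_comm Q₁ u₂ v ▸ b2)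
    (B_comm Q₁ u₂ v' ▸ b5), mul_neg, neg_neg, e, ← mul_inv_eq_iff_eq_mul, ht₂.inv] at e5
  have := ((ht₃.cm (P.c'.comm j hj j₃ hj₃ n3.symm)).mul (ht₄.cm (P.c'.comm j hj j₄ hj₄ n4.symm))).mul
    (ht₂.cm (P.c'.comm j hj j₂ hj₂ nj.symm))
  rw [← Units.val_mul, ← Units.val_mul, e5] at this
  obtain ⟨-, a, ha, rfl⟩ := ht
  exact not_cm_refl hz ha this

end Pr

end Cfsg.Agent.H2.TO
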