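import Cfsg.Agent.H2.TO10

set_option autoImplicit false
set_option linter.unusedSectionVars false
set_option linter.unusedSimpArgs false

/-! Orthogonal tensor frames, part 11: elements of small rank in dimension three. -/

namespace Cfsg.Agent.H2.TO

open Module Cfsg.Agent.Orth Cfsg.Agent.H1.TW

variable {F : Type*} [Field F] [Finite F] {U : Type*} {V : Type*} [AddCommGroup U] [Module F U]
  [AddCommGroup V] [Module F V] [FiniteDimensional F U] [FiniteDimensional F V]
  {Q₁ : QuadraticForm F U} {Q : QuadraticForm F V} {σ σ' τ : Fr F U V}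

open Polynomial in
theorem cyc (a : End F U) : ∃ e, ∀ α β δ ε : F, α • e + β • a e + δ • a (a e) + ε • a (a (a e)) = 0 →
    α • 1 + β • a + δ • (a * a) + ε • (a * a * a) = 0 := by
  obtain ⟨x, hx⟩ := exists_ker_toSpanSingleton_eq_annihilator F[X] (AEval' a)
  obtain ⟨e, rfl⟩ := (AEval'.of a).surjective x
  refine ⟨e, fun α β δ ε h => ?_⟩
  have e1 : aeval a (C α + C β * X + C δ * (X * X) + C ε * (X * X * X)) =
      α • 1 + β • a + δ • (a * a) + ε • (a * a * a) := by
    simp [Algebra.algebraMap_eq_smul_one]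
  have : (C α + C β * X + C δ * (X * X) + C ε * (X * X * X)) ∈ annihilator F[X] (AEval' a) := by
    rw [← hx, LinearMap.mem_ker, LinearMap.toSpanSingleton_apply, ← AEval.of_aeval_smul, e1]
    exact (LinearEquiv.map_eq_zero_iff _).2 h
  rw [AEval.annihilator_eq_ker_aeval, RingHom.mem_ker] at this
  exact e1 ▸ this

def Ind3 (a : End F U) : Prop := ∀ α β δ : F, α • 1 + β • a + δ • (a * a) = 0 → α = 0 ∧ β = 0 ∧ δ = 0

theorem ind3 (hz : Sz Q₁) (h3 : finrank F U = 3) {a : U ≃ₗ[F] U} (ha : a ∈ O Q₁) {n : ℕ} (hn : Odd n)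
    (h1 : a ^ n = 1) (h0 : a ≠ 1) : Ind3 (a : End F U) := by
  have eig : ∀ ν : F, 2 ≤ finrank F (OO.Eg a ν) → False := fun ν h => by
    obtain ⟨x, hx, hx0⟩ : ∃ x ∈ OO.Eg a ν, Q₁ x ≠ 0 := by
      by_contra! h4
      have := hz.not_ts (by omega) h4
      omega
    have h4 := ha x
    rw [OO.mem_Eg.1 hx, Q_smul] at h4
    have h5 := eig_pow (OO.mem_Eg.1 hx) n
    rw [h1] at h5
    have h6 : ν = 1 := by
      obtain ⟨m, rfl⟩ := hn
      rw [pow_succ, pow_mul, pow_two, mul_right_cancel₀ hx0 (h4.trans (one_mul _).symm)] at h5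
      exact smul_left_injective F (ne_zero_of_Q hx0) (by simpa using h5.symm)
    obtain ⟨u, -, rfl⟩ := OO.eq_refl_of_fix hz.n1 hz.h2 ha h0 (by rw [← h6]; omega)
    obtain ⟨m, rfl⟩ := hn
    rw [pow_succ, pow_mul, pow_two, refl_mul_self, one_pow, one_mul] at h1
    exact h0 h1
  have ns : ¬ ∃ s : F, (a : End F U) = s • 1 := fun ⟨s, hs⟩ => eig s (by
    rw [show OO.Eg a s = ⊤ from Submodule.eq_top_iff'.2 fun x => OO.mem_Eg.2 (LinearMap.congr_fun hs x),
      finrank_top]; omega)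
  intro α β δ h
  haveI := hz.nt
  by_cases hδ : δ = 0
  · by_cases hβ : β = 0
    · simpa [hδ, hβ] using h
    · exact (ns ⟨-(β⁻¹ * α), smul_right_injective _ hβ (by
        simp only [smul_smul, mul_neg, mul_inv_cancel_left₀ hβ]
        rw [hδ] at h; linear_combination (norm := module) h)⟩).elim
  exfalso
  have h2 : ∀ x, a (a x) = (-(δ⁻¹ * β)) • a x + (-(δ⁻¹ * α)) • x := fun x => smul_right_injective _ hδ (by
    have := LinearMap.congr_fun h x
    simp only [smul_add, smul_smul, mul_neg, mul_inv_cancel_left₀ hδ]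
    simp at this
    linear_combination (norm := module) this)
  obtain ⟨w, hw⟩ := exists_ne_eig ns
  have hw0 : w ≠ 0 := by rintro rfl; simp at hw
  have li : LinearIndependent F ![w, a w] := (LinearIndependent.pair_iff' hw0).2 fun s hs =>
    hw (Submodule.mem_span_singleton.2 ⟨s, hs⟩)
  have f1 := finrank_span_eq_card li
  rw [Matrix.range_cons_cons_empty] at f1
  have f2 := hz.n1.finrank_perp (Submodule.span F {w, a w})
  obtain ⟨z, hz0, h4⟩ := finrank_eq_one_iff'.1 (show finrank F (perp Q₁ (Submodule.span F {w, a w})) = 1 by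
    simp at f1; omega)
  have b1 := z.2 w (Submodule.subset_span (by simp))
  have b2 := z.2 (a w) (Submodule.subset_span (by simp))
  obtain ⟨l, hl⟩ := h4 ⟨a⁻¹ z, mem_perp_span.2 (by
    rintro _ (rfl | rfl)
    · rw [← O_B ha, apply_inv_apply, b2]
    · rw [← O_B ha, apply_inv_apply, h2]; simp [b1, b2])⟩
  replace hl : l • a z = z := by rw [← map_smul, show l • (z : U) = a⁻¹ z from congrArg Subtype.val hl]; simp
  have z0 : (z : U) ≠ 0 := fun e => hz0 (Subtype.ext e)
  have l0 : l ≠ 0 := by rintro rfl; exact z0 (by simpa using hl.symm)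
  have h5 : a z = l⁻¹ • (z : U) := by rw [eq_inv_smul_iff₀ l0, hl]
  have h6 := h2 z
  rw [h5, map_smul, h5, smul_smul, smul_smul, ← add_smul] at h6
  have h7 := smul_left_injective F z0 h6
  have h8 : LinearMap.range ((a : U →ₗ[F] U) - l⁻¹ • LinearMap.id) ≤ OO.Eg a (-(δ⁻¹ * β) - l⁻¹) := by
    rintro _ ⟨x, rfl⟩
    simp only [OO.mem_Eg, LinearMap.sub_apply, LinearEquiv.coe_coe, LinearMap.smul_apply,
      LinearMap.id_apply, map_sub, map_smul, h2]
    linear_combination (norm := module) (-1 : F) • congrArg (· • x) h7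
  have h9 := LinearMap.finrank_range_add_finrank_ker ((a : U →ₗ[F] U) - l⁻¹ • LinearMap.id)
  have := Submodule.finrank_mono h8
  by_cases h10 : 2 ≤ finrank F (OO.Eg a l⁻¹)
  · exact eig _ h10
  · exact eig (-(δ⁻¹ * β) - l⁻¹) (by change _ + finrank F (OO.Eg a l⁻¹) = _ at h9; omega)

theorem Ind3.basis (h3 : finrank F U = 3) {a : End F U} (h : Ind3 a) : ∃ e, (∀ α β δ ε : F,
    α • e + β • a e + δ • a (a e) + ε • a (a (a e)) = 0 →
    α • 1 + β • a + δ • (a * a) + ε • (a * a * a) = 0) ∧ ∃ b : Basis (Fin 3) F U, b 0 = e ∧ b 1 = a e ∧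
      b 2 = a (a e) := by
  obtain ⟨e, he⟩ := cyc a
  have li : LinearIndependent F ![e, a e, a (a e)] := Fintype.linearIndependent_iff.2 fun g hg i => by
    have := h (g 0) (g 1) (g 2) (by simpa using he (g 0) (g 1) (g 2) 0 (by simpa [Fin.sum_univ_three] using hg))
    fin_cases i; exacts [this.1, this.2.1, this.2.2]
  exact ⟨e, he, basisOfLinearIndependentOfCardEqFinrank li (by simp [h3]), by simp, by simp, by simp⟩

theorem cub [Nontrivial V] (hz : Sz Q₁) (h3 : finrank F U = 3) {a : U ≃ₗ[F] U} (ha : a ∈ O Q₁)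
    (hi : Ind3 (a : End F U)) {c : (End F V)ˣ} (hc : Cm σ (c : End F V))
    (hr : finrank F V ≤ 3 * finrank F (EV (lf σ a * c) 1)) :
    ∃ α β δ : F, (a : End F U) * a * a = α • ((a : End F U) * a) + β • (a : End F U) + δ • 1 ∧
      (c : End F V) * c * c = α • ((c : End F V) * c) + β • (c : End F V) + δ • 1 := by
  obtain ⟨e, he, b, b0, b1, b2⟩ := hi.basis h3
  have sp : ∀ x, x = b.repr x 0 • e + b.repr x 1 • a e + b.repr x 2 • a (a e) := fun x => by
    conv_lhs => rw [← b.sum_repr x, Fin.sum_univ_three, b0, b1, b2]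
    rfl
  have e0 : e ≠ 0 := b0 ▸ b.ne_zero 0
  set α := b.repr (a (a (a e))) 2
  set β := b.repr (a (a (a e))) 1
  set δ := b.repr (a (a (a e))) 0
  have h1 := he δ β α (-1) (by
    have := sp (a (a (a e))); simp only [LinearEquiv.coe_coe]; linear_combination (norm := module) -this)
  have h2 : ((a⁻¹ : U ≃ₗ[F] U) : End F U) * ((a⁻¹ : U ≃ₗ[F] U) : End F U) * ((a⁻¹ : U ≃ₗ[F] U) : End F U) =
      α • (((a⁻¹ : U ≃ₗ[F] U) : End F U) * ((a⁻¹ : U ≃ₗ[F] U) : End F U)) +
        β • ((a⁻¹ : U ≃ₗ[F] U) : End F U) + δ • 1 := by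
    have A := ad_O ha
    have := ((((Ad.one.smul δ).add (A.smul β)).add ((A.mul A).smul α)).add (((A.mul A).mul A).smul (-1))).symm
    rw [h1] at this
    have := this.symm.unique hz.n1 Ad.zero
    rw [mul_assoc]; linear_combination (norm := module) -this
  refine ⟨α, β, δ, by linear_combination (norm := module) -h1, ?_⟩
  set f : End F V := c * c * c - (α • ((c : End F V) * c) + β • (c : End F V) + δ • 1) with hf
  have cf' : Cm σ f := ((hc.mul hc).mul hc).sub ((((hc.mul hc).smul α).add (hc.smul β)).add (Cm.one.smul δ))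
  have k1 : ∀ v ∈ EV (lf σ a * c) 1, σ ((a⁻¹ : U ≃ₗ[F] U) : End F U) v = (c : End F V) v := fun v hv => by
    rw [← lf_inv_val, ← mem_EV1.1 hv, Units.val_mul, End.mul_apply, inv_app, ← End.mul_apply (lf σ a : End F V),
      ← Units.val_mul, mem_EV1.1 hv]
  have k2 : ∀ v ∈ EV (lf σ a * c) 1, f v = 0 := fun v hv => by
    have := LinearMap.congr_fun (congrArg σ h2) v
    simp only [map_mul, map_add, map_smul, map_one, End.mul_apply, LinearMap.add_apply, LinearMap.smul_apply,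
      k1 v hv, ← hc.apply] at this
    simpa [hf, sub_eq_zero] using this
  have k3 : ∀ v ∈ EV (lf σ a * c) 1, ∀ x, σ (r1 e (B Q₁ x)) v = 0 → σ (r1 e (B Q₁ (a x))) v = 0 :=
    fun v hv x h => by
      rw [show r1 e (B Q₁ (a x)) = r1 e (B Q₁ x) * ((a⁻¹ : U ≃ₗ[F] U) : End F U) by
        ext y; simp [← O_B ha x], map_mul, End.mul_apply, k1 v hv, ← hc.apply, h, map_zero]
  let Φ : EV (lf σ a * c) 1 →ₗ[F] (LinearMap.ker f ⊓ Ln σ e : Submodule F V) :=
    (σ (r1 e (B Q₁ e)) ∘ₗ Submodule.subtype _).codRestrict _ fun v =>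
      ⟨by simp [cf'.apply, k2 v v.2], r1_mem_Ln _ _ _⟩
  have inj : Function.Injective Φ := LinearMap.ker_eq_bot.1 (LinearMap.ker_eq_bot'.2 fun v hv => by
    have a0 : σ (r1 e (B Q₁ e)) v = 0 := congrArg Subtype.val hv
    have a1 := k3 v v.2 _ a0
    have a2 := k3 v v.2 _ a1
    obtain ⟨ψ, hψ⟩ := H6.exists_dual_one' (F := F) e0
    refine Subtype.ext ((sum_rho_apply σ v).symm.trans (Finset.sum_eq_zero fun i _ => ?_))
    obtain ⟨x, hx⟩ := OO.exists_B_eq hz.n1 ((bs F U).coord i)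
    have := rho_r1_apply σ (bs F U i) e ψ (B Q₁ x) v
    rw [hψ, one_smul] at this
    rw [← hx, ← this, sp x]
    simp [r1_add_right, r1_smul_right, a0, a1, a2])
  have f1 := LinearMap.finrank_le_finrank_of_injective inj
  have f2 := finrank_inv (ρ := σ) (LinearMap.ker f) (fun x v hv => by
    rw [LinearMap.mem_ker] at hv ⊢; rw [cf'.apply, hv, map_zero]) e0
  exact sub_eq_zero.1 (LinearMap.ker_eq_top.1 (Submodule.eq_top_of_finrank_eq
    (le_antisymm (Submodule.finrank_le _) (by rw [f2, h3]; omega))))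

theorem tr3 (hz : Sz Q₁) (h3 : finrank F U = 3) {a : U ≃ₗ[F] U} (ha : a ∈ O Q₁)
    (hi : Ind3 (a : End F U)) (h1 : a * a * a = 1) : LinearMap.trace F U a = 0 ∧
    ∃ (v : U) (κ : F), v ≠ 0 ∧ κ ≠ 0 ∧ a v = v ∧
      (1 : End F U) + (a : End F U) + ((a⁻¹ : U ≃ₗ[F] U) : End F U) = κ • nn Q₁ v := by
  obtain ⟨e, he, b, b0, b1, b2⟩ := hi.basis h3
  have a3 : ∀ x, a (a (a x)) = x := fun x => LinearEquiv.congr_fun h1 x
  have ai : ∀ x, a⁻¹ x = a (a x) := fun x => by rw [← a3 x, inv_apply_apply, a3]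
  simp only [LinearEquiv.coe_coe] at b1 b2
  refine ⟨?_, ?_⟩
  · rw [LinearMap.trace_eq_matrix_trace F b, Matrix.trace_fin_three]
    simp only [LinearMap.toMatrix_apply, LinearEquiv.coe_coe]
    rw [show a (b 0) = b 1 by rw [b0, b1], show a (b 1) = b 2 by rw [b1, b2],
      show a (b 2) = b 0 by rw [b2, b0, a3]]
    simp
  set π : End F U := 1 + (a : End F U) + ((a⁻¹ : U ≃ₗ[F] U) : End F U) with hπ
  have v0 : e + a e + a (a e) ≠ 0 := fun h => by
    have := congrArg (fun x => b.repr x 0) h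
    rw [← b2, ← b1, ← b0] at this
    simp at this
  have h2 : ∀ x, ∃ s : F, π x = s • (e + a e + a (a e)) := fun x => by
    refine ⟨b.repr x 0 + b.repr x 1 + b.repr x 2, ?_⟩
    conv_lhs => rw [← b.sum_repr x]
    simp only [Fin.sum_univ_three, b0, b1, b2, hπ, map_add, map_smul, LinearMap.add_apply, End.one_apply,
      LinearEquiv.coe_coe, ai, a3]
    module
  have A : Ad Q₁ π π := by
    have := (Ad.one.add (ad_O ha)).add (ad_O ha).symm
    nth_rewrite 2 [add_right_comm] at this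
    exact this
  obtain ⟨y, hy⟩ := H6.exists_apply_eq_one (OO.B_ne_zero hz.n1 v0)
  obtain ⟨κ, hκ⟩ := h2 y
  have h4 : π = κ • nn Q₁ (e + a e + a (a e)) := LinearMap.ext fun x => by
    obtain ⟨s, hs⟩ := h2 x
    have := A x y
    rw [hs, hκ, map_smul, map_smul, LinearMap.smul_apply, hy, B_comm] at this
    simp only [hs, nn, LinearMap.smul_apply, r1_apply, smul_smul]
    rw [← smul_eq_mul, ← this, smul_eq_mul, mul_one]
  refine ⟨_, κ, v0, fun h => v0 ?_, by simp [a3]; abel, h4⟩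
  have := LinearMap.congr_fun h4 e
  simpa [h, hπ, ai] using this

theorem tr_nn {a b : U ≃ₗ[F] U} {v : U} {κ : F} (hκ : κ ≠ 0)
    (h : (1 : End F U) + (a : End F U) + ((a⁻¹ : U ≃ₗ[F] U) : End F U) = κ • nn Q₁ v)
    (h1 : LinearMap.trace F U b = 0) (h2 : LinearMap.trace F U (a * b : U ≃ₗ[F] U) = 0)
    (h3 : LinearMap.trace F U (a⁻¹ * b : U ≃ₗ[F] U) = 0) : B Q₁ v (b v) = 0 := by
  have := congrArg (fun x => LinearMap.trace F U (x * (b : End F U))) h
  simp only [add_mul, one_mul, map_add, ← coe_mul', h1, h2, h3, add_zero, smul_mul_assoc, map_smul, nn,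
    r1_mul'] at this
  simpa [r1, hκ] using this

theorem Sz.two_class (hz : Sz Q₁) (h3 : finrank F U = 3) {c : F} (hc : c ≠ 0) {v : U} (hv : v ≠ 0) :
    ∃ u u', Q₁ u = c ∧ Q₁ u' = c ∧ B Q₁ v u * B Q₁ v u ≠ B Q₁ v u' * B Q₁ v u' := by
  obtain ⟨t, t1, t2⟩ := hz.hq h3
  by_cases h : Q₁ v = 0
  · obtain ⟨v', h1, h2⟩ := hz.partner h hv
    refine ⟨c • v + v', (c / t) • v + t • v', by simp [Q_add, Q_smul, h, h1, h2], ?_, ?_⟩
    · simp [Q_add, Q_smul, h, h1, h2, mul_div_cancel₀ _ t1]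
    · simpa [B_self, h, h2] using t2.symm
  obtain ⟨u, h1, h2⟩ := hz.exists_perp h c
  obtain ⟨s, s1, s2⟩ : ∃ s : F, s ≠ 0 ∧ c + s * s * Q₁ v ≠ 0 := by
    by_contra! h4
    have := h4 1 one_ne_zero
    exact t2 (mul_right_cancel₀ h (by linear_combination h4 t t1 - this))
  have q : Q₁ (u + s • v) = c + s * s * Q₁ v := by simp [Q_add, Q_smul, h2, B_comm Q₁ u v, h1]
  refine ⟨u, refl Q₁ (u + s • v) u, h2, by rw [refl_mem_O, h2], ?_⟩
  simp [refl_apply, q, h1, B_self, h2, s2, hc, s1, h, hz.h2]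

end Cfsg.Agent.H2.TO
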