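import Cfsg.Agent.H2.TO11

set_option autoImplicit false
set_option linter.unusedSectionVars false
set_option linter.unusedSimpArgs false

/-! Orthogonal tensor frames, part 12: the swapping involutions and the main induction. -/

namespace Cfsg.Agent.H2.TO

open Module Cfsg.Agent.Orth Cfsg.Agent.H1.TW

universe v

variable {F : Type*} [Field F] [Finite F] {U : Type*} {V : Type v} [AddCommGroup U] [Module F U]
  [AddCommGroup V] [Module F V] [FiniteDimensional F U] [FiniteDimensional F V]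
  {Q₁ : QuadraticForm F U} {Q : QuadraticForm F V} {σ σ' τ : Fr F U V}

theorem sq_inj {G : Type*} [Group G] {x y : G} (hx : Odd (orderOf x)) (hy : Odd (orderOf y))
    (h : x * x = y * y) : x = y := by
  obtain ⟨m, hm⟩ := hx.mul hy
  have h1 : x ^ (2 * m + 1) = 1 := by rw [← hm, pow_mul, pow_orderOf_eq_one, one_pow]
  have h2 : y ^ (2 * m + 1) = 1 := by rw [← hm, mul_comm, pow_mul, pow_orderOf_eq_one, one_pow]
  rw [pow_succ, pow_mul, pow_two] at h1 h2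
  exact mul_left_cancel (h1.trans (h ▸ h2.symm))

theorem ind_cm {b : End F U} (h : Ind3 b) {x y z : End F V} (hx : Cm σ x) (hy : Cm σ y) (hz : Cm σ z)
    (e : σ (b * b) * x + σ b * y + σ 1 * z = 0) : x = 0 ∧ y = 0 ∧ z = 0 := by
  have key : ∀ φ : Dual F (End F V), φ z = 0 ∧ φ y = 0 ∧ φ x = 0 := fun φ => h _ _ _ (by
    ext u
    refine (Module.forall_dual_apply_eq_zero_iff F _).1 fun ψ => ?_
    have := congrArg (fun w => φ (bk σ ψ u w)) e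
    simp only [map_add, bk_mul hx, bk_mul hy, bk_mul hz, map_smul, map_zero, smul_eq_mul] at this
    simp only [LinearMap.add_apply, LinearMap.smul_apply, map_add, map_smul, smul_eq_mul]
    linear_combination this)
  exact ⟨(Module.forall_dual_apply_eq_zero_iff F _).1 fun φ => (key φ).2.2,
    (Module.forall_dual_apply_eq_zero_iff F _).1 fun φ => (key φ).2.1,
    (Module.forall_dual_apply_eq_zero_iff F _).1 fun φ => (key φ).1⟩

variable {T : Type*} [DecidableEq T] {ρ : T → Fr F U V} {S : Finset T} {G : Subgroup (End F V)ˣ}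

def DD (Q₁ : QuadraticForm F U) (ρ : T → Fr F U V) (S : Finset T) (G : Subgroup (End F V)ˣ)
    (s : (End F V)ˣ) : Prop := ∃ i ∈ S, Df Q₁ G (ρ i) s

/-- swapping involutions -/
def Sg (hF : Fam Q₁ Q ρ S) (G : Subgroup (End F V)ˣ) (g r : (End F V)ˣ) : Prop :=
  (∃ a ∈ G, ∃ s, DD Q₁ ρ S G s ∧ r = a * s * a⁻¹) ∧ g⁻¹ * r ∈ HH hF

variable {s s' g r r₁ r₂ r₃ : (End F V)ˣ}

theorem DD.sq (h : DD Q₁ ρ S G s) : s * s = 1 := h.choose_spec.2.sq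
theorem DD.inG (h : DD Q₁ ρ S G s) : s ∈ G := h.choose_spec.2.1
theorem DD.mem (hF : Fam Q₁ Q ρ S) (h : DD Q₁ ρ S G s) : s ∈ HH hF := h.choose_spec.2.mem hF h.choose_spec.1

section
variable {hF : Fam Q₁ Q ρ S}

theorem Sg.sq (h : Sg hF G g r) : r * r = 1 := by
  obtain ⟨⟨a, -, s, hs, rfl⟩, -⟩ := h
  rw [conj_mul, hs.sq, mul_one, mul_inv_cancel]

theorem Sg.inv (h : Sg hF G g r) : r⁻¹ = r := inv_eq_of_mul_eq_one_right h.sq

theorem Sg.inG (h : Sg hF G g r) : r ∈ G := by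
  obtain ⟨⟨a, ha, s, hs, rfl⟩, -⟩ := h
  exact mul_mem (mul_mem ha hs.inG) (inv_mem ha)

theorem Sg.ne (hg : g ∉ HH hF) (h : Sg hF G g r) : r ∉ HH hF := fun e =>
  hg (inv_mem_iff.1 ((mul_mem_cancel_right e).1 h.2))

theorem Sg.mul (h : Sg hF G g r₁) (h' : Sg hF G g r₂) : r₁ * r₂ ∈ HH hF := by
  simpa [mul_assoc, h.inv] using mul_mem (inv_mem h.2) h'.2

theorem Sg.conj (h : Sg hF G g r₁) (h' : Sg hF G g r₂) : Sg hF G g (r₁ * r₂ * r₁) := by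
  refine ⟨?_, by simpa [mul_assoc] using mul_mem h.2 (h'.mul h)⟩
  obtain ⟨⟨a, ha, s, hs, rfl⟩, -⟩ := h'
  exact ⟨_, mul_mem h.inG ha, s, hs, by rw [mul_inv_rev, h.inv]; group⟩

theorem Sg.pow (h : Sg hF G g r₁) (h' : Sg hF G g r₂) : ∀ m : ℕ, Sg hF G g (r₁ * (r₁ * r₂) ^ m)
  | 0 => by simpa using h
  | 1 => by simpa [← mul_assoc, h.sq] using h'
  | m + 2 => by
    have := h'.conj (h.conj (h.pow h' m))
    rw [← mul_assoc r₁ r₁, h.sq, one_mul] at this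
    rw [pow_succ, pow_succ']
    simpa only [← mul_assoc, h.sq, one_mul] using this

theorem Sg.rk (h : Sg hF G g r) {u : U} (hu : u ≠ 0) :
    finrank F (EV r 1) + finrank F (Ln σ u) = finrank F V := by
  obtain ⟨⟨a, -, s, ⟨i, -, -, v, hv, rfl⟩, rfl⟩, -⟩ := h
  rw [finrank_EV_conj, finrank_Ln_eq hu (ne_zero_of_Q hv), finrank_refl_one hF.sz.h2 hv]

theorem Sg.rk2 (h : Sg hF G g r₁) (h' : Sg hF G g r₂) {u : U} (hu : u ≠ 0) :
    finrank F V ≤ finrank F (EV (r₁ * r₂) 1) + 2 * finrank F (Ln σ u) := by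
  have h1 := h.rk (σ := σ) hu
  have h2 := h'.rk (σ := σ) hu
  have h3 := OO.finrank_inf_ge (EV r₁ 1) (EV r₂ 1)
  have : finrank F (EV r₁ 1 ⊓ EV r₂ 1 : Submodule F V) ≤ finrank F (EV (r₁ * r₂) 1) :=
    Submodule.finrank_mono fun v hv => by
      rw [mem_EV1, Units.val_mul, End.mul_apply, mem_EV1.1 hv.2, mem_EV1.1 hv.1]
  omega
end

namespace Cz
variable (hC : Cz Q₁ Q ρ S G)
include hC

theorem odd (h : DD Q₁ ρ S G s) (h' : DD Q₁ ρ S G s') {a : (End F V)ˣ} (ha : a ∈ G)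
    (ha' : a ∉ HH hC.toFam) : Odd (orderOf (s * (a * s' * a⁻¹))) := by
  obtain ⟨i, hi, h⟩ := h
  obtain ⟨j, hj, h'⟩ := h'
  exact Pr.odd ⟨hC, hC.conj ha, a, ha, ha', fun _ => rfl⟩ hi hj h (h'.cf ha)

theorem dd (h : DD Q₁ ρ S G s) {c : (End F V)ˣ} (hc : c ∈ G) (e : c * s * c⁻¹ ∈ HH hC.toFam) :
    c ∈ HH hC.toFam ∧ DD Q₁ ρ S G (c * s * c⁻¹) := by
  obtain ⟨i, hi, h⟩ := h
  exact ⟨hC.rs' hi h hc e, hC.df hi h hc e⟩

variable (hg : g ∈ G) (hg' : g ∉ HH hC.toFam)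
include hg hg'

theorem ex (h : DD Q₁ ρ S G s) (h' : DD Q₁ ρ S G s') :
    ∃ r, Sg hC.toFam G g r ∧ r * s * r⁻¹ = g * s' * g⁻¹ := by
  obtain ⟨j, r, h1, h2, -, h3⟩ := OO.swap_of_odd h.inG (mul_mem (mul_mem hg h'.inG) (inv_mem hg)) h.sq
    (by rw [conj_mul, h'.sq, mul_one, mul_inv_cancel]) (hC.odd h h' hg hg')
  refine ⟨r, ⟨⟨_, pow_mem (mul_mem h.inG (mul_mem (mul_mem hg h'.inG) (inv_mem hg))) j, s, h, h2⟩,
    (hC.dd h (mul_mem (inv_mem hg) h1) ?_).1⟩, h3⟩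
  rw [show g⁻¹ * r * s * (g⁻¹ * r)⁻¹ = g⁻¹ * (r * s * r⁻¹) * g by group, h3]
  simpa [mul_assoc] using h'.mem hC.toFam

theorem ex2 (h2 : Sg hC.toFam G g r₂) (h : DD Q₁ ρ S G s) (h' : DD Q₁ ρ S G s') :
    ∃ r, Sg hC.toFam G g r ∧ r₂ * r * s * (r₂ * r)⁻¹ = s' := by
  obtain ⟨r, h3, h4⟩ := hC.ex hg hg' h (hC.dd h' (mul_mem (inv_mem hg) h2.inG)
    (mul_mem (mul_mem h2.2 (h'.mem _)) (inv_mem h2.2))).2
  refine ⟨r, h3, ?_⟩
  rw [show r₂ * r * s * (r₂ * r)⁻¹ = r₂ * (r * s * r⁻¹) * r₂⁻¹ by group, h4]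
  calc _ = r₂ * r₂ * s' * (r₂ * r₂)⁻¹ := by group
    _ = _ := by rw [h2.sq]; simp

omit hg in
theorem odd' (h : DD Q₁ ρ S G s) (h1 : Sg hC.toFam G g r) : Odd (orderOf (s * r)) := by
  have := h1.ne hg'
  obtain ⟨⟨a, ha, s', hs', rfl⟩, -⟩ := h1
  exact hC.odd h hs' ha fun e => this (mul_mem (mul_mem e (hs'.mem _)) (inv_mem e))

omit hg in
theorem uniq (h1 : Sg hC.toFam G g r₁) (h2 : Sg hC.toFam G g r₂) (h : DD Q₁ ρ S G s)
    (e : r₁ * r₂ * s = s * (r₁ * r₂)) : r₁ = r₂ :=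
  mul_left_cancel (sq_inj (hC.odd' hg' h h1) (hC.odd' hg' h h2) (by
    calc s * r₁ * (s * r₁) = s * r₁ * (s * (r₁ * r₂)) * r₂ := by
          simp only [mul_assoc, h2.sq, mul_one]
      _ = _ := by rw [← e]; simp only [← mul_assoc, mul_left_inj]; rw [mul_assoc, h1.sq, mul_one]))

theorem caseA {i : T} (hi : i ∈ S) (h : 4 ≤ finrank F U ∨ S.card ≤ 2) : False := by
  haveI := hC.nt
  have hz := hC.sz
  obtain ⟨c, hc, h4⟩ := hC.cls
  obtain ⟨u, hu⟩ := hz.exists_Q c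
  have u0 : Q₁ u ≠ 0 := hu ▸ hc
  have d0 : ∀ j ∈ S, ∀ u, Q₁ u = c → DD Q₁ ρ S G (lf (ρ j) (refl Q₁ u)) := fun j hj u hu =>
    ⟨j, hj, h4 j hj u hu, u, hu ▸ hc, rfl⟩
  obtain ⟨r₀, h0, -⟩ := hC.ex hg hg' (d0 i hi u hu) (d0 i hi u hu)
  have k1 : ∀ {r₁ r₂}, Sg hC.toFam G g r₁ → Sg hC.toFam G g r₂ → r₁ * r₂ ∉ NF (ρ i) →
      ∀ a ∈ G, ∀ s, DD Q₁ ρ S G s → r₁ = a * s * a⁻¹ → ∀ b ∈ G, ∀ s', DD Q₁ ρ S G s' → r₂ = b * s' * b⁻¹ →
      a⁻¹ * b ∈ HH hC.toFam := by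
    intro r₁ r₂ h1 h2 hn a ha s hs e1 b hb s' hs' e2
    by_contra h5
    have h6 := hC.odd hs hs' (mul_mem (inv_mem ha) hb) h5
    rw [SemiconjBy.orderOf_eq a (SemiconjBy.conj_mk a _), show a * (s * (a⁻¹ * b * s' * (a⁻¹ * b)⁻¹)) * a⁻¹ = r₁ * r₂ by
      rw [e1, e2]; group] at h6
    have m := h1.mul h2
    have n2 : r₁ * r₂ * (r₁ * r₂) ∉ NF (ρ i) := fun e => hn (mem_of_sq e h6 (pow_orderOf_eq_one _))
    rcases h with h | h
    · have := three_frame ((hC.rel m hi hi).resolve_left hn) ((hC.rel (mul_mem m m) hi hi).resolve_left n2) h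
        (ne_zero_of_Q u0)
      have := h1.rk2 (σ := ρ i) h2 (ne_zero_of_Q u0)
      rw [EV_one] at this
      omega
    obtain ⟨j, hj, h7⟩ := m i hi
    obtain ⟨l, hl, h8⟩ := m j hj
    have ji : j ≠ i := by rintro rfl; exact hn h7
    have lj : l ≠ j := by
      rintro rfl
      have := (h8.symm.trans h7).cf (r₁ * r₂)⁻¹
      rw [cf_icf, cf_icf] at this
      exact ji (hC.eq_of_same hl hi this)
    have li : l = i := by
      by_contra li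
      have := Finset.card_le_card (show ({i, j, l} : Finset T) ⊆ S by simp [Finset.insert_subset_iff, *])
      rw [Finset.card_eq_three.2 ⟨i, j, l, ji.symm, Ne.symm li, lj.symm, rfl⟩] at this
      omega
    exact n2 (by rw [mem_NF, cf_mul]; exact (li ▸ h8).trans (h7.cf _))
  obtain ⟨⟨a, ha, s₀, hs₀, e₀⟩, -⟩ := id h0
  have k2 : ∀ {r}, Sg hC.toFam G g r → DD Q₁ ρ S G (a⁻¹ * r * a) := fun {r} hr => by
    obtain ⟨⟨b, hb, s, hs, e⟩, -⟩ := id hr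
    have : a⁻¹ * b ∈ HH hC.toFam := by
      by_cases h5 : r₀ * r ∈ NF (ρ i)
      · obtain ⟨j, hj, hji⟩ := hC.two i
        obtain ⟨r', h6, h7⟩ := hC.ex2 hg hg' h0 (d0 i hi u hu) (d0 j hj u hu)
        have h8 : r₀ * r' ∉ NF (ρ i) := fun h8 => not_cm_refl (σ := cf (r₀ * r') (ρ i)) hz u0 (by
          rw [lf_cf, h7]; exact Same.cm h8 (cm_lf (hC.comm i hi j hj hji.symm) _))
        obtain ⟨⟨d, hd, t, ht, e'⟩, -⟩ := id h6
        have := mul_mem (k1 h0 h6 h8 a ha s₀ hs₀ e₀ d hd t ht e') (inv_mem (k1 hr h6 (fun h9 => h8 (by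
          simpa [mul_assoc, ← mul_assoc r r, hr.sq] using mul_mem h5 h9)) b hb s hs e d hd t ht e'))
        simpa [mul_assoc] using this
      · exact k1 h0 hr h5 a ha s₀ hs₀ e₀ b hb s hs e
    simpa [e, mul_assoc] using (hC.dd hs (mul_mem (inv_mem ha) hb)
      (mul_mem (mul_mem this (hs.mem _)) (inv_mem this))).2
  have k3 : ∀ s, DD Q₁ ρ S G s → Sg hC.toFam G g (a * s * a⁻¹) := by
    choose f f1 f2 using fun s : {s // DD Q₁ ρ S G s} => hC.ex hg hg' s.2 hs₀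
    intro s hs
    obtain ⟨t, ht⟩ := Finite.injective_iff_surjective.1 (show Function.Injective
      (fun s : {s // DD Q₁ ρ S G s} => (⟨_, k2 (f1 s)⟩ : {s // DD Q₁ ρ S G s})) from fun s t e => by
        have : f s = f t := by simpa using e
        exact Subtype.ext (by simpa [this] using (f2 s).trans (f2 t).symm)) ⟨s, hs⟩
    rw [← show a⁻¹ * f t * a = s from congrArg Subtype.val ht]
    simpa [mul_assoc] using f1 t
  by_cases h3 : finrank F U = 3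
  · obtain ⟨u', b1, q1⟩ := hz.exists_perp u0 c
    obtain ⟨u'', q2, b2, b3⟩ := hz.exists_third u0 (q1 ▸ hc) b1
    have k := lf_tri (σ := ρ i) hz h3 u0 (q1 ▸ hc) q2 b1 b2 b3
    have := (k3 _ (d0 i hi u hu)).mul (k3 _ (d0 i hi u' q1))
    rw [conj_mul, k, mul_neg, neg_mul, ← neg_one_mul] at this
    refine (k3 _ ⟨i, hi, ?_, u'', q2, rfl⟩).ne hg' ((mul_mem_cancel_left
      (hC.mem_of_NF fun l _ => NF_of_cm cm_neg_one)).1 this)
    rw [← neg_neg (lf (ρ i) _), ← k, ← neg_one_mul]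
    exact mul_mem hC.neg (mul_mem (h4 i hi _ hu) (h4 i hi _ q1))
  have := finrank_perp_ge (Q := Q₁) (F ∙ u)
  have := finrank_span_singleton_le (F := F) u
  have := hz.h3
  obtain ⟨w, h1, -, -, hw, hw0, -⟩ := exists_wy hz.h2 ((OO.ndOn_one hz.h2 u0).perp hz.n1) (by omega)
  have b1 : B Q₁ w u = 0 := (B_comm _ _ _).trans (mem_perp_span_singleton.1 h1)
  have := (k3 _ (d0 i hi (u - Q₁ u • w) (by simp [Q_sub, Q_smul, hw, hu, B_comm Q₁ u, b1]))).mul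
    (k3 _ (d0 i hi u hu))
  rw [conj_mul, ← map_mul, ← eich_eq_rr hw b1 u0] at this
  have h5 := hC.rx i hi w u hw hw0 b1 u0 a ha this
  exact h0.ne hg' (e₀ ▸ mul_mem (mul_mem h5 (hs₀.mem _)) (inv_mem h5))

omit hg in
theorem odd3 (h3 : finrank F U = 3) {i : T} (hi : i ∈ S) (h1 : Sg hC.toFam G g r₁)
    (h2 : Sg hC.toFam G g r₂) (hn : r₁ * r₂ ∈ NF (ρ i)) : Odd (orderOf (r₁ * r₂)) := by
  haveI := hC.nt
  have hz := hC.sz
  rw [← Nat.not_even_iff_odd]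
  rintro ⟨m, hm⟩
  have h4 := h1.pow h2 m
  have e : (r₁ * r₂) ^ m = r₁ * (r₁ * (r₁ * r₂) ^ m) := by rw [← mul_assoc, h1.sq, one_mul]
  have h5 : (r₁ * r₂) ^ m * (r₁ * r₂) ^ m = 1 := by rw [← pow_add, ← hm, pow_orderOf_eq_one]
  have h6 : (r₁ * r₂) ^ m ≠ 1 := pow_ne_one_of_lt_orderOf (by have := orderOf_pos (r₁ * r₂); omega)
    (by have := orderOf_pos (r₁ * r₂); omega)
  obtain ⟨a, μ, c, a1, a2, a3⟩ := dec hz hC.nd (hC.adj i hi) (hC.le (pow_mem (mul_mem h1.inG h2.inG) m))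
    (pow_mem hn m)
  obtain ⟨t, -, rfl⟩ := OO.mult_sq hz.n1 (by rw [h3]; decide) a1.1 a1.2
  obtain ⟨b, b1, d, b2, b3, -⟩ := dec_sq hz a1 a2 a3
  have h7 := lf_mul_pow b2 b 2
  rw [← b3, pow_two, h5] at h7
  obtain ⟨l, hl⟩ := scal_of_eq (c := d ^ 2) (Cm.pow b2 2) h7.symm
  have h8 : b * b = 1 := by
    rcases O_scal hz (pow_mem b1 2) hl with rfl | rfl
    · ext x; simpa [pow_two] using hl x
    · exact (OO.sq_ne_neg hz.n1 hz.h2 (by rw [h3]; decide) b1 fun x => by simpa [pow_two] using hl x).elim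
  obtain ⟨c₀, hc₀, h9⟩ := hC.cls
  obtain ⟨u, hu, ν, h10⟩ : ∃ u, Q₁ u = c₀ ∧ ∃ ν : F, b u = ν • u := by
    have cp := OO.isCompl_Eg hz.h2 h8
    have f := Submodule.finrank_add_eq_of_isCompl cp
    have pp : ∀ x ∈ OO.Eg b 1, ∀ y ∈ OO.Eg b (-1), B Q₁ x y = 0 := fun x hx y hy =>
      OO.Eg_perp hz.h2 b1 (OO.mem_Eg1.1 hx) (OO.mem_Eg2.1 hy)
    by_cases h10 : 2 ≤ finrank F (OO.Eg b 1)
    · obtain ⟨u, m1, q⟩ := NdOn.exists_Q_eq (Q := Q₁) (fun v hv h => hz.n1 v fun x => by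
        obtain ⟨y, hy, z, hz', rfl⟩ := Submodule.mem_sup.1 (cp.sup_eq_top ▸ Submodule.mem_top (x := x))
        simp [h y hy, B_comm Q₁ z, pp v hv z hz']) le_rfl (by omega : finrank F (OO.Eg b 1) + 2 ≤ _) c₀
      exact ⟨u, q, _, OO.mem_Eg.1 m1⟩
    · obtain ⟨u, m1, q⟩ := NdOn.exists_Q_eq (Q := Q₁) (fun v hv h => hz.n1 v fun x => by
        obtain ⟨y, hy, z, hz', rfl⟩ := Submodule.mem_sup.1 (cp.sup_eq_top ▸ Submodule.mem_top (x := x))
        simp [h z hz', pp y hy v hv]) le_rfl (by omega : finrank F (OO.Eg b (-1)) + 2 ≤ _) c₀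
      exact ⟨u, q, _, OO.mem_Eg.1 m1⟩
  have u0 : Q₁ u ≠ 0 := hu ▸ hc₀
  have := hC.uniq hg' h1 h4 ⟨i, hi, h9 i hi u hu, u, u0, rfl⟩ (by
    rw [← e, b3, mul_assoc, Cm.lf b2, ← mul_assoc, ← mul_assoc, ← map_mul, ← map_mul, ← inv_mul_cancel_right
      (b * _) b, conj_refl b1, h10, refl_smul (fun h => u0 (by rw [← b1 u, h10, h]; simp))])
  exact h6 (by rw [e, ← this, h1.sq])

omit hg in
theorem dec3 (h3 : finrank F U = 3) {i : T} (hi : i ∈ S) (h1 : Sg hC.toFam G g r₁)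
    (h2 : Sg hC.toFam G g r₂) (h0 : r₁ ≠ r₂) {n : ℕ} (ho : Odd n) (hp : (r₁ * r₂) ^ n = 1)
    (hn : r₁ * r₂ ∈ NF (ρ i)) :
    ∃ a ∈ O Q₁, ∃ c : (End F V)ˣ, Cm (ρ i) (c : End F V) ∧ r₁ * r₂ = lf (ρ i) a * c ∧ a ^ n = 1 ∧
      c ^ n = 1 ∧ Ind3 (a : End F U) ∧ ∃ α β δ : F,
      (a : End F U) * a * a = α • ((a : End F U) * a) + β • (a : End F U) + δ • 1 ∧
      (c : End F V) * c * c = α • ((c : End F V) * c) + β • (c : End F V) + δ • 1 := by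
  haveI := hC.nt
  have hz := hC.sz
  obtain ⟨a, a1, c, a2, a3, a4, a5⟩ := dec_odd hz hC.nd (hC.adj i hi) (hC.le (mul_mem h1.inG h2.inG)) hn ho hp
  obtain ⟨c₀, hc₀, h9⟩ := hC.cls
  obtain ⟨u, hu⟩ := hz.exists_Q c₀
  have u0 : Q₁ u ≠ 0 := hu ▸ hc₀
  have a6 := ind3 hz h3 a1 ho a4 fun e => h0 (hC.uniq hg' h1 h2 ⟨i, hi, h9 i hi u hu, u, u0, rfl⟩
    (by rw [a3, e, map_one, one_mul, Cm.lf a2]))
  have f1 := h1.rk2 (σ := ρ i) h2 (ne_zero_of_Q u0)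
  have f2 := finrank_Ln (ρ := ρ i) (ne_zero_of_Q u0)
  exact ⟨a, a1, c, a2, a3, a4, a5, a6, cub hz h3 a1 a6 a2 (by rw [← a3]; rw [h3] at f2; omega)⟩

omit hg in
theorem cube1 (h3 : finrank F U = 3) (hS : 3 ≤ S.card) {i : T} (hi : i ∈ S) (h1 : Sg hC.toFam G g r₁)
    (h2 : Sg hC.toFam G g r₂) (h0 : r₁ ≠ r₂) (hn : r₁ * r₂ ∈ NF (ρ i)) :
    ∃ a ∈ O Q₁, ∃ c : (End F V)ˣ, Cm (ρ i) (c : End F V) ∧ r₁ * r₂ = lf (ρ i) a * c ∧
      Ind3 (a : End F U) ∧ a * a * a = 1 := by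
  haveI := hC.nt
  have hz := hC.sz
  have ho := hC.odd3 hg' h3 hi h1 h2 hn
  have hp := pow_orderOf_eq_one (r₁ * r₂)
  generalize orderOf (r₁ * r₂) = n at ho hp
  obtain ⟨a, a1, c, a2, a3, a4, a5, a6, α, β, δ, a7, a8⟩ := hC.dec3 hg' h3 hi h1 h2 h0 ho hp hn
  refine ⟨a, a1, c, a2, a3, a6, ?_⟩
  suffices h : α = 0 ∧ β = 0 by
    have h4 : ∀ x, (a * a * a) x = δ • x := fun x => by simpa [h.1, h.2] using LinearMap.congr_fun a7 x
    rcases O_scal hz (mul_mem (mul_mem a1 a1) a1) h4 with rfl | rfl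
    · ext x; simpa using h4 x
    haveI := hz.nt
    obtain ⟨x, hx⟩ := exists_ne (0 : U)
    have := eig_pow (h4 x) n
    rw [← pow_three', ← pow_mul, mul_comm, pow_mul, a4, one_pow, ho.neg_one_pow, neg_one_smul] at this
    exact absurd (by rw [two_smul]; exact add_eq_zero_iff_eq_neg.2 this) (smul_ne_zero hz.h2 hx)
  have cH : c ∈ HH hC.toFam := (mul_mem_cancel_left (hC.lf_mem hi a)).1 (a3 ▸ h1.mul h2)
  have mv : ∀ j ∈ S, c ∉ NF (ρ j) → α = 0 ∧ β = 0 := fun j hj h => cubic_move hz.h3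
    ((hC.rel cH hj hj).resolve_left h) ((hC.rel (mul_mem cH cH) hj hj).resolve_left fun e =>
      h (mem_of_sq e ho a5)) (hC.rel (mul_mem (mul_mem cH cH) cH) hj hj) a8
  obtain ⟨j, hj, l, hl, jl⟩ := Finset.one_lt_card.1 (show 1 < (S.erase i).card by
    rw [Finset.card_erase_of_mem hi]; omega)
  obtain ⟨ji, hj⟩ := Finset.mem_erase.1 hj
  obtain ⟨li, hl⟩ := Finset.mem_erase.1 hl
  by_cases nj : c ∈ NF (ρ j)
  swap; · exact mv j hj nj
  by_cases nl : c ∈ NF (ρ l)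
  swap; · exact mv l hl nl
  obtain ⟨b, -, d, b2, b3, -, -, b6, α', β', δ', b7, -⟩ := hC.dec3 hg' h3 hj h1 h2 h0 ho hp
    (a3 ▸ mul_mem (hC.lf_NF hi hj a) nj)
  obtain ⟨b', -, d', c2, c3, -, -, c6, -⟩ := hC.dec3 hg' h3 hl h1 h2 h0 ho hp
    (a3 ▸ mul_mem (hC.lf_NF hi hl a) nl)
  have cij := hC.comm j hj i hi ji
  set e : (End F V)ˣ := (lf (ρ i) a)⁻¹ * d with he
  have e1 : Cm (ρ j) (e : End F V) := (Cm.inv (cm_lf cij a)).mul b2
  have e2 : c = lf (ρ j) b * e := by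
    rw [he, ← mul_assoc, ← map_inv, ← lf_comm cij, mul_assoc, ← b3, a3, map_inv, inv_mul_cancel_left]
  have ns : ∀ m : ℕ, (∀ s : F, (b' : End F U) ^ m ≠ s • 1) → ∀ x y : F, x • (e : End F V) ^ m = y • 1 → x = 0 :=
    fun m hm x y h => by
      by_contra hx
      have h4 : Cm (ρ l) ((e ^ m : (End F V)ˣ) : End F V) := by
        rw [Units.val_pow_eq_pow_val, ← inv_smul_smul₀ hx ((e : End F V) ^ m), h]
        exact (Cm.one.smul y).smul _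
      have h5 : lf (ρ l) (b' ^ m) = lf (ρ i) (a ^ m) * (lf (ρ j) (b ^ m) * e ^ m) * (d' ^ m)⁻¹ := by
        rw [← lf_mul_pow e1, ← e2, ← lf_mul_pow a2, ← a3, c3, lf_mul_pow c2, mul_inv_cancel_right]
      obtain ⟨s, hs⟩ := scal_of_cm (σ := ρ l) (x := (b' ^ m : U ≃ₗ[F] U)) (by
        rw [← lf_val, h5]
        exact ((cm_lf (hC.comm l hl i hi li) _).mul ((cm_lf (hC.comm l hl j hj jl.symm) _).mul h4)).mul
          (Cm.inv (c := d' ^ m) (Cm.pow c2 m)))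
      exact hm s (by rw [← OO.coe_pow', hs])
  have k : ρ j ((b : End F U) * b) * (α' • ((e : End F V) * e * e) - α • ((e : End F V) * e)) +
      ρ j b * (β' • ((e : End F V) * e * e) - β • (e : End F V)) +
      ρ j 1 * (δ' • ((e : End F V) * e * e) - δ • 1) = 0 := by
    have h4 := congrArg (fun x => ρ j x * ((e : End F V) * e * e)) b7
    have h5 : ∀ z, (e : End F V) * (ρ j b * z) = ρ j b * (e * z) := fun z => by
      rw [← mul_assoc, e1, mul_assoc]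
    rw [e2] at a8
    simp only [Units.val_mul, lf_val, map_mul, map_add, map_smul, map_one, mul_assoc, h5, add_mul, mul_sub,
      smul_mul_assoc, mul_smul_comm, one_mul] at h4 a8 ⊢
    linear_combination (norm := module) a8 - h4
  have m3 := (e1.mul e1).mul e1
  obtain ⟨k1, k2, k3⟩ := ind_cm b6 ((m3.smul _).sub ((e1.mul e1).smul _)) ((m3.smul _).sub (e1.smul _))
    ((m3.smul _).sub (Cm.one.smul _)) k
  have q1 : α' = 0 := ns 1 (fun s hs => by simpa using (c6 (-s) 1 0 (by simp [← hs])).2.1) α' α (by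
    have := congrArg (· * (↑e⁻¹ : End F V) * (↑e⁻¹ : End F V)) (sub_eq_zero.1 k1)
    simpa using this)
  have q2 : β' = 0 := ns 2 (fun s hs => by simpa using (c6 (-s) 0 1 (by simp [← hs, pow_two])).2.2) β' β (by
    have := congrArg (· * (↑e⁻¹ : End F V)) (sub_eq_zero.1 k2)
    simpa [pow_two] using this)
  rw [q1, zero_smul, zero_sub, neg_eq_zero, ← Units.val_mul] at k1
  rw [q2, zero_smul, zero_sub, neg_eq_zero] at k2
  exact ⟨(smul_eq_zero.1 k1).resolve_right (Units.ne_zero _), (smul_eq_zero.1 k2).resolve_right e.ne_zero⟩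

theorem caseB {i : T} (hi : i ∈ S) (h3 : finrank F U = 3) (hS : 3 ≤ S.card) : False := by
  haveI := hC.nt
  have hz := hC.sz
  obtain ⟨c₀, hc₀, h4⟩ := hC.cls
  have d0 : ∀ u, Q₁ u = c₀ → DD Q₁ ρ S G (lf (ρ i) (refl Q₁ u)) := fun u hu =>
    ⟨i, hi, h4 i hi u hu, u, hu ▸ hc₀, rfl⟩
  have tr : ∀ {r₁ r₂}, Sg hC.toFam G g r₁ → Sg hC.toFam G g r₂ → r₁ ≠ r₂ → ∀ a ∈ O Q₁, ∀ c : (End F V)ˣ,
      Cm (ρ i) (c : End F V) → r₁ * r₂ = lf (ρ i) a * c → LinearMap.trace F U a = 0 := by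
    intro r₁ r₂ h1 h2 h0 a ha c hc e
    obtain ⟨b, b1, d, b2, b3, b4, b5⟩ := hC.cube1 hg' h3 hS hi h1 h2 h0
      (e ▸ mul_mem (lf_mem_NF a) (NF_of_cm hc))
    obtain ⟨s, hs⟩ := scal_of_eq (σ := ρ i) (a := b⁻¹ * a) (c := c * d⁻¹) (hc.mul (Cm.inv b2)) (by
      rw [map_mul, mul_assoc, ← mul_assoc _ c, ← e, b3, map_inv]; group)
    rw [show (a : End F U) = s • (b : End F U) from LinearMap.ext fun x => by
      simpa using congrArg b (hs x), map_smul, (tr3 hz h3 b1 b4 b5).1, smul_zero]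
  obtain ⟨w, -, hw⟩ := hz.exists_sing
  obtain ⟨x, -, hx, -⟩ := hz.two_class h3 hc₀ hw
  obtain ⟨r₂, h2, -⟩ := hC.ex hg hg' (d0 x hx) (d0 x hx)
  have mv : ∀ v, v ≠ 0 → ∃ r, Sg hC.toFam G g r ∧ r₂ * r ∈ NF (ρ i) ∧ ∀ b ∈ O Q₁, ∀ d : (End F V)ˣ,
      Cm (ρ i) (d : End F V) → r₂ * r = lf (ρ i) b * d → b v ≠ v := fun v hv => by
    obtain ⟨u, u', q, q', h5⟩ := hz.two_class h3 hc₀ hv
    obtain ⟨r, h6, h7⟩ := hC.ex2 hg hg' h2 (d0 u q) (d0 u' q')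
    refine ⟨r, h6, hC.NF_of_Ln (h2.mul h6) hi (ne_zero_of_Q (q ▸ hc₀)) (u := u') (by
      rw [← EV_refl_neg (Q₁ := Q₁) hz.h2 (q' ▸ hc₀), ← EV_refl_neg (Q₁ := Q₁) (u := u) hz.h2 (q ▸ hc₀), lf_cf, h7]), fun b hb d hd e h8 => ?_⟩
    rw [e, mul_assoc _ d, Cm.lf hd, mul_inv_rev, ← mul_assoc, ← mul_assoc, mul_inv_cancel_right, ← map_inv,
      ← map_mul, ← map_mul, conj_refl hb] at h7
    obtain ⟨s, hs⟩ := OO.eq_smul_of_refl hz.h2 (by rw [hb, q]; exact hc₀) (q' ▸ hc₀) (lf_inj h7)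
    have h9 := congrArg Q₁ hs
    rw [Q_smul, hb, q, q'] at h9
    refine h5 ?_
    rw [← hs, ← O_B hb v u, h8, map_smul, smul_eq_mul, mul_mul_mul_comm,
      mul_right_cancel₀ hc₀ (h9.trans (one_mul _).symm), one_mul]
  obtain ⟨r₁, h1, n1, m1⟩ := mv w hw
  have n0 : r₂ ≠ r₁ := fun e => m1 1 (one_mem _) 1 Cm.one (by rw [← e, h2.sq]; simp) rfl
  obtain ⟨a, a1, c, a2, a3, a4, a5⟩ := hC.cube1 hg' h3 hS hi h2 h1 n0 n1
  obtain ⟨-, v, κ, v0, κ0, av, hπ⟩ := tr3 hz h3 a1 a4 a5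
  obtain ⟨r, h5, n2, m2⟩ := mv v v0
  have i1 : r₁ * r₂ = lf (ρ i) a⁻¹ * c⁻¹ := by
    rw [← h1.inv, ← h2.inv, ← mul_inv_rev, a3, mul_inv_rev, map_inv, ← map_inv, Cm.lf (Cm.inv a2)]
  have n3 : r₂ ≠ r := fun e => m2 1 (one_mem _) 1 Cm.one (by rw [← e, h2.sq]; simp) rfl
  obtain ⟨b, b1, d, b2, b3, b4, b5⟩ := hC.cube1 hg' h3 hS hi h2 h5 n3 n2
  have ml : ∀ (a b : U ≃ₗ[F] U) (c d : (End F V)ˣ), Cm (ρ i) (c : End F V) →
      lf (ρ i) a * c * (lf (ρ i) b * d) = lf (ρ i) (a * b) * (c * d) := fun a b c d hc => by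
    rw [mul_assoc, ← mul_assoc c, Cm.lf hc, map_mul]; group
  have t := tr_nn κ0 hπ (tr h2 h5 n3 b b1 d b2 b3)
    (tr (h2.conj h1) h5 (fun e => m2 a⁻¹ (inv_mem a1) c⁻¹ (Cm.inv a2)
      (by rw [← e, ← mul_assoc, ← mul_assoc, h2.sq, one_mul, i1]) (by rw [← av, inv_apply_apply, av]))
      _ (mul_mem a1 b1) _ (a2.mul b2) (by rw [← ml _ _ _ _ a2, ← a3, ← b3, mul_assoc]))
    (tr h1 h5 (fun e => m2 a a1 c a2 (e ▸ a3) av) _ (mul_mem (inv_mem a1) b1) _ ((Cm.inv a2).mul b2)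
      (by rw [← ml _ _ _ _ (Cm.inv a2), ← i1, ← b3, mul_assoc, ← mul_assoc r₂, h2.sq, one_mul]))
  have b6 : ∀ x, b (b (b x)) = x := fun x => LinearEquiv.congr_fun b5 x
  by_cases hv : Q₁ v = 0
  · obtain ⟨s, hs⟩ := hz.par (by omega) hv v0 t (by rw [b1, hv])
    have h6 := LinearMap.congr_fun hπ v
    have h7 := b6 v
    simp only [← hs, map_smul, smul_smul] at h7
    have h8 : s * (s * s) = 1 := smul_left_injective F v0 (by simpa [mul_assoc] using h7)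
    have h9 : (3 : F) = 0 := smul_left_injective F v0 (by
      simp only [nn, LinearMap.add_apply, End.one_apply, LinearEquiv.coe_coe, av,
        show a⁻¹ v = v by rw [← av, inv_apply_apply, av], LinearMap.smul_apply, r1_apply, B_self, hv] at h6
      simp only
      linear_combination (norm := module) h6)
    have : (s - 1) ^ 3 = 0 := by linear_combination h8 + (s - s * s) * h9
    exact m2 b b1 d b2 b3 (by rw [← hs, sub_eq_zero.1 (pow_eq_zero_iff (by omega) |>.1 this), one_smul])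
  have q1 : Q₁ (b v) ≠ 0 := by rwa [b1]
  have k := lf_tri (σ := ρ i) hz h3 q1 (by rwa [b1]) hv (by rwa [O_B b1]) (B_comm Q₁ v _ ▸ t)
    (by rw [← O_B b1, b6, t])
  refine n0 (hC.uniq hg' h2 h1 ⟨i, hi, ?_, v, hv, rfl⟩ ?_)
  · rw [← neg_neg (lf (ρ i) _), ← k, ← neg_one_mul, ← map_mul]
    exact mul_mem hC.neg (hC.K i hi _ (rr_mem q1 (b1 _).symm))
  · rw [a3, mul_assoc, Cm.lf a2, ← mul_assoc, ← mul_assoc, ← map_mul, ← map_mul, ← inv_mul_cancel_right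
      (a * _) a, conj_refl a1, av]

end Cz

theorem Cx.NF_of_nc (hC : Cx Q₁ Q ρ S G) (hg : g ∈ G) {i : T} (hi : i ∈ S) (h : ∀ j ∈ S, j = i) :
    g ∈ NF (ρ i) := by
  haveI := hC.nt
  refine same_of_range fun x => mem_range_of_comm fun c hc => ?_
  have := (hC.nc _ (inv_mem hg) c (fun j hj => h j hj ▸ hc) i hi).cf g x
  simpa [mul_assoc] using this.symm

theorem Cm.sum {ι : Type*} (s : Finset ι) {f : ι → End F V} (h : ∀ i ∈ s, Cm σ (f i)) :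
    Cm σ (∑ i ∈ s, f i) := Finset.sum_induction _ _ (fun _ _ => Cm.add) Cm.zero h

theorem Cx.erase (hC : Cx Q₁ Q ρ S G) {j : T} (hj : j ∈ S) : Cx Q₁ Q ρ (S.erase j) (G ⊓ NF (ρ j)) := by
  have sub := fun l (hl : l ∈ S.erase j) => Finset.mem_of_mem_erase hl
  have cm := fun l (hl : l ∈ S.erase j) => hC.comm j hj l (sub l hl) (Finset.ne_of_mem_erase hl).symm
  refine ⟨⟨hC.sz, hC.nd, hC.nt, fun l hl => hC.adj l (sub l hl),
    fun l hl m hm => hC.comm l (sub l hl) m (sub m hm)⟩, fun _ h => hC.le h.1, ⟨hC.neg, NF_of_cm cm_neg_one⟩,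
    fun l hl a ha => ⟨hC.K l (sub l hl) a ha, hC.lf_NF (sub l hl) hj a⟩,
    hC.cls.imp fun c hc => ⟨hc.1, fun l hl u hu => ⟨hc.2 l (sub l hl) u hu, hC.lf_NF (sub l hl) hj _⟩⟩,
    fun a ha c hc l hl => ?_, fun l hl m hm a ha => hC.good l (sub l hl) m (sub m hm) a ha.1⟩
  have s1 : Same (ρ j) (cf a⁻¹ (ρ j)) := mem_NF.1 ((NF (ρ j)).inv_mem ha.2)
  rw [eq_sum_blk (cf a⁻¹ (ρ j)) c, Finset.mul_sum, Finset.sum_mul]
  refine Cm.sum _ fun x _ => ?_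
  rw [Finset.mul_sum, Finset.sum_mul]
  refine Cm.sum _ fun y _ => ?_
  have := Cm.mul (Comm.symm (cm l hl) (r1 (bs F U x) ((bs F U).coord y))) (hC.nc a ha.1
    (blk (cf a⁻¹ (ρ j)) c ((bs F U).coord x) (bs F U y)) (fun m hm => by
      by_cases e : m = j
      · rw [e]; exact s1.symm.cm (cm_blk _ _ _)
      have hm' : m ∈ S.erase j := by simp [e, hm]
      exact fun z => blk_comm (s1.cm (cm m hm' z)) (hc m hm' z) _ _) l (sub l hl))
  simpa [cf_apply, mul_assoc] using this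

theorem ih_all (Q₁ : QuadraticForm F U) (T : Type*) [DecidableEq T] (n : ℕ) : IH.{v} Q₁ T n := by
  induction n with
  | zero => exact fun _ _ _ _ _ _ _ _ h => absurd h (Nat.not_lt_zero _)
  | succ n ih =>
  intro V _ _ _ Q ρ S G hn hC g hg
  replace ih : IH.{v} Q₁ T S.card := fun V _ _ _ Q ρ S G h => ih V Q ρ S G (by omega)
  by_cases h1 : S.card ≤ 1
  · exact hC.mem_of_NF fun i hi => hC.NF_of_nc hg hi fun j hj => Finset.card_le_one.1 h1 j hj i hi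
  have hY : Cy Q₁ Q ρ S G := ⟨hC, fun i => by
    obtain ⟨j, hj, l, hl, jl⟩ := Finset.one_lt_card.1 (not_le.1 h1)
    by_cases e : j = i
    exacts [⟨l, hl, e ▸ jl.symm⟩, ⟨j, hj, e⟩], fun j hj k hk l hl => by
    by_cases e : l = j
    · exact ⟨j, hj, e ▸ hk.2⟩
    · obtain ⟨m, hm, h⟩ := ih V Q ρ _ _ (Finset.card_erase_lt_of_mem hj) (hC.erase hj) hk l (by simp [e, hl])
      exact ⟨m, Finset.mem_of_mem_erase hm, h⟩⟩
  have h3 := hC.sz.h3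
  have hZ : Cz Q₁ Q ρ S G := ⟨hY, hY.rs (if h : finrank F U = 3 then hY.cs3 h ih else hY.cs4 (by omega))⟩
  by_contra hg'
  obtain ⟨i, hi⟩ := Finset.card_pos.1 (show 0 < S.card by omega)
  by_cases h : 4 ≤ finrank F U ∨ S.card ≤ 2
  · exact hZ.caseA hg hg' hi h
  · exact hZ.caseB hg hg' hi (by omega) (by omega)

/-- **Part I**: a group with the weak goodness property normalises the family. -/
theorem Cx.main (hC : Cx Q₁ Q ρ S G) : G ≤ HH hC.toFam :=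
  ih_all Q₁ T _ V Q ρ S G (Nat.lt_succ_self _) hC

end Cfsg.Agent.H2.TO
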