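import Cfsg.Agent.H2.TO12

set_option autoImplicit false
set_option linter.unusedSectionVars false
set_option linter.unusedSimpArgs false

/-! Orthogonal tensor frames, part 13: invariant subalgebras. -/

namespace Cfsg.Agent.H2.TO

open Module Cfsg.Agent.Orth Cfsg.Agent.H1.TW

variable {F : Type*} [Field F] [Finite F] {U : Type*} {V : Type*} [AddCommGroup U] [Module F U]
  [AddCommGroup V] [Module F V] [FiniteDimensional F U] [FiniteDimensional F V]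
  {Q₁ : QuadraticForm F U} {Q : QuadraticForm F V} {σ σ' τ : Fr F U V}

@[simp] theorem eN_apply (w y x : U) : eN Q₁ w y x = B Q₁ w x • y - B Q₁ y x • w := rfl
@[simp] theorem nn_apply (w x : U) : nn Q₁ w x = B Q₁ w x • w := rfl

theorem bk_left (x : End F U) (z : End F V) (ψ : Dual F U) (b : U) :
    bk σ ψ b (σ x * z) = bk σ (ψ ∘ₗ x) b z := by
  simp only [bk_apply, blk, ← mul_assoc, ← map_mul, r1_mul']

theorem bk_right (x : End F U) (z : End F V) (ψ : Dual F U) (b : U) :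
    bk σ ψ b (z * σ x) = bk σ ψ (x b) z := by
  simp only [bk_apply, blk, mul_assoc, ← map_mul, mul_r1]

/-- block entries, linear in the indices -/
noncomputable def bl (σ : Fr F U V) (z : End F V) : Dual F U →ₗ[F] U →ₗ[F] End F V :=
  LinearMap.mk₂ F (fun ψ b => bk σ ψ b z)
    (fun _ _ _ => by simp [bk_apply, blk, r1_add_right, add_mul, Finset.sum_add_distrib])
    (fun _ _ _ => by simp [bk_apply, blk, r1_smul_right, Finset.smul_sum])
    (fun _ _ _ => by simp [bk_apply, blk, r1_add_left, mul_add, Finset.sum_add_distrib])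
    (fun _ _ _ => by simp [bk_apply, blk, r1_smul_left, Finset.smul_sum])

theorem bl_apply (z : End F V) (ψ : Dual F U) (b : U) : bl σ z ψ b = bk σ ψ b z := rfl

theorem ext_bk {z z' : End F V} (h : ∀ ψ b, bk σ ψ b z = bk σ ψ b z') : z = z' := by
  rw [eq_sum_blk σ z, eq_sum_blk σ z']
  simp only [← bk_apply, h]

/-- partial trace -/
noncomputable def Tr (σ : Fr F U V) : End F V →ₗ[F] End F V := ∑ i, bk σ ((bs F U).coord i) (bs F U i)

theorem Tr_left (z : End F V) (ψ : Dual F U) (b : U) : Tr σ (σ (r1 b ψ) * z) = bk σ ψ b z := by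
  have : ∀ i, (bs F U).coord i ∘ₗ r1 b ψ = (bs F U).repr b i • ψ := fun i => by ext; simp [mul_comm]
  simp only [Tr, LinearMap.sum_apply, bk_left, this]
  conv_rhs => rw [← (bs F U).sum_repr b]
  simp only [← bl_apply, map_sum, map_smul, LinearMap.smul_apply]

theorem Tr_right (z : End F V) (ψ : Dual F U) (b : U) : Tr σ (z * σ (r1 b ψ)) = bk σ ψ b z := by
  simp only [Tr, LinearMap.sum_apply, bk_right, r1_apply]
  conv_rhs => rw [← (bs F U).sum_dual_apply_smul_coord ψ]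
  simp only [← bl_apply, map_sum, map_smul, LinearMap.smul_apply, LinearMap.sum_apply]

theorem Tr_comm (z : End F V) (x : End F U) : Tr σ (σ x * z) = Tr σ (z * σ x) := by
  rw [eq_sum_r1 x]
  simp only [map_sum, Finset.sum_mul, Finset.mul_sum, Tr_left, Tr_right]

theorem eN_all (hz : Sz Q₁) (hq : 5 ≤ finrank F U ∨ ∃ t : F, t ≠ 0 ∧ t * t ≠ 1)
    (J : Submodule F (End F U)) (k1 : ∀ u v, Q₁ u = 0 → B Q₁ u v = 0 →
      (Q₁ v = 0 ∨ ∃ t : F, t ≠ 0 ∧ t * t ≠ 1) → eN Q₁ u v ∈ J) (x y : U) : eN Q₁ x y ∈ J := by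
  have hQ := hz.n1
  have h2 := hz.h2
  have ha := hz.h3
  let T : U → Submodule F U := fun u =>
    { carrier := {v | eN Q₁ u v ∈ J}
      add_mem' := fun {a b} ha hb => by
        change eN Q₁ u _ ∈ J
        convert J.add_mem ha hb using 1
        ext v; simp [add_smul]; abel
      zero_mem' := by change eN Q₁ u _ ∈ J; convert J.zero_mem using 1; ext v; simp
      smul_mem' := fun c a ha => by
        change eN Q₁ u _ ∈ J
        convert J.smul_mem c ha using 1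
        ext v; simp [smul_sub, smul_smul, mul_comm] }
  have hsk : ∀ u v, eN Q₁ u v ∈ J → eN Q₁ v u ∈ J := fun u v h => by
    convert J.neg_mem h using 1; ext x; simp
  have k2 : ∀ u v, Q₁ u = 0 → B Q₁ u v = 0 → eN Q₁ u v ∈ J := by
    intro u v hu hv
    rcases hq with hq | hq
    · by_contra hn
      have := finrank_perp_ge (Q := Q₁) (F ∙ u)
      have := finrank_span_singleton_le (F := F) u
      obtain ⟨e, he, he0, he1⟩ := hQ.ndOn_top.exists_sing_notMem (H := perp Q₁ (F ∙ u)) (Y := T u)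
        le_top (by rw [finrank_top]; omega) (fun h => hn (h (mem_perp_span_singleton.2 hv)))
      exact he1 (k1 u e hu (mem_perp_span_singleton.1 he) (Or.inl he0))
    · exact k1 u v hu hv (Or.inr hq)
  have k3 : ∀ u v, Q₁ u = 0 → eN Q₁ u v ∈ J := by
    intro u v hu
    by_cases hu0 : u = 0
    · exact k2 u v hu (by simp [hu0])
    obtain ⟨e, he, hue⟩ := hz.partner hu hu0
    have := finrank_perp_ge (Q := Q₁) (Submodule.span F {u, e})
    have := Orth.finrank_span_pair_le (F := F) u e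
    obtain ⟨s, hs, hs0⟩ := ((OO.ndOn_hyp hu he (by simp [hue])).perp hQ).exists_nonsing le_rfl (by omega)
    have b1 : B Q₁ u s = 0 := mem_perp_span.1 hs u (by simp)
    have b2 : B Q₁ e s = 0 := mem_perp_span.1 hs e (by simp)
    have h3 : eN Q₁ u e ∈ J := by
      have h4 := k2 (s + u - Q₁ s • e) (s + (2 : F) • u)
        (by simp [Q_sub, Q_add, Q_smul, hu, he, hue, B_comm Q₁ s, b1, b2])
        (by simp [B_self, hu, B_comm Q₁ s, B_comm Q₁ e u, hue, b1, b2]; ring)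
      convert J.smul_mem (2 * Q₁ s)⁻¹ (J.add_mem (J.add_mem h4 (k2 u s hu b1))
        (J.smul_mem (Q₁ s) (k2 e s he b2))) using 1
      ext x
      simp only [eN_apply, LinearMap.smul_apply, LinearMap.add_apply, map_add, map_sub, map_smul,
        LinearMap.sub_apply, smul_eq_mul]
      match_scalars <;> field_simp <;> ring
    have h4 : v = (v - B Q₁ u v • e) + B Q₁ u v • e := by abel
    rw [h4]
    exact (T u).add_mem (k2 u _ hu (by simp [hue])) ((T u).smul_mem _ h3)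
  by_contra hn
  obtain ⟨e, -, he0, he1⟩ := hQ.ndOn_top.exists_sing_notMem (H := ⊤) (Y := T x)
    le_top (by rw [finrank_top]; omega) (fun h => hn (h trivial))
  exact he1 (hsk _ _ (k3 e x he0))

theorem perp_all (hz : Sz Q₁) (J : Submodule F (End F U))
    (h : ∀ x y, ∀ t ∈ J, eN Q₁ x y * t - t * eN Q₁ x y ∈ J) {u v : U} (hu : Q₁ u ≠ 0) (hv : Q₁ v ≠ 0)
    (b0 : B Q₁ u v = 0) (h0 : r1 u (B Q₁ v) ∈ J) {a b : U} (hab : B Q₁ a b = 0) : r1 a (B Q₁ b) ∈ J := by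
  have h2 := hz.h2
  have k1 : ∀ {u z}, Q₁ z ≠ 0 → B Q₁ u z = 0 → r1 u (B Q₁ z) ∈ J → ∀ b, B Q₁ u b = 0 → r1 u (B Q₁ b) ∈ J :=
    fun {u z} hz b1 h1 b b2 => by
      convert J.smul_mem (2 * Q₁ z)⁻¹ (J.add_mem (h z b _ h1) (J.smul_mem (B Q₁ z b) h1)) using 1
      ext x
      simp only [LinearMap.smul_apply, LinearMap.add_apply, LinearMap.sub_apply, End.mul_apply, r1_apply,
        eN_apply, map_smul, map_sub, B_self, B_comm Q₁ z u, B_comm Q₁ b u, b1, b2, smul_eq_mul]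
      match_scalars <;> field_simp <;> ring
  have k2 : ∀ {u z}, Q₁ u ≠ 0 → B Q₁ u z = 0 → r1 u (B Q₁ z) ∈ J → ∀ a, B Q₁ a z = 0 → r1 a (B Q₁ z) ∈ J :=
    fun {u z} hu b1 h1 a b2 => by
      convert J.smul_mem (2 * Q₁ u)⁻¹ (J.add_mem (h u a _ h1) (J.smul_mem (B Q₁ a u) h1)) using 1
      ext x
      simp only [LinearMap.smul_apply, LinearMap.add_apply, LinearMap.sub_apply, End.mul_apply, r1_apply,
        eN_apply, map_smul, map_sub, B_self, B_comm Q₁ z u, B_comm Q₁ z a, b1, b2, smul_eq_mul]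
      match_scalars <;> field_simp <;> ring
  obtain ⟨z, q, b1, b2⟩ := hz.exists_third hu hv b0
  have p1 := k1 hv b0 h0
  have p2 := k2 q (B_comm Q₁ u z ▸ b1) (k1 hv (B_comm Q₁ v z ▸ b2) (k2 hu b0 h0 z (B_comm Q₁ v z ▸ b2)) u
    (B_comm Q₁ u z ▸ b1))
  obtain ⟨a', α, rfl, a1⟩ : ∃ a' α, a = a' + α • u ∧ B Q₁ u a' = 0 :=
    ⟨a - (B Q₁ u a / (2 * Q₁ u)) • u, _, (sub_add_cancel _ _).symm, by simp [B_self]; field_simp; ring⟩
  obtain ⟨b', β, rfl, a2⟩ : ∃ b' β, b = b' + β • u ∧ B Q₁ u b' = 0 :=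
    ⟨b - (B Q₁ u b / (2 * Q₁ u)) • u, _, (sub_add_cancel _ _).symm, by simp [B_self]; field_simp; ring⟩
  have e : B Q₁ a' b' = -(α * β * (2 * Q₁ u)) := by
    simp [B_self, a2, B_comm Q₁ a' u, a1] at hab; linear_combination hab
  convert J.add_mem (J.add_mem (J.smul_mem (2 * Q₁ u)⁻¹ (h u a' _ (p1 b' a2)))
    (J.smul_mem β (p2 a' (B_comm Q₁ u a' ▸ a1)))) (J.smul_mem α (p1 b' a2)) using 1
  ext x
  simp only [LinearMap.smul_apply, LinearMap.add_apply, LinearMap.sub_apply, End.mul_apply, r1_apply,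
    eN_apply, map_smul, map_sub, map_add, B_self, B_comm Q₁ a' u, B_comm Q₁ b' u, B_comm Q₁ b' a', a1, a2, e,
    smul_eq_mul]
  match_scalars <;> field_simp <;> ring

structure Gam (Q₁ : QuadraticForm F U) (Γ : Subgroup (U ≃ₗ[F] U)) (c : F) : Prop where
  sz : Sz Q₁
  hq : 5 ≤ finrank F U ∨ ∃ t : F, t ≠ 0 ∧ t * t ≠ 1
  gm : Gm Q₁ ≤ Γ
  c0 : c ≠ 0
  cl : ∀ u, Q₁ u = c → refl Q₁ u ∈ Γ

variable {Γ : Subgroup (U ≃ₗ[F] U)} {c : F} {I : Submodule F (End F V)}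

/-- invariance under conjugation -/
def Iv (Γ : Subgroup (U ≃ₗ[F] U)) (σ : Fr F U V) (I : Submodule F (End F V)) : Prop :=
  ∀ a ∈ Γ, ∀ z ∈ I, (lf σ a : End F V) * z * ↑(lf σ a)⁻¹ ∈ I

theorem iv_cm (h : ∀ z ∈ I, Cm σ z) : Iv Γ σ I := fun a _ z hz => by
  rwa [lf_val, ← h z hz, mul_assoc, ← lf_val, Units.mul_inv, mul_one]

theorem Iv.ad (hG : Gam Q₁ Γ c) (h : Iv Γ σ I) (x y : U) {z : End F V} (hz : z ∈ I) :
    σ (eN Q₁ x y) * z - z * σ (eN Q₁ x y) ∈ I := by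
  have h2 := hG.sz.h2
  refine eN_all hG.sz hG.hq
    { carrier := {N | ∀ z ∈ I, σ N * z - z * σ N ∈ I}
      add_mem' := fun ha hb z hz => by
        convert I.add_mem (ha z hz) (hb z hz) using 1
        rw [map_add]; noncomm_ring
      zero_mem' := fun z _ => by simp
      smul_mem' := fun s a ha z hz => by simpa [smul_sub] using I.smul_mem s (ha z hz) }
    (fun u v hu hv ht z hz => ?_) x y z hz
  have hD : ∀ t : F, (2 * t) • (σ (eN Q₁ u v) * z - z * σ (eN Q₁ u v)) + (2 * (t * t * t) * Q₁ v) •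
      (σ (nn Q₁ u) * z * σ (eN Q₁ u v) - σ (eN Q₁ u v) * z * σ (nn Q₁ u)) ∈ I := fun t => by
    have e : ∀ t : F, (eich Q₁ u (t • v))⁻¹ = eich Q₁ u ((-t) • v) := fun t => by
      rw [eich_inv hu (by simp [hv]), neg_smul]
    convert I.sub_mem (h _ (hG.gm (hG.sz.eich_mem u (t • v))) z hz)
      (h _ (hG.gm (hG.sz.eich_mem u ((-t) • v))) z hz) using 1
    simp only [lf_inv_val, lf_val, e, eich_coe hu hv, map_add, map_sub, map_smul, map_one, mul_add,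
      add_mul, mul_sub, sub_mul, mul_one, one_mul, mul_smul_comm, smul_mul_assoc]
    module
  rcases ht with ht | ⟨t, t1, t2⟩
  · exact (I.smul_mem_iff h2).1 (by simpa [ht] using hD 1)
  · refine (I.smul_mem_iff (mul_ne_zero (mul_ne_zero h2 t1) (sub_ne_zero.2 t2))).1 ?_
    convert I.sub_mem (I.smul_mem (t * t * t) (hD 1)) (hD t) using 1
    module

theorem eN_skew (x y a : U) : B Q₁ a ∘ₗ eN Q₁ x y = -B Q₁ (eN Q₁ x y a) := by
  ext b; simp [B_comm Q₁ a]; ring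

theorem exists_pair (hG : Gam Q₁ Γ c) {e : End F V} (he : ¬ Cm σ e) :
    ∃ u v, Q₁ u = c ∧ Q₁ v = c ∧ B Q₁ u v = 0 ∧ bk σ (B Q₁ u) v e ≠ 0 := by
  by_contra! h
  let I₀ : Submodule F (End F V) :=
    { carrier := {e | ∀ u v, Q₁ u = c → Q₁ v = c → B Q₁ u v = 0 → bk σ (B Q₁ u) v e = 0}
      add_mem' := fun ha hb u v h1 h2 h3 => by rw [map_add, ha u v h1 h2 h3, hb u v h1 h2 h3, add_zero]
      zero_mem' := fun _ _ _ _ _ => map_zero _
      smul_mem' := fun s a ha u v h1 h2 h3 => by rw [map_smul, ha u v h1 h2 h3, smul_zero] }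
  have hI : Iv (O Q₁) σ I₀ := fun a ha z hz u v h1 h2 h3 => by
    rw [lf_inv_val, lf_val, bk_right, bk_left, show B Q₁ u ∘ₗ (a : U →ₗ[F] U) = B Q₁ (a⁻¹ u) by
      ext x; simp [← O_B ha _ x]]
    exact hz _ _ (by rw [inv_mem ha, h1]) ((inv_mem ha v).trans h2) ((O_B (inv_mem ha) _ _).trans h3)
  have hG' : Gam Q₁ (O Q₁) c := ⟨hG.sz, hG.hq, Gm_le_O, hG.c0, fun u _ => refl_mem_O _ _⟩
  obtain ⟨u, hu⟩ := hG.sz.exists_Q c
  obtain ⟨v, b1, hv⟩ := hG.sz.exists_perp (hu ▸ hG.c0) c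
  refine he (cm_of_blk fun b φ hφ => ?_)
  obtain ⟨a, rfl⟩ := OO.exists_B_eq hG.sz.n1 φ
  rw [← bk_apply, ← Tr_left]
  refine perp_all hG.sz
    { carrier := {x | ∀ e ∈ I₀, Tr σ (σ x * e) = 0}
      add_mem' := fun ha hb e he => by rw [map_add, add_mul, map_add, ha e he, hb e he, add_zero]
      zero_mem' := fun e _ => by simp
      smul_mem' := fun s a ha e he => by rw [map_smul, smul_mul_assoc, map_smul, ha e he, smul_zero] }
    (fun x y t ht e he => ?_) (hu ▸ hG.c0) (hv ▸ hG.c0) b1 (fun e he => ?_) ((B_comm _ _ _).trans hφ) e h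
  · have := ht _ (hI.ad hG' x y he)
    rw [mul_sub, map_sub, ← mul_assoc _ e, ← Tr_comm] at this
    rw [map_sub σ, map_mul σ, map_mul σ, sub_mul, map_sub, mul_assoc, mul_assoc, ← neg_sub, this, neg_zero]
  · rw [Tr_left]; exact he v u hv hu ((B_comm _ _ _).trans b1)

variable {T : Type*} [Fintype T] [DecidableEq T] {ρ : T → Fr F U V}

structure Tf (Q₁ : QuadraticForm F U) (ρ : T → Fr F U V) (Γ : Subgroup (U ≃ₗ[F] U)) (c : F) : Prop
    extends Gam Q₁ Γ c where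
  nt : Nontrivial V
  comm : ∀ i j, i ≠ j → Comm (ρ i) (ρ j)
  scal : ∀ c, (∀ i, Cm (ρ i) c) → ∃ s : F, c = s • 1

namespace Tf
variable (P : Tf Q₁ ρ Γ c)
include P

theorem mem_of (h1 : 1 ∈ I) (hm : ∀ x ∈ I, ∀ y ∈ I, x * y ∈ I) (S : Finset T) :
    (∀ l ∈ S, ∀ x, ρ l x ∈ I) → ∀ c, (∀ l, l ∉ S → Cm (ρ l) c) → c ∈ I := by
  induction S using Finset.induction_on with
  | empty =>
    intro _ c hc
    obtain ⟨s, rfl⟩ := P.scal c fun l => hc l (by simp)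
    exact I.smul_mem _ h1
  | insert l S hl ih =>
    intro hi c hc
    rw [eq_sum_blk (ρ l) c]
    refine Submodule.sum_mem _ fun a _ => Submodule.sum_mem _ fun b _ => hm _ (hi l (by simp) _) _
      (ih (fun k hk => hi k (by simp [hk])) _ fun k hk => ?_)
    by_cases hkl : k = l
    · rw [hkl]; exact cm_blk _ _ _
    · exact fun y => blk_comm (P.comm l k (Ne.symm hkl) y) (hc k (by simp [hkl, hk]) y) _ _

theorem ann {A : Submodule F (End F V)} (hA : ∀ l, Iv Γ (ρ l) A) (h0 : A ≠ ⊥) {e : End F V}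
    (he : e ≠ 0) : ∃ d ∈ A, e * d ≠ 0 := by
  by_contra! h
  let X : Submodule F V := Submodule.span F {w | ∃ c ∈ A, ∃ v, w = c v}
  let I : Submodule F (End F V) :=
    { carrier := {z | ∀ w ∈ X, z w ∈ X}
      add_mem' := fun ha hb w hw => X.add_mem (ha w hw) (hb w hw)
      zero_mem' := fun w _ => X.zero_mem
      smul_mem' := fun c a ha w hw => X.smul_mem c (ha w hw) }
  have hm : ∀ x ∈ I, ∀ y ∈ I, x * y ∈ I := fun x hx y hy w hw => hx _ (hy w hw)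
  have h1 : 1 ∈ I := fun w hw => hw
  have hI := P.mem_of (I := I) h1 hm Finset.univ fun l _ => P.sz.span_nn hm fun w hw hw0 => by
    obtain ⟨y, b1, q⟩ := P.sz.exists_y hw0
    have h2 : (lf (ρ l) (eich Q₁ w y) : End F V) ∈ I := fun v hv => by
      refine (Submodule.span_le (p := X.comap (lf (ρ l) (eich Q₁ w y) : End F V))).mpr ?_ hv
      rintro _ ⟨d, hd, v, rfl⟩
      exact Submodule.subset_span ⟨_, hA l _ (P.gm (P.sz.eich_mem w y)) d hd,
        (lf (ρ l) (eich Q₁ w y) : End F V) v, by simp⟩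
    have := hm _ (I.sub_mem h2 h1) _ (I.sub_mem h2 h1)
    rwa [lf_eich_sq hw b1, I.smul_mem_iff (by simp [P.sz.h2, q])] at this
  obtain ⟨d, hd, hd0⟩ := Submodule.exists_mem_ne_zero_of_ne_bot h0
  obtain ⟨w, hw⟩ : ∃ w, d w ≠ 0 := by
    by_contra! h
    exact hd0 (LinearMap.ext h)
  obtain ⟨φ, hφ⟩ := H6.exists_dual_one' (F := F) hw
  refine he (LinearMap.ext fun v => ?_)
  have := hI (φ.smulRight v) (by simp) _ (Submodule.subset_span ⟨d, hd, w, rfl⟩)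
  rw [LinearMap.smulRight_apply, hφ, one_smul] at this
  refine (Submodule.span_le (p := LinearMap.ker e)).mpr ?_ this
  rintro _ ⟨c, hc, v, rfl⟩
  exact congrArg (fun z => z v) (h c hc)

theorem iv {l : T} {J : Submodule F (End F V)} (h1 : ∀ c ∈ J, Cm (ρ l) c)
    (h2 : ∀ k, k ≠ l → ∀ g : (End F V)ˣ, Cm (ρ l) (g : End F V) → (∀ z ∈ I, g * z * ↑g⁻¹ ∈ I) →
      ∀ c ∈ J, g * c * ↑g⁻¹ ∈ J) (hI : ∀ k, Iv Γ (ρ k) I) (k : T) : Iv Γ (ρ k) J := by
  by_cases hk : k = l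
  · exact iv_cm (hk ▸ h1)
  · exact fun a ha => h2 k hk _ (cm_lf (P.comm l k (Ne.symm hk)) a) (hI k a ha)

end Tf

theorem cj_mul {g : (End F V)ˣ} (hg : Cm σ (g : End F V)) (x : End F U) (c : End F V) :
    σ x * (g * c * ↑g⁻¹) = g * (σ x * c) * ↑g⁻¹ := by
  rw [← mul_assoc, ← mul_assoc, ← hg]; simp only [mul_assoc]

theorem Cm.cj {g : (End F V)ˣ} (hg : Cm σ (g : End F V)) {c : End F V} (hc : Cm σ c) :
    Cm σ (g * c * ↑g⁻¹) := (hg.mul hc).mul (Cm.inv hg)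

/-- coefficients of a set of frame elements -/
def JJ (σ : Fr F U V) (I : Submodule F (End F V)) (X : Set (End F U)) : Submodule F (End F V) where
  carrier := {c | Cm σ c ∧ ∀ x ∈ X, σ x * c ∈ I}
  add_mem' ha hb := ⟨ha.1.add hb.1, fun x hx => by rw [mul_add]; exact I.add_mem (ha.2 x hx) (hb.2 x hx)⟩
  zero_mem' := ⟨Cm.zero, fun x _ => by simp⟩
  smul_mem' s a ha := ⟨ha.1.smul s, fun x hx => by rw [mul_smul_comm]; exact I.smul_mem s (ha.2 x hx)⟩

/-- coefficients of an off-diagonal pair -/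
def AA (σ : Fr F U V) (I : Submodule F (End F V)) (x y : End F U) : Submodule F (End F V) where
  carrier := {c | Cm σ c ∧ ∃ c', Cm σ c' ∧ σ x * c + σ y * c' ∈ I}
  add_mem' := fun ⟨h1, c, h2, h3⟩ ⟨h4, d, h5, h6⟩ => ⟨h1.add h4, _, h2.add h5, by
    convert I.add_mem h3 h6 using 1; noncomm_ring⟩
  zero_mem' := ⟨Cm.zero, 0, Cm.zero, by simp⟩
  smul_mem' := fun s a ⟨h1, c, h2, h3⟩ => ⟨h1.smul s, _, h2.smul s, by
    simpa using I.smul_mem s h3⟩

structure Inv (Γ : Subgroup (U ≃ₗ[F] U)) (ρ : T → Fr F U V) (S : Finset T) (I : Submodule F (End F V)) :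
    Prop where
  mul : ∀ x ∈ I, ∀ y ∈ I, x * y ∈ I
  iv : ∀ l, Iv Γ (ρ l) I
  cm : ∀ l, l ∉ S → ∀ z ∈ I, Cm (ρ l) z

theorem pair_mem (hG : Gam Q₁ Γ c) (h : Iv Γ σ I) {u v : U} (hu : Q₁ u = c) (hv : Q₁ v = c)
    (b : B Q₁ u v = 0) {e : End F V} (he : e ∈ I) :
    σ (r1 u (B Q₁ v)) * bk σ (B Q₁ u) v e + σ (r1 v (B Q₁ u)) * bk σ (B Q₁ v) u e ∈ I := by
  have h2 := hG.sz.h2
  have hc := hG.c0
  have k : ∀ u, Q₁ u = c → ∀ e ∈ I, (2 * c) • (σ (nn Q₁ u) * e + e * σ (nn Q₁ u)) -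
      (2 : F) • (σ (nn Q₁ u) * e * σ (nn Q₁ u)) ∈ I := fun u hu e he => by
    have e1 : (refl Q₁ u : U →ₗ[F] U) = (1 : End F U) - c⁻¹ • nn Q₁ u := by
      ext x; simp [refl_apply, hu, smul_smul]
    convert I.smul_mem (2 * c * c) (I.sub_mem he (h _ (hG.cl u hu) e he)) using 1
    simp only [lf_inv_val, lf_val, refl_inv, e1, map_sub, map_smul, map_one, mul_sub, sub_mul, mul_one,
      one_mul, mul_smul_comm, smul_mul_assoc]
    match_scalars <;> field_simp <;> ring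
  refine (I.smul_mem_iff (mul_ne_zero (mul_ne_zero h2 hc) (mul_ne_zero h2 hc))).1 ?_
  convert k v hv _ (k u hu e he) using 1
  have n1 : σ (nn Q₁ v) * σ (nn Q₁ u) = 0 := by simp [nn, rho_r1_mul, B_comm Q₁ v u, b]
  have n2 : σ (nn Q₁ u) * σ (nn Q₁ v) = 0 := by simp [nn, rho_r1_mul, b]
  have n3 : ∀ z, σ (nn Q₁ v) * (σ (nn Q₁ u) * z) = 0 := fun z => by rw [← mul_assoc, n1, zero_mul]
  rw [← sandwich, ← sandwich]
  change _ • (σ (nn Q₁ u) * e * σ (nn Q₁ v) + σ (nn Q₁ v) * e * σ (nn Q₁ u)) = _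
  simp only [mul_add, add_mul, mul_sub, sub_mul, mul_smul_comm, smul_mul_assoc, mul_assoc, n1, n2, n3,
    mul_zero, zero_mul, smul_zero]
  module

theorem pair_move (hG : Gam Q₁ Γ c) (h : Iv Γ σ I) {u v z : U} (hv : Q₁ v ≠ 0) (b1 : B Q₁ u v = 0)
    (b2 : B Q₁ u z = 0) (b3 : B Q₁ v z = 0) {d d' : End F V} (hd : Cm σ d) (hd' : Cm σ d')
    (he : σ (r1 u (B Q₁ v)) * d + σ (r1 v (B Q₁ u)) * d' ∈ I) :
    σ (r1 u (B Q₁ z)) * d + σ (r1 z (B Q₁ u)) * d' ∈ I := by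
  refine (I.smul_mem_iff (mul_ne_zero hG.sz.h2 hv)).1 ?_
  convert h.ad hG v z he using 1
  have e1 : eN Q₁ v z * r1 u (B Q₁ v) - r1 u (B Q₁ v) * eN Q₁ v z = (2 * Q₁ v) • r1 u (B Q₁ z) := by
    ext x; simp [B_comm Q₁ v u, B_comm Q₁ z u, b1, b2, b3, B_self, smul_smul, mul_comm]
  have e2 : eN Q₁ v z * r1 v (B Q₁ u) - r1 v (B Q₁ u) * eN Q₁ v z = (2 * Q₁ v) • r1 z (B Q₁ u) := by
    ext x; simp [B_comm Q₁ z v, b1, b2, b3, B_self, smul_smul, mul_comm]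
  rw [smul_add, ← smul_mul_assoc, ← smul_mul_assoc, ← map_smul, ← map_smul, ← e1, ← e2]
  simp only [map_sub, map_mul, mul_add, add_mul, sub_mul, mul_assoc, hd _, hd' _]
  abel

namespace Tf
variable (P : Tf Q₁ ρ Γ c)
include P

theorem iv_JJ (hI : ∀ k, Iv Γ (ρ k) I) (l : T) (X : Set (End F U)) (k : T) : Iv Γ (ρ k) (JJ (ρ l) I X) :=
  P.iv (J := JJ (ρ l) I X) (fun _ h => h.1) (fun _ _ g hg h c hc => ⟨Cm.cj hg hc.1, fun x hx => by
    rw [cj_mul hg]; exact h _ (hc.2 x hx)⟩) hI k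

theorem iv_AA (hI : ∀ k, Iv Γ (ρ k) I) (l : T) (x y : End F U) (k : T) : Iv Γ (ρ k) (AA (ρ l) I x y) :=
  P.iv (J := AA (ρ l) I x y) (fun _ h => h.1) (fun _ _ g hg h c ⟨h1, d, h2, h3⟩ => ⟨Cm.cj hg h1, _, Cm.cj hg h2, by
    rw [cj_mul hg, cj_mul hg, ← add_mul, ← mul_add]; exact h _ h3⟩) hI k

theorem step {S : Finset T} {l : T} (ih : ∀ I, Inv Γ ρ S I → I ≠ ⊥ → 1 ∈ I)
    (hI : Inv Γ ρ (insert l S) I) {e : End F V} (he : e ∈ I) (hne : ¬ Cm (ρ l) e) (x : End F U) :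
    ρ l x ∈ I := by
  have hz := P.sz
  obtain ⟨u, v, hu, hv, b1, h0⟩ := exists_pair P.toGam hne
  have u0 : Q₁ u ≠ 0 := hu ▸ P.c0
  have v0 : Q₁ v ≠ 0 := hv ▸ P.c0
  have m1 := pair_mem P.toGam (hI.iv l) hu hv b1 he
  obtain ⟨d, ⟨d1, d', d2, d3⟩, d4⟩ := P.ann (P.iv_AA hI.iv l (r1 u (B Q₁ v)) (r1 v (B Q₁ u)))
    ((Submodule.ne_bot_iff _).2 ⟨_, ⟨cm_bk _ _ _, _, cm_bk _ _ _, m1⟩, h0⟩) h0
  obtain ⟨z, z0, b2, b3⟩ := hz.exists_third u0 v0 b1
  have m2 := pair_move P.toGam (hI.iv l) u0 (B_comm Q₁ u z ▸ b2) (B_comm Q₁ v z ▸ b3) b1 d2 d1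
    (add_comm (G := End F V) _ _ ▸ pair_move P.toGam (hI.iv l) v0 b1 b2 b3 d1 d2 d3)
  have c1 := (cm_bk (σ := ρ l) (B Q₁ u) v e).mul d1
  have m3 : ρ l (r1 u (B Q₁ z)) * (bk (ρ l) (B Q₁ u) v e * d) ∈ I := by
    refine (I.smul_mem_iff (mul_ne_zero hz.h2 v0)).1 ?_
    convert hI.mul _ m1 _ m2 using 1
    have k : ∀ (a b a' b' : U) (c d : End F V), Cm (ρ l) c → ρ l (r1 a (B Q₁ b)) * c * (ρ l (r1 a' (B Q₁ b')) * d) =
        B Q₁ b a' • (ρ l (r1 a (B Q₁ b')) * (c * d)) := fun a b a' b' c d hc => by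
      rw [mul_assoc, ← mul_assoc c, hc, mul_assoc, ← mul_assoc, rho_r1_mul, smul_mul_assoc]
    simp only [mul_add, add_mul, k _ _ _ _ _ _ (cm_bk _ _ _), b1, b2, b3, B_self, zero_smul, add_zero, zero_add]
  have m4 : bk (ρ l) (B Q₁ u) v e * d ∈ JJ (ρ l) I {x | ∃ a b, B Q₁ a b = 0 ∧ x = r1 a (B Q₁ b)} :=
    ⟨c1, by
      rintro _ ⟨a, b, hab, rfl⟩
      refine perp_all hz (I.comap ((LinearMap.mulRight F _) ∘ₗ (ρ l).toLinearMap)) (fun x y t ht => ?_)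
        u0 z0 b2 m3 hab
      have := (hI.iv l).ad P.toGam x y ht
      change ρ l _ * _ ∈ I
      change ρ l _ * (ρ l t * _) - ρ l t * _ * _ ∈ I at this
      rw [mul_assoc (ρ l t), c1] at this
      simpa only [map_sub, map_mul, sub_mul, mul_assoc] using this⟩
  obtain ⟨f, f1, f2⟩ := P.ann (P.iv_JJ hI.iv l _) ((Submodule.ne_bot_iff _).2 ⟨_, m4, d4⟩) d4
  have m5 : bk (ρ l) (B Q₁ u) v e * d * f ∈ JJ (ρ l) I Set.univ := ⟨c1.mul f1.1, fun x _ => by
    rw [eq_sum_r1 x, map_sum, Finset.sum_mul]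
    refine I.sum_mem fun i _ => ?_
    obtain ⟨b, hb⟩ := OO.exists_B_eq hz.n1 ((bs F U).coord i)
    obtain ⟨y, y', a1, a2, a3⟩ : ∃ y y', B Q₁ (x (bs F U i)) y = 0 ∧ B Q₁ y' b = 0 ∧ B Q₁ y y' ≠ 0 := by
      by_contra! h
      have : perp Q₁ (F ∙ b) ≤ F ∙ x (bs F U i) := fun y' hy' => by
        rw [← hz.n1.perp_perp (F ∙ _)]
        exact fun y hy => h y y' (mem_perp_span_singleton.1 hy)
          ((B_comm _ _ _).trans (mem_perp_span_singleton.1 hy'))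
      have := Submodule.finrank_mono this
      have := finrank_perp_ge (Q := Q₁) (F ∙ b)
      have := finrank_span_singleton_le (F := F) b
      have := finrank_span_singleton_le (F := F) (x (bs F U i))
      have := hz.h3
      omega
    have := hI.mul _ (m4.2 _ ⟨_, _, a1, rfl⟩) _ (f1.2 _ ⟨_, _, a2, rfl⟩)
    rwa [mul_assoc, ← mul_assoc _ (ρ l _), c1, mul_assoc, ← mul_assoc, rho_r1_mul, smul_mul_assoc,
      I.smul_mem_iff a3, hb] at this⟩
  have := ih (JJ (ρ l) I Set.univ) ⟨fun a ha b hb => ⟨ha.1.mul hb.1, fun x _ => by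
    simpa [mul_assoc] using hI.mul _ (ha.2 x trivial) _ (hb.2 1 trivial)⟩, P.iv_JJ hI.iv l _,
    fun k hk a ha => by
      by_cases e : k = l
      · exact e ▸ ha.1
      · simpa using hI.cm k (by simp [e, hk]) _ (ha.2 1 trivial)⟩ ((Submodule.ne_bot_iff _).2 ⟨_, m5, f2⟩)
  simpa using this.2 x trivial

theorem one_mem (S : Finset T) : ∀ I, Inv Γ ρ S I → I ≠ ⊥ → 1 ∈ I := by
  induction S using Finset.induction_on with
  | empty =>
    intro I hI h0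
    obtain ⟨c, hc, hc0⟩ := Submodule.exists_mem_ne_zero_of_ne_bot h0
    obtain ⟨s, rfl⟩ := P.scal c fun i => hI.cm i (by simp) c hc
    have hs : s ≠ 0 := by rintro rfl; simp at hc0
    simpa [smul_smul, hs] using I.smul_mem s⁻¹ hc
  | insert l S hl ih =>
    intro I hI h0
    by_cases h : ∀ e ∈ I, Cm (ρ l) e
    · refine ih I ⟨hI.mul, hI.iv, fun k hk => ?_⟩ h0
      by_cases hkl : k = l
      · rwa [hkl]
      · exact hI.cm k (by simp [hkl, hk])
    · push Not at h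
      obtain ⟨e, he, hne⟩ := h
      simpa using P.step ih hI he hne 1

theorem frame_mem (hm : ∀ x ∈ I, ∀ y ∈ I, x * y ∈ I) (hI : ∀ l, Iv Γ (ρ l) I) {l : T} {e : End F V}
    (he : e ∈ I) (hne : ¬ Cm (ρ l) e) (x : End F U) : ρ l x ∈ I :=
  P.step (P.one_mem Finset.univ) ⟨hm, hI, by simp⟩ he hne x

theorem comm_scal {A : Set (End F V)} (hc : ∀ x ∈ A, ∀ y ∈ A, x * y = y * x)
    (hA : ∀ l, ∀ a ∈ Γ, ∀ z ∈ A, (lf (ρ l) a : End F V) * z * ↑(lf (ρ l) a)⁻¹ ∈ A) {e : End F V}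
    (he : e ∈ A) : ∃ s : F, e = s • 1 := by
  haveI := P.nt
  refine P.scal e fun l => by_contra fun hne => ?_
  have cj : ∀ (g : (End F V)ˣ) (A : Set (End F V)), (∀ z ∈ A, ↑g⁻¹ * z * g ∈ A) →
      ∀ z ∈ A.centralizer, g * z * ↑g⁻¹ ∈ A.centralizer := fun g A h z hz y hy => by
    have := congrArg (fun w : End F V => g * w * ↑g⁻¹) (hz _ (h y hy))
    simpa [mul_assoc] using this
  have h := P.frame_mem (I := (Subalgebra.centralizer F A.centralizer).toSubmodule)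
    (fun x hx y hy => Subalgebra.mul_mem _ hx hy) (fun k a ha => cj _ _ fun z hz => by
      have := cj (lf (ρ k) a)⁻¹ A (by simpa using hA k a ha) z hz
      simpa using this) (Set.subset_centralizer_centralizer he) hne
  exact not_comm_self (ρ := ρ l) P.sz.h3 fun x y =>
    (h x _ fun z hz => h y z fun w hw => hc w hw z hz).symm

end Tf

end Cfsg.Agent.H2.TO
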