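import Cfsg.Agent.H2.TO13

set_option autoImplicit false
set_option linter.unusedSectionVars false
set_option linter.unusedSimpArgs false

/-! Orthogonal tensor frames, part 14: the unipotent radical of a singular line of a frame. -/

namespace Cfsg.Agent.H2.TO

open Module Cfsg.Agent.Orth Cfsg.Agent.H1.TW

variable {F : Type*} [Field F] [Finite F] {U : Type*} {V : Type*} [AddCommGroup U] [Module F U]
  [AddCommGroup V] [Module F V] [FiniteDimensional F U] [FiniteDimensional F V]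
  {Q₁ : QuadraticForm F U} {Q : QuadraticForm F V} {σ σ' τ : Fr F U V}
  {M : Subgroup (End F V)ˣ} {L : Submodule F V}

/-- the stabiliser of a subspace -/
def Stb (L : Submodule F V) : Subgroup (End F V)ˣ where
  carrier := {g | ∀ v ∈ L, (g : End F V) v ∈ L}
  mul_mem' ha hb v hv := ha _ (hb v hv)
  one_mem' _ hv := hv
  inv_mem' {g} hg v hv := by
    obtain ⟨x, hx, rfl⟩ := (map_eq_of_le g hg).ge hv
    simpa using hx

theorem Stb.perp {g : (End F V)ˣ} (hg : g ∈ OU Q) (h : g ∈ Stb L) : g ∈ Stb (perp Q L) :=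
  fun x hx v hv => by rw [← (OU.ad hg).symm]; exact hx _ (inv_mem h v hv)

theorem stb_cm {g : (End F V)ˣ} (h : Cm σ (g : End F V)) (u : U) : g ∈ Stb (Ln σ u) :=
  fun _ hv => h.mem_Ln hv

/-- the part of the unipotent radical inside `M` -/
def RL (Q : QuadraticForm F V) (M : Subgroup (End F V)ˣ) (L : Submodule F V) :
    Subgroup (End F V)ˣ where
  carrier := {g | g ∈ M ∧ (∀ v ∈ L, (g : End F V) v = v) ∧ ∀ x ∈ perp Q L, (g : End F V) x - x ∈ L}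
  mul_mem' {a b} ha hb := ⟨mul_mem ha.1 hb.1, fun v hv => by
    rw [Units.val_mul, End.mul_apply, hb.2.1 v hv, ha.2.1 v hv], fun x hx => by
    have := ha.2.1 _ (hb.2.2 x hx)
    rw [map_sub, sub_eq_iff_eq_add] at this
    rw [Units.val_mul, End.mul_apply, this, add_sub_assoc]
    exact add_mem (hb.2.2 x hx) (ha.2.2 x hx)⟩
  one_mem' := ⟨one_mem _, fun _ _ => rfl, fun x _ => by simp⟩
  inv_mem' {a} ha := by
    have h : ∀ v ∈ L, (↑a⁻¹ : End F V) v = v := fun v hv => by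
      conv_lhs => rw [← ha.2.1 v hv, inv_app]
    refine ⟨inv_mem ha.1, h, fun x hx => ?_⟩
    have := h _ (ha.2.2 x hx)
    rw [map_sub, inv_app] at this
    rw [← neg_sub, this]; exact neg_mem (ha.2.2 x hx)

/-- the centre of the nilradical, without the skewness condition -/
def DL (Q : QuadraticForm F V) (L : Submodule F V) : Submodule F (End F V) where
  carrier := {D | (∀ v, D v ∈ L) ∧ ∀ x ∈ perp Q L, D x = 0}
  add_mem' ha hb := ⟨fun v => add_mem (ha.1 v) (hb.1 v), fun x hx => by simp [ha.2 x hx, hb.2 x hx]⟩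
  zero_mem' := ⟨fun _ => zero_mem _, fun _ _ => rfl⟩
  smul_mem' c _ ha := ⟨fun v => L.smul_mem c (ha.1 v), fun x hx => by simp [ha.2 x hx]⟩

/-- `M` meets the centre of the radical trivially -/
def ZT (Q : QuadraticForm F V) (M : Subgroup (End F V)ˣ) (L : Submodule F V) : Prop :=
  ∀ D ∈ DL Q L, IM M (1 + D) → D = 0

section
variable {g h p : (End F V)ˣ} {D D' : End F V}

theorem RL.mono {M' : Subgroup (End F V)ˣ} (hg : g ∈ RL Q M L) (h' : g ∈ M') : g ∈ RL Q M' L :=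
  ⟨h', hg.2⟩

theorem RL.sub_K (hO : g ∈ OU Q) (hg : g ∈ RL Q M L) (v : V) : (g : End F V) v - v ∈ perp Q L :=
  fun x hx => by
    rw [map_sub, ← (OU.ad hO).symm, (inv_mem hg).2.1 x hx, sub_self]

theorem DL.mul (hL : L ≤ perp Q L) (hD : D ∈ DL Q L) (hD' : D' ∈ DL Q L) : D * D' = 0 :=
  LinearMap.ext fun v => hD.2 _ (hL (hD'.1 v))

theorem DL.mul_right (hD : D ∈ DL Q L) {z : End F V} (hz : ∀ v, z v - v ∈ perp Q L) : D * z = D :=
  LinearMap.ext fun v => by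
    have := hD.2 _ (hz v)
    rwa [map_sub, sub_eq_zero] at this

theorem DL.conj (hO : p ∈ OU Q) (hp : p ∈ Stb L) (hD : D ∈ DL Q L) : p * D * ↑p⁻¹ ∈ DL Q L :=
  ⟨fun _ => hp _ (hD.1 _), fun x hx => by
    rw [End.mul_apply, End.mul_apply, hD.2 _ (inv_mem (Stb.perp hO hp) x hx), map_zero]⟩

theorem RL.conj (hM : M ≤ OU Q) (hp : p ∈ M) (hs : p ∈ Stb L) (hg : g ∈ RL Q M L) :
    p * g * p⁻¹ ∈ RL Q M L :=
  ⟨mul_mem (mul_mem hp hg.1) (inv_mem hp), fun v hv => by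
    simp only [Units.val_mul, End.mul_apply, hg.2.1 _ (inv_mem hs v hv), app_inv], fun x hx => by
    have := hs _ (hg.2.2 _ (inv_mem (Stb.perp (hM hp) hs) x hx))
    simpa using this⟩

theorem RL.comm_eq (hg : g ∈ RL Q M L) (hh : h ∈ RL Q M L) :
    (g : End F V) * h - h * g = ((g : End F V) - 1) * (h - 1) - ((h : End F V) - 1) * (g - 1) := by
  noncomm_ring

theorem RL.comm (hM : M ≤ OU Q) (hg : g ∈ RL Q M L) (hh : h ∈ RL Q M L) :
    (g : End F V) * h - h * g ∈ DL Q L ∧ IM M (1 + ((g : End F V) * h - h * g)) := by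
  have k : ∀ {g h : (End F V)ˣ}, g ∈ RL Q M L → h ∈ RL Q M L →
      ((g : End F V) - 1) * (h - 1) ∈ DL Q L := fun hg hh =>
    ⟨fun v => hg.2.2 _ (RL.sub_K (hM hh.1) hh v), fun x hx =>
      sub_eq_zero.2 (hg.2.1 _ (hh.2.2 x hx))⟩
  have h1 : (g : End F V) * h - h * g ∈ DL Q L := by
    rw [RL.comm_eq hg hh]; exact sub_mem (k hg hh) (k hh hg)
  have h2 := inv_mem (mul_mem hh hg)
  refine ⟨h1, g * h * (h * g)⁻¹, mul_mem (mul_mem hg.1 hh.1) h2.1, ?_⟩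
  rw [← DL.mul_right h1 (RL.sub_K (hM h2.1) h2), sub_mul, ← Units.val_mul h, Units.mul_inv]
  simp

theorem ZT.comm (hM : M ≤ OU Q) (hz : ZT Q M L) (hg : g ∈ RL Q M L) (hh : h ∈ RL Q M L) :
    (g : End F V) * h = h * g :=
  sub_eq_zero.1 (hz _ (RL.comm hM hg hh).1 (RL.comm hM hg hh).2)

theorem skew_of_im (hM : M ≤ OU Q) (h0 : D * D = 0) (h : IM M (1 + D)) : Ad Q D (-D) := by
  have := (OU.ad (hM ((im_iff h0).1 h))).sub Ad.one
  simpa using this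

end

/-- commuting with the Eichler logarithms of a singular vector -/
def CA (Q₁ : QuadraticForm F U) (σ : Fr F U V) (w : U) : Subalgebra F (End F V) :=
  Subalgebra.centralizer F {x | ∃ y, B Q₁ w y = 0 ∧ x = σ (eN Q₁ w y)}

theorem mem_CA {w : U} {z : End F V} :
    z ∈ CA Q₁ σ w ↔ ∀ y, B Q₁ w y = 0 → σ (eN Q₁ w y) * z = z * σ (eN Q₁ w y) :=
  ⟨fun h y hy => h _ ⟨y, hy, rfl⟩, by rintro h _ ⟨y, hy, rfl⟩; exact h y hy⟩

theorem CA_of_cm {w : U} {z : End F V} (h : Cm σ z) : z ∈ CA Q₁ σ w :=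
  mem_CA.2 fun _ _ => (h _).symm

theorem CA.inv {w : U} {g : (End F V)ˣ} (h : (g : End F V) ∈ CA Q₁ σ w) :
    (↑g⁻¹ : End F V) ∈ CA Q₁ σ w := mem_CA.2 fun y hy => by
  rw [Units.mul_inv_eq_iff_eq_mul, mul_assoc, mem_CA.1 h y hy, Units.inv_mul_cancel_left]

theorem two_eN {w y : U} (hw : Q₁ w = 0) (hy : B Q₁ w y = 0) :
    (lf σ (eich Q₁ w y) : End F V) - ↑(lf σ (eich Q₁ w y))⁻¹ = (2 : F) • σ (eN Q₁ w y) := by
  rw [lf_inv_val, lf_val, eich_inv hw hy, ← neg_one_smul F y, eich_coe hw hy, neg_one_smul,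
    eich_coe1 hw hy, ← map_sub, ← map_smul]
  congr 1; module

theorem CA_of_eich (h2 : (2 : F) ≠ 0) {w : U} (hw : Q₁ w = 0) {z : End F V}
    (h : ∀ y, B Q₁ w y = 0 → z * lf σ (eich Q₁ w y) = lf σ (eich Q₁ w y) * z) : z ∈ CA Q₁ σ w :=
  mem_CA.2 fun y hy => smul_right_injective _ h2 (by
    have h1 : Commute z _ := h y hy
    have := (h1.sub_right h1.units_inv_right).eq
    rw [two_eN hw hy] at this
    simpa using this.symm)

/-- the regular representation of the centraliser of the Eichler group -/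
def xb (Q₁ : QuadraticForm F U) (w w' : U) : U →ₗ[F] End F U where
  toFun b := eN Q₁ w (b - B Q₁ w b • w') + B Q₁ w' (b - B Q₁ w b • w') • nn Q₁ w + B Q₁ w b • 1
  map_add' a b := by ext x; simp; module
  map_smul' c a := by ext x; simp; module

theorem xb_apply (w w' b : U) : xb Q₁ w w' b =
    eN Q₁ w (b - B Q₁ w b • w') + B Q₁ w' (b - B Q₁ w b • w') • nn Q₁ w + B Q₁ w b • 1 := rfl

structure Lc (Q₁ : QuadraticForm F U) (Q : QuadraticForm F V) (σ : Fr F U V) (w w' : U) : Prop where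
  sz : Sz Q₁
  nd : Nd Q
  ad : Adj Q₁ Q σ
  hw : Q₁ w = 0
  hw' : Q₁ w' = 0
  b : B Q₁ w w' = 1

namespace Lc
variable {w w' : U} (H : Lc Q₁ Q σ w w') {z z' : End F V}
include H

theorem b' : B Q₁ w' w = 1 := (B_comm _ _ _).trans H.b
theorem bw : B Q₁ w w = 0 := B_self_of_sing _ H.hw
theorem bw' : B Q₁ w' w' = 0 := B_self_of_sing _ H.hw'
theorem w0 : w ≠ 0 := by rintro rfl; simpa using H.b
theorem w0' : w' ≠ 0 := by rintro rfl; simpa using H.b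
theorem symm : Lc Q₁ Q σ w' w := ⟨H.sz, H.nd, H.ad, H.hw', H.hw, H.b'⟩

theorem perp_eq : perp Q (Ln σ w) = Sp σ (perp Q₁ (F ∙ w)) := by
  haveI := H.sz.nt
  rw [← Sp_span, perp_Sp H.ad H.sz.n1 H.nd]

theorem mem_K {x : V} : x ∈ perp Q (Ln σ w) ↔ σ (nn Q₁ w) x = 0 := by
  rw [H.perp_eq, ← LinearMap.mem_ker, Sp_ker]
  congr! 2
  ext y
  simp [mem_perp_span_singleton, H.w0]

theorem LK : Ln σ w ≤ perp Q (Ln σ w) := fun _ hv => H.mem_K.2 (hv _ (by simp [H.bw]))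

theorem nC_mem {C : End F V} (hC : Cm σ C) : σ (nn Q₁ w) * C ∈ DL Q (Ln σ w) :=
  ⟨fun _ => r1_mem_Ln _ _ _, fun x hx => by rw [← hC, End.mul_apply, H.mem_K.1 hx, map_zero]⟩

theorem DL_eq {D : End F V} (hD : D ∈ DL Q (Ln σ w)) : D = σ (nn Q₁ w) * bk σ (B Q₁ w') w' D := by
  have e1 : D = σ (r1 w (B Q₁ w')) * D := LinearMap.ext fun v => (r1_Ln_one (hD.1 v) H.b').symm
  have e2 := (DL.mul_right hD (z := σ (r1 w' (B Q₁ w))) fun v => H.mem_K.2 (by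
    rw [map_sub, nn, rho_r1_apply, H.b, one_smul, sub_self])).symm
  rw [nn, ← sandwich, ← e1, ← e2]

theorem bk_nC {C : End F V} (hC : Cm σ C) : bk σ (B Q₁ w') w' (σ (nn Q₁ w) * C) = C := by
  simp [bk_mul hC, H.b, H.b']

theorem nC_inj {C : End F V} (hC : Cm σ C) (h : σ (nn Q₁ w) * C = 0) : C = 0 := by
  rw [← H.bk_nC hC, h, map_zero]

theorem eich_RL {y : U} (hy : B Q₁ w y = 0) (h : lf σ (eich Q₁ w y) ∈ M) :
    lf σ (eich Q₁ w y) ∈ RL Q M (Ln σ w) :=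
  ⟨h, fun v hv => by
    rw [lf_val, Ln_congr hv (y := 1) (eich_apply_self H.hw hy)]; simp, fun x hx => by
    rw [H.perp_eq] at hx
    have := Sp_map (R' := F ∙ w) hx (x := (eich Q₁ w y : U →ₗ[F] U) - (1 : End F U)) fun r hr => by
      simp [eich_apply_of_perp_left H.hw hy (mem_perp_span_singleton.1 hr), Submodule.smul_mem]
    rw [Sp_span] at this
    simpa [lf_val] using this⟩

theorem xb_w' (b : U) : xb Q₁ w w' b w' = b := by
  simp [xb_apply, H.b, H.bw', B_comm Q₁ b w']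

theorem xb_w (b : U) : xb Q₁ w w' b w = B Q₁ w b • w := by
  simp [xb_apply, H.b', H.bw, B_comm Q₁ b w]

theorem comm_n (hz : z ∈ CA Q₁ σ w) : σ (nn Q₁ w) * z = z * σ (nn Q₁ w) := by
  obtain ⟨y, h1, h2⟩ := H.sz.exists_y H.w0
  have h : Commute _ z := mem_CA.1 hz y h1
  have := (h.mul_left h).eq
  rw [← map_mul, eN_sq H.hw h1, map_smul, smul_mul_assoc, mul_smul_comm] at this
  exact smul_right_injective _ (neg_ne_zero.2 (mul_ne_zero H.sz.h2 h2)) this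

theorem comm_xb (hz : z ∈ CA Q₁ σ w) (b : U) : σ (xb Q₁ w w' b) * z = z * σ (xb Q₁ w w' b) := by
  simp only [xb_apply, map_add, map_smul σ, add_mul, mul_add, smul_mul_assoc, mul_smul_comm, map_one,
    H.comm_n hz, mem_CA.1 hz (b - B Q₁ w b • w') (by simp [H.b]), one_mul, mul_one]

theorem bk_col (hz : z ∈ CA Q₁ σ w) (ψ : Dual F U) (b : U) :
    bk σ ψ b z = bk σ (ψ ∘ₗ xb Q₁ w w' b) w' z := by
  rw [← bk_left, H.comm_xb hz, bk_right, H.xb_w']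

theorem cent (hz : z ∈ CA Q₁ σ w) (h : ∀ y, B Q₁ w y = 0 → bk σ (B Q₁ y) w' z = 0) :
    z ∈ DL Q (Ln σ w) := by
  have : z = σ (nn Q₁ w) * bk σ (B Q₁ w') w' z := ext_bk (σ := σ) fun ψ b => by
    obtain ⟨y, hy⟩ := OO.exists_B_eq H.sz.n1 (ψ ∘ₗ xb Q₁ w w' b - (B Q₁ w b * ψ w) • B Q₁ w')
    have h1 := h y (by rw [B_comm, hy]; simp [H.xb_w, H.b'])
    rw [hy, ← bl_apply, map_sub, map_smul, LinearMap.sub_apply, sub_eq_zero] at h1
    rw [bk_mul (cm_bk _ _ _), H.bk_col hz, ← bl_apply, h1]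
    simp [bl_apply]
  rw [this]; exact H.nC_mem (cm_bk _ _ _)

theorem mul_r1w (hz : z ∈ CA Q₁ σ w) (φ : Dual F U) :
    z * σ (r1 w φ) = σ (r1 w φ) * bk σ (B Q₁ w) w' z := by
  rw [← sandwich, ← nn, H.comm_n hz, mul_assoc, nn, rho_r1_mul, H.b, one_smul]

theorem c0_mul (hz : z ∈ CA Q₁ σ w) (hz' : z' ∈ CA Q₁ σ w) :
    bk σ (B Q₁ w) w' (z * z') = bk σ (B Q₁ w) w' z * bk σ (B Q₁ w) w' z' := by
  refine sub_eq_zero.1 (H.nC_inj ((cm_bk _ _ _).sub ((cm_bk _ _ _).mul (cm_bk _ _ _))) ?_)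
  rw [mul_sub, ← mul_assoc, nn, ← H.mul_r1w (mul_mem hz hz'), ← H.mul_r1w hz, mul_assoc, mul_assoc,
    ← H.mul_r1w hz', sub_self]

theorem c0_cm {c : End F V} (hc : Cm σ c) : bk σ (B Q₁ w) w' c = c := by
  rw [bk_cm hc, H.b, one_smul]

theorem c0_fix (hz : z ∈ CA Q₁ σ w) (h : ∀ v ∈ Ln σ w, z v = v) : bk σ (B Q₁ w) w' z = 1 := by
  refine sub_eq_zero.1 (H.nC_inj ((cm_bk _ _ _).sub Cm.one) ?_)
  rw [mul_sub, nn, ← H.mul_r1w hz, mul_one, sub_eq_zero]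
  exact LinearMap.ext fun v => h _ (r1_mem_Ln _ _ _)

theorem split {g : (End F V)ˣ} (hg : (g : End F V) ∈ CA Q₁ σ w) : ∃ c : (End F V)ˣ,
    (c : End F V) = bk σ (B Q₁ w) w' g ∧ bk σ (B Q₁ w) w' (g * c⁻¹ : (End F V)ˣ) = 1 ∧
      ((g * c⁻¹ : (End F V)ˣ) : End F V) ∈ CA Q₁ σ w := by
  let c : (End F V)ˣ := ⟨bk σ (B Q₁ w) w' g, bk σ (B Q₁ w) w' ↑g⁻¹,
    by rw [← H.c0_mul hg (CA.inv hg), Units.mul_inv, H.c0_cm Cm.one],
    by rw [← H.c0_mul (CA.inv hg) hg, Units.inv_mul, H.c0_cm Cm.one]⟩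
  have hc : Cm σ (↑c⁻¹ : End F V) := cm_bk _ _ _
  exact ⟨c, rfl, by rw [Units.val_mul, bk_mul_cm hc]; exact c.mul_inv, mul_mem hg (CA_of_cm hc)⟩

theorem low {g : (End F V)ˣ} (hg : (g : End F V) ∈ CA Q₁ σ w) (h : bk σ (B Q₁ w) w' g = 1) :
    g ∈ RL Q ⊤ (Ln σ w) := by
  refine ⟨trivial, fun v hv => ?_, fun x hx => ?_⟩
  · rw [← r1_Ln_one hv H.b', ← End.mul_apply, H.mul_r1w hg, h, mul_one]
  rw [H.perp_eq] at hx
  refine Sp_ind (Z := (Ln σ w).comap ((g : End F V) - 1)) (fun y hy hy0 v hv => ?_) hx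
  obtain ⟨φ, hφ⟩ := H6.exists_dual_one' (F := F) hy0
  have e : v = σ (xb Q₁ w w' y) (σ (r1 w' φ) v) := by
    rw [← End.mul_apply, ← map_mul, mul_r1, H.xb_w', r1_Ln_one hv hφ]
  have h1 := sub_mem hg (one_mem _)
  have h2 : ((g : End F V) - 1) (σ (r1 w' φ) v) ∈ Sp σ (perp Q₁ (F ∙ w)) := by
    rw [← H.perp_eq, H.mem_K, ← End.mul_apply, ← End.mul_apply, nn, sandwich, map_sub, h,
      H.c0_cm Cm.one]; simp
  rw [Submodule.mem_comap, e, ← End.mul_apply, ← H.comm_xb h1, End.mul_apply, ← Sp_span]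
  refine Sp_map h2 fun r hr => ?_
  simp only [xb_apply, mem_perp_span_singleton.1 hy, mem_perp_span_singleton.1 hr, LinearMap.add_apply,
    eN_apply, LinearMap.smul_apply, nn_apply, zero_smul, smul_zero, add_zero, zero_sub]
  exact neg_mem (Submodule.smul_mem _ _ (Submodule.mem_span_singleton_self w))

theorem eN_CA {y : U} (hy : B Q₁ w y = 0) : σ (eN Q₁ w y) ∈ CA Q₁ σ w := mem_CA.2 fun x hx => by
  rw [← map_mul, ← map_mul]
  congr 1; ext v; simp [hx, hy, H.bw, B_comm Q₁ x w, B_comm Q₁ y w, B_comm Q₁ x y]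

theorem n_CA : σ (nn Q₁ w) ∈ CA Q₁ σ w := mem_CA.2 fun x hx => H.comm_n (H.eN_CA hx) ▸ rfl

theorem DL_CA {D : End F V} (hD : D ∈ DL Q (Ln σ w)) : D ∈ CA Q₁ σ w := by
  rw [H.DL_eq hD]; exact mul_mem H.n_CA (CA_of_cm (cm_bk _ _ _))

theorem eich_CA {y : U} (hy : B Q₁ w y = 0) : (lf σ (eich Q₁ w y) : End F V) ∈ CA Q₁ σ w := by
  rw [lf_val, eich_coe1 H.hw hy, map_sub, map_add, map_one, map_smul]
  exact sub_mem (add_mem (one_mem _) (H.eN_CA hy)) (Subalgebra.smul_mem _ H.n_CA _)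

theorem nf [Nontrivial V] (hz : z ∈ CA Q₁ σ w) (h0 : bk σ (B Q₁ w) w' z = 1)
    (h : ∀ y, B Q₁ w y = 0 → ∃ s : F, bk σ (B Q₁ y) w' z = s • 1) :
    ∃ y, B Q₁ w y = 0 ∧ z - lf σ (eich Q₁ w y) ∈ DL Q (Ln σ w) := by
  obtain ⟨l, hl⟩ := H6.exists_dual_one' (F := F) (one_ne_zero : (1 : End F V) ≠ 0)
  obtain ⟨b, hb⟩ := OO.exists_B_eq H.sz.n1 (l ∘ₗ (bl σ z).flip w' ∘ₗ B Q₁)
  have e : ∀ y, B Q₁ y b = l (bk σ (B Q₁ y) w' z) := fun y => by rw [B_comm, hb]; rfl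
  have h1 : B Q₁ w (b - w') = 0 := by rw [map_sub, e, h0, hl, H.b, sub_self]
  refine ⟨_, h1, H.cent (sub_mem hz (H.eich_CA h1)) fun y hy => ?_⟩
  obtain ⟨s, hs⟩ := h y hy
  rw [map_sub, lf_val, bk_rho, LinearEquiv.coe_coe, eich_apply H.hw h1]
  simp [H.b, B_comm Q₁ y w, hy, e, hs, hl]

end Lc

end Cfsg.Agent.H2.TO
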