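import Cfsg.Agent.H2.TO14

set_option autoImplicit false
set_option linter.unusedSectionVars false
set_option linter.unusedSimpArgs false

/-! Orthogonal tensor frames, part 15: geometry of the factor, fixed points, self-adjointness. -/

namespace Cfsg.Agent.H2.TO

open Module Cfsg.Agent.Orth Cfsg.Agent.H1.TW

theorem fix_count {R : Type*} [Monoid R] [Finite R] {p : ℕ} [Fact p.Prime] (S : Set Rˣ)
    (hc : ∀ x ∈ S, ∀ y ∈ S, x * y = y * x) (hp : ∀ x ∈ S, x ^ p = 1) (A : Set R)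
    (hA : ∀ x ∈ S, ∀ z ∈ A, (x : R) * z * ↑x⁻¹ ∈ A) :
    Nat.card A ≡ Nat.card {z : R // z ∈ A ∧ ∀ x ∈ S, (x : R) * z = z * x} [MOD p] := by
  let X : Subgroup Rˣ :=
    { carrier := {x | (∀ z : R, (∀ y ∈ S, (y : R) * z = z * y) → (x : R) * z = z * x) ∧ x ^ p = 1 ∧
        ∀ z ∈ A, (x : R) * z * ↑x⁻¹ ∈ A}
      mul_mem' := fun {a b} ha hb => ⟨fun z hz => by
        rw [Units.val_mul, mul_assoc, hb.1 z hz, ← mul_assoc, ha.1 z hz, mul_assoc], by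
        have : Commute a b := Units.ext (ha.1 _ fun y hy => (hb.1 _ fun w hw =>
          congrArg Units.val (hc w hw y hy)).symm)
        rw [this.mul_pow, ha.2.1, hb.2.1, one_mul], fun z hz => by
        simpa [mul_assoc] using ha.2.2 _ (hb.2.2 z hz)⟩
      one_mem' := ⟨by simp, one_pow _, fun z hz => by simpa using hz⟩
      inv_mem' := fun {a} ha => ⟨fun z hz => (Commute.units_inv_left (ha.1 z hz)).eq,
        by rw [inv_pow, ha.2.1, inv_one], by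
        have k : ∀ n : ℕ, ∀ z ∈ A, ((a ^ n : Rˣ) : R) * z * ↑(a ^ n)⁻¹ ∈ A := fun n => by
          induction n with
          | zero => simp
          | succ n ih => exact fun z hz => by simpa [pow_succ, mul_assoc] using ih _ (ha.2.2 z hz)
        have e : a⁻¹ = a ^ (p - 1) := by
          rw [inv_eq_iff_mul_eq_one, ← pow_succ', Nat.sub_add_cancel (Fact.out : p.Prime).pos, ha.2.1]
        rw [e]; exact k _⟩ }
  letI : MulAction X A :=
    { smul := fun x z => ⟨_, x.2.2.2 z.1 z.2⟩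
      one_smul := fun z => Subtype.ext (by change ((1 : Rˣ) : R) * _ * ↑(1 : Rˣ)⁻¹ = _; simp)
      mul_smul := fun x y z => Subtype.ext (by
        change ((x.1 * y.1 : Rˣ) : R) * z.1 * ↑(x.1 * y.1)⁻¹ = x.1 * (y.1 * z.1 * ↑y.1⁻¹) * ↑x.1⁻¹
        simp [mul_assoc]) }
  have hX : IsPGroup p X := fun x => ⟨1, Subtype.ext (by simpa using x.2.2.1)⟩
  convert hX.card_modEq_card_fixedPoints A using 1
  have sm : ∀ (x : X) (z : A), x • z = z ↔ (x.1 : R) * z = z * x.1 := fun x z => by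
    rw [Subtype.ext_iff, ← Units.mul_inv_eq_iff_eq_mul]; rfl
  exact Nat.card_congr ⟨fun z => ⟨⟨z.1, z.2.1⟩, fun x => (sm _ _).2 (x.2.1 _ z.2.2)⟩, fun z =>
    ⟨z.1.1, z.1.2, fun x hx => (sm ⟨x, fun _ h => h x hx, hp x hx, hA x hx⟩ _).1 (z.2 _)⟩,
    fun _ => rfl, fun _ => rfl⟩

variable {F : Type*} [Field F] [Finite F] {U : Type*} {V : Type*} [AddCommGroup U] [Module F U]
  [AddCommGroup V] [Module F V] [FiniteDimensional F U] [FiniteDimensional F V]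
  {Q₁ : QuadraticForm F U} {Q : QuadraticForm F V} {σ σ' τ : Fr F U V}
  {M : Subgroup (End F V)ˣ} {L : Submodule F V} {Γ : Subgroup (U ≃ₗ[F] U)} {c : F}

theorem Sz.trans (hz : Sz Q₁) {w w₂ : U} (hw : Q₁ w = 0) (h0 : w ≠ 0) (hw₂ : Q₁ w₂ = 0) (h2 : w₂ ≠ 0) :
    ∃ a ∈ Gm Q₁, ∃ s : F, s ≠ 0 ∧ a w = s • w₂ := by
  obtain ⟨e, he, b1, b2⟩ : ∃ e, Q₁ e = 0 ∧ B Q₁ e w ≠ 0 ∧ B Q₁ e w₂ ≠ 0 := by
    obtain ⟨f, f1, f2⟩ := hz.partner hw h0
    obtain ⟨g, g1, g2⟩ := hz.partner hw₂ h2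
    by_cases c1 : B Q₁ f w₂ = 0
    swap
    · exact ⟨f, f1, by simp [B_comm Q₁ f w, f2], c1⟩
    by_cases c2 : B Q₁ g w = 0
    swap
    · exact ⟨g, g1, c2, by simp [B_comm Q₁ g w₂, g2]⟩
    by_cases c3 : B Q₁ w w₂ = 0
    · exact ⟨f + g - B Q₁ f g • w, by
        simp [Q_sub, Q_add, Q_smul, f1, g1, hw, B_comm Q₁ f w, f2, c2], by
        simp [B_comm Q₁ f w, f2, c2, B_self, hw], by simp [c1, B_comm Q₁ g w₂, g2, c3]⟩
    have := finrank_perp_ge (Q := Q₁) (Submodule.span F {w, w₂})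
    have := Orth.finrank_span_pair_le (F := F) w w₂
    have := hz.h3
    obtain ⟨y, hy, q⟩ := ((OO.ndOn_hyp hw hw₂ c3).perp hz.n1).exists_nonsing le_rfl (by omega)
    have d1 : B Q₁ y w = 0 := (B_comm _ _ _).trans (mem_perp_span.1 hy w (by simp))
    have d2 : B Q₁ y w₂ = 0 := (B_comm _ _ _).trans (mem_perp_span.1 hy w₂ (by simp))
    exact ⟨w₂ + B Q₁ w w₂ • y - (B Q₁ w w₂ * Q₁ y) • w, by
      simp [Q_sub, Q_add, Q_smul, hw, hw₂, B_comm Q₁ w₂ w, B_comm Q₁ w₂ y, d1, d2]; ring, by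
      simp [B_comm Q₁ w₂ w, d1, B_self, hw, c3], by simp [d2, B_self, hw₂, c3, q]⟩
  exact ⟨_, hz.eich_mem _ _, B Q₁ e w / B Q₁ e w₂, div_ne_zero b1 b2,
    (eich_trans he (by rw [Q_smul, hw, hw₂, mul_zero]) (by simp [b2]) b1).2⟩

/-- purifying elements -/
structure Pu (Q₁ : QuadraticForm F U) (w w' : U) (a : U ≃ₗ[F] U) (α κ : F) (y : U) : Prop where
  o : a ∈ O Q₁
  a0 : α ≠ 0
  k0 : κ ≠ 0
  aw : a w = α • w
  aw' : a w' = α⁻¹ • w'
  b : B Q₁ w y = 0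
  b' : B Q₁ w' y = 0
  q : Q₁ y ≠ 0

namespace Lc
variable {w w' : U} (H : Lc Q₁ Q σ w w')
include H

theorem torus {β : F} (hβ : β ≠ 0) : ∃ a ∈ Gm Q₁, a w = (β * β) • w ∧ a w' = (β * β)⁻¹ • w' ∧
    ∀ y, B Q₁ w y = 0 → B Q₁ w' y = 0 → a y = y := by
  have q1 : Q₁ (w + w') = 1 := by simp [Q_add, H.hw, H.hw', H.b]
  have q2 : Q₁ (β⁻¹ • w + β • w') = 1 := by simp [Q_add, Q_smul, H.hw, H.hw', H.b, hβ]
  refine ⟨_, rr_mem (x := w + w') (y := β⁻¹ • w + β • w') (by simp [q1]) (by rw [q1, q2]), ?_, ?_,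
    fun y h1 h2 => rr_fix (by simp [h1, h2]) (by simp [h1, h2])⟩ <;>
  simp [mul_app, refl_apply, q1, q2, H.b, H.b', H.bw, H.bw'] <;> match_scalars <;> field_simp <;> ring

theorem W0_nd : NdOn Q₁ (perp Q₁ (Submodule.span F {w, w'})) :=
  (OO.ndOn_hyp H.hw H.hw' (by simp [H.b])).perp H.sz.n1

omit H in
theorem mem_W0 {y : U} : y ∈ perp Q₁ (Submodule.span F {w, w'}) ↔ B Q₁ w y = 0 ∧ B Q₁ w' y = 0 := by
  simp [mem_perp_span]

theorem W0_rk : finrank F (perp Q₁ (Submodule.span F {w, w'})) + 2 = finrank F U := by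
  rw [← H.sz.n1.finrank_perp (Submodule.span F {w, w'}), OO.finrank_pair H.w0]
  rintro c rfl
  simpa [H.bw] using H.b

theorem of_W0 {Z : Submodule F U} (hw : w ∈ Z) (h : ∀ y, B Q₁ w y = 0 → B Q₁ w' y = 0 → y ∈ Z) (y : U)
    (hy : B Q₁ w y = 0) : y ∈ Z := by
  simpa using add_mem (h (y - B Q₁ w' y • w) (by simp [hy, H.bw]) (by simp [H.b']))
    (Z.smul_mem (B Q₁ w' y) hw)

theorem span_cls (h4 : 4 ≤ finrank F U) (hc : c ≠ 0) {Z : Submodule F U}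
    (h : ∀ y, B Q₁ w y = 0 → B Q₁ w' y = 0 → Q₁ y = c → y ∈ Z) (y : U) (b : B Q₁ w y = 0)
    (b' : B Q₁ w' y = 0) : y ∈ Z := by
  have h2 := H.sz.h2
  have r := H.W0_rk
  obtain ⟨y₀, h0, q0⟩ := H.W0_nd.exists_Q_eq le_rfl (by omega) c
  obtain ⟨a1, a2⟩ := mem_W0.1 h0
  have k : ∀ v, B Q₁ w v = 0 → B Q₁ w' v = 0 → B Q₁ y₀ v = 0 → c + Q₁ v ≠ 0 → v ∈ Z :=
    fun v c1 c2 c3 c4 => by
      have q : Q₁ (y₀ + v) = c + Q₁ v := by rw [Q_add, q0, c3, add_zero]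
      have := sub_mem (h _ a1 a2 q0) (h (refl Q₁ (y₀ + v) y₀) (by simp [refl_apply, a1, c1])
        (by simp [refl_apply, a2, c2]) ((refl_mem_O _ _ _).trans q0))
      rw [refl_apply, sub_sub_cancel, Z.smul_mem_iff (by simp [q, c4, B_self, q0, B_comm Q₁ v, c3, h2, hc])]
        at this
      simpa using sub_mem this (h _ a1 a2 q0)
  have k2 : ∀ v, B Q₁ w v = 0 → B Q₁ w' v = 0 → B Q₁ y₀ v = 0 → v ∈ Z := fun v c1 c2 c3 => by
    by_contra hv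
    have c4 : c + Q₁ v = 0 := by_contra fun c4 => hv (k v c1 c2 c3 c4)
    have v0 : Q₁ v ≠ 0 := fun e => hc (by simpa [e] using c4)
    by_cases h5 : finrank F U < 5
    · obtain ⟨s, hs⟩ := H.sz.par h5 H.hw H.w0 (y := y₀ + v) (by simp [a1, c1])
        (by rw [Q_add, q0, c3, c4, add_zero])
      have := congrArg (B Q₁ y₀) hs
      simp [B_comm Q₁ y₀ w, a1, c3, B_self, q0, h2, hc] at this
    have l : Submodule.span F {y₀, v} ≤ perp Q₁ (Submodule.span F {w, w'}) :=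
      Submodule.span_le.2 (by rintro _ (rfl | rfl); exacts [h0, mem_W0.2 ⟨c1, c2⟩])
    have := H.W0_nd.finrank_inf_perp l
    have := Orth.finrank_span_pair_le (F := F) y₀ v
    obtain ⟨u, ⟨u1, u2⟩, u3⟩ := (H.W0_nd.inf_perp (OO.ndOn_two h2 (q0 ▸ hc) v0 c3) l).exists_nonsing
      le_rfl (by omega)
    obtain ⟨d1, d2⟩ := mem_W0.1 u1
    obtain ⟨d3, d4⟩ := mem_W0.1 u2
    have := add_mem (k (v + u) (by simp [c1, d1]) (by simp [c2, d2]) (by simp [c3, d3])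
      (by rwa [Q_add, d4, add_zero, ← add_assoc, c4, zero_add])) (k (v - u) (by simp [c1, d1])
      (by simp [c2, d2]) (by simp [c3, d3]) (by rwa [Q_sub, d4, sub_zero, ← add_assoc, c4, zero_add]))
    rw [add_add_sub_cancel, ← two_smul F, Z.smul_mem_iff h2] at this
    exact hv this
  simpa using add_mem (k2 (y - (B Q₁ y₀ y / (2 * c)) • y₀) (by simp [b, a1]) (by simp [b', a2])
    (by simp [B_self, q0]; field_simp; ring)) (Z.smul_mem (B Q₁ y₀ y / (2 * c)) (h _ a1 a2 q0))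

theorem exists_y3 (h3 : finrank F U = 3) : ∃ y, B Q₁ w y = 0 ∧ B Q₁ w' y = 0 ∧ Q₁ y ≠ 0 ∧
    ∀ x, B Q₁ w x = 0 → B Q₁ w' x = 0 → ∃ s : F, x = s • y := by
  have r := H.W0_rk
  obtain ⟨y, h0, q⟩ := H.W0_nd.exists_nonsing le_rfl (by omega)
  have : (F ∙ y) = perp Q₁ (Submodule.span F {w, w'}) := Submodule.eq_of_le_of_finrank_le
    ((Submodule.span_singleton_le_iff_mem _ _).2 h0) (by
      rw [finrank_span_singleton (ne_zero_of_Q q)]; omega)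
  refine ⟨y, (mem_W0.1 h0).1, (mem_W0.1 h0).2, q, fun x h1 h2 => ?_⟩
  obtain ⟨s, hs⟩ := Submodule.mem_span_singleton.1 (this.ge (mem_W0.2 ⟨h1, h2⟩))
  exact ⟨s, hs.symm⟩

theorem span_pu (hG : Gam Q₁ Γ c) {Z : Submodule F U} (hw : w ∈ Z)
    (h : ∀ a ∈ Γ, ∀ α κ y, Pu Q₁ w w' a α κ y →
      (∀ x, B Q₁ w x = 0 → x - α • a⁻¹ x = (κ * B Q₁ y x) • y) → y ∈ Z) :
    ∀ y, B Q₁ w y = 0 → y ∈ Z := by
  refine H.of_W0 hw ?_
  by_cases h4 : 4 ≤ finrank F U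
  · refine H.span_cls h4 hG.c0 fun y b b' q => h _ (hG.cl y q) 1 c⁻¹ y ⟨refl_mem_O _ _, one_ne_zero,
      inv_ne_zero hG.c0, ?_, ?_, b, b', q ▸ hG.c0⟩ fun x _ => by simp [refl_inv, refl_apply, q]
    · rw [one_smul, refl_of_perp (B_comm Q₁ w y ▸ b)]
    · rw [inv_one, one_smul, refl_of_perp (B_comm Q₁ w' y ▸ b')]
  have h3 : finrank F U = 3 := by have := H.sz.h3; omega
  obtain ⟨t, t1, t2⟩ := H.sz.hq h3
  obtain ⟨y, b, b', q, hy⟩ := H.exists_y3 h3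
  obtain ⟨a, ha, a1, a2, a3⟩ := H.torus t1
  have h2 := H.sz.h2
  have := h a (hG.gm ha) (t * t) ((1 - t * t) / (2 * Q₁ y)) y ⟨Gm_le_O ha, mul_ne_zero t1 t1,
    div_ne_zero (sub_ne_zero.2 t2.symm) (mul_ne_zero h2 q), a1, a2, b, b', q⟩ fun x hx => by
      obtain ⟨s, hs⟩ := hy (x - B Q₁ w' x • w) (by simp [hx, H.bw]) (by simp [H.b'])
      obtain ⟨r, rfl⟩ : ∃ r : F, x = s • y + r • w := ⟨_, by rw [← hs, sub_add_cancel]⟩
      have e1 : a⁻¹ y = y := by conv_lhs => rw [← a3 y b b', inv_apply_apply]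
      have e2 : a⁻¹ w = (t * t)⁻¹ • w := a.injective (by
        rw [apply_inv_apply, map_smul, a1, inv_smul_smul₀ (mul_ne_zero t1 t1)])
      simp only [map_add, map_smul, e1, e2, B_self, B_comm Q₁ y w, b, smul_eq_mul]
      match_scalars <;> field_simp <;> ring
  intro x b1 b2
  obtain ⟨s, rfl⟩ := hy x b1 b2
  exact Z.smul_mem s this

theorem span_ei (hq : 5 ≤ finrank F U ∨ ∃ t : F, t ≠ 0 ∧ t * t ≠ 1) {Z : Submodule F U} (hw : w ∈ Z)
    (h : ∀ a ∈ Gm Q₁, ∀ (α κ : F) y, α ≠ 0 → κ ≠ 0 → a w = α • w → a w' = α⁻¹ • w' → B Q₁ w y = 0 →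
      y - α • a⁻¹ y = κ • y → y ∈ Z) : ∀ y, B Q₁ w y = 0 → y ∈ Z := by
  refine H.of_W0 hw ?_
  rcases hq with h5 | ⟨t, t1, t2⟩
  · refine H.span_cls (by omega) one_ne_zero fun y b b' q => ?_
    have r := H.W0_rk
    have := finrank_inf_perp_ge (Q := Q₁) (perp Q₁ (Submodule.span F {w, w'})) (F ∙ y)
    have := finrank_span_singleton_le (F := F) y
    obtain ⟨u, ⟨u1, u2⟩, u3⟩ := (H.W0_nd.inf_perp (OO.ndOn_one H.sz.h2 (by simp [q]))
      ((Submodule.span_singleton_le_iff_mem _ _).2 (mem_W0.2 ⟨b, b'⟩))).exists_Q_eq le_rfl (by omega) 1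
    obtain ⟨d1, d2⟩ := mem_W0.1 u1
    have d3 : B Q₁ u y = 0 := B_comm Q₁ y u ▸ mem_perp_span_singleton.1 u2
    refine h _ (rr_mem (x := y) (y := u) (by simp [q]) (by rw [q, u3])) 1 2 y one_ne_zero H.sz.h2
      (by rw [one_smul, rr_fix (B_comm Q₁ w y ▸ b) (B_comm Q₁ w u ▸ d1)])
      (by rw [inv_one, one_smul, rr_fix (B_comm Q₁ w' y ▸ b') (B_comm Q₁ w' u ▸ d2)]) b ?_
    rw [mul_inv_rev, refl_inv, refl_inv, mul_app, refl_self (by simp [q]), map_neg, refl_of_perp d3]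
    module
  · intro y b b'
    obtain ⟨a, ha, a1, a2, a3⟩ := H.torus t1
    have e1 : a⁻¹ y = y := by conv_lhs => rw [← a3 y b b', inv_apply_apply]
    exact h a ha (t * t) (1 - t * t) y (mul_ne_zero t1 t1) (sub_ne_zero.2 t2.symm) a1 a2 b
      (by rw [e1]; module)

end Lc

theorem bk_bk (h : Comm σ τ) (ψ χ : Dual F U) (b c : U) (z : End F V) :
    bk σ ψ b (bk τ χ c z) = bk τ χ c (bk σ ψ b z) := by
  rw [bk_apply ψ b z, blk, map_sum, bk_apply, blk]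
  exact Finset.sum_congr rfl fun i _ => by rw [bk_mul_cm (h.symm _), bk_cm_mul (h.symm _)]

theorem Cm.bk (h : Comm σ τ) {z : End F V} (hz : Cm τ z) (ψ : Dual F U) (b : U) : Cm τ (bk σ ψ b z) :=
  fun x => bk_comm (h x) (hz x) ψ b

variable {T : Type*} [Fintype T] [DecidableEq T] {ρ : T → Fr F U V}

namespace Tf
variable (P : Tf Q₁ ρ Γ c)
include P

theorem self_ad (ad : ∀ l, Adj Q₁ Q (ρ l)) {w w' : U} (hw : Q₁ w = 0) (hw' : Q₁ w' = 0)
    (b : B Q₁ w w' = 1) (S : Finset T) : ∀ C, (∀ l, l ∉ S → Cm (ρ l) C) →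
    (∀ l ∈ S, ∃ x y, Cm (ρ l) x ∧ Cm (ρ l) y ∧ C = x + ρ l (nn Q₁ w) * y) → Ad Q C C := by
  induction S using Finset.induction_on with
  | empty =>
    intro C h _
    obtain ⟨s, rfl⟩ := P.scal C fun l => h l (by simp)
    exact Ad.one.smul s
  | insert l S hl ih =>
    intro C h1 h2
    have k : ∀ ψ b, Ad Q (bk (ρ l) ψ b C) (bk (ρ l) ψ b C) := fun ψ b => ih _ (fun m hm => by
      by_cases e : m = l
      · rw [e]; exact cm_bk _ _ _
      · exact Cm.bk (P.comm l m (Ne.symm e)) (h1 m (by simp [e, hm])) _ _) fun m hm => by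
      have e : l ≠ m := by rintro rfl; exact hl hm
      obtain ⟨x, y, hx, hy, rfl⟩ := h2 m (by simp [hm])
      exact ⟨_, _, Cm.bk (P.comm l m e) hx ψ b, Cm.bk (P.comm l m e) hy ψ b, by
        rw [map_add, bk_cm_mul (P.comm l m e _)]⟩
    obtain ⟨x, y, hx, hy, rfl⟩ := h2 l (by simp)
    have k1 := k (B Q₁ w) w'
    have k2 := k (B Q₁ w') w'
    simp only [map_add, bk_cm hx, bk_mul hy, nn_apply, b, B_comm Q₁ w' w, map_smul, B_self, hw, hw',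
      mul_zero, one_smul, zero_smul, add_zero, zero_add, smul_zero, smul_eq_mul, mul_one] at k1 k2
    have := ((ad l).r1 w w).mul k2
    rw [hy] at this
    exact k1.add this

theorem ann' {A : Set (End F V)}
    (hA : ∀ l, ∀ a ∈ Γ, ∀ z ∈ A, (lf (ρ l) a : End F V) * z * ↑(lf (ρ l) a)⁻¹ ∈ A) {d : End F V}
    (hd : d ∈ A) (h0 : d ≠ 0) {e : End F V} (he : e ≠ 0) : ∃ d ∈ A, e * d ≠ 0 := by
  by_contra! h
  obtain ⟨x, hx, h1⟩ := P.ann (A := Submodule.span F A) (fun l a ha z hz => (Submodule.span_le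
    (p := (Submodule.span F A).comap ((LinearMap.mulRight F _) ∘ₗ (LinearMap.mulLeft F _)))).2
      (fun z hz => Submodule.subset_span (hA l a ha z hz)) hz)
    ((Submodule.ne_bot_iff _).2 ⟨d, Submodule.subset_span hd, h0⟩) he
  exact h1 ((Submodule.span_le (p := LinearMap.ker (LinearMap.mulLeft F e))).2 h hx)

end Tf

end Cfsg.Agent.H2.TO
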