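import Cfsg.Agent.H2.TO15

set_option autoImplicit false
set_option linter.unusedSectionVars false
set_option linter.unusedSimpArgs false

/-! Orthogonal tensor frames, part 16: the case where the centre of the radical is trivial. -/

namespace Cfsg.Agent.H2.TO

open Module Cfsg.Agent.Orth Cfsg.Agent.H1.TW

variable {F : Type*} [Field F] [Finite F] {U : Type*} {V : Type*} [AddCommGroup U] [Module F U]
  [AddCommGroup V] [Module F V] [FiniteDimensional F U] [FiniteDimensional F V]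
  {Q₁ : QuadraticForm F U} {Q : QuadraticForm F V} {σ σ' τ : Fr F U V}
  {M : Subgroup (End F V)ˣ} {L : Submodule F V} {Γ : Subgroup (U ≃ₗ[F] U)} {c : F}

theorem RL.conj' {p g : (End F V)ˣ} (hO : p ∈ OU Q) (hp : p ∈ M) (hs : p ∈ Stb L) (hg : g ∈ RL Q M L) :
    p * g * p⁻¹ ∈ RL Q M L :=
  ⟨mul_mem (mul_mem hp hg.1) (inv_mem hp), fun v hv => by
    simp only [Units.val_mul, End.mul_apply, hg.2.1 _ (inv_mem hs v hv), app_inv], fun x hx => by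
    have := hs _ (hg.2.2 _ (inv_mem (Stb.perp hO hs) x hx))
    simpa using this⟩

theorem Conf.symm {a : U ≃ₗ[F] U} {μ : F} (h : Conf Q₁ a μ) : Conf Q₁ a⁻¹ μ⁻¹ :=
  ⟨inv_ne_zero h.1, fun x y => by rw [h.inv, apply_inv_apply]⟩

theorem Conf.eN {a : U ≃ₗ[F] U} {μ : F} (h : Conf Q₁ a μ) (w y : U) :
    (lf σ a : End F V) * σ (eN Q₁ w y) * ↑(lf σ a)⁻¹ = μ⁻¹ • σ (eN Q₁ (a w) (a y)) := by
  rw [lf_inv_val, lf_val, ← map_mul, ← map_mul, ← map_smul]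
  congr 1; ext x
  simp only [End.mul_apply, LinearEquiv.coe_coe, eN_apply, h.inv, map_sub, map_smul, LinearMap.smul_apply,
    smul_sub, smul_smul]

theorem Conf.nn {a : U ≃ₗ[F] U} {μ : F} (h : Conf Q₁ a μ) (w : U) :
    (lf σ a : End F V) * σ (nn Q₁ w) * ↑(lf σ a)⁻¹ = μ⁻¹ • σ (nn Q₁ (a w)) := by
  rw [lf_inv_val, lf_val, ← map_mul, ← map_mul, ← map_smul]
  congr 1; ext x
  simp only [End.mul_apply, LinearEquiv.coe_coe, nn_apply, h.inv, map_smul, LinearMap.smul_apply, smul_smul]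

theorem eN_smul_left (s : F) (w y : U) : eN Q₁ (s • w) y = s • eN Q₁ w y := by
  ext x; simp [smul_sub, smul_smul, mul_comm]

theorem nn_smul (s : F) (w : U) : nn Q₁ (s • w) = (s * s) • nn Q₁ w := by
  ext x; simp [smul_smul]; ring_nf

theorem inv_eig {a : U ≃ₗ[F] U} {w : U} {α : F} (h0 : α ≠ 0) (h : a w = α • w) : a⁻¹ w = α⁻¹ • w :=
  a.injective (by rw [apply_inv_apply, map_smul, h, inv_smul_smul₀ h0])

theorem CA.conj {a : U ≃ₗ[F] U} {μ α : F} (h : Conf Q₁ a μ) {w : U} (h0 : α ≠ 0) (hw : a w = α • w)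
    {z : End F V} (hz : z ∈ CA Q₁ σ w) : (lf σ a : End F V) * z * ↑(lf σ a)⁻¹ ∈ CA Q₁ σ w :=
  mem_CA.2 fun y hy => by
    have e := h.eN (σ := σ) w (a⁻¹ y)
    rw [hw, apply_inv_apply, eN_smul_left, map_smul, smul_smul] at e
    have := mem_CA.1 hz (a⁻¹ y) (by rw [h.inv, hw]; simp [hy])
    refine smul_right_injective _ (mul_ne_zero (inv_ne_zero h.1) h0) ?_
    dsimp only
    rw [← smul_mul_assoc, ← mul_smul_comm, ← e]
    simp only [mul_assoc, Units.inv_mul_cancel_left]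
    rw [← mul_assoc z, ← this, mul_assoc]

theorem stb_lf {a : U ≃ₗ[F] U} {w : U} {α : F} (h0 : α ≠ 0) (hw : a w = α • w) :
    lf σ a ∈ Stb (Ln σ w) := fun v hv => by
  have := Ln_map hv (a : U →ₗ[F] U)
  rwa [LinearEquiv.coe_coe, hw, Ln_smul h0] at this

theorem bk_conj {a : U ≃ₗ[F] U} (ha : a ∈ O Q₁) (x b : U) (z : End F V) :
    bk σ (B Q₁ x) b (lf σ a * z * ↑(lf σ a)⁻¹) = bk σ (B Q₁ (a⁻¹ x)) (a⁻¹ b) z := by
  rw [lf_inv_val, lf_val, bk_right, bk_left, show B Q₁ x ∘ₗ (a : U →ₗ[F] U) = B Q₁ (a⁻¹ x) by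
    ext y; simp [← O_B ha _ y]]; rfl

theorem bk_cj {g : (End F V)ˣ} (hg : Cm σ (g : End F V)) (ψ : Dual F U) (b : U) (z : End F V) :
    bk σ ψ b (g * z * ↑g⁻¹) = g * bk σ ψ b z * ↑g⁻¹ := by
  rw [bk_mul_cm (Cm.inv hg), bk_cm_mul hg]

theorem Ad.cm (n1 : Nd Q₁) (nd : Nd Q) (h : Adj Q₁ Q σ) {x y : End F V} (hx : Cm σ x) (hy : Ad Q x y) :
    Cm σ y := fun a => by
  obtain ⟨b, hb⟩ := exists_ad n1 a
  have := (h _ _ hb.symm).mul hy
  rw [← hx] at this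
  exact this.unique nd (hy.mul (h _ _ hb.symm))

/-- the radical meets `M` in the Eichler group -/
def QT (Q₁ : QuadraticForm F U) (Q : QuadraticForm F V) (M : Subgroup (End F V)ˣ) (σ : Fr F U V) (w : U) :
    Prop := ∀ g ∈ RL Q M (Ln σ w), ∃ y, B Q₁ w y = 0 ∧ g = lf σ (eich Q₁ w y)

/-- displacements of the frame -/
def PP (Q₁ : QuadraticForm F U) (Q : QuadraticForm F V) (M : Subgroup (End F V)ˣ) (σ : Fr F U V) (w : U) :
    Set (End F V) :=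
  {D | D ∈ DL Q (Ln σ w) ∧ ∀ a ∈ Gm Q₁, IM M ((1 + D) * lf σ a * (1 - D))}

theorem PP.conj (hM : M ≤ OU Q) {w : U} {D : End F V} (hD : D ∈ PP Q₁ Q M σ w) {p : (End F V)ˣ}
    (hp : p ∈ M) (hc : Cm σ (p : End F V)) : p * D * ↑p⁻¹ ∈ PP Q₁ Q M σ w :=
  ⟨DL.conj (hM hp) (stb_cm hc w) hD.1, fun a ha => by
    convert (hD.2 a ha).conj hp using 1
    have e : (lf σ a : End F V) = p * lf σ a * ↑p⁻¹ := by
      rw [lf_val, hc, Units.mul_inv_cancel_right]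
    conv_lhs => rw [e]
    simp only [mul_add, add_mul, mul_sub, sub_mul, mul_one, one_mul, mul_assoc, Units.inv_mul_cancel_left,
      Units.inv_mul, Units.mul_inv_cancel_left]⟩

namespace Lc
variable {w w' : U} (H : Lc Q₁ Q σ w w') {z z' : End F V}
include H

theorem pure (hz : z ∈ CA Q₁ σ w) {a : U ≃ₗ[F] U} {α κ : F} {y : U} (hp : Pu Q₁ w w' a α κ y)
    (he : ∀ x, B Q₁ w x = 0 → x - α • a⁻¹ x = (κ * B Q₁ y x) • y) : ∃ C, Cm σ C ∧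
    z - lf σ a * z * ↑(lf σ a)⁻¹ = σ (eN Q₁ w y) * (κ • bk σ (B Q₁ y) w' z) + σ (nn Q₁ w) * C := by
  have hc := (cm_bk (σ := σ) (B Q₁ y) w' z).smul κ
  have := H.cent (sub_mem (sub_mem hz (CA.conj (conf_of_O hp.o) hp.a0 hp.aw hz))
    (mul_mem (H.eN_CA hp.b) (CA_of_cm hc))) fun x hx => by
      have e := congrArg (fun u => bl σ z (B Q₁ u) w') (he x hx)
      simp only [map_sub, map_smul, LinearMap.sub_apply, LinearMap.smul_apply] at e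
      rw [map_sub, map_sub, bk_conj hp.o, inv_eig (inv_ne_zero hp.a0) hp.aw', inv_inv, bk_mul hc]
      simp only [← bl_apply, map_smul, e, eN_apply, H.b, B_comm Q₁ y w', hp.b', one_smul, zero_smul,
        sub_zero, smul_smul, B_comm Q₁ x y, mul_comm, sub_self]
  exact ⟨_, cm_bk _ _ _, by rw [← H.DL_eq this]; abel⟩

theorem pure_mul {y : U} (hy : B Q₁ w y = 0) {c C c' C' : End F V} (hc : Cm σ c) (hC : Cm σ C) :
    (σ (eN Q₁ w y) * c + σ (nn Q₁ w) * C) * (σ (eN Q₁ w y) * c' + σ (nn Q₁ w) * C') =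
      -(2 * Q₁ y) • (σ (nn Q₁ w) * (c * c')) := by
  have k : ∀ (a b : End F U) (c d : End F V), Cm σ c → σ a * c * (σ b * d) = σ (a * b) * (c * d) :=
    fun a b c d hc => by rw [map_mul, mul_assoc, ← mul_assoc c, hc]; simp only [mul_assoc]
  simp [mul_add, add_mul, k _ _ _ _ hc, k _ _ _ _ hC, eN_sq H.hw hy, eN_nn H.hw hy, nn_eN H.hw hy,
    nn_nn H.hw]

theorem eich_V (y : U) (hy : B Q₁ w y = 0) (v : V) :
    (↑(lf σ (eich Q₁ w y))⁻¹ : End F V) v - v ∈ perp Q (Ln σ w) :=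
  RL.sub_K (M := ⊤) (inv_mem (H.ad.lf_mem (eich_mem_O _ _))) (inv_mem (H.eich_RL hy trivial)) v

theorem nf' [Nontrivial V] {g : (End F V)ˣ} (hz : (g : End F V) ∈ CA Q₁ σ w) (h0 : bk σ (B Q₁ w) w' g = 1)
    (h : ∀ y, B Q₁ w y = 0 → ∃ s : F, bk σ (B Q₁ y) w' g = s • 1) :
    ∃ y, B Q₁ w y = 0 ∧ ∃ D ∈ DL Q (Ln σ w), ((g * (lf σ (eich Q₁ w y))⁻¹ : (End F V)ˣ) : End F V) = 1 + D := by
  obtain ⟨y, hy, hD⟩ := H.nf hz h0 h
  refine ⟨y, hy, _, hD, ?_⟩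
  rw [← DL.mul_right hD (H.eich_V y hy), sub_mul, Units.mul_inv]; simp

theorem lemT (hq : 5 ≤ finrank F U ∨ ∃ t : F, t ≠ 0 ∧ t * t ≠ 1) (hK : ∀ a ∈ Gm Q₁, lf σ a ∈ M)
    (qt : QT Q₁ Q M σ w) {g : (End F V)ˣ} (hz : (g : End F V) ∈ CA Q₁ σ w) (h0 : bk σ (B Q₁ w) w' g = 1)
    (h : ∀ a ∈ Gm Q₁, g * lf σ a * g⁻¹ ∈ M) : ∀ y, B Q₁ w y = 0 → ∃ s : F, bk σ (B Q₁ y) w' g = s • 1 := by
  intro y hy
  refine Submodule.mem_span_singleton.1 (H.span_ei hq (Z := (F ∙ (1 : End F V)).comap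
    ((bl σ g).flip w' ∘ₗ B Q₁)) (Submodule.mem_span_singleton.2 ⟨1, by simp [bl_apply, h0]⟩)
    (fun a ha α κ y a0 k0 a1 a2 b e => ?_) y hy) |>.imp fun _ h => h.symm
  have l := H.low hz h0
  obtain ⟨x, hx, e1⟩ := qt _ (RL.mono (mul_mem l (RL.conj' (H.ad.lf_mem (Gm_le_O ha)) trivial
    (stb_lf a0 a1) (inv_mem l))) (by
      simpa only [mul_assoc] using mul_mem (h a ha) (inv_mem (hK a ha))))
  have e2 : (g : End F V) = lf σ (eich Q₁ w x) * (lf σ a * g * ↑(lf σ a)⁻¹) := by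
    rw [← e1]; simp [mul_assoc]
  have e3 := congrArg (bk σ (B Q₁ y) w') e2
  rw [lf_val, bk_left, show B Q₁ y ∘ₗ (eich Q₁ w x : U →ₗ[F] U) = B Q₁ (y + B Q₁ x y • w) by
    ext v; simp [eich_apply H.hw hx, B_comm Q₁ y w, b, B_comm Q₁ y x]; ring, bk_conj (Gm_le_O ha),
    inv_eig (inv_ne_zero a0) a2, inv_inv, map_add, map_smul, inv_eig a0 a1] at e3
  have e4 := congrArg (fun u => bl σ g (B Q₁ u) w') e
  simp only [← bl_apply, map_add, map_smul, map_sub, LinearMap.add_apply, LinearMap.smul_apply,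
    LinearMap.sub_apply] at e3 e4 h0
  refine (Submodule.smul_mem_iff _ k0).1 (Submodule.mem_span_singleton.2 ⟨B Q₁ x y, ?_⟩)
  simp only [LinearMap.comp_apply, LinearMap.flip_apply, map_smul, LinearMap.smul_apply]
  rw [← e4]
  nth_rewrite 1 [e3]
  rw [h0]
  match_scalars <;> field_simp <;> ring

theorem eN_W0 (y : U) : eN Q₁ w (y - B Q₁ w' y • w) = eN Q₁ w y := by
  ext x; simp; module

theorem eN_mul {x y : U} (hx : B Q₁ w x = 0) (hy : B Q₁ w y = 0) :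
    eN Q₁ w x * eN Q₁ w y = -B Q₁ x y • nn Q₁ w := by
  ext v; simp [hx, hy, H.bw, B_comm Q₁ x w, smul_smul, mul_comm]

theorem exists_conf [Nontrivial V] (hM : M ≤ OU Q) (hK : ∀ a ∈ Gm Q₁, lf σ a ∈ M) (qt : QT Q₁ Q M σ w)
    {g : (End F V)ˣ} (hg : g ∈ M) (hs : g ∈ Stb (Ln σ w)) :
    ∃ k μ, Conf Q₁ k μ ∧ ((g * lf σ k : (End F V)ˣ) : End F V) ∈ CA Q₁ σ w := by
  have h2 := H.sz.h2
  have k1 : ∀ y, B Q₁ w y = 0 → ∃ x, B Q₁ w x = 0 ∧ B Q₁ w' x = 0 ∧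
      ↑g⁻¹ * σ (eN Q₁ w y) * g = σ (eN Q₁ w x) := fun y hy => by
    obtain ⟨x, hx, e⟩ := qt _ (RL.conj hM (inv_mem hg) (inv_mem hs) (H.eich_RL hy (hK _ (H.sz.eich_mem w y))))
    refine ⟨x - B Q₁ w' x • w, by simp [hx, H.bw], by simp [H.b'], smul_right_injective _ h2 ?_⟩
    dsimp only
    rw [H.eN_W0, ← two_eN H.hw hx, ← e, ← smul_mul_assoc, ← mul_smul_comm, ← two_eN H.hw hy]
    simp [mul_sub, sub_mul, mul_assoc]
  have k2 : ∀ {x y x' y'}, B Q₁ w x = 0 → B Q₁ w y = 0 → B Q₁ w x' = 0 → B Q₁ w y' = 0 →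
      ↑g⁻¹ * σ (eN Q₁ w x) * g = σ (eN Q₁ w x') → ↑g⁻¹ * σ (eN Q₁ w y) * g = σ (eN Q₁ w y') →
      B Q₁ x y • (↑g⁻¹ * σ (nn Q₁ w) * g) = B Q₁ x' y' • σ (nn Q₁ w) := fun a b c d e f => by
    have := congrArg₂ (· * ·) e f
    simp only [mul_assoc, Units.mul_inv_cancel_left] at this
    rw [← mul_assoc (σ _), ← map_mul, ← map_mul, H.eN_mul a b, H.eN_mul c d] at this
    simpa [mul_assoc] using this
  obtain ⟨μ, hμ⟩ : ∃ μ : F, ↑g⁻¹ * σ (nn Q₁ w) * g = μ • σ (nn Q₁ w) := by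
    obtain ⟨y, b, q⟩ := H.sz.exists_y H.w0
    obtain ⟨x, c, -, e⟩ := k1 y b
    have := k2 b b c c e e
    rw [B_self] at this
    exact ⟨(2 * Q₁ y)⁻¹ * B Q₁ x x, by rw [mul_smul, ← this, inv_smul_smul₀ (mul_ne_zero h2 q)]⟩
  have n0 : σ (nn Q₁ w) ≠ 0 := fun h => one_ne_zero (H.nC_inj Cm.one (by rw [h, zero_mul]))
  have μ0 : μ ≠ 0 := by
    rintro rfl
    simp [n0] at hμ
  obtain ⟨ev, hev⟩ := LinearMap.exists_leftInverse_of_injective (σ.toLinearMap ∘ₗ xb Q₁ w w')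
    (LinearMap.ker_eq_bot'.2 fun b hb => by
      rw [← H.xb_w' b, H1.TW.rho_injective (ρ := σ) (hb.trans (map_zero σ).symm)]; rfl)
  replace hev : ∀ b, ev (σ (xb Q₁ w w' b)) = b := fun b => LinearMap.congr_fun hev b
  let k : End F U := ev ∘ₗ LinearMap.mulRight F (g : End F V) ∘ₗ LinearMap.mulLeft F (↑g⁻¹ : End F V) ∘ₗ
    σ.toLinearMap ∘ₗ xb Q₁ w w'
  have hk : ∀ b, k b = ev (↑g⁻¹ * σ (xb Q₁ w w' b) * g) := fun _ => rfl
  have x1 : xb Q₁ w w' w' = 1 := by ext; simp [xb_apply, H.b]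
  have x2 : xb Q₁ w w' w = nn Q₁ w := by ext; simp [xb_apply, H.b', H.bw]
  have x3 : ∀ y, B Q₁ w y = 0 → B Q₁ w' y = 0 → xb Q₁ w w' y = eN Q₁ w y := fun y a b => by
    simp [xb_apply, a, b]
  have e1 : k w' = w' := by rw [hk, x1, map_one, mul_one, Units.inv_mul, ← map_one σ, ← x1, hev]
  have e2 : k w = μ • w := by rw [hk, x2, hμ, map_smul, ← x2, hev]
  have e3 : ∀ y, B Q₁ w y = 0 → B Q₁ w' y = 0 → B Q₁ w (k y) = 0 ∧ B Q₁ w' (k y) = 0 ∧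
      ↑g⁻¹ * σ (eN Q₁ w y) * g = σ (eN Q₁ w (k y)) := fun y a b => by
    obtain ⟨x, c, d, e⟩ := k1 y a
    have : k y = x := by rw [hk, x3 y a b, e, ← x3 x c d, hev]
    rw [this]; exact ⟨c, d, e⟩
  have dec : ∀ b, ∃ (y : U) (s t : F), B Q₁ w y = 0 ∧ B Q₁ w' y = 0 ∧ b = y + s • w + t • w' := fun b =>
    ⟨b - B Q₁ w' b • w - B Q₁ w b • w', _, _, by simp [H.b, H.bw], by simp [H.b', H.bw'], by abel⟩
  have e4 : ∀ a b, B Q₁ (k a) (k b) = μ * B Q₁ a b := fun a b => by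
    obtain ⟨x, s, t, a1, a2, rfl⟩ := dec a
    obtain ⟨y, s', t', b1, b2, rfl⟩ := dec b
    obtain ⟨c1, c2, c3⟩ := e3 x a1 a2
    obtain ⟨d1, d2, d3⟩ := e3 y b1 b2
    have := k2 a1 b1 c1 d1 c3 d3
    rw [hμ, smul_smul] at this
    simp [e1, e2, ← smul_left_injective F n0 this, B_comm Q₁ (k x) w, B_comm Q₁ (k x) w', B_comm Q₁ x w,
      B_comm Q₁ x w', a1, a2, b1, b2, c1, c2, d1, d2, H.b, H.b', H.bw, H.bw']
    ring
  let k' := LinearEquiv.ofInjectiveEndo k (LinearMap.ker_eq_bot.1 (LinearMap.ker_eq_bot'.2 fun b hb =>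
    H.sz.n1 b fun x => by simpa [hb, μ0] using (e4 x b).symm))
  have hc : Conf Q₁ k' μ := ⟨μ0, e4⟩
  refine ⟨k', μ, hc, mem_CA.2 fun y hy => ?_⟩
  have := hc.eN (σ := σ) w (y - B Q₁ w' y • w)
  rw [show k' w = μ • w from e2, eN_smul_left, map_smul, inv_smul_smul₀ μ0, Units.mul_inv_eq_iff_eq_mul,
    show k' _ = k _ from rfl, ← (e3 _ (by simp [hy, H.bw]) (by simp [H.b'])).2.2, H.eN_W0] at this
  rw [Units.val_mul, mul_assoc, this]; simp [mul_assoc]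

end Lc

end Cfsg.Agent.H2.TO
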