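import Cfsg.Agent.H2.TO16

set_option autoImplicit false
set_option linter.unusedSectionVars false
set_option linter.unusedSimpArgs false

/-! Orthogonal tensor frames, part 17: the stabiliser of a singular line normalises the frame. -/

namespace Cfsg.Agent.H2.TO

open Module Cfsg.Agent.Orth Cfsg.Agent.H1.TW

variable {F : Type*} [Field F] [Finite F] {U : Type*} {V : Type*} [AddCommGroup U] [Module F U]
  [AddCommGroup V] [Module F V] [FiniteDimensional F U] [FiniteDimensional F V]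
  {Q₁ : QuadraticForm F U} {Q : QuadraticForm F V} {σ σ' τ : Fr F U V}
  {M : Subgroup (End F V)ˣ} {L : Submodule F V} {Γ : Subgroup (U ≃ₗ[F] U)} {c : F}

namespace Lc
variable {w w' : U} (H : Lc Q₁ Q σ w w') {z z' : End F V}
include H

theorem part1 [Nontrivial V] (hq : 5 ≤ finrank F U ∨ ∃ t : F, t ≠ 0 ∧ t * t ≠ 1) (hM : M ≤ OU Q)
    (hK : ∀ a ∈ Gm Q₁, lf σ a ∈ M) (qt : QT Q₁ Q M σ w) {g : (End F V)ˣ} (hg : g ∈ M)
    (hs : g ∈ Stb (Ln σ w)) : ∃ D ∈ PP Q₁ Q M σ w, ∃ d h : (End F V)ˣ, (d : End F V) = 1 + D ∧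
      (↑d⁻¹ : End F V) = 1 - D ∧ g = d * h ∧ h ∈ NF σ ∧ ∀ a ∈ Gm Q₁, ∃ b ∈ Gm Q₁, h⁻¹ * lf σ a * h = lf σ b := by
  obtain ⟨k, μ, hk, h1⟩ := H.exists_conf hM hK qt hg hs
  obtain ⟨c, c1, c2, c3⟩ := H.split h1
  have hc : Cm σ (c : End F V) := c1 ▸ cm_bk _ _ _
  have e : ∀ a, c⁻¹ * lf σ a * c = lf σ a := fun a => by rw [mul_assoc, ← Cm.lf hc, inv_mul_cancel_left]
  have h2 : ∀ a ∈ Gm Q₁, g * lf σ k * c⁻¹ * lf σ a * (g * lf σ k * c⁻¹)⁻¹ ∈ M := fun a ha => by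
    convert mul_mem (mul_mem hg (hK _ (hk.gm H.sz.h2 ha))) (inv_mem hg) using 1
    rw [map_mul, map_mul, map_inv]
    conv_rhs => rw [← e a]
    group
  obtain ⟨y, hy, D, hD, e1⟩ := H.nf' c3 c2 (H.lemT hq hK qt c3 c2 h2)
  have e2 : g * lf σ k * c⁻¹ * (lf σ (eich Q₁ w y))⁻¹ = un D (DL.mul H.LK hD hD) := Units.ext e1
  have he := H.sz.eich_mem w y
  refine ⟨D, ⟨hD, fun a ha => ⟨_, h2 _ (mul_mem (mul_mem (inv_mem he) ha) he), ?_⟩⟩,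
    un D (DL.mul H.LK hD hD), lf σ (eich Q₁ w y) * c * (lf σ k)⁻¹, rfl, rfl, by rw [← e2]; group,
    mul_mem (mul_mem (lf_mem_NF _) (NF_of_cm hc)) (inv_mem (lf_mem_NF _)), fun a ha =>
      ⟨_, hk.gm H.sz.h2 (mul_mem (mul_mem (inv_mem he) ha) he), ?_⟩⟩
  · rw [← un_val D (DL.mul H.LK hD hD), ← un_inv D (DL.mul H.LK hD hD), ← Units.val_mul, ← Units.val_mul, ← e2]
    congr 1
    simp only [map_mul, map_inv]; group
  · rw [map_mul, map_mul, ← e (_ * _ * _)]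
    simp only [map_mul, map_inv]; group

theorem weyl0 : ∃ a ∈ Gm Q₁, ∃ s : F, s ≠ 0 ∧ ∀ C, Cm σ C →
    lf σ a * (σ (nn Q₁ w) * C) * ↑(lf σ a)⁻¹ = s • (σ (nn Q₁ w') * C) := by
  obtain ⟨a, ha, s, s0, e⟩ := H.sz.trans H.hw H.w0 H.hw' H.w0'
  refine ⟨a, ha, s * s, mul_ne_zero s0 s0, fun C hC => ?_⟩
  have := (conf_of_O (Gm_le_O ha)).nn (σ := σ) w
  rw [e, nn_smul, map_smul, inv_one, one_smul] at this
  rw [← smul_mul_assoc, ← this, lf_inv_val, mul_assoc _ _ C, ← hC (a⁻¹ : U ≃ₗ[F] U)]; simp only [mul_assoc]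

theorem weyl (hK : ∀ a ∈ Gm Q₁, lf σ a ∈ M) {C : End F V} (hC : Cm σ C)
    (hD : σ (nn Q₁ w) * C ∈ PP Q₁ Q M σ w) : ∃ s : F, s ≠ 0 ∧
      IM M ((1 + σ (nn Q₁ w) * C) * (1 - s • (σ (nn Q₁ w') * C))) := by
  obtain ⟨a, ha, s, s0, e⟩ := H.weyl0
  refine ⟨s, s0, ?_⟩
  convert (hD.2 a ha).mul ⟨_, inv_mem (hK a ha), rfl⟩ using 1
  rw [← e C hC, mul_assoc (1 + _), mul_assoc (1 + _), mul_sub (lf σ a : End F V), sub_mul, mul_one,
    Units.mul_inv]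

theorem bk_nn {C : End F V} (hC : Cm σ C) : bk σ (B Q₁ w') w' (σ (nn Q₁ w') * C) = 0 := by
  simp [bk_mul hC, H.bw']

theorem bk_nn2 {C C' : End F V} (hC : Cm σ C) (hC' : Cm σ C') :
    bk σ (B Q₁ w') w' (σ (nn Q₁ w') * C * (σ (nn Q₁ w) * C')) = 0 ∧
    bk σ (B Q₁ w') w' (σ (nn Q₁ w) * C * (σ (nn Q₁ w') * C')) = 0 := by
  constructor <;> rw [mul_assoc, ← mul_assoc C, hC, mul_assoc, ← mul_assoc, ← map_mul, bk_mul (hC.mul hC')] <;>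
  simp [H.bw']

theorem ad_nC {C C' : End F V} (hC' : Cm σ C') (h : Ad Q C C') :
    Ad Q (σ (nn Q₁ w) * C) (σ (nn Q₁ w) * C') := by
  rw [← hC']; exact (H.ad.r1 w w).mul h

theorem skew (hM : M ≤ OU Q) (hK : ∀ a ∈ Gm Q₁, lf σ a ∈ M) {C : End F V} (hC : Cm σ C)
    (hD : σ (nn Q₁ w) * C ∈ PP Q₁ Q M σ w) : Ad Q C (-C) := by
  obtain ⟨s, s0, g, hg, e⟩ := H.weyl hK hC hD
  obtain ⟨C', h⟩ := exists_ad H.nd C
  have hC' := h.cm H.sz.n1 H.nd H.ad hC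
  have n1 := DL.mul H.LK hD.1 hD.1
  have n2 := DL.mul H.symm.LK (H.symm.nC_mem hC) (H.symm.nC_mem hC)
  have e1 : (↑g⁻¹ : End F V) = (1 + s • (σ (nn Q₁ w') * C)) * (1 - σ (nn Q₁ w) * C) := by
    refine Units.inv_eq_of_mul_eq_one_right ?_
    rw [e, mul_assoc, ← mul_assoc (1 - _)]
    simp [mul_add, add_mul, mul_sub, sub_mul, n1, n2]
  have := congrArg (bk σ (B Q₁ w') w') ((OU.ad (hM hg)).unique H.nd
    (e ▸ (Ad.one.add (H.ad_nC hC' h)).mul (Ad.one.sub ((H.symm.ad_nC hC' h).smul s))))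
  simp only [e1, mul_add, add_mul, mul_sub, sub_mul, mul_one, one_mul, smul_mul_assoc, map_add, map_sub,
    map_smul, H.bk_nC hC, H.bk_nC hC', H.bk_nn hC, H.bk_nn hC', (H.bk_nn2 hC hC).1,
    (H.bk_nn2 hC' hC').1, smul_zero, add_zero, sub_zero] at this
  rwa [show C' = -C by linear_combination (norm := abel) -this] at h

end Lc

theorem eq_zero_of_ad (h2 : (2 : F) ≠ 0) (nd : Nd Q) {C : End F V} (h : Ad Q C C) (h' : Ad Q C (-C)) :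
    C = 0 := smul_right_injective _ h2 (by
  have := h.unique nd h'
  simp only [two_smul, add_zero]
  exact add_eq_zero_iff_eq_neg.2 this)

variable {T : Type*} [Fintype T] [DecidableEq T] {ρ : T → Fr F U V}

structure Tp (Q₁ : QuadraticForm F U) (Q : QuadraticForm F V) (ρ : T → Fr F U V)
    (M : Subgroup (End F V)ˣ) (Γ : Subgroup (U ≃ₗ[F] U)) (c : F) : Prop extends Tf Q₁ ρ Γ c where
  nd : Nd Q
  adj : ∀ i, Adj Q₁ Q (ρ i)
  le : M ≤ OU Q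
  mem : ∀ i, ∀ a ∈ Γ, lf (ρ i) a ∈ M
  perm : ∀ i j, ∃ p ∈ M, Same (ρ j) (cf p (ρ i)) ∧ ∀ l, l ≠ i → l ≠ j → p ∈ NF (ρ l)

namespace Tp
variable (P : Tp Q₁ Q ρ M Γ c) {w w' : U} {i : T}
include P

theorem K (i : T) : ∀ a ∈ Gm Q₁, lf (ρ i) a ∈ M := fun a ha => P.mem i a (P.gm ha)

theorem lc (H : Lc Q₁ Q σ w w') (i : T) : Lc Q₁ Q (ρ i) w w' := ⟨P.sz, P.nd, P.adj i, H.hw, H.hw', H.b⟩

theorem cm {i l : T} (h : l ≠ i) (a : U ≃ₗ[F] U) : Cm (ρ i) (lf (ρ l) a : End F V) :=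
  cm_lf (P.comm i l h.symm) a

theorem qt (H : Lc Q₁ Q (ρ i) w w') (hz : ZT Q M (Ln (ρ i) w)) : QT Q₁ Q M (ρ i) w := by
  haveI := P.nt
  have ca : ∀ g ∈ RL Q M (Ln (ρ i) w), (g : End F V) ∈ CA Q₁ (ρ i) w := fun g hg =>
    CA_of_eich P.sz.h2 H.hw fun y hy => hz.comm P.le hg (H.eich_RL hy (P.K i _ (P.sz.eich_mem w y)))
  intro g hg
  have h0 := H.c0_fix (ca g hg) hg.2.1
  obtain ⟨y, hy, D, hD, e⟩ := H.nf' (ca g hg) h0 fun y hy => (Submodule.mem_span_singleton.1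
    (H.span_pu P.toGam (Z := (F ∙ (1 : End F V)).comap ((bl (ρ i) g).flip w' ∘ₗ B Q₁))
      (Submodule.mem_span_singleton.2 ⟨1, by simp [bl_apply, h0]⟩) (fun a ha α κ y hp he => by
        have cj : ∀ g ∈ RL Q M (Ln (ρ i) w), lf (ρ i) a * g * (lf (ρ i) a)⁻¹ ∈ RL Q M (Ln (ρ i) w) :=
          fun g hg => RL.conj P.le (P.mem i a ha) (stb_lf hp.a0 hp.aw) hg
        obtain ⟨s, hs⟩ := P.comm_scal (A := {S | ∃ g ∈ RL Q M (Ln (ρ i) w), S = bk (ρ i) (B Q₁ y) w' g})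
          (by
            rintro _ ⟨g, hg, rfl⟩ _ ⟨h, hh, rfl⟩
            obtain ⟨C, hC, e1⟩ := H.pure (ca g hg) hp he
            obtain ⟨C', hC', e2⟩ := H.pure (ca h hh) hp he
            have c1 : ∀ k ∈ RL Q M (Ln (ρ i) w), Commute (k : End F V)
                (h - lf (ρ i) a * h * ↑(lf (ρ i) a)⁻¹) := fun k hk =>
              Commute.sub_right (hz.comm P.le hk hh) (hz.comm P.le hk (cj h hh))
            have c2 := ((c1 g hg).sub_left (c1 _ (cj g hg))).eq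
            simp only [Units.val_mul] at c2
            rw [e1, e2, H.pure_mul hp.b ((cm_bk _ _ _).smul κ) hC, H.pure_mul hp.b ((cm_bk _ _ _).smul κ) hC',
              ← sub_eq_zero, ← smul_sub, smul_eq_zero_iff_right (by simp [P.sz.h2, hp.q]), ← mul_sub] at c2
            have := H.nC_inj ((((cm_bk _ _ _).smul κ).mul ((cm_bk _ _ _).smul κ)).sub
              (((cm_bk _ _ _).smul κ).mul ((cm_bk _ _ _).smul κ))) c2
            simpa [← smul_sub, hp.k0, sub_eq_zero] using this)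
          (by
            rintro l b hb _ ⟨g, hg, rfl⟩
            by_cases e : l = i
            · exact ⟨g, hg, by rw [e, lf_val, ← cm_bk, mul_assoc, ← lf_val, Units.mul_inv, mul_one]⟩
            · exact ⟨_, RL.conj P.le (P.mem l b hb) (stb_cm (P.cm e b) w) hg, (bk_cj (P.cm e b) _ _ _).symm⟩)
          ⟨g, hg, rfl⟩
        exact Submodule.mem_span_singleton.2 ⟨s, hs.symm⟩) y hy)).imp fun _ h => h.symm
  have := hz D hD ⟨_, mul_mem hg.1 (inv_mem (P.K i _ (P.sz.eich_mem w y))), e⟩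
  rw [this, add_zero, Units.val_eq_one, mul_inv_eq_one] at e
  exact ⟨y, hy, e⟩

theorem zero_of_col (H : Lc Q₁ Q σ w w') {C : End F V} (hC : Cm (ρ i) C) (hs : Ad Q C (-C))
    (h1 : ∀ l, l ≠ i → C ∈ CA Q₁ (ρ l) w)
    (h2 : ∀ l, l ≠ i → ∀ y, B Q₁ w y = 0 → B Q₁ w' y = 0 → bk (ρ l) (B Q₁ y) w' C = 0) : C = 0 := by
  refine eq_zero_of_ad P.sz.h2 P.nd (P.self_ad P.adj H.hw H.hw' H.b (Finset.univ.erase i) C
    (fun l hl => by rwa [show l = i by simpa using hl]) fun l hl => ?_) hs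
  have e := Finset.ne_of_mem_erase hl
  have H' := P.lc H l
  have := H'.cent (sub_mem (h1 l e) (CA_of_cm (cm_bk (B Q₁ w) w' C))) (H'.of_W0
    (Z := LinearMap.ker ((bl (ρ l) _).flip w' ∘ₗ B Q₁)) (by
      change bk _ _ _ _ = 0
      rw [map_sub, H'.c0_cm (cm_bk _ _ _), sub_self]) fun y b b' => by
      change bk _ _ _ _ = 0
      rw [map_sub, h2 l e y b b', bk_cm (cm_bk _ _ _), B_comm, b', zero_smul, sub_self])
  exact ⟨_, _, cm_bk _ _ _, cm_bk _ _ _, by rw [← H'.DL_eq this, add_sub_cancel]⟩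

theorem CA_C (H : Lc Q₁ Q (ρ i) w w') {C : End F V} (hC : Cm (ρ i) C) {l : T} (hl : l ≠ i)
    (h : ∀ y, B Q₁ w y = 0 → lf (ρ l) (eich Q₁ w y) * (ρ i (nn Q₁ w) * C) =
      ρ i (nn Q₁ w) * C * lf (ρ l) (eich Q₁ w y)) : C ∈ CA Q₁ (ρ l) w :=
  CA_of_eich P.sz.h2 H.hw fun y hy => by
    rw [← H.bk_nC hC]; exact bk_comm (P.cm hl _) (h y hy).symm _ _

theorem fixed (H : Lc Q₁ Q (ρ i) w w') (hz : ∀ l, ZT Q M (Ln (ρ l) w)) {D : End F V}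
    (hD : D ∈ PP Q₁ Q M (ρ i) w) (h : ∀ l, l ≠ i → ∀ y, B Q₁ w y = 0 →
      lf (ρ l) (eich Q₁ w y) * D = D * lf (ρ l) (eich Q₁ w y)) : D = 0 := by
  have e := H.DL_eq hD.1
  have hC := cm_bk (σ := ρ i) (B Q₁ w') w' D
  generalize bk (ρ i) (B Q₁ w') w' D = C at e hC
  subst e
  have ca := fun l hl => P.CA_C H hC hl (h l hl)
  rw [P.zero_of_col H hC (H.skew P.le (P.K i) hC hD) ca fun l hl y b b' => ?_, mul_zero]
  have H' := P.lc H l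
  have cm := P.comm l i hl
  obtain ⟨s, s0, g, hg, e⟩ := H.weyl (P.K i) hC hD
  have h1 : (g : End F V) ∈ CA Q₁ (ρ l) w := e ▸ mul_mem (add_mem (one_mem _) (mul_mem (CA_of_cm (cm _)) (ca l hl)))
    (sub_mem (one_mem _) (Subalgebra.smul_mem _ (mul_mem (CA_of_cm (cm _)) (ca l hl)) _))
  obtain ⟨d, c1, c2, c3⟩ := H'.split h1
  have hd : Cm (ρ l) (d : End F V) := c1 ▸ cm_bk _ _ _
  obtain ⟨t, ht⟩ := H'.lemT P.hq (P.K l) (P.qt H' (hz l)) c3 c2 (fun a ha => by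
    convert mul_mem (mul_mem hg (P.K l a ha)) (inv_mem hg) using 1
    rw [mul_inv_rev, inv_inv, mul_assoc, mul_assoc, ← mul_assoc _ d, ← Cm.lf hd]; group) y b
  rw [Units.val_mul, bk_mul_cm (Cm.inv hd), Units.mul_inv_eq_iff_eq_mul, smul_mul_assoc, one_mul, c1] at ht
  have k : ∀ ψ b, bk (ρ i) ψ b g = ψ b • 1 + ψ (nn Q₁ w b) • C - (s * ψ (nn Q₁ w' b)) • C -
      (s * ψ (nn Q₁ w (nn Q₁ w' b))) • (C * C) := fun ψ b => by
    rw [e, mul_sub, mul_one, add_mul, one_mul, mul_smul_comm, mul_assoc, ← mul_assoc C, hC, mul_assoc,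
      ← mul_assoc, ← map_mul]
    simp only [map_add, map_sub, map_smul, bk_cm Cm.one, bk_mul hC, bk_mul (hC.mul hC), smul_smul,
      End.mul_apply]
    abel
  have := H.W0_rk
  have := P.sz.h3
  obtain ⟨x, hx, q⟩ := H.W0_nd.exists_nonsing le_rfl (by omega)
  obtain ⟨x1, x2⟩ := Lc.mem_W0.1 hx
  have e1 := congrArg (bk (ρ i) (B Q₁ x) x) ht
  have e2 := congrArg (bk (ρ i) (B Q₁ w') w') ht
  simp only [map_smul, bk_bk cm.symm, k, nn_apply, x1, x2, H.b, H.b', H.bw', zero_smul, map_zero, mul_zero,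
    add_zero, sub_zero, bk_cm Cm.one, B_comm Q₁ y w', b', one_smul, smul_zero, zero_add] at e1 e2
  haveI := P.nt
  have : t = 0 := by simpa [B_self, P.sz.h2, q] using e1.symm
  rwa [this, zero_smul] at e2

theorem fix_mod (p : ℕ) [Fact p.Prime] [CharP F p] (w : U) (A : Set (End F V))
    (hA : ∀ l, l ≠ i → ∀ a ∈ Gm Q₁, ∀ z ∈ A, lf (ρ l) a * z * ↑(lf (ρ l) a)⁻¹ ∈ A) (hw : Q₁ w = 0)
    (h0 : 0 ∈ A) (h : ∀ D ∈ A, (∀ l, l ≠ i → ∀ y, B Q₁ w y = 0 →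
      lf (ρ l) (eich Q₁ w y) * D = D * lf (ρ l) (eich Q₁ w y)) → D = 0) : Nat.card A ≡ 1 [MOD p] := by
  haveI := P.nt
  convert fix_count (p := p) {x | ∃ l y, l ≠ i ∧ B Q₁ w y = 0 ∧ x = lf (ρ l) (eich Q₁ w y)} (by
    rintro _ ⟨l, y, -, b, rfl⟩ _ ⟨m, x, -, b', rfl⟩
    by_cases e : l = m
    · rw [e, ← map_mul, ← map_mul, eich_mul hw b b', eich_mul hw b' b, add_comm]
    · exact lf_comm (P.comm m l (Ne.symm e)) _ _) (by rintro _ ⟨l, y, -, -, rfl⟩; exact lf_eich_pow p w y) A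
    (by rintro _ ⟨l, y, hl, -, rfl⟩; exact hA l hl _ (P.sz.eich_mem w y))
  exact (Nat.card_eq_one_iff_exists.2 ⟨⟨0, h0, by simp⟩, fun z => Subtype.ext
    (h _ z.2.1 fun l hl y b => z.2.2 _ ⟨l, y, hl, b, rfl⟩)⟩).symm

theorem stab (H : Lc Q₁ Q (ρ i) w w') (hz : ∀ l, ZT Q M (Ln (ρ l) w)) {g : (End F V)ˣ} (hg : g ∈ M)
    (hs : g ∈ Stb (Ln (ρ i) w)) : g ∈ NF (ρ i) := by
  haveI := P.nt
  classical
  obtain ⟨p, hp⟩ := CharP.exists F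
  haveI : Fact p.Prime := ⟨CharP.char_is_prime F p⟩
  obtain ⟨D, hD, d, h, d1, d2, e, h1, h2⟩ := H.part1 P.hq P.le (P.K i) (P.qt H (hz i)) hg hs
  haveI := Fintype.ofFinite (PP Q₁ Q M (ρ i) w)
  have cj : ∀ l, l ≠ i → ∀ a ∈ Gm Q₁, ∀ z ∈ PP Q₁ Q M (ρ i) w,
      lf (ρ l) a * z * ↑(lf (ρ l) a)⁻¹ ∈ PP Q₁ Q M (ρ i) w := fun l hl a ha z hz =>
    PP.conj P.le hz (P.K l a ha) (P.cm hl a)
  have c1 := P.fix_mod p w _ cj H.hw ⟨zero_mem _, fun a ha => ⟨_, P.K i a ha, by simp⟩⟩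
    fun D hD => P.fixed H hz hD
  have sm : ∀ (k : (End F V)ˣ) (E : End F V), (∀ z ∈ PP Q₁ Q M (ρ i) w, k * z * ↑k⁻¹ + E ∈ PP Q₁ Q M (ρ i) w) →
      k * (∑ z : PP Q₁ Q M (ρ i) w, z.1) * ↑k⁻¹ + (Nat.card (PP Q₁ Q M (ρ i) w) : F) • E =
        ∑ z : PP Q₁ Q M (ρ i) w, z.1 := fun k E hk => by
    refine Eq.trans ?_ (Fintype.sum_bijective (fun z : PP Q₁ Q M (ρ i) w => (⟨_, hk z.1 z.2⟩ : PP Q₁ Q M (ρ i) w))
      (Finite.injective_iff_bijective.1 fun x y hxy => Subtype.ext (by simpa using hxy))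
      (fun z => k * z.1 * ↑k⁻¹ + E) (fun z => z.1) fun _ => rfl)
    simp [Finset.sum_add_distrib, Finset.mul_sum, Finset.sum_mul, Nat.cast_smul_eq_nsmul]
  have s0 : ∑ z : PP Q₁ Q M (ρ i) w, z.1 = 0 := by
    have m : ∑ z : PP Q₁ Q M (ρ i) w, z.1 ∈ DL Q (Ln (ρ i) w) := sum_mem fun z _ => z.2.1
    obtain ⟨s, hs⟩ := P.scal (bk (ρ i) (B Q₁ w') w' (∑ z : PP Q₁ Q M (ρ i) w, z.1)) fun l => by
      by_cases hl : l = i
      · rw [hl]; exact cm_bk _ _ _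
      refine Cm.bk (P.comm i l (Ne.symm hl)) (P.sz.cm_of_eich fun w y _ _ _ _ => ?_) _ _
      have := sm _ 0 fun z hz => by simpa using cj l hl _ (P.sz.eich_mem w y) z hz
      rw [smul_zero, add_zero, Units.mul_inv_eq_iff_eq_mul] at this
      exact this.symm
    rw [H.DL_eq m, eq_zero_of_ad P.sz.h2 P.nd (C := bk _ _ _ _) (hs ▸ Ad.one.smul s), mul_zero]
    rw [map_sum, ← Finset.sum_neg_distrib]
    exact Finset.sum_induction (s := Finset.univ) (fun z : PP Q₁ Q M (ρ i) w =>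
      (bk (ρ i) (B Q₁ w') w' z.1, -bk (ρ i) (B Q₁ w') w' z.1)) (fun p : End F V × End F V => Ad Q p.1 p.2)
      (fun _ _ h h' => h.add h') Ad.zero (fun z _ => H.skew P.le (P.K i) (cm_bk _ _ _)
        (H.DL_eq z.2.1 ▸ z.2)) |> fun h => by simpa only [Prod.fst_sum, Prod.snd_sum] using h
  have := sm g D fun z hz => ⟨add_mem (DL.conj (P.le hg) hs hz.1) hD.1, fun a ha => by
    obtain ⟨b, hb, e1⟩ := h2 a ha
    have m := DL.conj (P.le hg) hs hz.1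
    have e2 : (lf (ρ i) a : End F V) = h * lf (ρ i) b * ↑h⁻¹ := by rw [← e1]; simp [mul_assoc]
    have e3 : 1 + (g * z * ↑g⁻¹ + D) = g * (1 + z) * ↑h⁻¹ := by
      have : (g * ↑h⁻¹ : End F V) = 1 + D := by rw [e, ← d1]; simp
      calc _ = (1 + g * z * ↑g⁻¹) * (g * ↑h⁻¹) := by
            rw [this]; simp [mul_add, add_mul, DL.mul H.LK m hD.1]; abel
        _ = _ := by simp [mul_add, add_mul, mul_assoc]
    have e4 : 1 - (g * z * ↑g⁻¹ + D) = h * (1 - z) * ↑g⁻¹ := by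
      have : (h * ↑g⁻¹ : End F V) = 1 - D := by rw [e, ← d2]; simp
      calc _ = (h * ↑g⁻¹) * (1 - g * z * ↑g⁻¹) := by
            rw [this]; simp [mul_sub, sub_mul, DL.mul H.LK hD.1 m]; abel
        _ = _ := by simp [mul_sub, sub_mul, mul_assoc]
    convert (hz.2 b hb).conj hg using 1
    rw [e2, e3, e4]; simp [mul_assoc]⟩
  rw [s0, mul_zero, zero_mul, zero_add, (CharP.natCast_eq_natCast F p).2 c1, Nat.cast_one, one_smul] at this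
  rw [this, add_zero, Units.val_eq_one] at d1
  rwa [e, d1, one_mul]

end Tp

end Cfsg.Agent.H2.TO
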