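import Cfsg.Agent.H2.TO17

set_option autoImplicit false
set_option linter.unusedSectionVars false
set_option linter.unusedSimpArgs false

/-! Orthogonal tensor frames, part 18: the case where the centre of the radical is not trivial. -/

namespace Cfsg.Agent.H2.TO

open Module Cfsg.Agent.Orth Cfsg.Agent.H1.TW

variable {F : Type*} [Field F] [Finite F] {U : Type*} {V : Type*} [AddCommGroup U] [Module F U]
  [AddCommGroup V] [Module F V] [FiniteDimensional F U] [FiniteDimensional F V]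
  {Q₁ : QuadraticForm F U} {Q : QuadraticForm F V} {σ σ' τ : Fr F U V}
  {M : Subgroup (End F V)ˣ} {L : Submodule F V} {Γ : Subgroup (U ≃ₗ[F] U)} {c : F}

/-- the maps `L^⊥ → L` induced by the radical -/
def NN (Q : QuadraticForm F V) (M : Subgroup (End F V)ˣ) (L : Submodule F V) : AddSubgroup (End F V) where
  carrier := {N | ∃ g ∈ RL Q M L, ∀ x ∈ perp Q L, N x = (g : End F V) x - x}
  add_mem' := fun ⟨g, hg, h1⟩ ⟨h, hh, h2⟩ => ⟨_, mul_mem hg hh, fun x hx => by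
    have := hg.2.1 _ (hh.2.2 x hx)
    rw [map_sub, sub_eq_iff_eq_add] at this
    rw [LinearMap.add_apply, h1 x hx, h2 x hx, Units.val_mul, End.mul_apply, this]; abel⟩
  zero_mem' := ⟨1, one_mem _, fun _ _ => by simp⟩
  neg_mem' := fun ⟨g, hg, h1⟩ => ⟨_, inv_mem hg, fun x hx => by
    have := (inv_mem hg).2.1 _ (hg.2.2 x hx)
    rw [map_sub, inv_app] at this
    rw [LinearMap.neg_apply, h1 x hx, ← this, neg_sub]⟩

/-- the central part of the radical -/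
def ZZ (Q : QuadraticForm F V) (M : Subgroup (End F V)ˣ) {L : Submodule F V} (hL : L ≤ perp Q L) :
    AddSubgroup (End F V) where
  carrier := {D | D ∈ DL Q L ∧ IM M (1 + D)}
  add_mem' := fun ha hb => ⟨add_mem ha.1 hb.1, by
    simpa [mul_add, add_mul, DL.mul hL ha.1 hb.1, add_assoc] using ha.2.mul hb.2⟩
  zero_mem' := ⟨zero_mem _, by simpa using IM.one⟩
  neg_mem' := fun ha => ⟨neg_mem ha.1, by simpa [sub_eq_add_neg] using IM.neg (DL.mul hL ha.1 ha.1) ha.2⟩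

/-- the subgroup of automorphisms -/
def tM (M : Subgroup (End F V)ˣ) : Subgroup (V ≃ₗ[F] V) where
  carrier := {g | tu g ∈ M}
  mul_mem' ha hb := M.mul_mem ha hb
  one_mem' := M.one_mem
  inv_mem' ha := M.inv_mem ha

theorem tM_le (h2 : (2 : F) ≠ 0) (hM : M ≤ OU Q) : tM M ≤ O Q := fun g hg =>
  OO.mem_O_of_B h2 (@hM (tu g) hg)

theorem tu_mem {g : V ≃ₗ[F] V} (hg : g ∈ O Q) : tu g ∈ OU Q := fun _ _ => O_B hg _ _

/-- the whole radical lies in `M` -/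
def FL (Q : QuadraticForm F V) (M : Subgroup (End F V)ˣ) (L : Submodule F V) : Prop :=
  ∀ v ∈ L, ∀ x ∈ perp Q L, eich Q v x ∈ tM M

section
variable {N : End F V} {h p : (End F V)ˣ}

theorem NN.congr (hN : N ∈ NN Q M L) {N' : End F V} (h : ∀ x ∈ perp Q L, N' x = N x) : N' ∈ NN Q M L :=
  hN.imp fun _ hg => ⟨hg.1, fun x hx => (h x hx).trans (hg.2 x hx)⟩

theorem NN.mem (hN : N ∈ NN Q M L) {x : V} (hx : x ∈ perp Q L) : N x ∈ L := by
  obtain ⟨g, hg, h⟩ := hN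
  rw [h x hx]; exact hg.2.2 x hx

theorem NN.conj (hM : M ≤ OU Q) (hp : p ∈ M) (hs : p ∈ Stb L) (hN : N ∈ NN Q M L) :
    p * N * ↑p⁻¹ ∈ NN Q M L := by
  obtain ⟨g, hg, h⟩ := hN
  exact ⟨_, RL.conj hM hp hs hg, fun x hx => by simp [h _ (inv_mem (Stb.perp (hM hp) hs) x hx)]⟩

theorem NN.act (hM : M ≤ OU Q) (hL : L ≤ perp Q L) (hp : p ∈ M) (hs : p ∈ Stb L)
    (h : ∀ x ∈ perp Q L, (p : End F V) x - x ∈ L) (hN : N ∈ NN Q M L) : p * N ∈ NN Q M L := by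
  have := NN.conj hM hp hs hN
  obtain ⟨g, hg, h1⟩ := hN
  refine NN.congr this fun x hx => ?_
  have h2 := inv_mem (Stb.perp (hM hp) hs) x hx
  have h3 := h _ h2
  rw [app_inv] at h3
  have h4 := hg.2.1 _ h3
  rw [End.mul_apply, End.mul_apply, End.mul_apply, h1 x hx, h1 _ h2]
  congr 1
  rw [map_sub] at h4
  linear_combination (norm := abel) h4

theorem FL.map (h2 : (2 : F) ≠ 0) (hM : M ≤ OU Q) (h : FL Q M L) (hp : p ∈ M) :
    FL Q M (L.map (p : End F V)) := by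
  rintro _ ⟨v, hv, rfl⟩ x hx
  have := eich_conj_mem (tM_le h2 hM) (g := te p) hp (h v hv ((↑p⁻¹ : End F V) x) fun y hy => by
    rw [← OU.ad (hM hp)]; exact hx _ ⟨y, hy, rfl⟩)
  simpa using this

theorem OU.nn (hp : p ∈ OU Q) (v : V) : p * nn Q v * ↑p⁻¹ = nn Q ((p : End F V) v) := by
  ext x; simp [OU.ad hp v]

theorem FL_of_NN (h2 : (2 : F) ≠ 0) (nd : Nd Q) (hM : M ≤ OU Q) (hL : L ≤ perp Q L)
    (hK : ¬ perp Q L ≤ L) (h : ∀ v ∈ L, ∀ x ∈ perp Q L, r1 v (B Q x) ∈ NN Q M L) : FL Q M L := by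
  obtain ⟨x₁, h1, x₂, h3, h4⟩ : ∃ x₁ ∈ perp Q L, ∃ x₂ ∈ perp Q L, B Q x₁ x₂ = 1 := by
    by_contra! hn
    refine hK fun x hx => nd.perp_perp L ▸ fun y hy => by_contra fun h0 => ?_
    exact hn _ (Submodule.smul_mem _ (B Q y x)⁻¹ hy) x hx (by simp [h0])
  have k : ∀ {g h : (End F V)ˣ} {v v' x x' : V}, h ∈ RL Q M L → x ∈ perp Q L → B Q x' x = 1 →
      (∀ z ∈ perp Q L, r1 v (B Q x) z = (g : End F V) z - z) →
      (∀ z ∈ perp Q L, r1 v' (B Q x') z = (h : End F V) z - z) →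
      ((g : End F V) - 1) * (h - 1) = -r1 v (B Q v') := fun {g h v v' x x'} hh hx b e e' => by
    ext z
    have a1 := (inv_mem hh).2.1 _ (hh.2.2 x hx)
    rw [map_sub, inv_app, ← e' x hx, r1_apply, b, one_smul] at a1
    have a2 := e _ (RL.sub_K (hM hh.1) hh z)
    rw [r1_apply, map_sub, ← (OU.ad (hM hh.1)).symm, show (↑h⁻¹ : End F V) x = x - v' by rw [← a1]; abel] at a2
    simpa using a2.symm
  have k2 : ∀ v ∈ L, ∀ v' ∈ L, eN Q v v' ∈ ZZ Q M hL := fun v hv v' hv' => by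
    obtain ⟨g, hg, e⟩ := h v hv x₁ h1
    obtain ⟨g', hg', e'⟩ := h v' hv' x₂ h3
    have := RL.comm hM hg hg'
    rw [RL.comm_eq hg hg', k hg' h1 (B_comm Q x₁ x₂ ▸ h4) e e', k hg h3 h4 e' e, neg_sub_neg] at this
    exact this
  intro v hv x hx
  have hv0 : Q v = 0 := mul_left_cancel₀ h2 (by rw [← B_self, hL hv v hv, mul_zero])
  obtain ⟨g, hg, e⟩ := neg_mem (h v hv x hx)
  have o : g⁻¹ * tu (eich Q v x) ∈ OU Q := mul_mem (inv_mem (hM hg.1)) (tu_mem (eich_mem_O _ _))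
  obtain ⟨D, hD⟩ : ∃ D, ((g⁻¹ * tu (eich Q v x) : (End F V)ˣ) : End F V) = 1 + D := ⟨_, (add_sub_cancel _ _).symm⟩
  have d2 : ∀ z ∈ perp Q L, D z = 0 := fun z hz => by
    have a1 := e z hz
    have a2 := LinearMap.congr_fun hD z
    simp only [Units.val_mul, End.mul_apply, tu_val, LinearEquiv.coe_coe,
      eich_apply_of_perp_left hv0 (hx v hv) (hz v hv)] at a2
    rw [show z - B Q x z • v = (g : End F V) z by simp at a1; rw [sub_eq_add_neg, a1]; abel] at a2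
    simpa using a2
  have d1 : ∀ z, D z ∈ L := fun z => nd.perp_perp L ▸ fun y hy => by
    have := o y z
    simpa [hD, d2 y hy] using this
  have sk := skew_of_im (M := OU Q) le_rfl (DL.mul hL ⟨d1, d2⟩ ⟨d1, d2⟩) ⟨_, o, hD⟩
  obtain ⟨π, p1, p2⟩ := exists_proj L
  choose m hm using fun i => OO.exists_B_eq nd ((bs F V).coord i ∘ₗ D)
  have m1 : ∀ i, m i ∈ L := fun i => nd.perp_perp L ▸ fun y hy => by rw [B_comm, hm]; simp [d2 y hy]
  have e1 : D = ∑ i, r1 (π (bs F V i)) (B Q (m i)) := by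
    rw [show D = π * D from LinearMap.ext fun z => (p1 _ (d1 z)).symm]
    conv_lhs => rw [eq_sum_r1 π, Finset.sum_mul]
    simp only [r1_mul', hm]
  have e2 : -D = ∑ i, r1 (m i) (B Q (π (bs F V i))) := sk.unique nd (by
    rw [e1]
    exact Finset.sum_induction (s := Finset.univ) (fun i =>
      (r1 (π (bs F V i)) (B Q (m i)), r1 (m i) (B Q (π (bs F V i))))) (fun p : End F V × End F V => Ad Q p.1 p.2)
      (fun _ _ h h' => h.add h') Ad.zero (fun i _ => ad_r1 _ _) |> fun h => by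
        simpa only [Prod.fst_sum, Prod.snd_sum] using h)
  have e3 : D = ∑ i, eN Q ((2 : F)⁻¹ • m i) (π (bs F V i)) := by
    simp only [eN_smul_left, ← Finset.smul_sum]
    simp only [eN, Finset.sum_sub_distrib, ← e1, ← e2, sub_neg_eq_add, ← two_smul F D, inv_smul_smul₀ h2]
  obtain ⟨u, hu, e4⟩ := (e3 ▸ sum_mem fun i _ => k2 _ (L.smul_mem _ (m1 i)) _ (p2 _) : D ∈ ZZ Q M hL).2
  have := mul_mem hg.1 hu
  rw [Units.ext (e4.trans hD.symm), mul_inv_cancel_left] at this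
  exact this

end

namespace Lc
variable {w w' : U} (H : Lc Q₁ Q σ w w')
include H

theorem NN_smul (hM : M ≤ OU Q) (hK : ∀ a ∈ Gm Q₁, lf σ a ∈ M) (s : F) {N : End F V}
    (hN : N ∈ NN Q M (Ln σ w)) : s • N ∈ NN Q M (Ln σ w) := by
  refine OO.smul_of_sq H.sz.h2 _ (fun t ht N hN => ?_) s hN
  obtain ⟨a, ha, a1, -, a3⟩ := H.torus ht
  refine NN.congr (NN.act hM H.LK (hK a ha) (stb_lf (mul_ne_zero ht ht) a1) (fun x hx => ?_) hN) fun x hx => ?_
  · rw [H.perp_eq] at hx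
    have := Sp_map (R' := F ∙ w) hx (x := (a : U →ₗ[F] U) - (1 : End F U)) fun r hr =>
      H.of_W0 (Z := (F ∙ w).comap ((a : U →ₗ[F] U) - (1 : End F U))) (by
        simp [a1, Submodule.sub_mem, Submodule.smul_mem]) (fun y b b' => by simp [a3 y b b']) r
        (mem_perp_span_singleton.1 hr)
    rw [Sp_span] at this
    simpa [lf_val] using this
  · rw [End.mul_apply, lf_val, Ln_congr (NN.mem hN hx) (y := (t * t) • 1) (by simp [a1])]; simp

theorem levi (hM : M ≤ OU Q) (hK : ∀ a ∈ Gm Q₁, lf σ a ∈ M) {C C' : End F V} (hC : Cm σ C) (hC' : Cm σ C')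
    (h : IM M (1 + σ (nn Q₁ w) * C)) (h' : IM M (1 + σ (nn Q₁ w) * C')) (h0 : C * (C' * C) = 0) {N : End F V}
    (hN : N ∈ NN Q M (Ln σ w)) : C' * C * N ∈ NN Q M (Ln σ w) := by
  obtain ⟨a, ha, s, s0, e⟩ := H.weyl0
  have h1 := h.conj' (hK a ha)
  rw [e C hC] at h1
  have n2 := DL.mul H.symm.LK ((DL _ _).smul_mem s (H.symm.nC_mem hC)) ((DL _ _).smul_mem s (H.symm.nC_mem hC))
  obtain ⟨g, hg, e1⟩ := h'.conj' ((im_iff n2).1 h1)
  have k : ∀ (a b : End F U) (c d : End F V), Cm σ c → σ a * c * (σ b * d) = σ (a * b) * (c * d) :=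
    fun a b c d hc => by rw [map_mul, mul_assoc, ← mul_assoc c, hc]; simp only [mul_assoc]
  have e2 : ∀ x ∈ perp Q (Ln σ w), (g : End F V) x = x - s • σ (r1 w (B Q₁ w')) ((C' * C) x) := fun x hx => by
    have z1 : ∀ {c}, Cm σ c → (σ (nn Q₁ w) * c) x = 0 := fun hc => (H.nC_mem hc).2 x hx
    have z2 : (σ (nn Q₁ w' * nn Q₁ w) * (C * C')) x = 0 := by
      rw [map_mul, mul_assoc, End.mul_apply, z1 (hC.mul hC'), map_zero]
    simp only [e1, un_val, un_inv, add_mul, mul_sub, one_mul, mul_one, smul_mul_assoc, mul_smul_comm,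
      k _ _ _ _ hC, k _ _ _ _ hC', k _ _ _ _ (hC.mul hC'), mul_assoc C, h0, mul_zero, LinearMap.add_apply,
      LinearMap.sub_apply, LinearMap.smul_apply, z1 hC', z2, End.one_apply, smul_zero, add_zero, zero_sub]
    simp [nn, r1_mul, H.b, sub_eq_add_neg]
  have m := sub_mem hN (NN.act hM H.LK hg (fun v hv => by
    rw [e2 v (H.LK hv)]; exact sub_mem hv (Submodule.smul_mem _ _ (r1_mem_Ln _ _ _))) (fun x hx => by
    rw [e2 x hx, sub_sub_cancel_left]; exact neg_mem (Submodule.smul_mem _ _ (r1_mem_Ln _ _ _))) hN)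
  refine NN.congr (H.NN_smul hM hK s⁻¹ m) fun x hx => ?_
  have := NN.mem hN hx
  simp only [LinearMap.smul_apply, LinearMap.sub_apply, End.mul_apply g.1, e2 _ (H.LK this), sub_sub_cancel,
    r1_Ln_one ((hC'.mul hC).mem_Ln this) H.b', inv_smul_smul₀ s0]
  rfl

theorem FL_of_cm [Nontrivial V] (hM : M ≤ OU Q) (hK : ∀ a ∈ Gm Q₁, lf σ a ∈ M)
    (h : ∀ c, Cm σ c → ∀ N ∈ NN Q M (Ln σ w), c * N ∈ NN Q M (Ln σ w)) : FL Q M (Ln σ w) := by
  refine FL_of_NN H.sz.h2 H.nd hM H.LK (fun hn => ?_) fun v hv x hx => ?_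
  · obtain ⟨y, b, q⟩ := H.sz.exists_y H.w0
    obtain ⟨v, hv, v0⟩ := Ln_ne_bot (ρ := σ) (ne_zero_of_Q q)
    refine v0 (Ln_disjoint (φ := (2 * Q₁ y)⁻¹ • B Q₁ y) (by simp [B_comm Q₁ y w, b])
      (by simp [B_self]; field_simp [H.sz.h2]) (hn ?_) hv)
    rw [H.perp_eq]; exact Ln_le_Sp (mem_perp_span_singleton.2 b) hv
  have e1 : r1 v (B Q x) = σ (r1 w (B Q₁ w')) * r1 v (B Q x) * σ 1 * σ (1 - r1 w (B Q₁ w')) := by
    ext z
    have : B Q x (σ (r1 w (B Q₁ w')) z) = 0 := (B_comm _ _ _).trans (hx _ (r1_mem_Ln _ _ _))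
    simp [r1_Ln_one hv H.b', this]
  rw [e1, ← sum_r1, map_sum, Finset.mul_sum, Finset.sum_mul]
  refine sum_mem fun i _ => ?_
  obtain ⟨y, hy⟩ := OO.exists_B_eq H.sz.n1 ((bs F U).coord i ∘ₗ (1 - r1 w (B Q₁ w') : End F U))
  have b : B Q₁ w y = 0 := by rw [B_comm, hy]; simp [H.b']
  rw [sum_r1, sandwich, ← cm_bk, mul_assoc, ← map_mul, r1_mul', ← hy]
  refine h _ (cm_bk _ _ _) _ (NN.congr (neg_mem ⟨_, H.eich_RL b (hK _ (H.sz.eich_mem w y)),
    fun z _ => (rfl : ((lf σ (eich Q₁ w y) : End F V) - 1) z = _)⟩) fun z hz => ?_)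
  have z1 := H.mem_K.1 hz
  rw [H.perp_eq] at hz
  simp [lf_val, eich_coe1 H.hw b, z1, eN, hz (r1 y (B Q₁ w)) fun r hr => by
    simp [mem_perp_span_singleton.1 hr]]

end Lc

end Cfsg.Agent.H2.TO
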