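import Cfsg.Agent.H2.TO18

set_option autoImplicit false
set_option linter.unusedSectionVars false
set_option linter.unusedSimpArgs false

/-! Orthogonal tensor frames, part 19: overgroups of the tensor wreath subgroup. -/

namespace Cfsg.Agent.H2.TO

open Module Cfsg.Agent.Orth Cfsg.Agent.H1.TW

variable {F : Type*} [Field F] [Finite F] {U : Type*} {V : Type*} [AddCommGroup U] [Module F U]
  [AddCommGroup V] [Module F V] [FiniteDimensional F U] [FiniteDimensional F V]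
  {Q₁ : QuadraticForm F U} {Q : QuadraticForm F V} {σ σ' τ : Fr F U V}
  {M : Subgroup (End F V)ˣ} {L : Submodule F V} {Γ : Subgroup (U ≃ₗ[F] U)} {c : F}

theorem map_Ln_lf (a : U ≃ₗ[F] U) (u : U) : (Ln σ u).map (lf σ a : End F V) = Ln σ (a u) := by
  rw [← Ln_cf]
  exact Ln_same (k := tu a) (fun x => by rw [cf_apply, map_mul, map_mul]; rfl) u

theorem cm_conj {p : (End F V)ˣ} (hp : p ∈ NF σ) {z : End F V} (hz : Cm σ z) : Cm σ (p * z * ↑p⁻¹) :=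
  (Same.symm hp).cm (hz.cf p)

variable {T : Type*} [Fintype T] [DecidableEq T] {ρ : T → Fr F U V}

namespace Tp
variable (P : Tp Q₁ Q ρ M Γ c) {w w' : U} {i : T}
include P

theorem move {i j : T} {p : (End F V)ˣ} (hp : p ∈ M) (hs : Same (ρ j) (cf p (ρ i))) {w w₂ : U} (hw : Q₁ w = 0)
    (h0 : w ≠ 0) (hw₂ : Q₁ w₂ = 0) (h2 : w₂ ≠ 0) : ∃ a ∈ Gm Q₁,
    (Ln (ρ i) w).map ((lf (ρ j) a * p : (End F V)ˣ) : End F V) = Ln (ρ j) w₂ := by
  haveI := P.nt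
  obtain ⟨k, μ, hk, -, -, e⟩ := same_conf P.sz P.nd (P.adj j) ((P.adj i).cf (P.le hp)) hs
  obtain ⟨a, ha, s, s0, e1⟩ := P.sz.trans (w := k w) (by rw [hk.qq P.sz.h2, hw, mul_zero]) (by simpa) hw₂ h2
  exact ⟨a, ha, by
    rw [Units.val_mul, End.mul_eq_comp, Submodule.map_comp, ← Ln_cf, e, map_Ln_lf, e1, Ln_smul s0]⟩

theorem fam : Fam Q₁ Q ρ Finset.univ :=
  ⟨P.sz, P.nd, P.nt, fun i _ => P.adj i, fun i _ j _ => P.comm i j⟩

theorem cx (hn : -1 ∈ M) (hz : ∀ l w, Q₁ w = 0 → w ≠ 0 → ZT Q M (Ln (ρ l) w)) : Cx Q₁ Q ρ Finset.univ M where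
  toFam := P.fam
  le := P.le
  neg := hn
  K i _ := P.K i
  cls := ⟨c, P.c0, fun i _ u hu => P.mem i _ (P.cl u hu)⟩
  nc g _ c hc i _ := by
    obtain ⟨s, rfl⟩ := P.scal c fun i => hc i (Finset.mem_univ _)
    simpa using Cm.one.smul s
  good i _ j _ g hg w y hw w0 b q a ha e := by
    haveI := P.nt
    obtain ⟨w', h1, h2⟩ := P.sz.partner hw w0
    have H : Lc Q₁ Q (ρ i) w w' := ⟨P.sz, P.nd, P.adj i, hw, h1, h2⟩
    have H' : Lc Q₁ Q (cf g (ρ i)) w w' := ⟨P.sz, P.nd, (P.adj i).cf (P.le hg), hw, h1, h2⟩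
    have e1 := lf_eich_sq (σ := cf g (ρ i)) hw b
    rw [e, lf_val, ← map_one (ρ j), ← map_sub, ← map_mul] at e1
    have e2 := congrArg LinearMap.range e1
    rw [LinearMap.range_smul _ _ (by simp [P.sz.h2, q]), range_nn P.sz.n1 w0, Sp_range_eq] at e2
    obtain ⟨u, u0, e3⟩ := Ln_of_Sp w0 e2
    rw [e3, Sp_span] at e2
    have hu : Q₁ u = 0 := by
      haveI := P.sz.nt
      by_contra hu
      obtain ⟨v, hv, v0⟩ := Ln_ne_bot (ρ := ρ j) u0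
      have := H'.LK (e2 ▸ hv)
      rw [← e2, ← Sp_span, perp_Sp (P.adj j) P.sz.n1 P.nd] at this
      exact v0 (by rw [← pu_fix P.sz.h2 hu hv, this _ fun r hr => by simp [pu, mem_perp_span_singleton.1 hr]])
    obtain ⟨p, hp, s1, -⟩ := P.perm j i
    obtain ⟨k, hk, e4⟩ := P.move hp s1 hu u0 hw w0
    have := P.stab H (fun l => hz l w hw w0) (mul_mem (mul_mem (P.K i k hk) hp) hg) fun v hv => by
      rw [← e4, e2, Ln_cf]; exact ⟨_, ⟨v, hv, rfl⟩, rfl⟩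
    have s2 : Same (ρ i) (cf (lf (ρ i) k * p) (ρ j)) := by
      rw [cf_mul]; exact (same_lf k).trans (s1.cf _)
    simpa [← cf_mul, mul_assoc] using (s2.symm.trans this).cf (lf (ρ i) k * p)⁻¹

theorem exists_fixed (H : Lc Q₁ Q (ρ i) w w') (hz : ¬ ZT Q M (Ln (ρ i) w)) : ∃ C, Cm (ρ i) C ∧ C ≠ 0 ∧
    IM M (1 + ρ i (nn Q₁ w) * C) ∧ ∀ l, l ≠ i → C ∈ CA Q₁ (ρ l) w := by
  haveI := P.nt
  obtain ⟨p, hp⟩ := CharP.exists F
  haveI : Fact p.Prime := ⟨CharP.char_is_prime F p⟩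
  by_contra! h
  refine hz fun D h1 h2 => by_contra fun h0 => ?_
  have c1 := P.fix_mod (i := i) p w (ZZ Q M H.LK) (fun l hl a ha z hz => ⟨DL.conj (P.le (P.K l a ha))
    (stb_cm (P.cm hl a) w) hz.1, hz.2.conj' (P.K l a ha)⟩) H.hw (zero_mem _) fun D hD hf => by
      by_contra h0
      have e := H.DL_eq hD.1
      obtain ⟨l, hl, h3⟩ := h _ (cm_bk (B Q₁ w') w' D) (fun h3 => h0 (by rw [e, h3, mul_zero])) (e ▸ hD.2)
      exact h3 (P.CA_C H (cm_bk _ _ _) hl (e ▸ hf l hl))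
  have c2 := addOrderOf_dvd_natCard (⟨D, h1, h2⟩ : ZZ Q M H.LK)
  rw [addOrderOf_eq_prime (p := p) (Subtype.ext (by
    simp [← Nat.cast_smul_eq_nsmul F])) (by simpa [Subtype.ext_iff] using h0)] at c2
  exact (Fact.out : p.Prime).one_lt.ne' (Nat.dvd_one.1 ((c1.dvd_iff dvd_rfl).1 c2))

theorem exists_nil (H : Lc Q₁ Q (ρ i) w w') (hz : ¬ ZT Q M (Ln (ρ i) w)) : ∃ l, l ≠ i ∧ ∃ e, Cm (ρ i) e ∧
    ¬ Cm (ρ l) e ∧ ∀ N ∈ NN Q M (Ln (ρ i) w), e * N ∈ NN Q M (Ln (ρ i) w) := by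
  obtain ⟨C, hC, c0, h1, h2⟩ := P.exists_fixed H hz
  have m : ∀ {C}, Cm (ρ i) C → IM M (1 + ρ i (nn Q₁ w) * C) → ρ i (nn Q₁ w) * C ∈ ZZ Q M H.LK :=
    fun hC h => ⟨H.nC_mem hC, h⟩
  have cj : ∀ {C}, IM M (1 + ρ i (nn Q₁ w) * C) → ∀ l, l ≠ i → ∀ a ∈ Γ,
      IM M (1 + ρ i (nn Q₁ w) * (lf (ρ l) a * C * ↑(lf (ρ l) a)⁻¹)) := fun h l hl a ha => by
    rw [cj_mul (P.cm hl a)]; exact h.conj' (P.mem l a ha)
  obtain ⟨l, hl, a, ha, α, κ, y, hp, he, h3⟩ : ∃ l, l ≠ i ∧ ∃ a ∈ Γ, ∃ α κ y, Pu Q₁ w w' a α κ y ∧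
      (∀ x, B Q₁ w x = 0 → x - α • a⁻¹ x = (κ * B Q₁ y x) • y) ∧ bk (ρ l) (B Q₁ y) w' C ≠ 0 := by
    by_contra! h
    refine c0 (P.zero_of_col H hC ?_ h2 fun l hl y b b' => ?_)
    · obtain ⟨C', h4⟩ := exists_ad P.nd C
      have hC' := h4.cm P.sz.n1 P.nd H.ad hC
      have := (skew_of_im P.le (DL.mul H.LK (H.nC_mem hC) (H.nC_mem hC)) h1).unique P.nd (H.ad_nC hC' h4)
      rwa [eq_neg_of_add_eq_zero_left (H.nC_inj (hC'.add hC) (by rw [mul_add, ← this, neg_add_cancel]))] at h4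
    · obtain ⟨x, hx, s, e, e1⟩ := Submodule.mem_sup.1 (H.span_pu P.toGam
        (Z := (perp Q₁ (F ∙ w') ⊓ LinearMap.ker ((bl (ρ l) C).flip w' ∘ₗ B Q₁)) ⊔ F ∙ w)
        (Submodule.mem_sup_right (Submodule.mem_span_singleton_self w)) (fun a ha α κ y hp he =>
          Submodule.mem_sup_left ⟨mem_perp_span_singleton.2 hp.b', h l hl a ha α κ y hp he⟩) y b)
      obtain ⟨t, rfl⟩ := Submodule.mem_span_singleton.1 e
      subst e1
      have : t = 0 := by simpa [mem_perp_span_singleton.1 hx.1, H.b'] using b'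
      simpa [this, bl_apply] using hx.2
  have H' := P.lc H l
  let A : Set (End F V) := {d | Cm (ρ l) d ∧ ∃ D, Cm (ρ l) D ∧
    Cm (ρ i) (ρ l (eN Q₁ w y) * d + ρ l (nn Q₁ w) * D) ∧
    IM M (1 + ρ i (nn Q₁ w) * (ρ l (eN Q₁ w y) * d + ρ l (nn Q₁ w) * D))}
  obtain ⟨D, hD, e⟩ := H'.pure (h2 l hl) hp he
  have d1 : κ • bk (ρ l) (B Q₁ y) w' C ∈ A := ⟨(cm_bk _ _ _).smul κ, D, hD,
    e ▸ hC.sub (Cm.cj (P.cm hl a) hC), by
      rw [← e, mul_sub]; exact (sub_mem (m hC h1) (m (Cm.cj (P.cm hl a) hC) (cj h1 l hl a ha))).2⟩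
  have d0 := smul_ne_zero hp.k0 h3
  obtain ⟨d', ⟨a1, D', a2, a3, a4⟩, h4⟩ := P.ann' (A := A) (fun k b hb z ⟨z1, Z, z2, z3, z4⟩ => by
    by_cases e1 : k = l
    · rw [e1, lf_val, ← z1, mul_assoc, ← lf_val, Units.mul_inv, mul_one]; exact ⟨z1, Z, z2, z3, z4⟩
    have hk := P.cm e1 b
    by_cases e2 : k = i
    · have : Cm (ρ i) z := by
        have := Cm.bk (P.comm l i hl) z3 (B Q₁ y) w'
        simp only [map_add, bk_mul z1, bk_mul z2, eN_apply, nn_apply, H.b, B_comm Q₁ y w', hp.b', map_sub,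
          map_smul, B_comm Q₁ y w, hp.b, B_self, one_smul, smul_zero, zero_smul, add_zero, sub_zero] at this
        simpa only [inv_smul_smul₀ (mul_ne_zero P.sz.h2 hp.q)] using this.smul (2 * Q₁ y)⁻¹
      rw [e2, lf_val, ← this, mul_assoc, ← lf_val, Units.mul_inv, mul_one]; exact ⟨z1, Z, z2, z3, z4⟩
    refine ⟨Cm.cj hk z1, _, Cm.cj hk z2, ?_⟩
    rw [cj_mul hk, cj_mul hk, ← add_mul, ← mul_add]
    exact ⟨Cm.cj (P.cm e2 b) z3, cj z4 k e2 b hb⟩) d1 d0 d0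
  obtain ⟨b1, D, b2, b3, b4⟩ := d1
  have e1 := H'.pure_mul (c' := d') (C' := D') hp.b b1 b2
  refine ⟨l, hl, _, b3.mul a3, fun hc => h4 ?_, fun N => H.levi P.le (P.K i) a3 b3 a4 b4 ?_⟩
  · have := bk_cm hc (B Q₁ w') w'
    rw [e1, map_smul, H'.bk_nC (b1.mul a1), H.bw', zero_smul] at this
    simpa [P.sz.h2, hp.q] using this
  · have := H'.pure_mul (c' := 0) (C' := -(2 * Q₁ y) • (κ • bk (ρ l) (B Q₁ y) w' C * d')) hp.b a1 a2
    rw [mul_zero, zero_add, mul_smul_comm (-(2 * Q₁ y)), ← e1] at this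
    simpa using this

theorem full_line (H : Lc Q₁ Q (ρ i) w w') (hz : ¬ ZT Q M (Ln (ρ i) w)) : FL Q M (Ln (ρ i) w) := by
  haveI := P.nt
  obtain ⟨l, hl, e, e1, e2, e3⟩ := P.exists_nil H hz
  let I : Submodule F (End F V) :=
    { carrier := {a | Cm (ρ i) a ∧ ∀ N ∈ NN Q M (Ln (ρ i) w), a * N ∈ NN Q M (Ln (ρ i) w)}
      add_mem' := fun ha hb => ⟨ha.1.add hb.1, fun N hN => by
        rw [add_mul]; exact add_mem (ha.2 N hN) (hb.2 N hN)⟩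
      zero_mem' := ⟨Cm.zero, fun N _ => by rw [zero_mul]; exact zero_mem _⟩
      smul_mem' := fun s a ha => ⟨ha.1.smul s, fun N hN => by
        rw [smul_mul_assoc]; exact H.NN_smul P.le (P.K i) s (ha.2 N hN)⟩ }
  have hm : ∀ x ∈ I, ∀ y ∈ I, x * y ∈ I := fun x hx y hy => ⟨hx.1.mul hy.1, fun N hN => by
    rw [mul_assoc]; exact hx.2 _ (hy.2 N hN)⟩
  have cj : ∀ p ∈ M, p ∈ Stb (Ln (ρ i) w) → p ∈ NF (ρ i) → ∀ z ∈ I, p * z * ↑p⁻¹ ∈ I :=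
    fun p hp hs hn z hz => ⟨cm_conj hn hz.1, fun N hN => by
      simpa [mul_assoc] using NN.conj P.le hp hs (hz.2 _ (NN.conj P.le (inv_mem hp) (inv_mem hs) hN))⟩
  have h1 := P.frame_mem hm (fun k => by
    by_cases hk : k = i
    · exact iv_cm fun z hz => hk ▸ hz.1
    · exact fun a ha => cj _ (P.mem k a ha) (stb_cm (P.cm hk a) w) (NF_of_cm (P.cm hk a))) ⟨e1, e3⟩ e2
  refine H.FL_of_cm P.le (P.K i) fun c hc => (P.mem_of (I := I) ⟨Cm.one, by simp⟩ hm (Finset.univ.erase i)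
    (fun k hk x => ?_) c fun k hk => by rwa [show k = i by simpa using hk]).2
  have hk := Finset.ne_of_mem_erase hk
  obtain ⟨p, hp, s1, s2⟩ := P.perm l k
  have s3 := s2 i hl.symm hk.symm
  obtain ⟨a, ha, e4⟩ := P.move hp s3 H.hw H.w0 H.hw H.w0
  have s4 := s1.cf (lf (ρ i) a)
  rw [cf_of_cm' (P.cm hk.symm a), ← cf_mul] at s4
  obtain ⟨u, hu⟩ := s4.symm
  rw [hu, cf_apply]
  exact cj _ (mul_mem (P.K i a ha) hp) (fun v hv => e4 ▸ ⟨v, hv, rfl⟩) (mul_mem (lf_mem_NF a) s3) _ (h1 _)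

theorem exists_pure {w : U} (w0 : w ≠ 0) : ∃ v, v ≠ 0 ∧ Finset.univ.inf (fun l => Ln (ρ l) w) = F ∙ v := by
  haveI := P.nt
  obtain ⟨φ, hφ⟩ := H6.exists_dual_one' (F := F) w0
  have k : ∀ S : Finset T, ∃ E, Idm ρ S E ∧ ∀ x, E x = x ↔ x ∈ S.inf fun l => Ln (ρ l) w := fun S => by
    induction S using Finset.induction_on with
    | empty => exact ⟨1, idm_empty, by simp⟩
    | insert l S hl ih =>
      obtain ⟨E, h1, h2⟩ := ih
      have hc : ∀ k ∈ S, Comm (ρ k) (ρ l) := fun k hk => P.comm k l (by rintro rfl; exact hl hk)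
      refine ⟨_, h1.step (Same.refl _) hc hφ, fun x => ?_⟩
      rw [Finset.inf_insert, Submodule.mem_inf, ← h2, End.mul_apply]
      refine ⟨fun h => ⟨h ▸ r1_mem_Ln _ _ _, ?_⟩, fun h => by rw [h.2, r1_Ln_one h.1 hφ]⟩
      rw [← h, (h1.cm hc).apply, ← End.mul_apply E, h1.id]
  obtain ⟨E, h1, h2⟩ := k Finset.univ
  obtain ⟨v, hv⟩ : ∃ v, E v ≠ 0 := by
    by_contra! h
    exact h1.ne (LinearMap.ext h)
  have e : E (E v) = E v := by rw [← End.mul_apply, h1.id]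
  refine ⟨_, hv, le_antisymm (fun x hx => ?_) ((Submodule.span_singleton_le_iff_mem _ _).2 ((h2 _).1 e))⟩
  obtain ⟨ψ, hψ⟩ := H6.exists_dual_one' (F := F) hv
  obtain ⟨s, hs⟩ := h1.sc (r1 x ψ) fun c hc => by
    obtain ⟨s, rfl⟩ := P.scal c fun i => hc i (Finset.mem_univ _)
    simp
  exact Submodule.mem_span_singleton.2 ⟨s, by simpa [e, hψ, (h2 x).2 hx] using (LinearMap.congr_fun hs (E v)).symm⟩

theorem EO_le (h5 : 5 ≤ finrank F V) (H : Lc Q₁ Q (ρ i) w w') (hz : ¬ ZT Q M (Ln (ρ i) w)) : EO Q ≤ tM M := by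
  have h1 : ∀ l, FL Q M (Ln (ρ l) w) := fun l => by
    obtain ⟨p, hp, s1, -⟩ := P.perm i l
    obtain ⟨a, ha, e⟩ := P.move hp s1 H.hw H.w0 H.hw H.w0
    exact e ▸ (P.full_line H hz).map P.sz.h2 P.le (mul_mem (P.K l a ha) hp)
  obtain ⟨v, v0, e⟩ := P.exists_pure H.w0
  have hv : ∀ l, v ∈ Ln (ρ l) w := fun l =>
    Finset.inf_le (f := fun l => Ln (ρ l) w) (Finset.mem_univ l) (e.ge (Submodule.mem_span_singleton_self v))
  have q : Q v = 0 := mul_left_cancel₀ P.sz.h2 (by rw [← B_self, H.LK (hv i) v (hv i), mul_zero])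
  have k : ∀ S : Finset T, ∀ x ∈ perp Q (S.inf fun l => Ln (ρ l) w), B Q v x = 0 ∧ eich Q v x ∈ tM M := fun S => by
    induction S using Finset.induction_on with
    | empty =>
      intro x hx
      rw [Finset.inf_empty, P.nd.perp_top, Submodule.mem_bot] at hx
      simp [hx, eich_zero, one_mem]
    | insert l S hl ih =>
      intro x hx
      rw [Finset.inf_insert, P.nd.perp_inf] at hx
      obtain ⟨a, ha, b, hb, rfl⟩ := Submodule.mem_sup.1 hx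
      exact ⟨by simp [ha v (hv l), (ih b hb).1], eich_mul q (ha v (hv l)) (ih b hb).1 ▸
        mul_mem (h1 l v (hv l) a ha) (ih b hb).2⟩
  have n0 : nn Q v ≠ 0 := fun h => by
    obtain ⟨x, hx⟩ := P.nd.exists_B_ne v0
    simpa [hx, v0] using LinearMap.congr_fun h x
  obtain ⟨_, ⟨g, hg, rfl⟩, h2⟩ := P.ann' (A := {d | ∃ g ∈ M, d = nn Q ((g : End F V) v)}) (by
    rintro l a ha _ ⟨g, hg, rfl⟩
    exact ⟨_, mul_mem (P.mem l a ha) hg, OU.nn (P.le (P.mem l a ha)) _⟩) ⟨1, one_mem _, rfl⟩ n0 n0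
  exact EO_le_of_full_of_move P.nd h5 (tM_le P.sz.h2 P.le) q
    (fun x hx => (k _ x (e ▸ mem_perp_span_singleton.2 hx)).2) (g := te g) hg fun h => h2 (by
      rw [nn, nn, r1_mul, show B Q v ((g : End F V) v) = 0 from h, zero_smul])

theorem main (h5 : 5 ≤ finrank F V) (hn : -1 ∈ M) : M ≤ HH P.fam ∨ EO Q ≤ tM M := by
  by_cases hz : ∀ l w, Q₁ w = 0 → w ≠ 0 → ZT Q M (Ln (ρ l) w)
  · exact Or.inl (P.cx hn hz).main
  push Not at hz
  obtain ⟨l, w, hw, w0, hz⟩ := hz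
  obtain ⟨w', h1, h2⟩ := P.sz.partner hw w0
  exact Or.inr (P.EO_le h5 ⟨P.sz, P.nd, P.adj l, hw, h1, h2⟩ hz)

end Tp

end Cfsg.Agent.H2.TO
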