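import Cfsg.Agent.H2.TO1

set_option autoImplicit false
set_option linter.unusedSectionVars false
set_option linter.unusedSimpArgs false

/-! Orthogonal tensor frames, part 2: normalisers of frames. -/

namespace Cfsg.Agent.H2.TO

open Module Cfsg.Agent.Orth Cfsg.Agent.H1.TW

variable {F : Type*} [Field F] {U V : Type*} [AddCommGroup U] [Module F U] [AddCommGroup V]
  [Module F V] [FiniteDimensional F U] [FiniteDimensional F V]
  {Q₁ : QuadraticForm F U} {Q : QuadraticForm F V} {ρ σ σ' τ : Fr F U V}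

/-- hypotheses on the factor -/
structure Sz (Q₁ : QuadraticForm F U) : Prop where
  h2 : (2 : F) ≠ 0
  n1 : Nd Q₁
  h3 : 3 ≤ finrank F U
  h4 : finrank F U = 4 → ∀ T, TS Q₁ T → finrank F T ≤ 1
  hq : finrank F U = 3 → ∃ t : F, t ≠ 0 ∧ t * t ≠ 1

theorem Sz.nt (h : Sz Q₁) : Nontrivial U := Module.nontrivial_of_finrank_pos (R := F) (by
  have := h.h3; omega)

/-- conformal maps -/
def Conf (Q₁ : QuadraticForm F U) (a : U ≃ₗ[F] U) (μ : F) : Prop :=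
  μ ≠ 0 ∧ ∀ x y, B Q₁ (a x) (a y) = μ * B Q₁ x y

theorem Conf.qq (h2 : (2 : F) ≠ 0) {a : U ≃ₗ[F] U} {μ : F} (h : Conf Q₁ a μ) (x : U) :
    Q₁ (a x) = μ * Q₁ x :=
  mul_left_cancel₀ h2 (by rw [← B_self, h.2, B_self]; ring)

theorem Conf.inv {a : U ≃ₗ[F] U} {μ : F} (h : Conf Q₁ a μ) (x y : U) :
    B Q₁ x (a⁻¹ y) = μ⁻¹ * B Q₁ (a x) y := by
  conv_rhs => rw [← apply_inv_apply a y, h.2, ← mul_assoc, inv_mul_cancel₀ h.1, one_mul]

theorem conf_of_O {a : U ≃ₗ[F] U} (h : a ∈ O Q₁) : Conf Q₁ a 1 :=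
  ⟨one_ne_zero, fun x y => by rw [O_B h, one_mul]⟩

theorem Conf.refl (h2 : (2 : F) ≠ 0) {a : U ≃ₗ[F] U} {μ : F} (h : Conf Q₁ a μ) (u : U) :
    a * refl Q₁ u * a⁻¹ = refl Q₁ (a u) := by
  ext x
  rw [mul_app, mul_app, refl_apply, refl_apply, map_sub, map_smul, apply_inv_apply, h.qq h2, h.inv]
  congr 2
  rw [mul_inv]; ring

theorem Conf.eich (h2 : (2 : F) ≠ 0) {a : U ≃ₗ[F] U} {μ : F} (h : Conf Q₁ a μ) {w y : U}
    (hw : Q₁ w = 0) (hy : B Q₁ w y = 0) :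
    a * eich Q₁ w y * a⁻¹ = eich Q₁ (a w) (μ⁻¹ • a y) := by
  ext x
  rw [mul_app, mul_app, eich_apply hw hy, eich_apply (by rw [h.qq h2, hw, mul_zero])
    (by simp [h.2, hy])]
  have := h.1
  simp only [map_sub, map_add, map_smul, apply_inv_apply, h.inv, Q_smul, h.qq h2,
    LinearMap.smul_apply, smul_eq_mul]
  match_scalars <;> field_simp

theorem scal_of_cm [Nontrivial V] {x : End F U} (h : Cm σ (σ x)) : ∃ s : F, x = s • 1 :=
  scalar_of_central fun w => H1.TW.rho_injective (ρ := σ) (by rw [map_mul, map_mul, h w])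

theorem nz_mul {x : End F U} {c : End F V} (hc : Cm σ c) (hx : x ≠ 0) (h : σ x * c = 0) :
    c = 0 := by
  obtain ⟨u, hu⟩ : ∃ u, x u ≠ 0 := by
    by_contra! h0
    exact hx (LinearMap.ext h0)
  obtain ⟨φ, hφ⟩ := H6.exists_dual_one' (F := F) hu
  refine hc.eq_zero' hu (χ := φ ∘ₗ x) (fun h0 => by
    simpa [hφ] using LinearMap.congr_fun h0 u) ?_
  rw [← r1_mul', map_mul, mul_assoc, h, mul_zero]

theorem rho_ne_zero [Nontrivial V] {x : End F U} (hx : x ≠ 0) : σ x ≠ 0 := fun h =>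
  hx (H1.TW.rho_injective (ρ := σ) (by rw [h, map_zero]))

theorem same_iff_lf : Same σ σ' ↔ ∃ a : U ≃ₗ[F] U, σ' = cf (lf σ a) σ := by
  constructor
  · rintro ⟨k, hk⟩
    exact ⟨te k, AlgHom.ext fun x => by rw [hk, cf_apply, map_mul, map_mul]; rfl⟩
  · rintro ⟨a, rfl⟩
    exact same_lf a

section
variable [Nontrivial V]

theorem same_conf (hz : Sz Q₁) (nd : Nd Q) (h : Adj Q₁ Q σ) (h' : Adj Q₁ Q σ') (hs : Same σ σ') :
    ∃ a μ, Conf Q₁ a μ ∧ (∀ b, lf σ' b = lf σ (a * b * a⁻¹)) ∧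
      (∀ x, σ' x = σ ((a : End F U) * x * ((a⁻¹ : U ≃ₗ[F] U) : End F U))) ∧
      ∀ u, Ln σ' u = Ln σ (a u) := by
  haveI := hz.nt
  obtain ⟨k, hk⟩ := hs
  obtain ⟨μ, h1, h2⟩ := conf_of_same hz.n1 nd h h' hk
  exact ⟨te k, μ, ⟨h1, h2⟩, fun b => Units.ext (hk _), hk, Ln_same hk⟩

theorem dec (hz : Sz Q₁) (nd : Nd Q) (h : Adj Q₁ Q σ) {g : (End F V)ˣ} (hg : g ∈ OU Q)
    (hs : Same σ (cf g σ)) : ∃ (a : U ≃ₗ[F] U) (μ : F) (c : (End F V)ˣ), Conf Q₁ a μ ∧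
      Cm σ (c : End F V) ∧ g = lf σ a * c := by
  obtain ⟨a, μ, h1, -, h2, -⟩ := same_conf hz nd h (h.cf hg) hs
  refine ⟨a, μ, (lf σ a)⁻¹ * g, h1, fun x => ?_, by simp⟩
  have := h2 x
  rw [cf_apply, Units.mul_inv_eq_iff_eq_mul] at this
  rw [Units.val_mul, mul_assoc, this, lf_inv_val, ← mul_assoc, ← mul_assoc, ← map_mul, ← map_mul]
  congr 2
  ext; simp

/-- scalar multiples -/
def sm (t : F) (ht : t ≠ 0) : U ≃ₗ[F] U := LinearEquiv.smulOfNeZero F U t ht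

@[simp] theorem sm_apply (t : F) (ht : t ≠ 0) (x : U) : sm t ht x = t • x := rfl

theorem lf_sm (t : F) (ht : t ≠ 0) : (lf σ (sm t ht) : End F V) = t • 1 := by
  rw [lf_val, show ((sm t ht : U ≃ₗ[F] U) : U →ₗ[F] U) = t • (1 : End F U) from rfl, map_smul,
    map_one]

theorem dec_sq (hz : Sz Q₁) {g c : (End F V)ˣ} {a : U ≃ₗ[F] U} {t : F} (ha : Conf Q₁ a (t * t))
    (hc : Cm σ (c : End F V)) (h : g = lf σ a * c) :
    ∃ a' ∈ O Q₁, ∃ c' : (End F V)ˣ, Cm σ (c' : End F V) ∧ g = lf σ a' * c' ∧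
      ∀ x, t • a' x = a x := by
  have ht : t ≠ 0 := fun h0 => ha.1 (by rw [h0, mul_zero])
  refine ⟨a * sm t⁻¹ (inv_ne_zero ht), OO.mem_O_of_B hz.h2 fun x y => ?_, lf σ (sm t ht) * c, ?_,
    ?_, fun x => by simp [mul_app, smul_smul, ht]⟩
  · simp only [mul_app, sm_apply, map_smul, LinearMap.smul_apply, ha.2, smul_eq_mul]
    field_simp
  · rw [Units.val_mul, lf_sm]
    exact (Cm.one.smul t).mul hc
  · rw [h, ← mul_assoc, ← map_mul]
    congr 2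
    ext x; simp [mul_app, smul_smul, ht]

theorem lf_mul_pow {c : (End F V)ˣ} (hc : Cm σ (c : End F V)) (a : U ≃ₗ[F] U) (n : ℕ) :
    (lf σ a * c) ^ n = lf σ (a ^ n) * c ^ n := by
  rw [Commute.mul_pow (Cm.lf hc a).symm, map_pow]

theorem Cm.pow {c : End F V} (hc : Cm σ c) (n : ℕ) : Cm σ (c ^ n) := by
  induction n with
  | zero => rw [pow_zero]; exact Cm.one
  | succ n ih => rw [pow_succ]; exact ih.mul hc

theorem scal_of_eq {c : (End F V)ˣ} (hc : Cm σ (c : End F V)) {a : U ≃ₗ[F] U}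
    (h : lf σ a * c = 1) : ∃ s : F, ∀ x, a x = s • x := by
  have : lf σ a = c⁻¹ := eq_inv_of_mul_eq_one_left h
  obtain ⟨s, hs⟩ := scal_of_cm (σ := σ) (x := (a : U →ₗ[F] U)) (by
    rw [← lf_val, this]; exact Cm.inv hc)
  exact ⟨s, fun x => LinearMap.congr_fun hs x⟩

theorem O_scal (hz : Sz Q₁) {a : U ≃ₗ[F] U} (ha : a ∈ O Q₁) {s : F} (h : ∀ x, a x = s • x) :
    s = 1 ∨ s = -1 := by
  obtain ⟨u, -, hu⟩ := hz.n1.ndOn_top.exists_nonsing le_rfl (by have := hz.h3; simp; omega)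
  have := ha u
  rw [h, Q_smul] at this
  exact mul_self_eq_one_iff.1 (mul_right_cancel₀ hu (by rw [this, one_mul]))

/-- elements of odd order -/
theorem dec_odd (hz : Sz Q₁) (nd : Nd Q) (h : Adj Q₁ Q σ) {g : (End F V)ˣ} (hg : g ∈ OU Q)
    (hs : Same σ (cf g σ)) {n : ℕ} (hn : Odd n) (h1 : g ^ n = 1) :
    ∃ a ∈ O Q₁, ∃ c : (End F V)ˣ, Cm σ (c : End F V) ∧ g = lf σ a * c ∧ a ^ n = 1 ∧ c ^ n = 1 := by
  obtain ⟨a, μ, c, h2, h3, h4⟩ := dec hz nd h hg hs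
  have hp : ∀ m : ℕ, Conf Q₁ (a ^ m) (μ ^ m) := fun m => by
    induction m with
    | zero => simpa using conf_of_O (one_mem _)
    | succ m ih => exact ⟨pow_ne_zero _ h2.1, fun x y => by
        rw [pow_succ, mul_app, mul_app, ih.2, h2.2]; ring⟩
  have h5 := h1
  rw [h4, lf_mul_pow h3] at h5
  obtain ⟨s, hs'⟩ := scal_of_eq (by rw [Units.val_pow_eq_pow_val]; exact Cm.pow h3 n) h5
  obtain ⟨u, -, hu⟩ := hz.n1.ndOn_top.exists_nonsing le_rfl (by have := hz.h3; simp; omega)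
  have h6 := (hp n).qq hz.h2 u
  rw [hs', Q_smul] at h6
  replace h6 := mul_right_cancel₀ hu h6
  obtain ⟨m, rfl⟩ := hn
  have hμ := h2.1
  obtain ⟨a', h7, c', h8, h9, -⟩ := dec_sq hz (t := s / μ ^ m) (a := a) (by
    convert h2 using 1
    field_simp
    rw [pow_two, h6]; ring) h3 h4
  have h10 := h1
  rw [h9, lf_mul_pow h8] at h10
  obtain ⟨s', hs''⟩ := scal_of_eq (by rw [Units.val_pow_eq_pow_val]; exact Cm.pow h8 _) h10
  have key : ∀ (a : U ≃ₗ[F] U) (c : (End F V)ˣ), Cm σ (c : End F V) → g = lf σ a * c →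
      a ^ (2 * m + 1) = 1 → c ^ (2 * m + 1) = 1 := fun a c hc e h => by
    rw [e, lf_mul_pow hc, h, map_one, one_mul] at h1
    exact h1
  rcases O_scal hz (pow_mem h7 _) hs'' with rfl | rfl
  · have : a' ^ (2 * m + 1) = 1 := by ext x; simp [hs'']
    exact ⟨a', h7, c', h8, h9, this, key _ _ h8 h9 this⟩
  · have : (OO.ng F U * a') ^ (2 * m + 1) = 1 := by
      rw [Commute.mul_pow (OO.ng_comm a'), pow_succ (OO.ng F U), pow_mul, pow_two, OO.ng_mul_self,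
        one_pow, one_mul]
      ext x
      rw [mul_app, hs'']; simp [OO.ng]
    have e : g = lf σ (OO.ng F U * a') * (-c') := by rw [lf_neg, h9]; simp
    have hc : Cm σ ((-c' : (End F V)ˣ) : End F V) := fun x => by simp [h8 x]
    exact ⟨_, mul_mem (OO.ng_mem_O _) h7, -c', hc, e, this, key _ _ hc e this⟩

theorem Ln_ne_of_comm (h3 : 3 ≤ finrank F U) (h : Comm σ σ') {u u' : U} (hu' : u' ≠ 0) :
    ¬ Ln σ u = Ln σ' u' := by
  intro e
  obtain ⟨b, α, β, h1, h2, h4, h5⟩ := exists_partner h3 hu'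
  obtain ⟨v, hv, hv0⟩ := Ln_ne_bot (ρ := σ') hu'
  have h6 : σ' (r1 b α) v ∈ Ln σ' u' := e ▸ (h _).mem_Ln (e ▸ hv)
  have h7 := Ln_disjoint h2 h1 (r1_mem_Ln b α v) h6
  have := congrArg (σ' (r1 u' β)) h7
  rw [rho_r1_apply, h5, one_smul, r1_Ln_one hv h1, map_zero] at this
  exact hv0 this

theorem ex4 (h3 : 3 ≤ finrank F U) {τ₁ τ₂ τ₃ : Fr F U V} (h1 : Comm σ τ₁) (h2 : Comm σ τ₂)
    (h4 : Comm σ τ₃) (h5 : Comm τ₂ τ₁) (h6 : Comm τ₂ τ₃) (h7 : H1.TW.Rel τ₁ τ₃) {u : U} (hu : u ≠ 0)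
    (φ : Dual F U) : ∃ y, y ≠ 0 ∧ y ∈ Ln σ u ∧ τ₁ (r1 u φ) y = 0 ∧ τ₂ (r1 u φ) y = 0 ∧
      τ₃ (r1 u φ) y = 0 := by
  obtain ⟨θ, hθ⟩ := H6.exists_dual_one' (F := F) hu
  have hr : ∀ a : U, a ≠ 0 → r1 a θ ≠ 0 := fun a ha h => ha (by
    simpa [hθ] using LinearMap.congr_fun h u)
  obtain ⟨b, hb, hb', -⟩ := exists_vec_two h3 φ φ
  obtain ⟨z, z0, z1, z2, z3, z4⟩ : ∃ z : End F V, z ≠ 0 ∧ Cm σ z ∧ Cm τ₂ z ∧
      τ₁ (r1 u φ) * z = 0 ∧ τ₃ (r1 u φ) * z = 0 := by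
    rcases h7 with ⟨k, hk⟩ | h7
    · obtain ⟨a, ha, h8, h9⟩ := exists_vec_two h3 φ (φ ∘ₗ (↑k⁻¹ : End F U))
      refine ⟨τ₁ (r1 a θ), rho_ne_zero (hr a ha), h1 _, h5 _, by rw [rho_r1_mul, h8, zero_smul], ?_⟩
      rw [hk, ← map_mul, mul_assoc, mul_assoc, mul_r1, r1_mul]
      simp only [LinearMap.comp_apply] at h9
      simp [h9]
    · refine ⟨τ₁ (r1 b θ) * τ₃ (r1 b θ), fun h => rho_ne_zero (hr b hb) (nz_mul (h7 _) (hr b hb) h),
        (h1 _).mul (h4 _), (h5 _).mul (h6 _), by rw [← mul_assoc, rho_r1_mul, hb']; simp, ?_⟩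
      rw [← mul_assoc, h7, mul_assoc, rho_r1_mul, hb']; simp
  have h8 : σ (r1 u θ) * (τ₂ (r1 b θ) * z) ≠ 0 := fun h =>
    z0 (nz_mul z2 (hr b hb) (nz_mul ((h2 _).mul z1) (hr u hu) h))
  obtain ⟨v, hv⟩ : ∃ v, (σ (r1 u θ) * (τ₂ (r1 b θ) * z)) v ≠ 0 := by
    by_contra! h
    exact h8 (LinearMap.ext h)
  refine ⟨_, hv, r1_mem_Ln _ _ _, ?_, ?_, ?_⟩ <;> rw [← End.mul_apply, ← mul_assoc]
  · rw [h1, mul_assoc, ← mul_assoc (τ₁ _), h5, mul_assoc, z3]; simp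
  · rw [h2, mul_assoc, ← mul_assoc (τ₂ _), rho_r1_mul, hb']; simp
  · rw [h4, mul_assoc, ← mul_assoc (τ₃ _), h6, mul_assoc, z4]; simp

theorem cf_inv_cf (g : (End F V)ˣ) : cf g⁻¹ (cf g σ) = σ := by
  rw [← cf_mul, inv_mul_cancel, cf_one]

theorem cf_cf_inv (g : (End F V)ˣ) : cf g (cf g⁻¹ σ) = σ := by
  rw [← cf_mul, mul_inv_cancel, cf_one]

/-- an element moving a frame around a cycle of length at least three -/
theorem cubic_move (h3 : 3 ≤ finrank F U) {c : (End F V)ˣ} (h1 : Comm σ (cf c σ))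
    (h2 : Comm σ (cf (c * c) σ)) (h4 : H1.TW.Rel σ (cf (c * c * c) σ)) {α β γ : F}
    (h : (c : End F V) * c * c = α • ((c : End F V) * c) + β • (c : End F V) + γ • 1) :
    α = 0 ∧ β = 0 := by
  obtain ⟨u, hu, -⟩ := exists_vec_two h3 (0 : Dual F U) 0
  obtain ⟨φ, hφ⟩ := H6.exists_dual_one' (F := F) hu
  have sh : ∀ g g' k : (End F V)ˣ, Comm σ (cf k σ) → g * k = g' → Comm (cf g σ) (cf g' σ) :=
    fun g g' k hk e => by rw [← e, cf_mul]; exact hk.cf g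
  have sh0 : ∀ g k : (End F V)ˣ, Comm σ (cf k σ) → g * k = 1 → Comm σ (cf g σ) :=
    fun g k hk e => by simpa using (sh g 1 k hk e).symm
  have ev : ∀ (g k : (End F V)ˣ) (y : V), cf (k⁻¹ * g) σ (r1 u φ) y = 0 →
      cf g σ (r1 u φ) ((k : End F V) y) = 0 := fun g k y hy => by
    have : cf g σ = cf k (cf (k⁻¹ * g) σ) := by rw [← cf_mul, mul_inv_cancel_left]
    rw [this, cf_app, hy, map_zero]
  have ev1 : ∀ (g : (End F V)ˣ) (y : V), y ∈ Ln σ u →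
      cf g σ (r1 u φ) ((g : End F V) y) = (g : End F V) y := fun g y hy => by
    rw [cf_app, r1_Ln_one hy hφ]
  constructor
  · obtain ⟨y, y0, y1, y2, y3, y4⟩ := ex4 (σ := σ) (τ₁ := cf c⁻¹ σ) (τ₂ := cf c σ)
      (τ₃ := cf (c * c) σ) h3 (sh0 _ _ h1 (by simp)) h1 h2
      (sh _ _ _ h2 (by group)).symm (sh _ _ _ h1 rfl)
      (by have := h4.cf c⁻¹; rwa [← cf_mul, show c⁻¹ * (c * c * c) = c * c by group] at this) hu φ
    have e := congrArg (fun z : End F V => cf (c * c) σ (r1 u φ) (z y)) h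
    have e1 := ev (c * c) (c * c * c) y (by rwa [show (c * c * c)⁻¹ * (c * c) = c⁻¹ by group])
    have e2 := ev (c * c) c y (by rwa [inv_mul_cancel_left])
    have e3 := ev1 (c * c) y y1
    simp only [Units.val_mul] at e1 e3
    simp only [LinearMap.add_apply, LinearMap.smul_apply, map_add, map_smul, e1, e2, e3,
      End.one_apply, y4, smul_zero, add_zero] at e
    exact (smul_eq_zero.1 e.symm).resolve_right fun h0 => y0 (unit_eq_zero (c * c) h0)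
  · obtain ⟨y, y0, y1, y2, y3, y4⟩ := ex4 (σ := σ) (τ₁ := cf (c * c)⁻¹ σ) (τ₂ := cf c⁻¹ σ)
      (τ₃ := cf c σ) h3 (sh0 _ _ h2 (by simp)) (sh0 _ _ h1 (by simp)) h1
      (sh _ _ _ h1 (by group)).symm (sh _ _ _ h2 (by group))
      (by have := h4.cf (c * c)⁻¹
          rwa [← cf_mul, show (c * c)⁻¹ * (c * c * c) = c by group] at this) hu φ
    have e := congrArg (fun z : End F V => cf c σ (r1 u φ) (z y)) h
    have e1 := ev c (c * c * c) y (by rwa [show (c * c * c)⁻¹ * c = (c * c)⁻¹ by group])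
    have e2 := ev c (c * c) y (by rwa [show (c * c)⁻¹ * c = c⁻¹ by group])
    have e3 := ev1 c y y1
    simp only [Units.val_mul] at e1 e2
    simp only [LinearMap.add_apply, LinearMap.smul_apply, map_add, map_smul, e1, e2, e3,
      End.one_apply, y4, smul_zero, add_zero, zero_add] at e
    exact (smul_eq_zero.1 e.symm).resolve_right fun h0 => y0 (unit_eq_zero c h0)

end

end Cfsg.Agent.H2.TO
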