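import Cfsg.Agent.H2.TO19
import Cfsg.Agent.H2.Oel10
import Cfsg.Agent.H1.TF17
import Cfsg.Agent.Orth.OO9

set_option autoImplicit false
set_option linter.unusedSectionVars false
set_option linter.unusedSimpArgs false

/-! Orthogonal tensor frames, part 20: the matrix statement. -/

namespace Cfsg.Agent.H2.TO

open Module Cfsg.Agent.Orth Cfsg.Agent.H1.TW

section
variable {F : Type*} [Field F] [Finite F] {U : Type*} {V : Type*} [AddCommGroup U] [Module F U]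
  [AddCommGroup V] [Module F V] [FiniteDimensional F U] [FiniteDimensional F V]
  {Q₁ : QuadraticForm F U} {Q : QuadraticForm F V} {σ σ' τ : Fr F U V}

theorem neg_sim (hQ : Nd Q) (h2 : (2 : F) ≠ 0) {D θ : (V ≃ₗ[F] V) → Prop} (S : Oel.Spin Q D θ) {f : End F V}
    {ε : F} (e0 : ε ≠ 0) (e1 : ¬ IsSquare ε) (n : ℕ) : ∀ (W W' : Submodule F V) (g g' : V ≃ₗ[F] V),
    NdOn Q W → NdOn Q W' → finrank F W = n → finrank F W' = n → g ∈ Oel.OW Q W → g' ∈ Oel.OW Q W' →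
    (∀ v ∈ W, g v = -v) → (∀ v ∈ W', g' v = -v) → (∀ v ∈ W, f v ∈ W') →
    (∀ x ∈ W, ∀ y ∈ W, B Q (f x) (f y) = ε * B Q x y) → ((θ g ↔ θ g') ↔ Even n) := by
  induction n with
  | zero =>
    intro W W' g g' hW hW' d d' hg hg' _ _ _ _
    rw [Submodule.finrank_eq_zero] at d d'
    subst d d'
    rw [Oel.eq_one_of_OW hW hg (by simp), Oel.eq_one_of_OW hW hg' (by simp)]
    simp
  | succ n ih =>
    intro W W' g g' hW hW' d d' hg hg' hn hn' h1 h3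
    obtain ⟨a, ha, qa⟩ := Oel.NdOn.exists_nonsing' hW (by rintro rfl; simp at d)
    have q : Q (f a) = ε * Q a := mul_left_cancel₀ h2 (by rw [← B_self, h3 a ha a ha, B_self]; ring)
    have qa' : Q (f a) ≠ 0 := q ▸ mul_ne_zero e0 qa
    obtain ⟨s1, s2, -⟩ := H8.split_line h2 hW ha qa
    obtain ⟨t1, t2, -⟩ := H8.split_line h2 hW' (h1 a ha) qa'
    obtain ⟨p1, p2⟩ := Oel.neg_peel hQ h2 hg hn ha qa
    obtain ⟨r1, r2⟩ := Oel.neg_peel hQ h2 hg' hn' (h1 a ha) qa'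
    have := ih _ _ _ _ s1 t1 (by omega) (by omega) p1 r1 p2 r2 (fun v hv => ⟨h1 v hv.1,
      mem_perp_span_singleton.2 (by rw [h3 a ha v hv.1, mem_perp_span_singleton.1 hv.2, mul_zero])⟩)
      fun x hx y hy => h3 x hx.1 y hy.1
    rw [S.mθ.refl_mul hg.1 a, S.mθ.refl_mul hg'.1 (f a), S.θ_refl a qa, S.θ_refl _ qa', q,
      Oel.isSquare_mul_iff e0 qa, Nat.even_add_one, ← this]
    tauto

theorem te_mul (a b : (End F V)ˣ) : te (a * b) = te a * te b := rfl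

theorem refl_data [Nontrivial V] (hz : Sz Q₁) (nd : Nd Q) (h : Adj Q₁ Q σ) {u : U} (hu : Q₁ u ≠ 0) :
    NdOn Q (Ln σ u) ∧ te (lf σ (refl Q₁ u)) ∈ Oel.OW Q (Ln σ u) ∧
      ∀ v ∈ Ln σ u, te (lf σ (refl Q₁ u)) v = -v := by
  haveI := hz.nt
  have e : perp Q (Ln σ u) = Sp σ (perp Q₁ (F ∙ u)) := by rw [← Sp_span, perp_Sp h hz.n1 nd]
  refine ⟨ndOn_iff_disjoint.2 ?_, ⟨te_mem hz.h2 (h.lf_mem (refl_mem_O _ _)), fun v hv => ?_⟩,
    fun v hv => mem_EV2.1 ((EV_refl_neg hz.h2 hu).ge hv)⟩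
  · rw [e, ← Sp_span, disjoint_iff, Sp_inf, (ndOn_iff_disjoint.1 (OO.ndOn_one hz.h2 hu)).eq_bot, Sp_bot]
  · rw [e] at hv
    simpa [lf_val] using Sp_congr hv (x := (refl Q₁ u : U →ₗ[F] U)) (y := 1) fun r hr =>
      refl_of_perp (mem_perp_span_singleton.1 hr)

theorem adjust [Nontrivial V] (hz : Sz Q₁) (nd : Nd Q) (h : Adj Q₁ Q σ) (h5 : 5 ≤ finrank F V)
    (ho : Odd (finrank F V)) {g : (End F V)ˣ} (hg : g ∈ OU Q) : ∃ a, te (lf σ a * g) ∈ OO.PM (EO Q) := by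
  have h2 := hz.h2
  obtain ⟨D, θ, S⟩ := Oel.exists_spin nd h5 h2
  obtain ⟨ε, e0, e1⟩ := Oel.exists_nonsquare h2
  obtain ⟨u, hu⟩ := hz.exists_Q 1
  obtain ⟨u', hu'⟩ := hz.exists_Q ε
  have q : Q₁ u ≠ 0 := by simp [hu]
  have q' : Q₁ u' ≠ 0 := by rwa [hu']
  obtain ⟨a1, a2, a3⟩ := refl_data hz nd h q
  obtain ⟨b1, b2, b3⟩ := refl_data hz nd h q'
  have d := finrank_Ln_eq (ρ := σ) (ρ' := σ) (ne_zero_of_Q q') (ne_zero_of_Q q)
  have o : ¬ Even (finrank F (Ln σ u)) := fun e => by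
    rw [finrank_Ln (ρ := σ) (ne_zero_of_Q q)] at ho
    exact Nat.not_even_iff_odd.2 ho (e.mul_left _)
  have c1 := neg_sim nd h2 S (f := (2 : F)⁻¹ • σ (r1 u' (B Q₁ u))) e0 e1 _ _ _ _ _ a1 b1 rfl d a2 b2 a3 b3
    (fun v _ => Submodule.smul_mem _ _ (r1_mem_Ln _ _ _)) fun x hx y hy => by
      simp only [LinearMap.smul_apply, map_smul, h.r1 u' u x, rho_r1_apply, r1_Ln hy, B_self, hu, hu', smul_eq_mul]
      field_simp
  have c2 := S.neg_D nd h2 _ _ _ a1 rfl a2 a3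
  have c3 := S.neg_D nd h2 _ _ _ b1 d b2 b3
  have c4 := S.neg_D nd h2 _ ⊤ (OO.ng F V) nd.ndOn_top (finrank_top F V) ⟨OO.ng_mem_O Q, fun v hv => by
    rw [nd.perp_top, Submodule.mem_bot] at hv; simp [hv]⟩ fun _ _ => rfl
  rw [← Nat.not_odd_iff_even] at c4
  have o1 := te_mem h2 hg
  have o2 := mul_mem (mul_mem a2.1 b2.1) o1
  have k : ∀ x ∈ O Q, x ∈ OO.PM (EO Q) ↔ (D x ∧ θ x) ∨ ((D (OO.ng F V) ↔ D x) ∧ (θ (OO.ng F V) ↔ θ x)) :=
    fun x hx => by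
      rw [← S.mD _ (OO.ng_mem_O Q) _ hx, ← S.mθ _ (OO.ng_mem_O Q) _ hx, ← S.mem _ hx,
        ← S.mem _ (mul_mem (OO.ng_mem_O Q) hx)]; rfl
  by_cases hg : te g ∈ OO.PM (EO Q)
  · exact ⟨1, by simpa using hg⟩
  refine ⟨refl Q₁ u * refl Q₁ u', ?_⟩
  rw [map_mul, te_mul, te_mul, k _ o2, S.mD _ (mul_mem a2.1 b2.1) _ o1, S.mθ _ (mul_mem a2.1 b2.1) _ o1,
    S.mD _ a2.1 _ b2.1, S.mθ _ a2.1 _ b2.1]
  rw [k _ o1] at hg
  have c5 : ¬ D (OO.ng F V) := fun e => c4.1 e ho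
  rw [iff_false_intro (c1.not.2 o), iff_false_intro (c2.not.2 o), iff_false_intro (c3.not.2 o)]
  rw [iff_false_intro c5] at hg ⊢
  generalize D (te g) = x at hg ⊢
  generalize θ (te g) = y at hg ⊢
  generalize θ (OO.ng F V) = z at hg ⊢
  clear * - hg
  tauto

theorem rr_EO (hz : Sz Q₁) (nd : Nd Q) (h : Adj Q₁ Q σ) (h5 : 5 ≤ finrank F V) {x y : U} (hx : Q₁ x ≠ 0)
    (e : Q₁ x = Q₁ y) : te (lf σ (refl Q₁ x * refl Q₁ y)) ∈ EO Q := by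
  obtain ⟨g, hg, e1⟩ := OO.exists_conj_refl hz.h2 hx e
  convert nd.commutator_mem_EO h5 (te_mem hz.h2 (h.lf_mem (refl_mem_O Q₁ x))) (te_mem hz.h2 (h.lf_mem hg))
    using 1
  rw [te_inv, te_inv, ← te_mul, ← te_mul, ← te_mul, ← map_inv, ← map_inv, ← map_mul, ← map_mul, ← map_mul,
    refl_inv, e1]
  simp only [mul_assoc]

variable {T : Type*} [Fintype T] [DecidableEq T] {ρ : T → Fr F U V}

theorem HH_iff (h : Fam Q₁ Q ρ Finset.univ) {g : (End F V)ˣ} : g ∈ HH h ↔ Nm ρ g := by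
  haveI := h.nt
  constructor
  · intro hg
    choose f _ hf using fun i => hg i (Finset.mem_univ i)
    refine ⟨Equiv.ofBijective f (Finite.injective_iff_bijective.1 fun i j e =>
      h.eq_of_same (Finset.mem_univ _) (Finset.mem_univ _) ?_), fun i x => ?_⟩
    · have := ((hf i).symm.trans (show Same (ρ (f i)) (cf g (ρ j)) from e ▸ hf j)).cf g⁻¹
      rwa [cf_inv_cf, cf_inv_cf] at this
    · obtain ⟨k, hk⟩ := hf i
      exact ⟨_, Units.mul_inv_eq_iff_eq_mul _ |>.1 (hk x)⟩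
  · rintro ⟨π, hπ⟩ i -
    refine ⟨π i, Finset.mem_univ _, same_of_range fun x => ?_⟩
    obtain ⟨y, hy⟩ := hπ i x
    exact ⟨y, (Units.mul_inv_eq_iff_eq_mul _ |>.2 hy).symm⟩

/-- the elements whose lifts lie in `± Ω` -/
def GE (Q : QuadraticForm F V) (ρ : T → Fr F U V) (N : Subgroup (V ≃ₗ[F] V)) : Subgroup (U ≃ₗ[F] U) where
  carrier := {a | ∀ i, te (lf (ρ i) a) ∈ N}
  mul_mem' ha hb i := by rw [map_mul]; exact N.mul_mem (ha i) (hb i)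
  one_mem' i := by rw [map_one]; exact N.one_mem
  inv_mem' ha i := by rw [map_inv]; exact N.inv_mem (ha i)

theorem cls_odd (h : Fam Q₁ Q ρ Finset.univ) (h5 : 5 ≤ finrank F V) (ho : Odd (finrank F U)) :
    ∃ c, c ≠ 0 ∧ ∀ u, Q₁ u = c → refl Q₁ u ∈ GE Q ρ (OO.PM (EO Q)) := by
  have k : ∀ x y, Q₁ x ≠ 0 → Q₁ x = Q₁ y → refl Q₁ x * refl Q₁ y ∈ GE Q ρ (EO Q) := fun x y hx e i =>
    rr_EO h.sz h.nd (h.adj i (Finset.mem_univ i)) h5 hx e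
  obtain ⟨u, -, q, A, hA, e, -⟩ := OO.exists_neg h.sz.n1 h.sz.h2 _ k ⊤ h.sz.n1.ndOn_top (by simpa using ho)
  refine ⟨_, q, fun x hx i => Or.inr ?_⟩
  have e0 : refl Q₁ u * A = OO.ng F U := LinearEquiv.ext fun y => e y trivial
  have e2 : refl Q₁ x * refl Q₁ u * A = OO.ng F U * refl Q₁ x := by
    rw [mul_assoc, e0]; ext y; simp [mul_app]
  have e3 := mul_mem (k x u (hx ▸ q) hx) hA i
  rw [e2, lf_neg] at e3
  convert e3 using 1
  ext y; simp [mul_app]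

theorem core (h : Fam Q₁ Q ρ Finset.univ) (scal : ∀ c, (∀ i, Cm (ρ i) c) → ∃ s : F, c = s • 1)
    (hq : 5 ≤ finrank F U ∨ ∃ t : F, t ≠ 0 ∧ t * t ≠ 1) (h5 : 5 ≤ finrank F V)
    (cls : ∃ c, c ≠ 0 ∧ ∀ u, Q₁ u = c → refl Q₁ u ∈ GE Q ρ (OO.PM (EO Q)))
    (perm : ∀ i j, ∃ p, te p ∈ OO.PM (EO Q) ∧ ∀ l, Same (ρ (Equiv.swap i j l)) (cf p (ρ l)))
    {M : Subgroup (V ≃ₗ[F] V)} (h1 : M ≤ EO Q) (h2 : ∀ g ∈ EO Q, Nm ρ (g : End F V) → g ∈ M) :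
    (∀ g ∈ M, Nm ρ (g : End F V)) ∨ EO Q ≤ M := by
  obtain ⟨c, c0, hc⟩ := cls
  let G : Subgroup (End F V)ˣ :=
    { carrier := {g | te g ∈ OO.PM M}
      mul_mem' := fun ha hb => (OO.PM M).mul_mem ha hb
      one_mem' := (OO.PM M).one_mem
      inv_mem' := fun ha => (OO.PM M).inv_mem ha }
  have k : ∀ g ∈ HH h, te g ∈ OO.PM (EO Q) → g ∈ G := fun g hg h3 => h3.imp
    (fun h3 => h2 _ h3 ((HH_iff h).1 hg)) fun h3 => h2 _ h3 ((HH_iff h (g := -1 * g)).1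
      (mul_mem (h.mem_of_NF fun _ _ => NF_of_cm cm_neg_one) hg))
  have P : Tp Q₁ Q ρ G (GE Q ρ (OO.PM (EO Q))) c :=
    { sz := h.sz, hq := hq, c0 := c0, cl := hc, nt := h.nt, scal := scal, nd := h.nd
      gm := (Subgroup.closure_le _).2 (by
        rintro _ ⟨x, y, a, b, rfl⟩ i
        exact Or.inl (rr_EO h.sz h.nd (h.adj i (Finset.mem_univ i)) h5 a b))
      comm := fun i j => h.comm i (Finset.mem_univ _) j (Finset.mem_univ _)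
      adj := fun i => h.adj i (Finset.mem_univ i)
      le := fun g hg => tu_mem (OO.PM_le (h1.trans EO_le_O) (OO.ng_mem_O Q) hg)
      mem := fun i a ha => k _ (h.lf_mem (Finset.mem_univ i) a) (ha i)
      perm := fun i j => by
        obtain ⟨p, p1, p2⟩ := perm i j
        exact ⟨p, k p (fun l _ => ⟨_, Finset.mem_univ _, p2 l⟩) p1, by simpa using p2 i, fun l a b => by
          simpa [Equiv.swap_apply_of_ne_of_ne a b, mem_NF] using p2 l⟩ }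
  refine (P.main h5 (OO.ng_mem_PM M)).imp (fun h3 g hg => (HH_iff h (g := tu g)).1 (h3 (Or.inl hg)))
    fun h3 => EO_le_iff.2 fun u w hu hw => ?_
  have b : B Q u ((2 : F)⁻¹ • w) = 0 := by simp [hw]
  have := OO.sq_mem_of_PM (M := M) (g := eich Q u ((2 : F)⁻¹ • w)) (h3 (eich_mem_EO u ((2 : F)⁻¹ • w)))
  rwa [eich_mul hu b b, ← two_smul F, smul_inv_smul₀ h.sz.h2] at this

theorem proper (h : Fam Q₁ Q ρ Finset.univ) (h5 : 5 ≤ finrank F V) {i : T}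
    (hd : ∀ u, u ≠ 0 → 3 ≤ finrank F (Ln (ρ i) u)) (hp : ∀ u, u ≠ 0 → ∃ v, v ≠ 0 ∧ ∀ l, v ∈ Ln (ρ l) u) :
    ∃ g ∈ EO Q, ¬ Nm ρ (g : End F V) := by
  haveI := h.nt
  obtain ⟨w, hw, w0⟩ := h.sz.exists_sing
  obtain ⟨w', h1, h2⟩ := h.sz.partner hw w0
  have H : Lc Q₁ Q (ρ i) w w' := ⟨h.sz, h.nd, h.adj i (Finset.mem_univ i), hw, h1, h2⟩
  obtain ⟨v, v0, hv⟩ := hp w w0
  have q : ∀ {w w'}, Lc Q₁ Q (ρ i) w w' → ∀ v ∈ Ln (ρ i) w, Q v = 0 := fun H v hv =>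
    mul_left_cancel₀ h.sz.h2 (by rw [← B_self, H.LK hv v hv, mul_zero])
  obtain ⟨x, ⟨x1, x2⟩, x3⟩ := exists_mem_notMem_of_finrank_lt (X := F ∙ v)
    (H := Ln (ρ i) w ⊓ perp Q (F ∙ ρ i (r1 w' (B Q₁ w')) v)) (by
      have := finrank_inf_perp_ge (Q := Q) (Ln (ρ i) w) (F ∙ ρ i (r1 w' (B Q₁ w')) v)
      have := finrank_span_singleton_le (F := F) (ρ i (r1 w' (B Q₁ w')) v)
      have := finrank_span_singleton_le (F := F) v
      have := hd w w0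
      omega)
  have e1 : ρ i (r1 w (B Q₁ w')) (v + ρ i (r1 w' (B Q₁ w')) x) = v := by
    simp [rho_r1_apply, H.bw', r1_Ln_one (hv i) H.b']
  have e2 : ρ i (r1 w (B Q₁ w)) (v + ρ i (r1 w' (B Q₁ w')) x) = x := by
    simp [rho_r1_apply, H.b, r1_Ln_one x1 H.b', r1_Ln_zero (hv i) w H.bw]
  obtain ⟨g, hg, e⟩ := h.nd.EO_trans h5 v0 (y := v + ρ i (r1 w' (B Q₁ w')) x)
    (fun e => v0 (by rw [← e1, e, map_zero])) (by
      rw [Q_add, q H.symm _ (r1_mem_Ln _ _ _), ← H.ad.r1 w' w', mem_perp_span_singleton.1 x2]; simp)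
  refine ⟨g, hg, fun hn => ?_⟩
  letI : StarRing F := starRingOfComm
  obtain ⟨z, z0, hz⟩ := H1.TF.nm_Ln hn w0 hv i
  rw [e] at hz
  have e3 := r1_Ln_zero hz w (φ := B Q₁ w z • B Q₁ w' - B Q₁ w' z • B Q₁ w) (by simp [mul_comm])
  rw [r1_sub_right, r1_smul_right, r1_smul_right, map_sub, map_smul, map_smul, LinearMap.sub_apply,
    LinearMap.smul_apply, LinearMap.smul_apply, e1, e2, sub_eq_zero] at e3
  by_cases h3 : B Q₁ w' z = 0
  · exact v0 (by rw [← e1, r1_Ln_zero hz w h3])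
  · exact x3 (by
      rw [← inv_smul_smul₀ h3 x, ← e3]
      exact Submodule.smul_mem _ _ (Submodule.smul_mem _ _ (Submodule.mem_span_singleton_self v)))

end

end Cfsg.Agent.H2.TO
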