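import Cfsg.Agent.H2.TO20

set_option autoImplicit false
set_option linter.unusedSectionVars false
set_option linter.unusedSimpArgs false

/-! Orthogonal tensor frames, part 21: coordinates. -/

namespace Cfsg.Agent.H2.TO

open Module Cfsg.Agent.Orth Cfsg.Agent.H1.TW Cfsg.Agent.H1.TF
open Cfsg.Agent.H9.Sp (bil bil_eq)

variable {ι : Type} [Fintype ι] [DecidableEq ι] {F : Type*} [Field F] {k t : ℕ}
  {e : ι ≃ (Fin t → Fin k)} {P : GL ι F} {Q₁ : QuadraticForm F (Fin k → F)} {Q : QuadraticForm F (ι → F)}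

/-- the form is a tensor power -/
def TQ (e : ι ≃ (Fin t → Fin k)) (P : GL ι F) (Q₁ : QuadraticForm F (Fin k → F))
    (Q : QuadraticForm F (ι → F)) (c : F) : Prop :=
  ∀ xs ys, B Q (pv e P xs) (pv e P ys) = c * ∏ i, B Q₁ (xs i) (ys i)

theorem ext_pv' (A B' C D : End F (ι → F))
    (H : ∀ xs ys, B Q (A (pv e P xs)) (B' (pv e P ys)) = B Q (C (pv e P xs)) (D (pv e P ys))) (x y : ι → F) :
    B Q (A x) (B' y) = B Q (C x) (D y) :=
  span_pv e P (S := LinearMap.eqLocus (B Q (A x) ∘ₗ B') (B Q (C x) ∘ₗ D))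
    (fun ys => span_pv e P (S := LinearMap.eqLocus ((B Q).flip (B' (pv e P ys)) ∘ₗ A)
      ((B Q).flip (D (pv e P ys)) ∘ₗ C)) (fun xs => H xs ys) x) y

theorem TQ.adj {c : F} (T : TQ e P Q₁ Q c) (i : Fin t) : Adj Q₁ Q (fr e P i) := by
  intro a b h x y
  refine ext_pv' (e := e) (P := P) (fr e P i a) 1 1 (fr e P i b) (fun xs ys => ?_) x y
  simp only [End.one_apply, fr_pv, T _ _]
  refine congrArg _ (Finset.prod_congr rfl fun j _ => ?_)
  by_cases hj : j = i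
  · subst hj; simp [h _ _]
  · simp [Function.update_of_ne hj]

theorem TQ.pm {c : F} (T : TQ e P Q₁ Q c) (σ : Equiv.Perm (Fin t)) : tu (pm e P σ) ∈ OU Q := fun x y => by
  refine ext_pv' (e := e) (P := P) (H1.TF.pm e P σ) (H1.TF.pm e P σ) 1 1 (fun xs ys => ?_) x y
  simp only [LinearEquiv.coe_coe, pm_pv, End.one_apply, T _ _]
  exact congrArg _ (Fintype.prod_equiv σ.symm _ _ fun i => rfl)

theorem cf_pm (σ : Equiv.Perm (Fin t)) (i : Fin t) : cf (tu (pm e P σ)) (fr e P i) = fr e P (σ i) := by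
  ext x : 1
  rw [cf_apply, Units.mul_inv_eq_iff_eq_mul]
  exact pm_fr e P σ i x

/-- the quadratic form on the factor -/
noncomputable def qf {f₁ : (Fin k → F) → (Fin k → F) → F} (hf₁ : Geo.IsSymmetricForm f₁) :
    QuadraticForm F (Fin k → F) := LinearMap.BilinMap.toQuadraticMap (((1 : F) / 2) • bil hf₁.bilinear)

theorem B_qf (h2 : (2 : F) ≠ 0) {f₁ : (Fin k → F) → (Fin k → F) → F} (hf₁ : Geo.IsSymmetricForm f₁) (x y) :
    B (qf hf₁) x y = f₁ x y := (OO.B_toQuad h2 (bil hf₁.bilinear) hf₁.symm 1 x y).trans (one_mul _)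

theorem nd_qf (h2 : (2 : F) ≠ 0) {f₁ : (Fin k → F) → (Fin k → F) → F} (hf₁ : Geo.IsSymmetricForm f₁) :
    Nd (qf hf₁) := fun z hz => by
  by_contra h
  obtain ⟨x, hx⟩ := (hf₁.nondegenerate z h).1
  exact hx (by rw [← B_qf h2 hf₁, hz])

theorem tq_of (h2 : (2 : F) ≠ 0) {Q : (ι → F) → F} (hQ : Geo.IsNondegenerateQuadraticForm Q)
    {f₁ : (Fin k → F) → (Fin k → F) → F} (hf₁ : Geo.IsSymmetricForm f₁)
    (hT : Geo.IsTensorPowerFormStructure id (QuadraticMap.polar Q) f₁ e P) :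
    ∃ c, c ≠ 0 ∧ TQ e P (qf hf₁) (toQF hQ) c := by
  obtain ⟨c, c0, hc⟩ := hT
  refine ⟨c, c0, fun xs ys => ?_⟩
  have e1 : ∀ x y, B (qf hf₁) x y = ∑ a, ∑ b, x a * Geo.gramMatrix f₁ a b * y b := fun x y => by
    rw [B_qf h2]; exact bil_eq hf₁.bilinear x y
  rw [B_toQF, pv, pv, H7.frameVec_apply, H7.frameVec_apply, hc]
  simp only [e1, Finset.prod_mul_distrib, Fintype.prod_sum, id]

theorem exists_sq_ne [Fintype F] (hodd : Odd (Fintype.card F)) (h3 : Fintype.card F ≠ 3) :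
    ∃ t : F, t ≠ 0 ∧ t * t ≠ 1 := by
  classical
  by_contra! h
  have h4 : (Finset.univ : Finset F) ⊆ {0, 1, -1} := fun t _ => by
    by_cases h0 : t = 0
    · simp [h0]
    · rcases mul_self_eq_one_iff.1 (h t h0) with h | h <;> simp [h]
  have h5 := (Finset.card_le_card h4).trans Finset.card_le_three
  rw [Finset.card_univ] at h5
  have := Fintype.one_lt_card (α := F)
  obtain ⟨k, hk⟩ := hodd
  omega

theorem TQ.fam {c : F} (T : TQ e P Q₁ Q c) (hz : Sz Q₁) (nd : Nd Q) : Fam Q₁ Q (fr e P) Finset.univ :=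
  ⟨hz, nd, nontrivial_of e (by have := hz.h3; simp at this; omega), fun i _ => T.adj i,
    fun i _ j _ h => fr_comm e P i j h⟩

theorem maximal_of [Fintype F] {Q : (ι → F) → F} (hQ : Geo.IsNondegenerateQuadraticForm Q) (ht : 2 ≤ t)
    (h : Fam Q₁ (toQF hQ) (fr e P) Finset.univ) (hq : 5 ≤ k ∨ ∃ t : F, t ≠ 0 ∧ t * t ≠ 1)
    (cls : 5 ≤ finrank F (ι → F) → ∃ c, c ≠ 0 ∧ ∀ u, Q₁ u = c →
      refl Q₁ u ∈ GE (toQF hQ) (fr e P) (OO.PM (EO (toQF hQ))))
    (perm : 5 ≤ finrank F (ι → F) → ∀ i j, ∃ p, te p ∈ OO.PM (EO (toQF hQ)) ∧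
      ∀ l, Same (fr e P (Equiv.swap i j l)) (cf p (fr e P l))) :
    Geo.IsMaximalIn (Geo.omegaGL Q) (Geo.tensorWreathSubgroup k t e P ⊓ Geo.omegaGL Q) := by
  have hk : 3 ≤ k := by simpa using h.sz.h3
  haveI : Nonempty (Fin k) := ⟨⟨0, by omega⟩⟩
  have h5 : 5 ≤ Fintype.card ι := by
    have hc : Fintype.card ι = k ^ t := by simpa using Fintype.card_congr e
    have := Nat.pow_le_pow_right (n := k) (by omega) ht
    nlinarith
  have h5' : 5 ≤ finrank F (ι → F) := by rwa [finrank_fintype_fun_eq_card]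
  exact isMaximalIn_of hQ h5 _ (fun g => Nm (fr e P) (g : End F _))
    (fun g _ => nm_iff e P (by omega) (by omega) g)
    (proper h h5' (i := ⟨0, by omega⟩) (fun u hu => finrank_Ln_fr e P _ hu (by omega))
      fun u hu => ⟨_, pv_ne hu, pv_mem fun _ => u⟩)
    fun M h1 h2 => core h (fr_scal e P) (by simpa using hq) h5' (cls h5') (perm h5') h1 h2

theorem maximal_odd [Fintype F] {Q : (ι → F) → F} (hQ : Geo.IsNondegenerateQuadraticForm Q)
    (hodd : Odd (Fintype.card F)) (ho : Odd (Fintype.card ι)) (hk : 3 ≤ k) (ht : 2 ≤ t)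
    (hex : ¬ (Fintype.card F = 3 ∧ k = 3)) (e : ι ≃ (Fin t → Fin k)) (P : GL ι F)
    {f₁ : (Fin k → F) → (Fin k → F) → F} (hf₁ : Geo.IsSymmetricForm f₁)
    (hT : Geo.IsTensorPowerFormStructure id (QuadraticMap.polar Q) f₁ e P) :
    Geo.IsMaximalIn (Geo.omegaGL Q) (Geo.tensorWreathSubgroup k t e P ⊓ Geo.omegaGL Q) := by
  have h2 := two_ne_of_odd hodd
  obtain ⟨c, -, T⟩ := tq_of h2 hQ hf₁ hT
  have hko : Odd k := by
    have hc : Fintype.card ι = k ^ t := by simpa using Fintype.card_congr e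
    exact (Nat.odd_pow_iff (by omega)).1 (hc ▸ ho)
  have hq : 5 ≤ k ∨ ∃ t : F, t ≠ 0 ∧ t * t ≠ 1 := by
    by_cases h3 : Fintype.card F = 3
    · obtain ⟨j, hj⟩ := hko
      omega
    · exact Or.inr (exists_sq_ne hodd h3)
  have hz : Sz (qf hf₁) := ⟨h2, nd_qf h2 hf₁, by simpa, fun h => by
    obtain ⟨j, hj⟩ := hko
    simp at h; omega, fun h => hq.resolve_left (by simp at h; omega)⟩
  have h := T.fam hz (nd_toQF hQ)
  haveI := h.nt
  refine maximal_of hQ ht h hq (fun h5 => cls_odd h h5 (by simpa)) fun h5 i j => ?_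
  obtain ⟨a, ha⟩ := adjust hz h.nd (T.adj i) h5 (by simpa) (T.pm (Equiv.swap i j))
  exact ⟨_, ha, fun l => by rw [cf_mul, cf_pm]; exact h.lf_NF (Finset.mem_univ _) (Finset.mem_univ _) a⟩

end Cfsg.Agent.H2.TO
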