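import Cfsg.Agent.H2.TO2

set_option autoImplicit false
set_option linter.unusedSectionVars false
set_option linter.unusedSimpArgs false

/-! Orthogonal tensor frames, part 3: facts about the factor, and the context. -/

namespace Cfsg.Agent.H2.TO

open Module Cfsg.Agent.Orth Cfsg.Agent.H1.TW

variable {F : Type*} [Field F] [Finite F] {U V : Type*} [AddCommGroup U] [Module F U]
  [AddCommGroup V] [Module F V] [FiniteDimensional F U] [FiniteDimensional F V]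
  {Q₁ : QuadraticForm F U} {Q : QuadraticForm F V} {σ σ' τ : Fr F U V}

/-- the group generated by the products of two reflections in vectors of the same length -/
def Gm (Q₁ : QuadraticForm F U) : Subgroup (U ≃ₗ[F] U) :=
  Subgroup.closure {a | ∃ x y, Q₁ x ≠ 0 ∧ Q₁ x = Q₁ y ∧ a = refl Q₁ x * refl Q₁ y}

theorem rr_mem {x y : U} (hx : Q₁ x ≠ 0) (h : Q₁ x = Q₁ y) : refl Q₁ x * refl Q₁ y ∈ Gm Q₁ :=
  Subgroup.subset_closure ⟨x, y, hx, h, rfl⟩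

theorem Gm_le_O : Gm Q₁ ≤ O Q₁ := (Subgroup.closure_le _).2 (by
  rintro _ ⟨x, y, -, -, rfl⟩; exact mul_mem (refl_mem_O _ _) (refl_mem_O _ _))

theorem Conf.gm (h2 : (2 : F) ≠ 0) {a : U ≃ₗ[F] U} {μ : F} (h : Conf Q₁ a μ) {b : U ≃ₗ[F] U}
    (hb : b ∈ Gm Q₁) : a * b * a⁻¹ ∈ Gm Q₁ := by
  induction hb using Subgroup.closure_induction with
  | mem b hb =>
    obtain ⟨x, y, h1, h3, rfl⟩ := hb
    rw [← conj_mul, h.refl h2, h.refl h2]
    exact rr_mem (by rw [h.qq h2]; exact mul_ne_zero h.1 h1) (by rw [h.qq h2, h.qq h2, h3])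
  | one => simp
  | mul x y _ _ hx hy => rw [← conj_mul]; exact mul_mem hx hy
  | inv x _ hx => rw [← conj_inv]; exact inv_mem hx

theorem eich_eq_rr {w y : U} (hw : Q₁ w = 0) (hy : B Q₁ w y = 0) (hy0 : Q₁ y ≠ 0) :
    eich Q₁ w y = refl Q₁ (y - Q₁ y • w) * refl Q₁ y := by
  have q : Q₁ (y - Q₁ y • w) = Q₁ y := by simp [Q_sub, Q_smul, hw, B_comm Q₁ y w, hy]
  ext x
  rw [eich_apply hw hy, mul_app, refl_apply, refl_apply, q]
  simp only [map_sub, map_smul, LinearMap.sub_apply, LinearMap.smul_apply, smul_eq_mul, B_self, hy]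
  match_scalars <;> field_simp <;> ring

theorem Sz.not_ts (hz : Sz Q₁) (h5 : finrank F U < 5) {T : Submodule F U} (hT : TS Q₁ T) :
    finrank F T ≤ 1 := by
  by_cases h : finrank F U = 4
  · exact hz.h4 h T hT
  · have := hz.n1.ndOn_top.ts_finrank_le (W := T) le_top hT.le_perp
    have := hz.h3
    rw [finrank_top] at *
    omega

theorem Sz.par (hz : Sz Q₁) (h5 : finrank F U < 5) {w y : U} (hw : Q₁ w = 0) (hw0 : w ≠ 0)
    (hy : B Q₁ w y = 0) (hy0 : Q₁ y = 0) : ∃ c : F, c • w = y := by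
  by_contra! h
  have := hz.not_ts h5 (T := Submodule.span F {w, y}) (ts_span
    (by rintro _ (rfl | rfl) <;> assumption) (by
      rintro _ (rfl | rfl) _ (rfl | rfl)
      exacts [B_self_of_sing _ hw, hy, by rw [B_comm, hy], B_self_of_sing _ hy0]))
  rw [OO.finrank_pair hw0 h] at this
  omega

theorem Sz.eich_mem (hz : Sz Q₁) (w y : U) : eich Q₁ w y ∈ Gm Q₁ := by
  by_cases h : Q₁ w = 0 ∧ B Q₁ w y = 0
  swap
  · rw [eich_of_not h]; exact one_mem _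
  obtain ⟨hw, hy⟩ := h
  have k : ∀ y, B Q₁ w y = 0 → Q₁ y ≠ 0 → eich Q₁ w y ∈ Gm Q₁ := fun y hy hy0 => by
    have q : Q₁ (y - Q₁ y • w) = Q₁ y := by simp [Q_sub, Q_smul, hw, B_comm Q₁ y w, hy]
    rw [eich_eq_rr hw hy hy0]
    exact rr_mem (by rwa [q]) q
  by_cases hy0 : Q₁ y = 0
  swap
  · exact k y hy hy0
  by_cases hw0 : w = 0
  · rw [hw0, eich_zero_left]; exact one_mem _
  by_cases h5 : finrank F U < 5
  · obtain ⟨c, rfl⟩ := hz.par h5 hw hw0 hy hy0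
    rw [eich_smul_self hw]; exact one_mem _
  have := finrank_perp_ge (Q := Q₁) (Submodule.span F {w, y})
  have := Orth.finrank_span_pair_le (F := F) w y
  obtain ⟨z, h1, h3⟩ := hz.n1.ndOn_top.exists_nonsing (H := perp Q₁ (Submodule.span F {w, y}))
    le_top (by rw [finrank_top]; omega)
  have b1 : B Q₁ w z = 0 := mem_perp_span.1 h1 _ (by simp)
  have b2 : B Q₁ y z = 0 := mem_perp_span.1 h1 _ (by simp)
  have : eich Q₁ w y = eich Q₁ w (y + z) * eich Q₁ w (-z) := by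
    rw [eich_mul hw (by simp [hy, b1]) (by simp [b1])]; simp
  rw [this]
  exact mul_mem (k _ (by simp [hy, b1]) (by simpa [Q_add, hy0, b2] using h3))
    (k _ (by simp [b1]) (by simpa using h3))

theorem Sz.partner (hz : Sz Q₁) {w : U} (hw : Q₁ w = 0) (hw0 : w ≠ 0) :
    ∃ w', Q₁ w' = 0 ∧ B Q₁ w w' = 1 := by
  obtain ⟨y, hy⟩ := hz.n1.exists_B_ne hw0
  obtain ⟨e, -, h1, h2⟩ := Orth.exists_partner (H := ⊤) trivial hw ⟨y, trivial, hy⟩
  exact ⟨e, h1, h2⟩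

theorem Sz.exists_sing (hz : Sz Q₁) : ∃ w, Q₁ w = 0 ∧ w ≠ 0 := by
  obtain ⟨w, -, h1, h2⟩ := exists_sing_of_three (Q := Q₁) ⊤ (by simpa using hz.h3)
  exact ⟨w, h2, h1⟩

/-- a singular vector with a nonsingular vector orthogonal to it, inside `R` -/
theorem exists_wy (h2 : (2 : F) ≠ 0) {R : Submodule F U} (hR : NdOn Q₁ R) (h3 : 3 ≤ finrank F R) :
    ∃ w ∈ R, ∃ y ∈ R, Q₁ w = 0 ∧ w ≠ 0 ∧ B Q₁ w y = 0 ∧ Q₁ y ≠ 0 := by
  obtain ⟨w, hw, h4, h5⟩ := exists_sing_of_three (Q := Q₁) R h3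
  have := finrank_inf_perp_ge (Q := Q₁) R (F ∙ w)
  have := finrank_span_singleton_le (F := F) w
  obtain ⟨y, hy, h6⟩ := hR.exists_nonsing (H := R ⊓ perp Q₁ (F ∙ w)) inf_le_left (by omega)
  exact ⟨w, hw, y, hy.1, h5, h4, mem_perp_span_singleton.1 hy.2, h6⟩

theorem Sz.exists_wy (hz : Sz Q₁) : ∃ w y, Q₁ w = 0 ∧ w ≠ 0 ∧ B Q₁ w y = 0 ∧ Q₁ y ≠ 0 := by
  obtain ⟨w, -, y, -, h⟩ := TO.exists_wy hz.h2 hz.n1.ndOn_top (by simpa using hz.h3)
  exact ⟨w, y, h⟩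

theorem Sz.exists_Q (hz : Sz Q₁) (c : F) : ∃ u, Q₁ u = c := by
  obtain ⟨u, -, h⟩ := hz.n1.ndOn_top.exists_Q_eq le_rfl (by have := hz.h3; simp; omega) c
  exact ⟨u, h⟩

theorem Sz.exists_perp (hz : Sz Q₁) {u : U} (hu : Q₁ u ≠ 0) (c : F) :
    ∃ x, B Q₁ u x = 0 ∧ Q₁ x = c := by
  have := finrank_perp_ge (Q := Q₁) (F ∙ u)
  have := finrank_span_singleton_le (F := F) u
  have := hz.h3
  obtain ⟨x, h1, h2⟩ := ((OO.ndOn_one hz.h2 hu).perp hz.n1).exists_Q_eq le_rfl (by omega) c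
  exact ⟨x, mem_perp_span_singleton.1 h1, h2⟩

/-- the logarithm of an Eichler transformation -/
def eN (Q₁ : QuadraticForm F U) (w y : U) : End F U := r1 y (B Q₁ w) - r1 w (B Q₁ y)

/-- `w ⊗ w` -/
def nn (Q₁ : QuadraticForm F U) (w : U) : End F U := r1 w (B Q₁ w)

section
variable {w y : U} (hw : Q₁ w = 0) (hy : B Q₁ w y = 0)
include hw hy

theorem eich_coe (t : F) : (eich Q₁ w (t • y) : U →ₗ[F] U) =
    (1 : End F U) + t • eN Q₁ w y - (t * t * Q₁ y) • nn Q₁ w := by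
  ext x
  simp only [LinearEquiv.coe_coe, eich_apply hw (show B Q₁ w (t • y) = 0 by simp [hy]), eN, nn,
    Q_smul, map_smul, LinearMap.sub_apply, LinearMap.add_apply, LinearMap.smul_apply, r1_apply,
    End.one_apply, smul_eq_mul]
  module

theorem eich_coe1 : (eich Q₁ w y : U →ₗ[F] U) = (1 : End F U) + eN Q₁ w y - Q₁ y • nn Q₁ w := by
  simpa using eich_coe hw hy 1

theorem eN_sq : eN Q₁ w y * eN Q₁ w y = -(2 * Q₁ y) • nn Q₁ w := by
  simp only [eN, nn, sub_mul, mul_sub, r1_mul, hy, B_comm Q₁ y w, B_self, hw]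
  module

theorem eN_nn : eN Q₁ w y * nn Q₁ w = 0 := by
  simp [eN, nn, sub_mul, r1_mul, hy, B_comm Q₁ y w, B_self, hw]

theorem nn_eN : nn Q₁ w * eN Q₁ w y = 0 := by
  simp [eN, nn, mul_sub, r1_mul, hy, B_self, hw]

omit hy in
theorem nn_nn : nn Q₁ w * nn Q₁ w = 0 := by simp [nn, r1_mul, B_self, hw]

theorem eich_sub_sq : ((eich Q₁ w y : U →ₗ[F] U) - (1 : End F U)) *
    ((eich Q₁ w y : U →ₗ[F] U) - (1 : End F U)) = -(2 * Q₁ y) • nn Q₁ w := by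
  rw [eich_coe1 hw hy, show (1 : End F U) + eN Q₁ w y - Q₁ y • nn Q₁ w - 1 =
    eN Q₁ w y - Q₁ y • nn Q₁ w by abel]
  simp [sub_mul, mul_sub, eN_sq hw hy, eN_nn hw hy, nn_eN hw hy, nn_nn hw]

theorem eich_cube : ((eich Q₁ w y : U →ₗ[F] U) : End F U) * (eich Q₁ w y : U →ₗ[F] U) *
    (eich Q₁ w y : U →ₗ[F] U) = (3 : F) • (((eich Q₁ w y : U →ₗ[F] U) : End F U) *
      (eich Q₁ w y : U →ₗ[F] U)) + (-3 : F) • ((eich Q₁ w y : U →ₗ[F] U) : End F U) +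
      (1 : F) • 1 := by
  rw [eich_coe1 hw hy]
  simp only [sub_mul, mul_sub, add_mul, mul_add, eN_sq hw hy, eN_nn hw hy, nn_eN hw hy, nn_nn hw,
    smul_mul_assoc, mul_smul_comm, one_mul, mul_one, smul_zero, zero_mul]
  module

theorem ker_eich (hy0 : Q₁ y ≠ 0) (h2 : (2 : F) ≠ 0) (hw0 : w ≠ 0) :
    LinearMap.ker ((eich Q₁ w y : U →ₗ[F] U) - (1 : End F U)) =
      perp Q₁ (Submodule.span F {w, y}) := by
  ext x
  rw [mem_perp_span, LinearMap.mem_ker]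
  simp only [LinearMap.sub_apply, LinearEquiv.coe_coe, End.one_apply, sub_eq_zero]
  constructor
  · intro h
    rw [eich_apply hw hy] at h
    have h1 := congrArg (B Q₁ y) h
    simp [B_self, B_comm Q₁ y w, hy, h2, hy0] at h1
    simp [h1, hw0] at h
    rintro _ (rfl | rfl) <;> assumption
  · exact fun h => eich_apply_of_perp (h _ (by simp)) (h _ (by simp))

theorem finrank_ker_eich (n1 : Nd Q₁) (hy0 : Q₁ y ≠ 0) (h2 : (2 : F) ≠ 0) (hw0 : w ≠ 0) :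
    finrank F (LinearMap.ker ((eich Q₁ w y : U →ₗ[F] U) - (1 : End F U))) + 2 = finrank F U := by
  rw [ker_eich hw hy hy0 h2 hw0, ← n1.finrank_perp (Submodule.span F {w, y}), OO.finrank_pair hw0]
  rintro c rfl
  simp [Q_smul, hw] at hy0

end

theorem range_nn (n1 : Nd Q₁) {w : U} (hw0 : w ≠ 0) : LinearMap.range (σ (nn Q₁ w)) = Ln σ w :=
  range_r1 hw0 (OO.B_ne_zero n1 hw0)

theorem eq_one_of_pow {p : ℕ} [Fact p.Prime] [CharP F p] {l : F} (h : l ^ p = 1) : l = 1 := by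
  have := sub_pow_char l 1 (p := p)
  rw [h, one_pow, sub_self] at this
  exact sub_eq_zero.1 (pow_eq_zero_iff (Fact.out : p.Prime).ne_zero |>.1 this)

theorem eig_pow {a : U ≃ₗ[F] U} {u : U} {l : F} (h : a u = l • u) (n : ℕ) :
    (a ^ n) u = l ^ n • u := by
  induction n with
  | zero => simp [one_app]
  | succ n ih => rw [pow_succ, mul_app, h, map_smul, ih, smul_smul, pow_succ']

theorem fix_of_eig {p : ℕ} [Fact p.Prime] [CharP F p] {a : U ≃ₗ[F] U} (ha : a ^ p = 1) {u : U}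
    {l : F} (h : a u = l • u) : a u = u := by
  by_cases hu : u = 0
  · simp [hu]
  have := eig_pow h p
  rw [ha, one_app] at this
  rw [h, eq_one_of_pow (l := l) (p := p) (smul_left_injective F hu (by simpa using this.symm)),
    one_smul]

/-- `p`-elements in dimension three -/
theorem unip3 (hz : Sz Q₁) (h3 : finrank F U = 3) {n : ℕ} (hn : Odd n) {b : U ≃ₗ[F] U}
    (hb : b ∈ O Q₁) (h1 : b ^ n = 1) {w y : U} (hw : Q₁ w = 0) (hw0 : w ≠ 0) (hy : B Q₁ w y = 0)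
    (hy0 : Q₁ y ≠ 0) (h : b w = w) : ∃ t : F, b = eich Q₁ w (t • y) := by
  obtain ⟨w', h4, h5⟩ := hz.partner hw hw0
  obtain ⟨h6, h7⟩ := eich_trans (Q := Q₁) (e := w) (x := w') (y := b w') hw (hb _).symm
    (by rw [← O_B hb, h]) (by simp [h5])
  set y₁ := (B Q₁ w w')⁻¹ • (b w' - w')
  have h8 : Submodule.span F {w, y} = perp Q₁ (F ∙ w) := Submodule.eq_of_le_of_finrank_le
    (Submodule.span_le.2 (by
      rintro _ (rfl | rfl)
      exacts [mem_perp_span_singleton.2 (B_self_of_sing _ hw), mem_perp_span_singleton.2 hy])) (by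
      have := hz.n1.finrank_perp (F ∙ w)
      rw [finrank_span_singleton hw0] at this
      rw [OO.finrank_pair hw0 (by rintro c rfl; simp [Q_smul, hw] at hy0)]
      omega)
  obtain ⟨s, t, h9⟩ := Submodule.mem_span_pair.1 (h8.ge (mem_perp_span_singleton.2 h6))
  refine ⟨t, ?_⟩
  rw [← eich_add_smul_self hw (by simp [hy]) s, add_comm, h9]
  by_contra hne
  have e1 : ((eich Q₁ w y₁)⁻¹ * b) w = w := by
    rw [mul_app, h, eich_inv hw h6, eich_apply_self hw (by simp [h6])]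
  have e2 : ((eich Q₁ w y₁)⁻¹ * b) w' = w' := by rw [mul_app, ← h7, inv_apply_apply]
  obtain ⟨u, hu, e3⟩ := OO.eq_refl_of_fix hz.n1 hz.h2 (mul_mem (inv_mem (eich_mem_O w y₁)) hb)
    (fun e => hne (inv_mul_eq_one.1 e).symm) (by
      have := Submodule.finrank_mono (Submodule.span_le.2 (by
        rintro _ (rfl | rfl)
        exacts [OO.mem_Eg1.2 e1, OO.mem_Eg1.2 e2]) :
          Submodule.span F {w, w'} ≤ OO.Eg ((eich Q₁ w y₁)⁻¹ * b) 1)
      rw [OO.finrank_pair hw0 (by rintro c rfl; simp [B_self, hw] at h5)] at this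
      omega)
  have b1 : B Q₁ w u = 0 := by
    rw [e3, refl_apply] at e1
    have hu0 : u ≠ 0 := by rintro rfl; simp at hu
    simpa [hu, hu0, B_comm Q₁ u w] using e1
  have e4 : b u = -u + B Q₁ y₁ u • w := by
    rw [inv_mul_eq_iff_eq_mul.1 e3, mul_app, refl_self hu, map_neg,
      eich_apply_of_perp_left hw h6 b1]; abel
  have e5 : ∀ m : ℕ, ∃ s : F, (b ^ m) u = (-1 : F) ^ m • u + s • w := fun m => by
    induction m with
    | zero => exact ⟨0, by simp [one_app]⟩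
    | succ m ih =>
      obtain ⟨s, hs⟩ := ih
      exact ⟨s + (-1) ^ m * B Q₁ y₁ u, by
        rw [pow_succ', mul_app, hs, map_add, map_smul, map_smul, e4, h, pow_succ]; module⟩
  obtain ⟨s, hs⟩ := e5 n
  have := congrArg (B Q₁ u) hs
  rw [h1, hn.neg_one_pow] at this
  simp [one_app, B_comm Q₁ u w, b1, B_self] at this
  exact hu (mul_left_cancel₀ (mul_ne_zero hz.h2 hz.h2) (by linear_combination this))

theorem exists_sing_fixed (hz : Sz Q₁) {a : U ≃ₗ[F] U} (ha : a ∈ O Q₁)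
    (hn : IsNilpotent ((a : U →ₗ[F] U) - 1)) (h1 : a ≠ 1) : ∃ w, w ≠ 0 ∧ Q₁ w = 0 ∧ a w = w := by
  obtain ⟨x, hx⟩ : ∃ x, a x - x ≠ 0 := by
    by_contra! h
    exact h1 (LinearEquiv.ext fun x => sub_eq_zero.1 (h x))
  obtain ⟨w, ⟨z, rfl⟩, h2, h3⟩ := OO.exists_fixed hn (K := LinearMap.range ((a : U →ₗ[F] U) - 1))
    (fun x _ => ⟨x, rfl⟩) ⟨x, rfl⟩ hx
  have h4 := sub_eq_zero.1 h3
  refine ⟨_, h2, mul_left_cancel₀ hz.h2 ?_, h4⟩
  rw [← B_self, mul_zero]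
  exact OO.range_perp_ker ha h4 z

/-! ### the context -/

variable {T : Type*} [DecidableEq T]

/-- the stabiliser of a frame -/
def NF (σ : Fr F U V) : Subgroup (End F V)ˣ where
  carrier := {g | Same σ (cf g σ)}
  mul_mem' {a b} ha hb := by
    change Same _ _
    rw [cf_mul]; exact ha.trans (hb.cf a)
  one_mem' := by change Same _ _; rw [cf_one]; exact Same.refl _
  inv_mem' {a} ha := by
    have := (ha.cf a⁻¹).symm
    rwa [← cf_mul, inv_mul_cancel, cf_one] at this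

theorem mem_NF {g : (End F V)ˣ} : g ∈ NF σ ↔ Same σ (cf g σ) := Iff.rfl

theorem cf_of_cm' {g : (End F V)ˣ} (h : Cm σ (g : End F V)) : cf g σ = σ := by
  ext x : 1
  rw [cf_apply, h, Units.mul_inv_cancel_right]

theorem NF_of_cm {g : (End F V)ˣ} (h : Cm σ (g : End F V)) : g ∈ NF σ := by
  rw [mem_NF, cf_of_cm' h]; exact Same.refl _

theorem lf_mem_NF (a : U ≃ₗ[F] U) : lf σ a ∈ NF σ := same_lf a

theorem NF_same (h : Same σ σ') : NF σ = NF σ' := by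
  ext g
  exact ⟨fun hg => (h.symm.trans hg).trans (h.cf g), fun hg => (h.trans hg).trans (h.cf g).symm⟩

theorem NF_cf {g k : (End F V)ˣ} : g * k * g⁻¹ ∈ NF (cf g σ) ↔ k ∈ NF σ := by
  rw [mem_NF, mem_NF, ← cf_mul, inv_mul_cancel_right, cf_mul]
  exact ⟨fun h => by simpa [← cf_mul] using h.cf g⁻¹, fun h => h.cf g⟩

theorem mem_of_sq {G : Type*} [Group G] {N : Subgroup G} {g : G} (h : g * g ∈ N) {n : ℕ}
    (hn : Odd n) (h1 : g ^ n = 1) : g ∈ N := by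
  obtain ⟨m, rfl⟩ := hn
  have : g = ((g * g) ^ m)⁻¹ := by
    rw [eq_inv_iff_mul_eq_one, ← pow_two, ← pow_mul, ← pow_succ', h1]
  rw [this]; exact inv_mem (pow_mem h m)

structure Fam (Q₁ : QuadraticForm F U) (Q : QuadraticForm F V) (ρ : T → Fr F U V) (S : Finset T) :
    Prop where
  sz : Sz Q₁
  nd : Nd Q
  nt : Nontrivial V
  adj : ∀ i ∈ S, Adj Q₁ Q (ρ i)
  comm : ∀ i ∈ S, ∀ j ∈ S, i ≠ j → Comm (ρ i) (ρ j)

variable {ρ : T → Fr F U V} {S : Finset T} {G : Subgroup (End F V)ˣ}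

theorem Fam.eq_of_same (h : Fam Q₁ Q ρ S) {i j : T} (hi : i ∈ S) (hj : j ∈ S)
    (hs : Same (ρ i) (ρ j)) : i = j := by
  haveI := h.nt
  by_contra hne
  exact hs.not_comm h.sz.h3 (h.comm i hi j hj hne)

/-- the stabiliser of the family -/
def HH (h : Fam Q₁ Q ρ S) : Subgroup (End F V)ˣ where
  carrier := {g | ∀ i ∈ S, ∃ j ∈ S, Same (ρ j) (cf g (ρ i))}
  mul_mem' {a b} ha hb i hi := by
    obtain ⟨j, hj, h1⟩ := hb i hi
    obtain ⟨l, hl, h2⟩ := ha j hj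
    exact ⟨l, hl, by rw [cf_mul]; exact h2.trans (h1.cf a)⟩
  one_mem' i hi := ⟨i, hi, by rw [cf_one]; exact Same.refl _⟩
  inv_mem' {a} ha i hi := by
    choose! f hf hf' using ha
    obtain ⟨j, hj, e⟩ := Finset.surj_on_of_inj_on_of_card_le (s := S) (t := S) (fun j _ => f j)
      (fun j hj => hf j hj) (fun j l hj hl e => h.eq_of_same hj hl (by
        have := ((hf' j hj).symm.trans (e ▸ hf' l hl)).cf a⁻¹
        simpa [← cf_mul] using this)) le_rfl i hi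
    refine ⟨j, hj, ?_⟩
    have := (e ▸ hf' j hj).symm.cf a⁻¹
    simpa [← cf_mul] using this

theorem mem_HH (h : Fam Q₁ Q ρ S) {g : (End F V)ˣ} :
    g ∈ HH h ↔ ∀ i ∈ S, ∃ j ∈ S, Same (ρ j) (cf g (ρ i)) := Iff.rfl

theorem Fam.mem_of_NF (h : Fam Q₁ Q ρ S) {g : (End F V)ˣ} (hg : ∀ i ∈ S, g ∈ NF (ρ i)) :
    g ∈ HH h := fun i hi => ⟨i, hi, hg i hi⟩

theorem Fam.lf_NF (h : Fam Q₁ Q ρ S) {i j : T} (hi : i ∈ S) (hj : j ∈ S) (a : U ≃ₗ[F] U) :
    lf (ρ i) a ∈ NF (ρ j) := by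
  by_cases e : j = i
  · rw [e]; exact lf_mem_NF a
  · exact NF_of_cm (cm_lf (h.comm j hj i hi e) a)

theorem Fam.lf_mem (h : Fam Q₁ Q ρ S) {i : T} (hi : i ∈ S) (a : U ≃ₗ[F] U) :
    lf (ρ i) a ∈ HH h := h.mem_of_NF fun _ hj => h.lf_NF hi hj a

theorem Fam.rel (h : Fam Q₁ Q ρ S) {g : (End F V)ˣ} (hg : g ∈ HH h) {i j : T} (hi : i ∈ S)
    (hj : j ∈ S) : H1.TW.Rel (ρ j) (cf g (ρ i)) := by
  obtain ⟨l, hl, h1⟩ := hg i hi
  by_cases e : j = l
  · exact Or.inl (e ▸ h1)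
  · exact Or.inr (h1.comm (h.comm l hl j hj (Ne.symm e))).symm

structure Cx (Q₁ : QuadraticForm F U) (Q : QuadraticForm F V) (ρ : T → Fr F U V) (S : Finset T)
    (G : Subgroup (End F V)ˣ) : Prop extends Fam Q₁ Q ρ S where
  le : G ≤ OU Q
  neg : -1 ∈ G
  K : ∀ i ∈ S, ∀ a ∈ Gm Q₁, lf (ρ i) a ∈ G
  cls : ∃ c : F, c ≠ 0 ∧ ∀ i ∈ S, ∀ u, Q₁ u = c → lf (ρ i) (refl Q₁ u) ∈ G
  nc : ∀ g ∈ G, ∀ c : End F V, (∀ i ∈ S, Cm (ρ i) c) → ∀ i ∈ S, Cm (ρ i) (g * c * ↑g⁻¹)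
  good : ∀ i ∈ S, ∀ j ∈ S, ∀ g ∈ G, ∀ w y, Q₁ w = 0 → w ≠ 0 → B Q₁ w y = 0 → Q₁ y ≠ 0 →
    ∀ a ∈ O Q₁, lf (cf g (ρ i)) (eich Q₁ w y) = lf (ρ j) a → Same (ρ j) (cf g (ρ i))

/-- conjugates of the frames of the family -/
def Cf (ρ : T → Fr F U V) (S : Finset T) (G : Subgroup (End F V)ˣ) (σ : Fr F U V) : Prop :=
  ∃ i ∈ S, ∃ g ∈ G, σ = cf g (ρ i)

theorem Cf.of_mem {i : T} (hi : i ∈ S) : Cf ρ S G (ρ i) := ⟨i, hi, 1, one_mem _, by simp⟩

theorem Cf.cf (h : Cf ρ S G σ) {g : (End F V)ˣ} (hg : g ∈ G) : Cf ρ S G (cf g σ) := by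
  obtain ⟨i, hi, k, hk, rfl⟩ := h
  exact ⟨i, hi, g * k, mul_mem hg hk, by rw [cf_mul]⟩

theorem Cx.adj' (hC : Cx Q₁ Q ρ S G) (h : Cf ρ S G σ) : Adj Q₁ Q σ := by
  obtain ⟨i, hi, k, hk, rfl⟩ := h
  exact (hC.adj i hi).cf (hC.le hk)

theorem Cx.K' (hC : Cx Q₁ Q ρ S G) (h : Cf ρ S G σ) {a : U ≃ₗ[F] U} (ha : a ∈ Gm Q₁) :
    lf σ a ∈ G := by
  obtain ⟨i, hi, k, hk, rfl⟩ := h
  rw [lf_cf]
  exact mul_mem (mul_mem hk (hC.K i hi a ha)) (inv_mem hk)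

theorem Cx.good' (hC : Cx Q₁ Q ρ S G) (h : Cf ρ S G σ) (h' : Cf ρ S G σ') {w y : U}
    (hw : Q₁ w = 0) (hw0 : w ≠ 0) (hy : B Q₁ w y = 0) (hy0 : Q₁ y ≠ 0) {a : U ≃ₗ[F] U}
    (ha : a ∈ O Q₁) (e : lf σ (eich Q₁ w y) = lf σ' a) : Same σ' σ := by
  obtain ⟨i, hi, k, hk, rfl⟩ := h
  obtain ⟨j, hj, l, hl, rfl⟩ := h'
  have := (hC.good i hi j hj (l⁻¹ * k) (mul_mem (inv_mem hl) hk) w y hw hw0 hy hy0 a ha (by
    rw [cf_mul, lf_cf, e, lf_cf]; group)).cf l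
  rwa [← cf_mul, mul_inv_cancel_left] at this

theorem map_range_of_comm {g : (End F V)ˣ} {z : End F V} (h : g * z = z * g) :
    (LinearMap.range z).map (g : End F V) = LinearMap.range z :=
  map_eq_of_le g (by rintro _ ⟨v, rfl⟩; exact ⟨(g : End F V) v, by
    rw [← End.mul_apply, ← h, End.mul_apply]⟩)

theorem lf_eich_sq {w y : U} (hw : Q₁ w = 0) (hy : B Q₁ w y = 0) :
    ((lf σ (eich Q₁ w y) : End F V) - 1) * ((lf σ (eich Q₁ w y) : End F V) - 1) =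
      -(2 * Q₁ y) • σ (nn Q₁ w) := by
  rw [lf_val, ← map_one σ, ← map_sub, ← map_mul, eich_sub_sq hw hy, map_smul]

theorem comm_nn (h2 : (2 : F) ≠ 0) {w y : U} (hw : Q₁ w = 0) (hy : B Q₁ w y = 0) (hy0 : Q₁ y ≠ 0)
    {z : End F V} (h : z * lf σ (eich Q₁ w y) = lf σ (eich Q₁ w y) * z) :
    z * σ (nn Q₁ w) = σ (nn Q₁ w) * z := by
  have h1 : Commute z ((lf σ (eich Q₁ w y) : End F V) - 1) := (Commute.sub_right h (Commute.one_right z))
  have h3 := (h1.mul_right h1).eq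
  rw [lf_eich_sq hw hy, mul_smul_comm, smul_mul_assoc] at h3
  exact smul_right_injective _ (neg_ne_zero.2 (mul_ne_zero h2 hy0)) h3

theorem comm_eich (h2 : (2 : F) ≠ 0) {w y : U} (hw : Q₁ w = 0) (hy : B Q₁ w y = 0) (hy0 : Q₁ y ≠ 0)
    {z : End F V} (h : z * lf σ (eich Q₁ w y) = lf σ (eich Q₁ w y) * z) (t : F) :
    z * lf σ (eich Q₁ w (t • y)) = lf σ (eich Q₁ w (t • y)) * z := by
  have h1 := comm_nn h2 hw hy hy0 h
  have h3 : z * σ (eN Q₁ w y) = σ (eN Q₁ w y) * z := by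
    rw [lf_val, eich_coe1 hw hy] at h
    simp only [map_sub, map_add, map_one, map_smul, mul_sub, mul_add, sub_mul, add_mul,
      mul_smul_comm, smul_mul_assoc, h1, mul_one, one_mul] at h
    simpa using h
  rw [lf_val, eich_coe hw hy]
  simp only [map_sub, map_add, map_one, map_smul, mul_sub, mul_add, sub_mul, add_mul,
    mul_smul_comm, smul_mul_assoc, h1, h3, mul_one, one_mul]

/-- the centraliser of an Eichler element normalises its frame -/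
theorem Cx.cent_x (hC : Cx Q₁ Q ρ S G) (h : Cf ρ S G σ) {w y : U} (hw : Q₁ w = 0) (hw0 : w ≠ 0)
    (hy : B Q₁ w y = 0) (hy0 : Q₁ y ≠ 0) {g : (End F V)ˣ} (hg : g ∈ G)
    (hc : g * lf σ (eich Q₁ w y) = lf σ (eich Q₁ w y) * g) : g ∈ NF σ := by
  exact hC.good' (h.cf hg) h hw hw0 hy hy0 (eich_mem_O w y) (by rw [lf_cf, hc, mul_inv_cancel_right])

end Cfsg.Agent.H2.TO
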