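import Cfsg.Agent.H2.TO3

set_option autoImplicit false
set_option linter.unusedSectionVars false
set_option linter.unusedSimpArgs false

/-! Orthogonal tensor frames, part 4: Eichler elements normalising a frame. -/

namespace Cfsg.Agent.H2.TO

open Module Cfsg.Agent.Orth Cfsg.Agent.H1.TW

variable {F : Type*} [Field F] [Finite F] {U V : Type*} [AddCommGroup U] [Module F U]
  [AddCommGroup V] [Module F V] [FiniteDimensional F U] [FiniteDimensional F V]
  {Q₁ : QuadraticForm F U} {Q : QuadraticForm F V} {σ σ' τ : Fr F U V}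

/-- block entries as a linear map -/
noncomputable def bk (σ : Fr F U V) (ψ : Dual F U) (b : U) : End F V →ₗ[F] End F V where
  toFun z := blk σ z ψ b
  map_add' x y := by simp [blk, mul_add, add_mul, Finset.sum_add_distrib]
  map_smul' c x := by simp [blk, Finset.smul_sum]

theorem bk_apply (ψ : Dual F U) (b : U) (z : End F V) : bk σ ψ b z = blk σ z ψ b := rfl

theorem cm_bk (ψ : Dual F U) (b : U) (z : End F V) : Cm σ (bk σ ψ b z) := cm_blk z ψ b

theorem bk_mul {c : End F V} (hc : Cm σ c) (x : End F U) (ψ : Dual F U) (b : U) :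
    bk σ ψ b (σ x * c) = ψ (x b) • c := by
  rw [bk_apply, blk]
  conv_rhs => rw [← one_mul c, ← sum_rho σ, Finset.sum_mul, Finset.smul_sum]
  refine Finset.sum_congr rfl fun i _ => ?_
  rw [mul_assoc, mul_assoc, hc, ← mul_assoc, ← mul_assoc, ← map_mul, ← map_mul, mul_assoc, mul_r1,
    r1_mul, map_smul, smul_mul_assoc]

theorem bk_cm {c : End F V} (hc : Cm σ c) (ψ : Dual F U) (b : U) : bk σ ψ b c = ψ b • c := by
  simpa using bk_mul hc 1 ψ b

theorem bk_rho (x : End F U) (ψ : Dual F U) (b : U) : bk σ ψ b (σ x) = ψ (x b) • 1 := by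
  simpa using bk_mul (σ := σ) Cm.one x ψ b

theorem bk_mul_cm {c : End F V} (hc : Cm σ c) (z : End F V) (ψ : Dual F U) (b : U) :
    bk σ ψ b (z * c) = bk σ ψ b z * c := by
  simp only [bk_apply, blk, Finset.sum_mul, mul_assoc, hc _]

theorem bk_cm_mul {c : End F V} (hc : Cm σ c) (z : End F V) (ψ : Dual F U) (b : U) :
    bk σ ψ b (c * z) = c * bk σ ψ b z := by
  simp only [bk_apply, blk, Finset.mul_sum, ← mul_assoc, hc _]

theorem bk_comm {z c : End F V} (hc : Cm σ c) (hz : z * c = c * z) (ψ : Dual F U) (b : U) :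
    bk σ ψ b z * c = c * bk σ ψ b z := blk_comm hc hz ψ b

theorem sandwich (z : End F V) (a b : U) (ψ χ : Dual F U) :
    σ (r1 a ψ) * z * σ (r1 b χ) = σ (r1 a χ) * bk σ ψ b z := (r1_mul_blk z ψ b a χ).symm

theorem nil_of_pow' {p : ℕ} [Fact p.Prime] [CharP F p] {c : End F V} (h : c ^ p = 1) :
    IsNilpotent (c - 1) := by
  rcases subsingleton_or_nontrivial V with hV | hV
  · exact ⟨0, Subsingleton.elim _ _⟩
  haveI : CharP (End F V) p := charP_of_injective_algebraMap (algebraMap F (End F V)).injective p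
  exact ⟨p, by rw [sub_pow_char_of_commute p (Commute.one_right c), h, one_pow, sub_self]⟩

variable [Nontrivial V]

theorem rk_left {a : End F U} {c : End F V} (hc : Cm σ c) (hn : IsNilpotent (c - 1))
    (R : Submodule F U) (S : Submodule F V) (hS : ∀ x, ∀ v ∈ S, σ x v ∈ S) (hS' : ∀ v ∈ S, c v ∈ S) :
    finrank F U * finrank F (S ⊓ (LinearMap.ker (σ a * c - 1) ⊓ Sp σ R) : Submodule F V) ≤
      finrank F (LinearMap.ker (a - 1) ⊓ R : Submodule F U) * finrank F S := by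
  induction hm : finrank F S using Nat.strong_induction_on generalizing S with
  | _ m ih =>
  by_cases h0 : S = ⊥
  · rw [h0, bot_inf_eq, finrank_bot]; simp
  have hc1 : Cm σ (c - 1) := hc.sub Cm.one
  have l1 : S.map (c - 1) ≤ S := by
    rintro _ ⟨v, hv, rfl⟩
    exact sub_mem (hS' v hv) hv
  have l2 : S.map (c - 1) ≠ S := fun e => h0 (by
    obtain ⟨n, hn⟩ := hn
    have : ∀ n : ℕ, S.map ((c - 1) ^ n) = S := fun n => by
      induction n with
      | zero => simp [End.one_eq_id]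
      | succ n ih => rw [pow_succ', End.mul_eq_comp, Submodule.map_comp, ih, e]
    rw [← this n, hn, Submodule.map_zero])
  have f1 := ih _ (hm ▸ Submodule.finrank_lt_finrank_of_lt (lt_of_le_of_ne l1 l2)) (S.map (c - 1))
    (by rintro x _ ⟨v, hv, rfl⟩; exact ⟨_, hS x v hv, hc1.apply x v⟩)
    (by rintro _ ⟨v, hv, rfl⟩; exact ⟨c v, hS' v hv, by simp⟩) rfl
  have f2 := fr_map (c - 1) S
  have f3 := fr_map (c - 1) (S ⊓ (LinearMap.ker (σ a * c - 1) ⊓ Sp σ R))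
  have f4 := finrank_Sp_inf (σ := σ) (S ⊓ LinearMap.ker (c - 1)) (fun x v hv =>
    ⟨hS x v hv.1, by
      rw [SetLike.mem_coe, LinearMap.mem_ker, hc1.apply, LinearMap.mem_ker.1 hv.2, map_zero]⟩)
    (LinearMap.ker (a - 1) ⊓ R)
  have f5 := Submodule.finrank_mono (show (S ⊓ (LinearMap.ker (σ a * c - 1) ⊓ Sp σ R)).map (c - 1) ≤
      S.map (c - 1) ⊓ (LinearMap.ker (σ a * c - 1) ⊓ Sp σ R) from by
    rintro _ ⟨v, ⟨h1, h2, h3⟩, rfl⟩
    refine ⟨⟨v, h1, rfl⟩, ?_, Cm.mem_Sp hc1 h3⟩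
    have : (σ a * c - 1) * (c - 1) = (c - 1) * (σ a * c - 1) := by
      simp only [mul_sub, sub_mul, mul_one, one_mul, ← mul_assoc, hc a]; abel
    rw [SetLike.mem_coe, LinearMap.mem_ker, ← End.mul_apply, this, End.mul_apply,
      LinearMap.mem_ker.1 h2, map_zero])
  have f6 := Submodule.finrank_mono (show S ⊓ (LinearMap.ker (σ a * c - 1) ⊓ Sp σ R) ⊓
      LinearMap.ker (c - 1) ≤ S ⊓ LinearMap.ker (c - 1) ⊓ Sp σ (LinearMap.ker (a - 1) ⊓ R) from by
    rintro v ⟨⟨h1, h2, h3⟩, h4⟩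
    refine ⟨⟨h1, h4⟩, ?_⟩
    rw [← Sp_inf, ← Sp_ker]
    refine ⟨?_, h3⟩
    have h5 : c v = v := by simpa [sub_eq_zero] using h4
    simpa [h5] using h2)
  rw [← hm, ← f2, ← f3, mul_add, mul_add, ← f4]
  exact add_le_add ((Nat.mul_le_mul_left _ f5).trans f1) (Nat.mul_le_mul_left _ f6)

theorem finrank_le_add {K A C : Submodule F V} (h : K ≤ A ⊔ C) :
    finrank F K ≤ finrank F A + finrank F C :=
  (Submodule.finrank_mono h).trans (Submodule.finrank_add_le_finrank_add_finrank A C)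

theorem rk_x (hz : Sz Q₁) (h4 : 4 ≤ finrank F U) {a : U ≃ₗ[F] U} (ha : a ∈ O Q₁)
    (hn : IsNilpotent ((a : U →ₗ[F] U) - 1)) (h1 : a ≠ 1) {c : End F V} (hc : Cm σ c)
    (hn' : IsNilpotent (c - 1)) (h2 : c ≠ 1) {u : U} (hu : u ≠ 0) :
    finrank F (LinearMap.ker (σ a * c - 1)) + 2 * finrank F (Ln σ u) < finrank F V := by
  have f0 := finrank_Ln (ρ := σ) hu
  have f1 := OO.two_le_rank hz.n1 hz.h2 ha hn h1
  have f2 := LinearMap.finrank_range_add_finrank_ker ((a : U →ₗ[F] U) - 1)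
  have fd : 0 < finrank F (Ln σ u) := by
    obtain ⟨v, hv, hv0⟩ := Ln_ne_bot (ρ := σ) hu
    exact finrank_pos_iff_exists_ne_zero.2 ⟨⟨v, hv⟩, by simpa using hv0⟩
  have key : ∀ R : Submodule F U, finrank F (LinearMap.ker (σ a * c - 1) ⊓ Sp σ R : Submodule F V) ≤
      finrank F (LinearMap.ker ((a : End F U) - 1) ⊓ R : Submodule F U) * finrank F (Ln σ u) :=
    fun R => by
      have := rk_left (σ := σ) (a := a) hc hn' R ⊤ (fun _ _ _ => trivial) (fun _ _ => trivial)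
      rw [top_inf_eq, finrank_top, f0] at this
      exact Nat.le_of_mul_le_mul_left (this.trans_eq (by ring)) (by omega : 0 < finrank F U)
  by_cases h3 : 3 ≤ finrank F (LinearMap.range ((a : U →ₗ[F] U) - 1))
  · have := key ⊤
    rw [Sp_top, inf_top_eq, inf_top_eq] at this
    nlinarith
  obtain ⟨y, hy, hy'⟩ : ∃ y ∈ LinearMap.ker ((a : U →ₗ[F] U) - 1),
      y ∉ LinearMap.range ((a : U →ₗ[F] U) - 1) := by
    by_contra! h
    have f3 := Submodule.finrank_mono (fun v hv => h v hv)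
    have := hz.h4 (by omega) (LinearMap.ker ((a : U →ₗ[F] U) - 1)) fun v hv => by
      obtain ⟨z, hz'⟩ := h v hv
      refine mul_left_cancel₀ hz.h2 ?_
      rw [← B_self, mul_zero]
      nth_rewrite 2 [← hz']
      exact OO.range_perp_ker ha (sub_eq_zero.1 hv) z
    omega
  have hy0 : y ≠ 0 := by rintro rfl; exact hy' (zero_mem _)
  have hay : a y = y := sub_eq_zero.1 hy
  obtain ⟨φ, h5, h6⟩ : ∃ φ : Dual F U, φ y = 1 ∧ ∀ x, φ (a x) = φ x := by
    obtain ⟨φ, h5, h6⟩ := Submodule.exists_dual_map_eq_bot_of_notMem hy' inferInstance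
    refine ⟨(φ y)⁻¹ • φ, by simp [h5], fun x => ?_⟩
    have : φ (a x - x) = 0 := by simpa using h6.le (Submodule.mem_map_of_mem ⟨x, rfl⟩)
    rw [map_sub, sub_eq_zero] at this
    simp [this]
  have hπ : (a : End F U) * r1 y φ = r1 y φ * (a : End F U) := by ext x; simp [hay, h6]
  have hπ' : ∀ v ∈ LinearMap.ker (σ a * c - 1), σ (r1 y φ) v ∈ LinearMap.ker (σ a * c - 1) :=
    fun v hv => by
      have : (σ a * c - 1) * σ (r1 y φ) = σ (r1 y φ) * (σ a * c - 1) := by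
        rw [sub_mul, mul_sub, mul_assoc, hc, ← mul_assoc, ← map_mul, hπ, map_mul, mul_assoc]; simp
      rw [LinearMap.mem_ker, ← End.mul_apply, this, End.mul_apply, LinearMap.mem_ker.1 hv, map_zero]
  have f4 := finrank_le_add (show LinearMap.ker (σ a * c - 1) ≤
      (Ln σ y ⊓ LinearMap.ker (c - 1)) ⊔ (LinearMap.ker (σ a * c - 1) ⊓ Sp σ (LinearMap.ker φ)) from
    fun v hv => by
      have e : v = σ (r1 y φ) v + σ (1 - r1 y φ) v := by simp
      rw [e]
      refine Submodule.add_mem_sup ⟨r1_mem_Ln _ _ _, ?_⟩ ⟨by simpa using sub_mem hv (hπ' v hv),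
        Sp_range (fun r => by simp [h5]) v⟩
      have h7 := hπ' v hv
      rw [LinearMap.mem_ker, LinearMap.sub_apply, End.mul_apply,
        Ln_congr (hc.mem_Ln (r1_mem_Ln y φ v)) (y := 1) (by simp [hay])] at h7
      simpa using h7)
  have f5 : finrank F (Ln σ y ⊓ LinearMap.ker (c - 1) : Submodule F V) < finrank F (Ln σ y) :=
    Submodule.finrank_lt_finrank_of_lt (lt_of_le_of_ne inf_le_left fun e => h2 (sub_eq_zero.1
      ((hc.sub Cm.one).eq_zero hy0 fun v hv => (e.ge hv).2)))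
  have f6 : finrank F (LinearMap.ker ((a : End F U) - 1) ⊓ LinearMap.ker φ : Submodule F U) <
      finrank F (LinearMap.ker ((a : End F U) - 1)) :=
    Submodule.finrank_lt_finrank_of_lt (lt_of_le_of_ne inf_le_left fun e => by
      simpa [h5] using (e.ge hy).2)
  have f7 := key (LinearMap.ker φ)
  rw [finrank_Ln_eq (ρ' := σ) hy0 hu] at f5
  nlinarith

theorem finrank_ker_x (hz : Sz Q₁) {w y : U} (hw : Q₁ w = 0) (hw0 : w ≠ 0) (hy : B Q₁ w y = 0)
    (hy0 : Q₁ y ≠ 0) {u : U} (hu : u ≠ 0) :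
    finrank F (LinearMap.ker ((lf σ' (eich Q₁ w y) : End F V) - 1)) + 2 * finrank F (Ln σ u) =
      finrank F V := by
  rw [lf_val, ← map_one σ', ← map_sub, Sp_ker, finrank_Sp' hu, finrank_Ln (ρ := σ') hu,
    ← finrank_ker_eich hw hy hz.n1 hy0 hz.h2 hw0, finrank_Ln_eq (ρ := σ) (ρ' := σ') hu hu]
  ring

theorem Ln_of_Sp {R : Submodule F U} {w : U} (hw : w ≠ 0) (h : Sp σ R = Ln σ' w) :
    ∃ u, u ≠ 0 ∧ R = F ∙ u := by
  have f1 := finrank_Sp' (σ := σ) hw R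
  rw [h, finrank_Ln_eq (ρ' := σ) hw hw] at f1
  have fd : 0 < finrank F (Ln σ w) := by
    obtain ⟨v, hv, hv0⟩ := Ln_ne_bot (ρ := σ) hw
    exact finrank_pos_iff_exists_ne_zero.2 ⟨⟨v, hv⟩, by simpa using hv0⟩
  have f2 : finrank F R = 1 := by nlinarith
  obtain ⟨⟨u, hu⟩, h0, h1⟩ := finrank_eq_one_iff'.1 f2
  refine ⟨u, by simpa using h0, le_antisymm (fun x hx => ?_)
    ((Submodule.span_singleton_le_iff_mem _ _).2 hu)⟩
  obtain ⟨c, hc⟩ := h1 ⟨x, hx⟩
  exact Submodule.mem_span_singleton.2 ⟨c, congrArg Subtype.val hc⟩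

theorem eich_uniq (hz : Sz Q₁) {w y : U} (hw : Q₁ w = 0) (hw0 : w ≠ 0) (hy : B Q₁ w y = 0)
    (hy0 : Q₁ y ≠ 0) {s t : F} {c c' : End F V} (hc : Cm σ c) (hc' : Cm σ c') (h0 : c ≠ 0)
    (h : σ (eich Q₁ w (s • y)) * c = σ (eich Q₁ w (t • y)) * c') : c = c' ∧ s = t := by
  obtain ⟨w', h4, h5⟩ := hz.partner hw hw0
  have e1 := congrArg (bk σ (B Q₁ w) w') h
  have e2 := congrArg (bk σ (B Q₁ y) w') h
  have e3 : ∀ s : F, B Q₁ w (s • y) = 0 := fun s => by simp [hy]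
  simp only [bk_mul hc, bk_mul hc', LinearEquiv.coe_coe, eich_apply hw (e3 _), map_sub, map_add,
    map_smul, h5, hy, B_self, hw, B_comm Q₁ y w, smul_eq_mul, mul_zero, add_zero, sub_zero,
    one_smul, one_mul] at e1 e2
  subst e1
  exact ⟨rfl, mul_right_cancel₀ (mul_ne_zero hz.h2 hy0)
    (add_left_cancel (smul_left_injective F h0 e2))⟩

theorem poly3 (hz : Sz Q₁) {p : ℕ} (hp : Odd p) {t₀ : F} (h0 : t₀ ≠ 0) (h1 : t₀ * t₀ ≠ 1) {w y : U}
    (hw : Q₁ w = 0) (hw0 : w ≠ 0) (hy : B Q₁ w y = 0) (hy0 : Q₁ y ≠ 0) (X c : F → (End F V)ˣ)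
    (ψ : F → F) {A C : End F V} (hX : ∀ s, (X s : End F V) = 1 + s • A + (s * s) • C)
    (hm : ∀ s t, X (s + t) = X s * X t) (hc : ∀ s, Cm σ (c s : End F V)) (hc' : c 1 ^ p = 1)
    (h : ∀ s, X s = lf σ (eich Q₁ w (ψ s • y)) * c s) : c 1 = 1 ∨ ψ 1 = 0 := by
  have h2 := hz.h2
  have e3 : ∀ s : F, B Q₁ w (s • y) = 0 := fun s => by simp [hy]
  have a1 : ∀ s t, c (s + t) = c s * c t ∧ ψ (s + t) = ψ s + ψ t := fun s t => by
    have e := hm s t
    rw [h, h, h, mul_assoc, ← mul_assoc (c s), Cm.lf (hc s), mul_assoc, ← mul_assoc, ← map_mul,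
      eich_mul hw (e3 _) (e3 _), ← add_smul] at e
    have := eich_uniq hz hw hw0 hy hy0 (hc _) ((hc s).mul (hc t)) (Units.ne_zero _)
      (congrArg Units.val e)
    exact ⟨Units.ext this.1, this.2⟩
  have a2 : c 0 = 1 ∧ ψ 0 = 0 := by
    have := a1 0 0
    rw [add_zero] at this
    exact ⟨by simpa using this.1, by simpa using this.2⟩
  have a3 : ∀ s, ψ (-s) = -ψ s := fun s => by
    have := (a1 s (-s)).2
    rw [add_neg_cancel, a2.2] at this
    linear_combination -this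
  obtain ⟨w', h4, h5⟩ := hz.partner hw hw0
  set y₀ := y - B Q₁ w' y • w with hy₀
  have b1 : ∀ s, (c s : End F V) = 1 + s • bk σ (B Q₁ w) w' A + (s * s) • bk σ (B Q₁ w) w' C :=
    fun s => by
      have := congrArg (fun z : (End F V)ˣ => bk σ (B Q₁ w) w' z) (h s)
      simp only [hX, Units.val_mul, lf_val, bk_mul (hc s), map_add, map_smul, bk_cm Cm.one, h5,
        LinearEquiv.coe_coe, eich_apply hw (e3 _), map_sub, hy, B_self, hw, smul_eq_mul, mul_zero,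
        add_zero, sub_zero, one_smul] at this
      exact this.symm
  set φ : Dual F U := B Q₁ w' - (B Q₁ w' y / (2 * Q₁ y)) • B Q₁ y
  have b2 : ∀ s, -(ψ s * ψ s * Q₁ y) • (c s : End F V) = s • bk σ φ (w' - (B Q₁ y w' / (2 * Q₁ y)) • y) A +
      (s * s) • bk σ φ (w' - (B Q₁ y w' / (2 * Q₁ y)) • y) C - (B Q₁ y w' * B Q₁ y w' / (2 * Q₁ y)) •
        (1 - (c s : End F V)) := fun s => by
    have := congrArg (fun z : (End F V)ˣ => bk σ φ (w' - (B Q₁ y w' / (2 * Q₁ y)) • y) z) (h s)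
    simp only [hX, Units.val_mul, lf_val, bk_mul (hc s), map_add, map_smul (bk σ φ _),
      bk_cm Cm.one] at this
    simp only [φ, LinearEquiv.coe_coe, eich_apply hw (e3 _), map_sub, map_add, map_smul, hy, B_self,
      hw, h4, h5, smul_eq_mul, mul_zero, add_zero, sub_zero, LinearMap.sub_apply,
      LinearMap.smul_apply, Q_smul, B_comm Q₁ w' w, B_comm Q₁ y w, B_comm Q₁ w' y] at this ⊢
    linear_combination (norm := skip) -this
    match_scalars <;> field_simp <;> ring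
  generalize bk σ (B Q₁ w) w' A = β at b1
  generalize bk σ (B Q₁ w) w' C = γ at b1
  generalize bk σ φ (w' - (B Q₁ y w' / (2 * Q₁ y)) • y) A = A' at b2
  generalize bk σ φ (w' - (B Q₁ y w' / (2 * Q₁ y)) • y) C = C' at b2
  generalize B Q₁ y w' * B Q₁ y w' / (2 * Q₁ y) = δ at b2
  by_cases hβ : β = 0
  · have e : c (-1) = c 1 := Units.ext (by rw [b1, b1, hβ]; simp)
    have e' := (a1 1 (-1)).1
    rw [add_neg_cancel, a2.1, e] at e'
    exact Or.inl (Subgroup.mem_bot.1 (mem_of_sq (Subgroup.mem_bot.2 e'.symm) hp hc'))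
  have k : ∀ s, s ≠ 0 → (ψ s * ψ s * Q₁ y) • β = -A' - δ • β := fun s hs => by
    have e1 := b2 s
    have e2 := b2 (-s)
    rw [a3, b1] at e2
    rw [b1] at e1
    refine smul_right_injective _ (mul_ne_zero h2 hs) ?_
    linear_combination (norm := module) e2 - e1
  have k' : ∀ s, s ≠ 0 → ψ s * ψ s = ψ 1 * ψ 1 := fun s hs => mul_right_cancel₀ hy0
    (smul_left_injective F hβ ((k s hs).trans (k 1 one_ne_zero).symm))
  refine Or.inr (mul_self_eq_zero.1 ?_)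
  rcases mul_self_eq_mul_self_iff.1 (k' t₀ h0) with e | e
  · rw [← k' (t₀ + -1) (fun e => h1 (by linear_combination (t₀ + 1) * e)), (a1 _ _).2, a3, e]; ring
  · rw [← k' (t₀ + 1) (fun e => h1 (by linear_combination (t₀ - 1) * e)), (a1 _ _).2, e]; ring

omit [Nontrivial V] in
theorem Sz.exists_y (hz : Sz Q₁) {w : U} (hw0 : w ≠ 0) : ∃ y, B Q₁ w y = 0 ∧ Q₁ y ≠ 0 := by
  have := hz.n1.finrank_perp (F ∙ w)
  rw [finrank_span_singleton hw0] at this
  have := hz.h3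
  obtain ⟨y, h1, h2⟩ := hz.n1.ndOn_top.exists_nonsing (H := perp Q₁ (F ∙ w)) le_top
    (by rw [finrank_top]; omega)
  exact ⟨y, mem_perp_span_singleton.1 h1, h2⟩

theorem lf_eich_pow (p : ℕ) [CharP F p] (w y : U) : lf σ (eich Q₁ w y) ^ p = 1 := by
  rw [← map_pow, OO.eich_pow_char, map_one]

theorem fix_of_comm (hz : Sz Q₁) {p : ℕ} [Fact p.Prime] [CharP F p] {w y : U} (hw : Q₁ w = 0)
    (hw0 : w ≠ 0) (hy : B Q₁ w y = 0) (hy0 : Q₁ y ≠ 0) {a : U ≃ₗ[F] U} (ha : a ^ p = 1)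
    (h : lf σ a * lf σ (eich Q₁ w y) = lf σ (eich Q₁ w y) * lf σ a) : a w = w := by
  obtain ⟨w', -, h5⟩ := hz.partner hw hw0
  have h1 := comm_nn hz.h2 hw hy hy0 (congrArg Units.val h)
  rw [lf_val, ← map_mul, ← map_mul] at h1
  have h2 := LinearMap.congr_fun (H1.TW.rho_injective h1) w'
  simp only [nn, End.mul_apply, r1_apply, h5, one_smul, LinearEquiv.coe_coe] at h2
  exact fix_of_eig ha h2

variable {T : Type*} [DecidableEq T] {ρ : T → Fr F U V} {S : Finset T} {G : Subgroup (End F V)ˣ}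

omit [Nontrivial V] in
theorem Cx.type_x (hC : Cx Q₁ Q ρ S G) (h : Cf ρ S G σ) (h' : Cf ρ S G σ') {w y : U}
    (hw : Q₁ w = 0) (hw0 : w ≠ 0) (hy : B Q₁ w y = 0) (hy0 : Q₁ y ≠ 0)
    (hn : lf σ' (eich Q₁ w y) ∈ NF σ) : Same σ σ' ∨ Cm σ (lf σ' (eich Q₁ w y) : End F V) := by
  haveI := hC.nt
  have hz := hC.sz
  obtain ⟨p, hp⟩ := CharP.exists F
  haveI : Fact p.Prime := ⟨CharP.char_is_prime F p⟩
  have ho := OO.odd_char (p := p) hz.h2
  have hG : ∀ y, lf σ' (eich Q₁ w y) ∈ G := fun y => hC.K' h' (hz.eich_mem w y)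
  obtain ⟨a, ha, c, hc, e, h1, h2⟩ := dec_odd hz hC.nd (hC.adj' h) (hC.le (hG y)) hn ho
    (lf_eich_pow p w y)
  by_cases ha1 : a = 1
  · exact Or.inr (by rwa [e, ha1, map_one, one_mul])
  by_cases h4 : 4 ≤ finrank F U
  · by_cases hc1 : c = 1
    · exact Or.inl (hC.good' h' h hw hw0 hy hy0 ha (by rw [e, hc1, mul_one]))
    have f1 := rk_x (σ := σ) hz h4 ha (OO.nil_of_pow h1) ha1 hc
      (nil_of_pow' (p := p) (by rw [← Units.val_pow_eq_pow_val, h2, Units.val_one]))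
      (fun h => hc1 (Units.ext h)) hw0
    have f2 := finrank_ker_x (σ := σ) (σ' := σ') hz hw hw0 hy hy0 hw0
    rw [e, Units.val_mul, lf_val] at f2
    omega
  have h3 : finrank F U = 3 := by have := hz.h3; omega
  obtain ⟨t₀, t1, t2⟩ := hz.hq h3
  obtain ⟨w₁, a1, a2, a3⟩ := exists_sing_fixed hz ha (OO.nil_of_pow h1) ha1
  obtain ⟨y₁, a4, a5⟩ := hz.exists_y a1
  obtain ⟨t, rfl⟩ := unip3 hz h3 ho ha h1 a2 a1 a4 a5 a3
  have b1 : B Q₁ w₁ (t • y₁) = 0 := by simp [a4]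
  have b2 : Q₁ (t • y₁) ≠ 0 := by
    have : t ≠ 0 := by rintro rfl; simp [eich_zero] at ha1
    simp [Q_smul, this, a5]
  have key : ∀ s : F, ∃ (c : (End F V)ˣ) (ψ : F), Cm σ (c : End F V) ∧ c ^ p = 1 ∧
      lf σ' (eich Q₁ w (s • y)) = lf σ (eich Q₁ w₁ (ψ • y₁)) * c := fun s => by
    have c1 : lf σ' (eich Q₁ w (s • y)) * lf σ (eich Q₁ w₁ (t • y₁)) =
        lf σ (eich Q₁ w₁ (t • y₁)) * lf σ' (eich Q₁ w (s • y)) :=
      Units.ext (comm_eich hz.h2 hw hy hy0 (by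
        rw [← Units.val_mul, ← Units.val_mul, e, mul_assoc, Cm.lf hc]) s).symm
    obtain ⟨a', ha', c', hc', e', h1', h2'⟩ := dec_odd hz hC.nd (hC.adj' h) (hC.le (hG _))
      (hC.cent_x h a2 a1 b1 b2 (hG _) c1) ho (lf_eich_pow p w _)
    obtain ⟨ψ, rfl⟩ := unip3 hz h3 ho ha' h1' a2 a1 a4 a5 (fix_of_comm (σ := σ) hz a2 a1 b1 b2 h1' (by
      rw [e', mul_assoc, Cm.lf hc', ← mul_assoc, ← mul_assoc] at c1
      exact mul_right_cancel c1))
    exact ⟨c', ψ, hc', h2', e'⟩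
  choose c' ψ k1 k2 k3 using key
  have k4 := k3 1
  rw [one_smul] at k4
  rcases poly3 (σ := σ) hz ho t1 t2 a2 a1 a4 a5 (fun s => lf σ' (eich Q₁ w (s • y))) c' ψ
    (A := σ' (eN Q₁ w y)) (C := -Q₁ y • σ' (nn Q₁ w)) (fun s => by
      rw [lf_val, eich_coe hw hy, map_sub, map_add, map_one, map_smul, map_smul]; module)
    (fun s t => by rw [← map_mul, eich_mul hw (by simp [hy]) (by simp [hy]), add_smul]) k1 (k2 1) k3
    with k5 | k5
  · exact Or.inl (hC.good' h' h hw hw0 hy hy0 (eich_mem_O _ _) (by rw [k4, k5, mul_one]))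
  · rw [k4, k5, zero_smul, eich_zero, map_one, one_mul]
    exact Or.inr (k1 1)

end Cfsg.Agent.H2.TO
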