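import Cfsg.Agent.H2.TO4

set_option autoImplicit false
set_option linter.unusedSectionVars false
set_option linter.unusedSimpArgs false

/-! Orthogonal tensor frames, part 5: Eichler elements lie in a unique conjugate. -/

namespace Cfsg.Agent.H2.TO

open Module Cfsg.Agent.Orth Cfsg.Agent.H1.TW

variable {F : Type*} [Field F] [Finite F] {U V : Type*} [AddCommGroup U] [Module F U]
  [AddCommGroup V] [Module F V] [FiniteDimensional F U] [FiniteDimensional F V]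
  {Q₁ : QuadraticForm F U} {Q : QuadraticForm F V} {σ σ' τ : Fr F U V}

theorem Sz.sing_span (hz : Sz Q₁) {w : U} (hw : Q₁ w = 0) (hw0 : w ≠ 0) (Z : Submodule F U)
    (h0 : w ∈ Z) (h : ∀ z, Q₁ z = 0 → B Q₁ w z = 1 → z ∈ Z) (x : U) : x ∈ Z := by
  obtain ⟨w', h4, h5⟩ := hz.partner hw hw0
  set y := x - B Q₁ w x • w' - B Q₁ w' x • w with hy
  have b1 : B Q₁ w y = 0 := by simp [hy, h5, B_self, hw]
  have b2 : B Q₁ w' y = 0 := by simp [hy, h5, B_self, h4, B_comm Q₁ w' w]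
  have := add_mem (add_mem (Z.smul_mem (B Q₁ w' x + Q₁ y) h0) (Z.smul_mem (B Q₁ w x - 1) (h w' h4 h5)))
    (h (w' + y - Q₁ y • w) (by
      simp [Q_sub, Q_add, Q_smul, h4, hw, b2, B_comm Q₁ w' w, h5, B_comm Q₁ y w, b1])
      (by simp [h5, b1, B_self, hw]))
  convert this using 1
  rw [hy]; module

theorem Sz.span_nn (hz : Sz Q₁) {I : Submodule F (End F V)} (hm : ∀ x ∈ I, ∀ y ∈ I, x * y ∈ I)
    (h : ∀ w, Q₁ w = 0 → w ≠ 0 → σ (nn Q₁ w) ∈ I) (x : End F U) : σ x ∈ I := by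
  obtain ⟨w, hw, hw0⟩ := hz.exists_sing
  obtain ⟨w', h4, h5⟩ := hz.partner hw hw0
  have hw' : w' ≠ 0 := by rintro rfl; simp at h5
  have n0 : ∀ {a b : U}, B Q₁ a b = 1 → b ≠ 0 := by rintro a _ h rfl; simp at h
  have k1 : ∀ b, σ (r1 w (B Q₁ b)) ∈ I := fun b => hz.sing_span hw hw0
    { carrier := {b | σ (r1 w (B Q₁ b)) ∈ I}
      add_mem' := fun ha hb => by simpa [r1_add_right] using add_mem ha hb
      zero_mem' := by simp
      smul_mem' := fun c _ ha => by simpa [r1_smul_right] using I.smul_mem c ha }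
    (h w hw hw0) (fun z h1 h2 => by
      simpa [nn, rho_r1_mul, h2] using hm _ (h w hw hw0) _ (h z h1 (n0 h2))) b
  have k2 : ∀ a, σ (r1 a (B Q₁ w')) ∈ I := fun a => hz.sing_span h4 hw'
    { carrier := {a | σ (r1 a (B Q₁ w')) ∈ I}
      add_mem' := fun ha hb => by simpa [r1_add_left] using add_mem ha hb
      zero_mem' := by simp
      smul_mem' := fun c _ ha => by simpa [r1_smul_left] using I.smul_mem c ha }
    (h w' h4 hw') (fun z h1 h2 => by
      simpa [nn, rho_r1_mul, B_comm Q₁ z, h2] using hm _ (h z h1 (n0 h2)) _ (h w' h4 hw')) a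
  rw [eq_sum_r1 x, map_sum]
  refine I.sum_mem fun i _ => ?_
  obtain ⟨b, hb⟩ := OO.exists_B_eq hz.n1 ((bs F U).coord i)
  simpa [rho_r1_mul, B_comm Q₁ w', h5, hb] using hm _ (k2 (x (bs F U i))) _ (k1 b)

/-- the commutant of an endomorphism -/
def cz (c : End F V) : Submodule F (End F V) where
  carrier := {z | c * z = z * c}
  add_mem' {a b} ha hb := by
    change _ = _
    rw [mul_add, add_mul, ha, hb]
  zero_mem' := by simp
  smul_mem' s a ha := by
    change _ = _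
    rw [mul_smul_comm, smul_mul_assoc, ha]

theorem cz_mul (c : End F V) : ∀ x ∈ cz c, ∀ y ∈ cz c, x * y ∈ cz c := fun x hx y hy => by
  change _ = _
  rw [← mul_assoc, hx, mul_assoc, hy, mul_assoc]

theorem Sz.cm_of_eich (hz : Sz Q₁) {c : End F V} (h : ∀ w y, Q₁ w = 0 → w ≠ 0 → B Q₁ w y = 0 →
    Q₁ y ≠ 0 → c * lf σ (eich Q₁ w y) = lf σ (eich Q₁ w y) * c) : Cm σ c := fun x =>
  hz.span_nn (cz_mul c) (fun w hw hw0 => by
    obtain ⟨y, h1, h2⟩ := hz.exists_y hw0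
    exact comm_nn hz.h2 hw h1 h2 (h w y hw hw0 h1 h2)) x

theorem exists_dual_ann {R : Submodule F U} {u : U} (hu : u ∉ R) :
    ∃ φ : Dual F U, φ u = 1 ∧ ∀ r ∈ R, φ r = 0 := by
  obtain ⟨φ, h4, h5⟩ := Submodule.exists_dual_map_eq_bot_of_notMem hu inferInstance
  refine ⟨(φ u)⁻¹ • φ, by simp [h4], fun r hr => ?_⟩
  have : φ r = 0 := by simpa using h5.le (Submodule.mem_map_of_mem hr)
  simp [this]

variable [Nontrivial V]

theorem filt (Φ : Submodule F V) (Z : Submodule F U → Submodule F V) (c : ℕ) (b : ℕ → ℕ)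
    (h1 : ∀ R, ∀ v ∈ Φ, v ∈ Sp σ R → v ∈ Z R) (h2 : ∀ R x, ∀ v ∈ Z R, σ x v ∈ Z R)
    (h3 : ∀ (R : Submodule F U) u n, u ≠ 0 → finrank F R = n + 1 →
      c * finrank F (Z R ⊓ Ln σ u : Submodule F V) + b n ≤ b (n + 1)) (R : Submodule F U) :
    c * finrank F Φ + b (finrank F R) ≤
      c * finrank F (Φ ⊓ Sp σ R : Submodule F V) + b (finrank F U) := by
  obtain ⟨n, hn⟩ := Nat.exists_eq_add_of_le R.finrank_le
  induction n generalizing R with
  | zero => rw [Submodule.eq_top_of_finrank_eq (S := R) hn.symm, Sp_top, inf_top_eq, finrank_top]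
  | succ n ih =>
    obtain ⟨u, hu⟩ : ∃ u, u ∉ R := by
      by_contra! h
      rw [Submodule.eq_top_iff'.2 h, finrank_top] at hn; omega
    have hu0 : u ≠ 0 := by rintro rfl; exact hu (zero_mem _)
    obtain ⟨φ, a1, a2⟩ := exists_dual_ann hu
    have f1 := Submodule.finrank_sup_span_singleton hu
    have f2 := ih (R ⊔ F ∙ u) (by omega)
    have f3 := h3 (R ⊔ F ∙ u) u _ hu0 f1
    have f4 := fr_map (σ (r1 u φ)) (Φ ⊓ Sp σ (R ⊔ F ∙ u))
    have f5 := Submodule.finrank_mono (show (Φ ⊓ Sp σ (R ⊔ F ∙ u)).map (σ (r1 u φ)) ≤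
        Z (R ⊔ F ∙ u) ⊓ Ln σ u from by
      rintro _ ⟨v, hv, rfl⟩
      exact ⟨h2 _ _ _ (h1 _ v hv.1 hv.2), r1_mem_Ln _ _ _⟩)
    have f6 := Submodule.finrank_mono (show Φ ⊓ Sp σ (R ⊔ F ∙ u) ⊓ LinearMap.ker (σ (r1 u φ)) ≤
        Φ ⊓ Sp σ R from fun v hv => ⟨hv.1.1, by
      have e : v = σ (1 - r1 u φ) v := by simp [LinearMap.mem_ker.1 hv.2]
      rw [e]
      refine Sp_map hv.1.2 fun r hr => ?_
      obtain ⟨a, ha, b, hb, rfl⟩ := Submodule.mem_sup.1 hr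
      obtain ⟨c, rfl⟩ := Submodule.mem_span_singleton.1 hb
      simpa [a2 a ha, a1] using ha⟩)
    rw [f1] at f2
    nlinarith

theorem fix_Sp {g : (End F V)ˣ} {v : V} (hv : v ∈ LinearMap.ker ((g : End F V) - 1))
    {R : Submodule F U} (h : v ∈ Sp σ R) : v ∈ Sp (cf g σ) R := by
  rw [← show (g : End F V) v = v from sub_eq_zero.1 hv]; exact (Sp_cf g).2 h

theorem two_frame {g : (End F V)ˣ} (h : Comm σ (cf g σ)) {u : U} (hu : u ≠ 0) (R : Submodule F U) :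
    2 * finrank F U * finrank F (LinearMap.ker ((g : End F V) - 1)) +
      finrank F (Ln σ u) * (finrank F R * (finrank F R + 1)) ≤
    2 * finrank F U * finrank F (LinearMap.ker ((g : End F V) - 1) ⊓ Sp σ R : Submodule F V) +
      finrank F (Ln σ u) * (finrank F U * (finrank F U + 1)) := by
  have i1 : ∀ R x, ∀ v ∈ Sp (cf g σ) R, σ x v ∈ Sp (cf g σ) R := fun R x v hv =>
    Cm.mem_Sp (h.symm x) hv
  refine filt _ (Sp (cf g σ)) _ (fun n => finrank F (Ln σ u) * (n * (n + 1)))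
    (fun R v hv h => fix_Sp hv h) i1 (fun R a n ha hn => ?_) R
  have f1 := finrank_inv _ (i1 R) ha
  rw [finrank_Sp' hu, finrank_Ln_eq (ρ' := σ) hu hu, hn] at f1
  nlinarith

theorem three_frame {g : (End F V)ˣ} (h : Comm σ (cf g σ)) (h' : Comm σ (cf (g * g) σ))
    (h4 : 4 ≤ finrank F U) {u : U} (hu : u ≠ 0) :
    finrank F (LinearMap.ker ((g : End F V) - 1)) + 2 * finrank F (Ln σ u) < finrank F V := by
  have i1 : ∀ R x, ∀ v ∈ Sp (cf g σ) R ⊓ Sp (cf (g * g) σ) R,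
      σ x v ∈ Sp (cf g σ) R ⊓ Sp (cf (g * g) σ) R := fun R x v hv =>
    ⟨Cm.mem_Sp (h.symm x) hv.1, Cm.mem_Sp (h'.symm x) hv.2⟩
  have f := filt (LinearMap.ker ((g : End F V) - 1))
    (fun R => Sp (cf g σ) R ⊓ Sp (cf (g * g) σ) R) (6 * finrank F U * finrank F U)
    (fun n => finrank F (Ln σ u) * (n * (n + 1) * (2 * n + 1)))
    (fun R v hv h => ⟨fix_Sp hv h, by
      rw [cf_mul]; exact fix_Sp hv (fix_Sp hv h)⟩) i1
    (fun R a n ha hn => by
      have f1 := finrank_inv _ (i1 R) ha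
      have f2 := finrank_Sp_inf (σ := cf (g * g) σ) (Sp (cf g σ) R) (fun x v hv =>
        Cm.mem_Sp (by rw [cf_mul]; exact h.cf g x) hv) R
      rw [finrank_Sp' hu, finrank_Ln_eq (ρ' := σ) hu hu, hn, f1] at f2
      nlinarith) ⊥
  have f0 := finrank_Ln (ρ := σ) hu
  have fd : 0 < finrank F (Ln σ u) := by
    obtain ⟨v, hv, hv0⟩ := Ln_ne_bot (ρ := σ) hu
    exact finrank_pos_iff_exists_ne_zero.2 ⟨⟨v, hv⟩, by simpa using hv0⟩
  rw [Sp_bot, inf_bot_eq] at f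
  simp only [finrank_bot, mul_zero, zero_mul, add_zero, zero_add] at f
  by_contra! hc
  obtain ⟨m, hm⟩ := Nat.exists_eq_add_of_le h4
  rw [hm] at f f0
  generalize finrank F (Ln σ u) = d at *
  generalize finrank F (LinearMap.ker ((g : End F V) - 1)) = e at *
  have : (2 + m) * d ≤ e := by nlinarith
  have : 6 * (4 + m) * (4 + m) * ((2 + m) * d) ≤ d * ((4 + m) * (4 + m + 1) * (2 * (4 + m) + 1)) :=
    (Nat.mul_le_mul_left _ this).trans f
  have h5 : (4 + m) * d * (6 * (4 + m) * (2 + m)) ≤ (4 + m) * d * ((4 + m + 1) * (2 * (4 + m) + 1)) := by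
    convert this using 1 <;> ring
  have := Nat.le_of_mul_le_mul_left h5 (by positivity)
  nlinarith

variable {T : Type*} [DecidableEq T] {ρ : T → Fr F U V} {S : Finset T} {G : Subgroup (End F V)ˣ}

/-- the algebra generated by some of the frames -/
def Zc (ρ : T → Fr F U V) (S : Finset T) (z : End F V) : Prop :=
  ∀ c, (∀ j ∈ S, Cm (ρ j) c) → z * c = c * z

/-- primitive idempotents -/
structure Idm (ρ : T → Fr F U V) (S : Finset T) (P : End F V) : Prop where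
  ne : P ≠ 0
  id : P * P = P
  zc : Zc ρ S P
  sc : ∀ z, Zc ρ S z → ∃ l : F, P * z * P = l • P

theorem idm_empty : Idm ρ ∅ 1 := ⟨one_ne_zero, one_mul _, fun _ _ => by simp, fun z hz => by
  obtain ⟨s, hs⟩ := scalar_of_central (z := z) fun w => hz w (by simp)
  exact ⟨s, by simpa using hs⟩⟩

theorem Zc.bk {j : T} (hs : Same (ρ j) τ) (hc : ∀ l ∈ S, Comm (ρ l) τ) {z : End F V}
    (hz : Zc ρ (insert j S) z) (φ : Dual F U) (u : U) : Zc ρ S (bk τ φ u z) := fun c h => by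
  rw [eq_sum_blk τ c, Finset.mul_sum, Finset.sum_mul]
  refine Finset.sum_congr rfl fun a _ => ?_
  rw [Finset.mul_sum, Finset.sum_mul]
  refine Finset.sum_congr rfl fun b _ => ?_
  rw [← mul_assoc, cm_bk, mul_assoc, bk_comm (cm_blk _ _ _) (hz _ fun l hl => ?_), mul_assoc]
  rcases Finset.mem_insert.1 hl with rfl | hl
  · exact hs.symm.cm (cm_blk _ _ _)
  · exact fun y => blk_comm ((hc l hl).symm y) (h l hl y) _ _

theorem Idm.cm {P : End F V} (h : Idm ρ S P) (hc : ∀ l ∈ S, Comm (ρ l) τ) : Cm τ P :=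
  fun x => h.zc _ fun l hl => hc l hl x

theorem Idm.step {P : End F V} (h : Idm ρ S P) {j : T} (hs : Same (ρ j) τ)
    (hc : ∀ l ∈ S, Comm (ρ l) τ) {u : U} {φ : Dual F U} (hφ : φ u = 1) :
    Idm ρ (insert j S) (τ (r1 u φ) * P) := by
  have hP := h.cm hc
  refine ⟨fun h0 => h.ne (nz_mul hP (fun e => by
    have hu : u ≠ 0 := by rintro rfl; simp at hφ
    simpa [hφ, hu] using LinearMap.congr_fun e u) h0), ?_, fun c hc' => ?_, fun z hz => ?_⟩
  · rw [rc_mul hP, hφ, one_smul, h.id]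
  · rw [mul_assoc, h.zc c fun l hl => hc' l (Finset.mem_insert_of_mem hl), ← mul_assoc,
      ← hs.cm (hc' j (Finset.mem_insert_self _ _)), mul_assoc]
  · obtain ⟨l, hl⟩ := h.sc _ (hz.bk hs hc φ u)
    refine ⟨l, ?_⟩
    rw [← mul_smul_comm, ← hl, ← mul_assoc, ← hP, mul_assoc P, mul_assoc P, sandwich,
      ← mul_assoc, hP]
    simp only [mul_assoc]

omit [Nontrivial V] in
theorem Fam.idm (hF : Fam Q₁ Q ρ S) {g : (End F V)ˣ} (hg : g ∈ HH hF) (h3 : g * g * g = 1)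
    (hf : ∀ j ∈ S, g ∈ NF (ρ j) → Cm (ρ j) (g : End F V)) :
    ∃ P, Idm ρ S P ∧ (g : End F V) * P = P * g := by
  haveI := hF.nt
  haveI := hF.sz.nt
  obtain ⟨u, hu⟩ := exists_ne (0 : U)
  obtain ⟨φ, hφ⟩ := H6.exists_dual_one' (F := F) hu
  choose! π p1 p2 using hg
  have inj : ∀ j ∈ S, ∀ l ∈ S, π j = π l → j = l := fun j hj l hl e => hF.eq_of_same hj hl (by
    have := ((p2 j hj).symm.trans (e ▸ p2 l hl)).cf g⁻¹
    rwa [cf_inv_cf, cf_inv_cf] at this)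
  suffices ∀ S' ⊆ S, (∀ j ∈ S', π j ∈ S') → ∃ P, Idm ρ S' P ∧ (g : End F V) * P = P * g from
    this S le_rfl p1
  intro S'
  induction S' using Finset.strongInduction with
  | H S' ih =>
  intro hS hπ
  rcases S'.eq_empty_or_nonempty with rfl | ⟨j, hj⟩
  · exact ⟨1, idm_empty, by simp⟩
  have hc : ∀ {S'' : Finset T} {l : T} {τ : Fr F U V}, S'' ⊆ S' → l ∈ S' → l ∉ S'' → Same (ρ l) τ →
      ∀ m ∈ S'', Comm (ρ m) τ := fun h1 h2 h4 h5 m hm =>
    (h5.comm (hF.comm _ (hS h2) _ (hS (h1 hm)) (by rintro rfl; exact h4 hm))).symm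
  by_cases e : π j = j
  · obtain ⟨P, h1, h2⟩ := ih (S'.erase j) (Finset.erase_ssubset hj)
      ((Finset.erase_subset _ _).trans hS) fun l hl => by
        rw [Finset.mem_erase] at hl ⊢
        exact ⟨fun e' => hl.1 (inj l (hS hl.2) j (hS hj) (e'.trans e.symm)), hπ l hl.2⟩
    refine ⟨_, Finset.insert_erase hj ▸ h1.step (Same.refl _) (hc (Finset.erase_subset _ _) hj
      (by simp) (Same.refl _)) hφ, ?_⟩
    rw [← mul_assoc, hf j (hS hj) (by have := p2 j (hS hj); rwa [e] at this), mul_assoc, h2,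
      mul_assoc]
  have j1 := hπ j hj
  have j2 := hπ _ j1
  have s1 := p2 j (hS hj)
  have s2 : Same (ρ (π (π j))) (cf (g * g) (ρ j)) := by
    rw [cf_mul]; exact (p2 _ (hS j1)).trans (s1.cf g)
  have e3 : π (π (π j)) = j := hF.eq_of_same (hS (hπ _ j2)) (hS hj) (by
    have := (p2 _ (hS j2)).trans (s2.cf g)
    rwa [← cf_mul, ← mul_assoc, h3, cf_one] at this)
  have n1 : π (π j) ≠ π j := fun e' => e (inj _ (hS j1) _ (hS hj) e')
  have n2 : j ≠ π (π j) := fun e' => e (by rwa [← e'] at e3)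
  set S₀ := ((S'.erase j).erase (π j)).erase (π (π j)) with h0
  have l0 : S₀ ⊆ S' := (Finset.erase_subset _ _).trans
    ((Finset.erase_subset _ _).trans (Finset.erase_subset _ _))
  obtain ⟨P, h1, h2⟩ := ih S₀ ⟨l0, fun h => by simpa [h0] using h hj⟩ (l0.trans hS) fun l hl => by
    simp only [h0, Finset.mem_erase] at hl ⊢
    exact ⟨fun e' => hl.2.1 (inj l (hS hl.2.2.2) _ (hS j1) e'),
      fun e' => hl.2.2.1 (inj l (hS hl.2.2.2) _ (hS hj) e'),
      fun e' => hl.1 (inj l (hS hl.2.2.2) _ (hS j2) (e'.trans e3.symm)), hπ l hl.2.2.2⟩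
  have k2 := h1.step s2 (hc l0 j2 (by simp [h0]) s2) hφ
  rw [Finset.insert_erase (by simp [n1, n2.symm, j2])] at k2
  have k1 := k2.step s1 (hc ((Finset.erase_subset _ _).trans (Finset.erase_subset _ _)) j1
    (by simp) s1) hφ
  rw [Finset.insert_erase (by simp [e, j1])] at k1
  have k0 := k1.step (Same.refl _) (hc (Finset.erase_subset _ _) hj (by simp) (Same.refl _)) hφ
  rw [Finset.insert_erase hj] at k0
  refine ⟨_, k0, ?_⟩
  have m : ∀ σ : Fr F U V, (g : End F V) * σ (r1 u φ) = cf g σ (r1 u φ) * g := fun σ => by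
    rw [cf_apply, Units.inv_mul_cancel_right]
  have c1 := hc (S'' := {j}) (by simpa) j1 (by simpa) s1 j (by simp) (r1 u φ) (r1 u φ)
  have c2 := hc (S'' := {j}) (by simpa) j2 (by simpa using n2.symm) s2 j (by simp) (r1 u φ) (r1 u φ)
  rw [← mul_assoc, m, mul_assoc, ← mul_assoc (g : End F V), m, mul_assoc, ← mul_assoc (g : End F V), m,
    ← cf_mul, ← cf_mul, ← mul_assoc g, h3, cf_one, mul_assoc, h2, ← mul_assoc (cf (g * g) _ _), c2,
    mul_assoc, ← mul_assoc, c1]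
  simp only [mul_assoc]

omit [Nontrivial V] in
theorem Cx.same_x (hC : Cx Q₁ Q ρ S G) (h : Cf ρ S G σ) {w y : U} (hw : Q₁ w = 0) (hw0 : w ≠ 0)
    (hy : B Q₁ w y = 0) (hy0 : Q₁ y ≠ 0) (hx : lf σ (eich Q₁ w y) ∈ HH hC.toFam) :
    ∃ j ∈ S, Same (ρ j) σ := by
  haveI := hC.nt
  have hz := hC.sz
  by_contra! hcon
  obtain ⟨p, hp⟩ := CharP.exists F
  haveI : Fact p.Prime := ⟨CharP.char_is_prime F p⟩
  have hf : ∀ j ∈ S, lf σ (eich Q₁ w y) ∈ NF (ρ j) → Cm (ρ j) (lf σ (eich Q₁ w y) : End F V) :=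
    fun j hj hn => (hC.type_x (Cf.of_mem hj) h hw hw0 hy hy0 hn).resolve_left (hcon j hj)
  have hnc : ∀ c, (∀ j ∈ S, Cm (ρ j) c) → Cm σ c := fun c hc => by
    obtain ⟨i, hi, g, hg, rfl⟩ := h
    simpa [mul_assoc] using (hC.nc _ (inv_mem hg) c hc i hi).cf g
  have f1 := finrank_ker_x (σ := σ) (σ' := σ) hz hw hw0 hy hy0 hw0
  set x := lf σ (eich Q₁ w y) with hx0
  obtain ⟨j, hj, hn⟩ : ∃ j ∈ S, x ∉ NF (ρ j) := by
    by_contra! h1
    obtain ⟨s, hs⟩ := scal_of_cm (hnc _ fun j hj => hf j hj (h1 j hj))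
    obtain ⟨w', -, h5⟩ := hz.partner hw hw0
    have := congrArg (B Q₁ y) (LinearMap.congr_fun hs w')
    have e := congrArg (B Q₁ w) (LinearMap.congr_fun hs w')
    simp [eich_apply hw hy, h5, B_self, hw, hy, B_comm Q₁ y w] at this e
    simp [← e, hz.h2, hy0] at this
  have c1 := (hC.rel hx hj hj).resolve_left hn
  have c2 := (hC.rel (mul_mem hx hx) hj hj).resolve_left fun h2 =>
    hn (mem_of_sq (N := NF (ρ j)) h2 (OO.odd_char (p := p) hz.h2) (lf_eich_pow p w y))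
  by_cases h4 : 4 ≤ finrank F U
  · have := three_frame c1 c2 h4 hw0
    rw [finrank_Ln_eq (ρ' := σ) hw0 hw0] at this
    omega
  have e0 : (x : End F V) * x * x = (3 : F) • ((x : End F V) * x) + (-3 : F) • (x : End F V) +
      (1 : F) • 1 := by
    simpa only [map_mul, map_add, map_smul, map_one, hx0, lf_val] using congrArg σ (eich_cube hw hy)
  have e3 := (cubic_move hz.h3 c1 c2 (hC.rel (mul_mem (mul_mem hx hx) hx) hj hj) e0).1
  have e1 : x * x * x = 1 := Units.ext (by simpa [e3] using e0)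
  obtain ⟨P, h1, h2⟩ := hC.toFam.idm hx e1 hf
  obtain ⟨l, hl⟩ := h1.sc x fun c hc => (hnc c hc _).symm
  rw [← h2, mul_assoc, h1.id] at hl
  have e2 : (x : End F V) * P = P := by
    have : (l * l * l) • P = P := by
      have := congrArg (fun z : (End F V)ˣ => (z : End F V) * P) e1
      simpa [mul_assoc, hl, smul_smul] using this
    have h3 : (l - 1) ^ 3 = 0 := by
      linear_combination smul_left_injective F h1.ne (this.trans (one_smul _ _).symm) +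
        (l - l * l) * e3
    rw [hl, sub_eq_zero.1 (pow_eq_zero_iff (by norm_num) |>.1 h3), one_smul]
  have e4 : Ln σ w = LinearMap.ker ((x : End F V) - 1) := Submodule.eq_of_le_of_finrank_le
    (fun v hv => by
      rw [LinearMap.mem_ker, LinearMap.sub_apply, hx0, lf_val, Ln_congr hv (y := 1)
        (eich_apply_self hw hy)]; simp) (by
      have := finrank_Ln (ρ := σ) hw0
      have := hz.h3
      nlinarith)
  refine h1.ne (LinearMap.ext fun v => ?_)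
  obtain ⟨z, hz'⟩ := (range_nn hz.n1 hw0).ge (e4.ge (show P v ∈ LinearMap.ker ((x : End F V) - 1) by
    rw [LinearMap.mem_ker, ← End.mul_apply, sub_mul, e2]; simp))
  have e5 : P * σ (nn Q₁ w) = 0 := smul_right_injective _ (neg_ne_zero.2 (mul_ne_zero hz.h2 hy0)) (by
    simp only [smul_zero]
    rw [← mul_smul_comm, ← lf_eich_sq hw hy, ← mul_assoc, mul_sub P, ← h2, e2]; simp)
  rw [← h1.id, End.mul_apply, ← hz', ← End.mul_apply, e5]; rfl

/-- `R(x)` -/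
def Rx (hF : Fam Q₁ Q ρ S) (G : Subgroup (End F V)ˣ) : Prop :=
  ∀ i ∈ S, ∀ w y, Q₁ w = 0 → w ≠ 0 → B Q₁ w y = 0 → Q₁ y ≠ 0 → ∀ g ∈ G,
    g * lf (ρ i) (eich Q₁ w y) * g⁻¹ ∈ HH hF → g ∈ HH hF

omit [Nontrivial V] in
theorem Cx.mem_of_same (hC : Cx Q₁ Q ρ S G) (hN : ∀ j ∈ S, G ⊓ NF (ρ j) ≤ HH hC.toFam)
    {g : (End F V)ˣ} (hg : g ∈ G) {i j : T} (hi : i ∈ S) (hj : j ∈ S)
    (h : Same (ρ j) (cf g (ρ i))) : g ∈ HH hC.toFam := fun l hl => by
  by_cases e : l = i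
  · exact ⟨j, hj, e ▸ h⟩
  obtain ⟨w, y, hw, hw0, hy, hy0⟩ := hC.sz.exists_wy
  have h1 := (Cf.of_mem (ρ := ρ) (G := G) hl).cf hg
  exact hC.same_x h1 hw hw0 hy hy0 (hN j hj ⟨hC.K' h1 (hC.sz.eich_mem w y), NF_of_cm
    (h.symm.cm (cm_lf ((hC.comm i hi l hl (Ne.symm e)).cf g) _))⟩)

omit [Nontrivial V] in
theorem Cx.rx (hC : Cx Q₁ Q ρ S G) (hN : ∀ j ∈ S, G ⊓ NF (ρ j) ≤ HH hC.toFam) :
    Rx hC.toFam G := fun i hi w y hw hw0 hy hy0 g hg h => by
  obtain ⟨j, hj, h1⟩ := hC.same_x ((Cf.of_mem hi).cf hg) hw hw0 hy hy0 (by rwa [lf_cf])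
  exact hC.mem_of_same hN hg hi hj h1

end Cfsg.Agent.H2.TO
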