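import Cfsg.Agent.H2.TO5
import Mathlib.RepresentationTheory.Maschke

set_option autoImplicit false
set_option linter.unusedSectionVars false
set_option linter.unusedSimpArgs false

/-! Orthogonal tensor frames, part 6: a cubic case of the Hall-Higman theorem. -/

namespace Cfsg.Agent.H2.TO

open Module

section ring
variable {F R : Type*} [Field F] [Ring R] [Algebra F R]

theorem hh_ring (h6 : (6 : F) ≠ 0) (A : Subalgebra F R) {n y : R} (h3 : n * (n * n) = 0)
    (hy : n * y = y * n) (hy' : n * (n * y) = n * n) (σ : R → R) (hσ : ∀ a, σ a = (n * a - a * n) * y)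
    (h1 : ∀ a ∈ A, σ a ∈ A) (reg : ∀ b ∈ A, ∃ c ∈ A, b * c * b = b)
    (h2 : ∀ a ∈ A, σ (σ a) = 0 → ∃ a' ∈ A, σ a = n * n * a' * (n * n)) (a : R) (ha : a ∈ A) :
    σ a = 0 := by
  have n3 : ∀ z, n * (n * (n * z)) = 0 := fun z => by rw [← mul_assoc, ← mul_assoc, mul_assoc n, h3, zero_mul]
  have y1 : ∀ z, y * (n * z) = n * (y * z) := fun z => by rw [← mul_assoc, ← hy, mul_assoc]
  have y2 : ∀ z, n * (n * (y * z)) = n * (n * z) := fun z => by
    rw [← mul_assoc n y, ← mul_assoc, hy', mul_assoc]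
  have s4 : ∀ a, σ (σ (σ (σ a))) = (6 : F) • (n * n * a * (n * n)) := fun a => by
    simp only [hσ, mul_sub, sub_mul, mul_assoc, n3, h3, y1, y2, ← hy, hy', mul_zero, zero_mul]
    module
  have k : ∀ a ∈ A, n * n * a * (n * n) = 0 := fun a ha => by
    have hb : n * n * a * (n * n) ∈ A := by
      have := A.smul_mem (h1 _ (h1 _ (h1 _ (h1 a ha)))) (6 : F)⁻¹
      rwa [s4, smul_smul, inv_mul_cancel₀ h6, one_smul] at this
    obtain ⟨c, hc, e1⟩ := reg _ hb
    have e2 : σ (σ (n * n * a * (n * n) * c)) = n * n * a * (n * n) * c * (n * n) := by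
      simp only [hσ, mul_sub, sub_mul, mul_assoc, n3, h3, y1, y2, ← hy, hy', mul_zero, zero_mul]
      simp
    obtain ⟨a₁, h4, e3⟩ := h2 _ (h1 _ (A.mul_mem hb hc)) (by
      rw [e2]
      simp only [hσ, mul_sub, sub_mul, mul_assoc, n3, h3, y1, y2, ← hy, hy', mul_zero, zero_mul]
      simp)
    have he := h1 _ (h1 _ (A.mul_mem hb hc))
    rw [e3] at he
    rw [e2] at e3
    have e4 : n * (n * (a₁ * (n * (n * (a₁ * (n * n)))))) = n * (n * (a₁ * (n * n))) := by
      have := congrArg (fun z => z * a₁ * (n * n)) e3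
      have e5 := congrArg (fun z => n * n * a * (n * n) * c * z) e3
      have e6 := congrArg (fun z => z * c * (n * n)) e1
      simp only [mul_assoc] at this e3 e5 e6
      rw [← this, ← e5, e6, e3]
    obtain ⟨a₂, -, e5⟩ := h2 _ (A.sub_mem (A.mul_mem he h4) (A.mul_mem h4 he)) (by
      simp only [hσ, mul_sub, sub_mul, mul_assoc, n3, h3, y1, y2, ← hy, hy', mul_zero, zero_mul, e4]
      simp)
    have e6 := congrArg (· * n) e5
    simp only [hσ, mul_sub, sub_mul, mul_assoc, n3, h3, y1, y2, ← hy, hy', mul_zero, zero_mul, e4,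
      sub_zero, zero_sub, neg_mul, neg_eq_zero, neg_zero] at e6
    have e7 := congrArg (fun z => z * a * (n * n)) e3
    simp only [mul_assoc, e6] at e7 e1 ⊢
    rw [← e1, e7, zero_mul]
  have k2 : ∀ a ∈ A, σ (σ a) = 0 → σ a = 0 := fun a ha h => by
    obtain ⟨a', h4, e⟩ := h2 a ha h
    rw [e, k a' h4]
  exact k2 a ha (k2 _ (h1 a ha) (k2 _ (h1 _ (h1 a ha)) (by rw [s4, k a ha, smul_zero])))

theorem exists_reg {A : Type*} [Ring A] [IsSemisimpleRing A] (b : A) : ∃ c, b * c * b = b := by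
  obtain ⟨e, h1, h2⟩ := IsSemisimpleRing.ideal_eq_span_idempotent (Ideal.span {b})
  obtain ⟨c, hc⟩ := Ideal.mem_span_singleton'.1 (h2.ge (Ideal.mem_span_singleton_self e))
  obtain ⟨d, hd⟩ := Ideal.mem_span_singleton'.1 (h2.le (Ideal.mem_span_singleton_self b))
  exact ⟨c, by rw [mul_assoc, hc, ← hd, mul_assoc, h1]⟩

theorem exists_unit_ker {A : Type*} [Ring A] [IsSemisimpleRing A] (π : A →+* R) :
    ∃ e, π e = 0 ∧ ∀ z, π z = 0 → z * e = z ∧ e * z = z := by
  obtain ⟨e, h1, h2⟩ := IsSemisimpleRing.ideal_eq_span_idempotent (RingHom.ker π)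
  have h3 : π e = 0 := h2.ge (Ideal.mem_span_singleton_self e)
  have h4 : ∀ z, π z = 0 → z * e = z := fun z hz => by
    obtain ⟨d, rfl⟩ := Ideal.mem_span_singleton'.1 (h2.le hz)
    rw [mul_assoc, h1]
  refine ⟨e, h3, fun z hz => ⟨h4 z hz, ?_⟩⟩
  obtain ⟨c, hc⟩ := exists_reg (z - e * z)
  have h5 := h4 ((z - e * z) * c) (by simp [hz, h3])
  have h6 : e * (z - e * z) = 0 := by rw [mul_sub, ← mul_assoc, h1, sub_self]
  rw [← h5, mul_assoc _ e, h6, mul_zero] at hc
  exact (sub_eq_zero.1 hc.symm).symm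

theorem sum_pow_eq (p : ℕ) [Fact p.Prime] [CharP F p] (x : R) :
    ∑ i ∈ Finset.range p, x ^ i = (x - 1) ^ (p - 1) := by
  have h : ∑ i ∈ Finset.range p, (Polynomial.X : Polynomial F) ^ i = (Polynomial.X - 1) ^ (p - 1) := by
    refine mul_left_cancel₀ (Polynomial.X_sub_C_ne_zero (1 : F)) ?_
    rw [Polynomial.C_1, mul_geom_sum, ← pow_succ', Nat.sub_add_cancel (Fact.out : p.Prime).one_le,
      sub_pow_char, one_pow]
  simpa using congrArg (Polynomial.aeval x) h

theorem perm_norm {J : Type*} [Finite J] {p : ℕ} [Fact p.Prime] (θ : Equiv.Perm J) (h : θ ^ p = 1)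
    (f : J → F) (h1 : ∀ j, f (θ j) = f j) (h2 : ∀ j, θ j = j → f j = 0) :
    ∃ k : J → F, ∀ j, ∑ i ∈ Finset.range p, k ((θ ^ i) j) = f j := by
  classical
  let r : J → J := fun j => (Quotient.mk (Equiv.Perm.SameCycle.setoid θ) j).out
  have r1 : ∀ j, θ.SameCycle (r j) j := fun j => Quotient.mk_out (s := Equiv.Perm.SameCycle.setoid θ) j
  have r2 : ∀ (i : ℕ) j, r ((θ ^ i) j) = r j := fun i j => congrArg Quotient.out (Quotient.sound
    (Equiv.Perm.sameCycle_pow_left.2 (Equiv.Perm.SameCycle.refl θ j)))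
  have f1 : ∀ (i : ℕ) j, f ((θ ^ i) j) = f j := fun i j => by
    induction i with
    | zero => rfl
    | succ i ih => rw [pow_succ', Equiv.Perm.mul_apply, h1, ih]
  refine ⟨fun j => if r j = j then f j else 0, fun j => ?_⟩
  simp only [r2, f1]
  by_cases hj : θ j = j
  · simp [h2 j hj]
  have hp : Function.minimalPeriod θ j = p := Function.minimalPeriod_eq_prime (by
    change θ^[p] j = j
    rw [← Equiv.Perm.coe_pow, h]; rfl) hj
  obtain ⟨i, hi, e⟩ := (r1 j).symm.exists_pow_eq'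
  have hi' := hi.trans_le (orderOf_le_of_pow_eq_one (Fact.out : p.Prime).pos h)
  rw [Finset.sum_eq_single_of_mem i (Finset.mem_range.2 hi'), if_pos e.symm]
  intro l hl hne
  refine if_neg fun e' => hne (Function.iterate_injOn_Iio_minimalPeriod (f := θ) (x := j)
    (by simpa [hp] using hl) (by simpa [hp] using hi') ?_)
  simp only [← Equiv.Perm.coe_pow, ← e', e]

/-- a cubic element of order `p ≥ 5` centralises every `p'`-group it normalises -/
theorem hall_higman {p : ℕ} [Fact p.Prime] [CharP F p] (h5 : 5 ≤ p) (J : Subgroup Rˣ) [Finite J]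
    (hJ : ¬ p ∣ Nat.card J) {x : Rˣ} (hx : x ∈ Subgroup.normalizer (J : Set Rˣ)) (hp : x ^ p = 1)
    (h3 : ((x : R) - 1) * (((x : R) - 1) * ((x : R) - 1)) = 0) {c : Rˣ} (hc : c ∈ J) :
    x * c = c * x := by
  haveI : NeZero (Nat.card J : F) := ⟨by rwa [Ne, CharP.cast_eq_zero_iff F p]⟩
  have h6 : (6 : F) ≠ 0 := fun h => by
    have h1 : p ∣ 2 * 3 := (CharP.cast_eq_zero_iff F p 6).1 (by exact_mod_cast h)
    rcases (Fact.out : p.Prime).dvd_mul.1 h1 with h | h <;> have := Nat.le_of_dvd (by norm_num) h <;>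
      omega
  let π : MonoidAlgebra F J →ₐ[F] R := MonoidAlgebra.lift F R J ((Units.coeHom R).comp J.subtype)
  let θ : MulAut J := J.normalizerMonoidHom ⟨x, hx⟩
  let Θ := MonoidAlgebra.domCongr F F θ
  let D : End F (MonoidAlgebra F J) := Θ.toLinearMap - 1
  let σ : R → R := fun a => x * a * ↑x⁻¹ - a
  set n := (x : R) - 1 with hn
  have hx1 : (x : R) = 1 + n := by simp [hn]
  have hy : n * ↑x⁻¹ = ↑x⁻¹ * n := by simp [hn, sub_mul, mul_sub]
  have hy' : n * (n * ↑x⁻¹) = n * n := by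
    rw [← mul_assoc, Units.mul_inv_eq_iff_eq_mul, hx1, mul_add, mul_one, mul_assoc, h3]
    simp
  have hσ : ∀ a, σ a = (n * a - a * n) * ↑x⁻¹ := fun a => by simp [σ, hn, sub_mul, mul_sub]
  have e1 : ∀ a, π (Θ a) = x * π a * ↑x⁻¹ := fun a => by
    induction a using MonoidAlgebra.induction_on with
    | of m => simp [π, Θ, θ]
    | add a b ha hb => simp [ha, hb, mul_add, add_mul]
    | smul r a ha => simp [ha]
  have e2 : ∀ a, π (D a) = σ (π a) := fun a => by simp [D, σ, e1]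
  have hθ : θ ^ p = 1 := by
    rw [← map_pow, show (⟨x, hx⟩ : Subgroup.normalizer (J : Set Rˣ)) ^ p = 1 from Subtype.ext hp,
      map_one]
  obtain ⟨e, a1, a2⟩ := exists_unit_ker π.toRingHom
  have a3 : Θ e = e := by
    have b1 : π (Θ e) = 0 := by rw [e1, show π e = 0 from a1]; simp
    have b2 : π (Θ.symm e) = 0 := by
      have := e1 (Θ.symm e)
      rw [AlgEquiv.apply_symm_apply, show π e = 0 from a1] at this
      simpa using this.symm
    have := congrArg Θ (a2 _ b2).1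
    rw [map_mul, AlgEquiv.apply_symm_apply, (a2 _ b1).2] at this
    exact this
  have key := hh_ring h6 π.range h3 hy hy' σ hσ (by rintro _ ⟨a, rfl⟩; exact ⟨D a, e2 a⟩)
    (by
      rintro _ ⟨b, rfl⟩
      obtain ⟨c, hc⟩ := exists_reg b
      exact ⟨_, ⟨c, rfl⟩, by simpa using congrArg π hc⟩)
    (by
      rintro _ ⟨a, rfl⟩ h
      change σ (σ (π a)) = 0 at h
      have d1 : ∀ a, D (a * (1 - e)) = D a * (1 - e) := fun a => by simp [D, a3, sub_mul]
      have d2 : Θ (D (a * (1 - e))) = D (a * (1 - e)) := by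
        have : D (D (a * (1 - e))) = 0 := by
          rw [d1, d1, mul_sub, (a2 _ (by change π _ = 0; rw [e2, e2, h])).1]; simp
        exact sub_eq_zero.1 this
      obtain ⟨k, hk⟩ := perm_norm (p := p) (MulAut.toPerm J θ⁻¹) (by
        rw [← map_pow, inv_pow, hθ, inv_one, map_one]) (D (a * (1 - e))).coeff
        (fun j => by
          conv_rhs => rw [← d2]
          exact (MonoidAlgebra.coeff_domCongr _ _ _).symm)
        (fun j hj => by
          change (Θ _ - _ : MonoidAlgebra F J).coeff j = 0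
          rw [MonoidAlgebra.coeff_sub, Finsupp.sub_apply, MonoidAlgebra.coeff_domCongr]
          exact sub_eq_zero.2 (congrArg _ hj))
      let k' : MonoidAlgebra F J := .ofCoeff (Finsupp.equivFunOnFinite.symm k)
      have d3 : ∀ (i : ℕ) j, ((Θ.toLinearMap ^ i) k').coeff j = k ((MulAut.toPerm J θ⁻¹ ^ i) j) := by
        intro i
        induction i with
        | zero => intro j; rfl
        | succ i ih =>
          intro j
          rw [pow_succ', End.mul_apply, pow_succ, Equiv.Perm.mul_apply, ← ih]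
          exact MonoidAlgebra.coeff_domCongr (R := F) θ _ j
      have d4 : (D ^ (p - 1)) k' = D (a * (1 - e)) := by
        ext j
        rw [← sum_pow_eq (F := F), ← hk, LinearMap.sum_apply]
        simp [d3]
      have d5 : π (D (a * (1 - e))) = σ (π a) := by rw [e2]; simp [show π e = 0 from a1]
      obtain ⟨m, hm⟩ := Nat.exists_eq_add_of_le h5
      refine ⟨π ((6 : F) • (D ^ m) k'), ⟨_, rfl⟩, ?_⟩
      change σ (π a) = _
      rw [← d5, ← d4, show p - 1 = 1 + 1 + 1 + 1 + m by omega]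
      simp only [pow_add, pow_one, End.mul_apply, e2, map_smul]
      have n3 : ∀ z, n * (n * (n * z)) = 0 := fun z => by
        rw [← mul_assoc, ← mul_assoc, mul_assoc n, h3, zero_mul]
      have y1 : ∀ z, ↑x⁻¹ * (n * z) = n * (↑x⁻¹ * z) := fun z => by rw [← mul_assoc, ← hy, mul_assoc]
      have y2 : ∀ z, n * (n * (↑x⁻¹ * z)) = n * (n * z) := fun z => by
        rw [← mul_assoc n _ z, ← mul_assoc, hy', mul_assoc]
      simp only [hσ, mul_sub, sub_mul, mul_assoc, n3, h3, y1, y2, ← hy, hy', mul_zero, zero_mul,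
        mul_smul_comm, smul_mul_assoc]
      module) c ⟨MonoidAlgebra.of F J ⟨c, hc⟩, by simp [π]⟩
  rw [← mul_inv_eq_iff_eq_mul]
  exact Units.ext (sub_eq_zero.1 key)

end ring

theorem index_modEq {N : Type*} [Group N] [Finite N] {p : ℕ} [Fact p.Prime] (H : Subgroup N)
    (θ : MulAut N) (h : θ ^ p = 1) (h1 : ∀ c ∈ H, θ c ∈ H) (h2 : ∀ c, c⁻¹ * θ c ∈ H → c ∈ H) :
    H.index ≡ 1 [MOD p] := by
  classical
  haveI := Fintype.ofFinite (N ⧸ H)
  let f : Function.End (N ⧸ H) := Quotient.map' θ fun a b hab => by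
    rw [QuotientGroup.leftRel_apply] at hab ⊢
    simpa using h1 _ hab
  have f1 : ∀ (i : ℕ) (c : N), (f ^ i) (c : N ⧸ H) = ((θ ^ i) c : N) := fun i => by
    induction i with
    | zero => intro c; rfl
    | succ i ih => intro c; rw [pow_succ, pow_succ]; exact ih (θ c)
  have := Equiv.Perm.card_fixedPoints_modEq (f := f) (p := p) (n := 1) (by
    funext c
    induction c using QuotientGroup.induction_on with
    | H c => rw [pow_one, f1, h]; rfl)
  rw [Fintype.card_eq_one_iff (α := f.fixedPoints) |>.2 ⟨⟨((1 : N) : N ⧸ H), congrArg _ (map_one θ)⟩, fun ⟨c, hc⟩ =>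
    Subtype.ext (by
      induction c using QuotientGroup.induction_on with
      | H c => exact QuotientGroup.eq.2 (by simpa using h2 c (QuotientGroup.eq.1 hc.symm)))⟩] at this
  rwa [Subgroup.index, Nat.card_eq_fintype_card]

/-- the relative version -/
theorem le_of_hh {F R : Type*} [Field F] [Ring R] [Algebra F R] [Finite Rˣ] {p : ℕ} [Fact p.Prime]
    [CharP F p] (h5 : 5 ≤ p) (H N : Subgroup Rˣ) {x : Rˣ} (hp : x ^ p = 1)
    (h3 : ((x : R) - 1) * (((x : R) - 1) * ((x : R) - 1)) = 0) (hxH : x ∈ H)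
    (hxN : ∀ c ∈ N, x * c * x⁻¹ ∈ N) {e : R} (he : e * e = e) (hxe : x * e = e * x)
    (hNe : ∀ c ∈ N, (c : R) * e = e * c) (hK : ∀ c ∈ N, (c : R) * e = e → c ∈ H)
    (hf : ∀ c ∈ N, c⁻¹ * x * c ∈ H → c ∈ H)
    (hq : (∀ c ∈ N, c ∈ H → ((c ^ p : Rˣ) : R) * e = e → (c : R) * e = e) ∨
      ∀ c ∈ N, ((c ^ p : Rˣ) : R) * e = e) : N ≤ H := by
  let C : Subgroup Rˣ :=
    { carrier := {g | (g : R) * e = e * g}
      mul_mem' := fun {a b} ha hb => by
        change _ = _
        rw [Units.val_mul, mul_assoc, hb, ← mul_assoc, ha, mul_assoc]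
      one_mem' := by simp
      inv_mem' := fun {a} ha => by
        change _ = _
        rw [Units.inv_mul_eq_iff_eq_mul, ← mul_assoc, ha, Units.mul_inv_cancel_right] }
  have m : ∀ a b : C, ((a : Rˣ) * e + (1 - e)) * ((b : Rˣ) * e + (1 - e)) =
      ((a * b : C) : Rˣ) * e + (1 - e) := fun a b => by
    have := b.2
    simp only [add_mul, mul_add, mul_sub, sub_mul, mul_assoc, he, ← mul_assoc e, ← show _ = _ from this,
      Subgroup.coe_mul, Units.val_mul, mul_one, one_mul]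
    abel
  let φ : C →* Rˣ := MonoidHom.toHomUnits
    { toFun := fun a => (a : Rˣ) * e + (1 - e)
      map_one' := by simp
      map_mul' := fun a b => (m a b).symm }
  have φ1 : ∀ a : C, φ a = 1 ↔ ((a : Rˣ) : R) * e = e := fun a => by
    rw [← Units.val_eq_one]
    change ((a : Rˣ) : R) * e + (1 - e) = 1 ↔ _
    constructor <;> intro h
    · linear_combination (norm := abel) h
    · rw [h]; abel
  have hNC : N ≤ C := fun c hc => hNe c hc
  let ψ : N →* Rˣ := φ.comp (Subgroup.inclusion hNC)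
  have ψ1 : ∀ c : N, c ∈ ψ.ker ↔ ((c : Rˣ) : R) * e = e := fun c => φ1 _
  have hxn : x ∈ Subgroup.normalizer (N : Set Rˣ) := Subgroup.mem_normalizer_fintype hxN
  have i1 := index_modEq (p := p) (H.subgroupOf N) (N.normalizerMonoidHom ⟨x, hxn⟩) (by
    rw [← map_pow, show (⟨x, hxn⟩ : Subgroup.normalizer (N : Set Rˣ)) ^ p = 1 from Subtype.ext hp,
      map_one]) (fun c hc => mul_mem (mul_mem hxH hc) (inv_mem hxH)) fun c hc =>
    hf c c.2 (by simpa [mul_assoc] using mul_mem (show c.1⁻¹ * (x * c * x⁻¹) ∈ H from hc) hxH)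
  have i2 : ¬ p ∣ (H.subgroupOf N).index := fun h => (Fact.out : p.Prime).one_lt.ne'
    (Nat.dvd_one.1 ((Nat.modEq_iff_dvd' (Nat.zero_le 1)).1
      ((Nat.modEq_zero_iff_dvd.2 h).symm.trans i1)))
  have i3 := Subgroup.relIndex_mul_index (show ψ.ker ≤ H.subgroupOf N from
    fun c hc => hK c c.2 ((ψ1 c).1 hc))
  rw [Subgroup.index_ker, Subgroup.relIndex_ker] at i3
  rcases hq with hq | hq
  · have j1 : ¬ p ∣ Nat.card ψ.range := by
      rw [← i3, (Fact.out : p.Prime).dvd_mul]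
      rintro (h | h)
      · obtain ⟨⟨_, c, hc, rfl⟩, h4⟩ := exists_prime_orderOf_dvd_card' p h
        have h6 : ψ c ^ p = 1 := congrArg Subtype.val (orderOf_dvd_iff_pow_eq_one.1 h4.dvd)
        rw [← map_pow] at h6
        have h7 := (ψ1 c).2 (hq c c.2 hc ((ψ1 _).1 h6))
        rw [show (⟨ψ c, c, hc, rfl⟩ : (H.subgroupOf N).map ψ) = 1 from Subtype.ext h7,
          orderOf_one] at h4
        exact (Fact.out : p.Prime).one_lt.ne h4
      · exact i2 h
    let x' : C := ⟨x, hxe⟩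
    intro c hc
    have j2 := hall_higman (F := F) h5 ψ.range j1 (x := φ x') (Subgroup.mem_normalizer_fintype (by
        rintro _ ⟨c, rfl⟩
        exact ⟨⟨_, hxN c c.2⟩, by
          change φ (x' * ⟨c, hNC c.2⟩ * x'⁻¹) = _
          rw [map_mul, map_mul, map_inv]; rfl⟩))
      (by rw [← map_pow, show x' ^ p = 1 from Subtype.ext hp, map_one]) (by
        have e1 : ((φ x' : Rˣ) : R) - 1 = ((x : R) - 1) * e := by
          change (x : R) * e + (1 - e) - 1 = _
          rw [sub_mul, one_mul]; abel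
        have e2 : ∀ z, e * (((x : R) - 1) * z) = ((x : R) - 1) * (e * z) := fun z => by
          rw [← mul_assoc, ← mul_assoc, mul_sub, sub_mul (x : R), hxe]; simp
        rw [e1]
        simp only [mul_assoc, e2]
        rw [← mul_assoc, ← mul_assoc, mul_assoc _ _ ((x : R) - 1), h3, zero_mul])
      (c := ψ ⟨c, hc⟩) ⟨_, rfl⟩
    have j3 : (⟨c⁻¹ * (x * c * x⁻¹), mul_mem (inv_mem hc) (hxN c hc)⟩ : N) ∈ ψ.ker := by
      change φ ((⟨c, hNC hc⟩ : C)⁻¹ * (x' * ⟨c, hNC hc⟩ * x'⁻¹)) = 1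
      rw [map_mul, map_mul, map_mul, show φ x' * φ ⟨c, hNC hc⟩ = φ ⟨c, hNC hc⟩ * φ x' from j2]
      simp
    exact hf c hc (by simpa [mul_assoc] using mul_mem (hK _ (Subtype.prop _) ((ψ1 _).1 j3)) hxH)
  · obtain ⟨a, ha⟩ := IsPGroup.iff_card.1 (show IsPGroup p ψ.range from by
      rintro ⟨_, c, rfl⟩
      exact ⟨1, Subtype.ext (by
        rw [pow_one]; exact (map_pow ψ c p).symm.trans ((ψ1 _).2 (hq c c.2)))⟩)
    obtain ⟨b, -, hb⟩ := (Nat.dvd_prime_pow (Fact.out : p.Prime)).1 (ha ▸ Dvd.intro_left _ i3)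
    rw [← Subgroup.subgroupOf_eq_top, ← Subgroup.index_eq_one, hb]
    rcases b with _ | b
    · rfl
    · exact absurd (hb ▸ dvd_pow_self p b.succ_ne_zero) i2

end Cfsg.Agent.H2.TO
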