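import Cfsg.Agent.H2.TO6

set_option autoImplicit false
set_option linter.unusedSectionVars false
set_option linter.unusedSimpArgs false

/-! Orthogonal tensor frames, part 7: coprime action, pointwise stabilisers. -/

namespace Cfsg.Agent.H2.TO

open Module Cfsg.Agent.Orth Cfsg.Agent.H1.TW

variable {F : Type*} [Field F] [Finite F] {U V : Type*} [AddCommGroup U] [Module F U]
  [AddCommGroup V] [Module F V] [FiniteDimensional F U] [FiniteDimensional F V]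
  {Q₁ : QuadraticForm F U} {Q : QuadraticForm F V} {σ σ' τ : Fr F U V}

instance finite_End : Finite (End F V) :=
  haveI : Finite V := Module.finite_of_finite F
  Finite.of_injective _ (DFunLike.coe_injective (F := End F V))

theorem Sz.exists_plane (hz : Sz Q₁) {p : ℕ} [Fact p.Prime] [CharP F p]
    (h : 4 ≤ finrank F U ∨ p < 5) : ∃ w y₁ y₂, Q₁ w = 0 ∧ w ≠ 0 ∧ B Q₁ w y₁ = 0 ∧
    B Q₁ w y₂ = 0 ∧ ∀ i j : ℕ, Q₁ ((i : F) • y₁ + (j : F) • y₂) = 0 → (i : F) = 0 ∧ (j : F) = 0 := by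
  obtain ⟨w, hw, hw0⟩ := hz.exists_sing
  by_cases h4 : 4 ≤ finrank F U
  swap
  · obtain ⟨t, t1, t2⟩ := hz.hq (by have := hz.h3; omega)
    obtain ⟨y, h1, h2⟩ := hz.exists_y hw0
    have h3 : p = 3 := by
      have := (Fact.out : p.Prime).two_le
      have := OO.odd_char (p := p) hz.h2
      have := h.resolve_left h4
      interval_cases p <;> simp_all [Nat.odd_iff]
    subst h3
    have e3 : (3 : F) = 0 := CharP.cast_eq_zero F 3
    have k : ∀ i : ℕ, (i : F) = 0 ∨ (i : F) * i = 1 := fun i => by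
      rw [← Nat.mod_add_div i 3]
      have := Nat.mod_lt i (show 0 < 3 by norm_num)
      generalize i % 3 = r at *
      interval_cases r <;> simp [e3]
      right; linear_combination e3
    refine ⟨w, y, t • y, hw, hw0, h1, by simp [h1], fun i j h => ?_⟩
    rw [smul_smul, ← add_smul, Q_smul] at h
    have h5 : (i : F) + j * t = 0 := by simpa [h2] using h
    rcases k j with hj | hj
    · exact ⟨by simpa [hj] using h5, hj⟩
    · rcases k i with hi | hi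
      · exact absurd (by linear_combination j * h5 - j * hi - t * hj) t1
      · exact absurd (by linear_combination (j * t - i) * h5 - t * t * hj + hi) t2
  obtain ⟨w', h5, h6⟩ := hz.partner hw hw0
  have n0 := (OO.ndOn_hyp hw h5 (by simp [h6])).perp hz.n1
  have e0 := finrank_perp_ge (Q := Q₁) (Submodule.span F {w, w'})
  have e1 := Orth.finrank_span_pair_le (F := F) w w'
  obtain ⟨y₁, h7, h8⟩ := n0.exists_Q_eq le_rfl (by omega) 1
  have l1 := (Submodule.span_singleton_le_iff_mem _ _).2 h7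
  have n1 := n0.inf_perp (OO.ndOn_one hz.h2 (by simp [h8])) l1
  have e2 := finrank_inf_perp_ge (Q := Q₁) (perp Q₁ (Submodule.span F {w, w'})) (F ∙ y₁)
  have e3 := finrank_span_singleton_le (F := F) y₁
  have b1 : B Q₁ w y₁ = 0 := mem_perp_span.1 h7 _ (by simp)
  by_cases h : 5 ≤ finrank F U
  · obtain ⟨ν, hν⟩ := OO.exists_nonsq hz.h2
    obtain ⟨y₂, h9, h10⟩ := n1.exists_Q_eq le_rfl (by omega) (-ν)
    refine ⟨w, y₁, y₂, hw, hw0, b1, mem_perp_span.1 h9.1 _ (by simp), fun a b h => ?_⟩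
    simp [Q_add, Q_smul, h8, h10, mem_perp_span_singleton.1 h9.2] at h
    have : (b : F) = 0 := by
      by_contra hb
      exact hν ⟨a / b, by field_simp; linear_combination -h⟩
    simpa [this] using h
  · obtain ⟨y₂, h9, h10⟩ := n1.exists_nonsing le_rfl (by omega)
    have b2 : B Q₁ w y₂ = 0 := mem_perp_span.1 h9.1 _ (by simp)
    have b3 : B Q₁ y₁ y₂ = 0 := mem_perp_span_singleton.1 h9.2
    refine ⟨w, y₁, y₂, hw, hw0, b1, b2, fun a b h' => ?_⟩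
    obtain ⟨c, hc⟩ := hz.par (by omega) hw hw0 (by simp [b1, b2]) h'
    have a1 := congrArg (B Q₁ y₁) hc
    have a2 := congrArg (B Q₁ y₂) hc
    simp [B_comm Q₁ _ w, b1, b2, b3, B_comm Q₁ y₂ y₁, B_self, h8, h10, hz.h2] at a1 a2
    exact ⟨a1, a2⟩

/-- eigenspaces -/
def EV (g : (End F V)ˣ) (c : F) : Submodule F V := OO.Eg (te g) c

theorem mem_EV {g : (End F V)ˣ} {c : F} {v : V} : v ∈ EV g c ↔ (g : End F V) v = c • v := OO.mem_Eg
theorem mem_EV1 {g : (End F V)ˣ} {v : V} : v ∈ EV g 1 ↔ (g : End F V) v = v := OO.mem_Eg1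
theorem mem_EV2 {g : (End F V)ˣ} {v : V} : v ∈ EV g (-1) ↔ (g : End F V) v = -v := OO.mem_Eg2

theorem finrank_EV_conj (g k : (End F V)ˣ) (c : F) :
    finrank F (EV (g * k * g⁻¹) c) = finrank F (EV k c) := OO.finrank_Eg_conj (te g) (te k) c

theorem EV_lf (a : U ≃ₗ[F] U) (c : F) : EV (lf σ a) c = Sp σ (OO.Eg a c) := by
  rw [OO.Eg, ← Sp_ker, map_sub, map_smul, ← End.one_eq_id, map_one]; rfl

theorem EV_one (g : (End F V)ˣ) : EV g 1 = LinearMap.ker ((g : End F V) - 1) := by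
  ext v; simp [mem_EV, sub_eq_zero]

theorem isCompl_EV (h2 : (2 : F) ≠ 0) {g : (End F V)ˣ} (h : g * g = 1) :
    IsCompl (EV g 1) (EV g (-1)) := OO.isCompl_Eg h2 (congrArg te h)

theorem te_mem (h2 : (2 : F) ≠ 0) {g : (End F V)ˣ} (h : g ∈ OU Q) : te g ∈ O Q := OO.mem_O_of_B h2 h

theorem lf_refl_sq (u : U) : lf σ (refl Q₁ u) * lf σ (refl Q₁ u) = 1 := by
  rw [← map_mul, refl_mul_self, map_one]

theorem EV_refl_neg (h2 : (2 : F) ≠ 0) {u : U} (hu : Q₁ u ≠ 0) :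
    EV (lf σ (refl Q₁ u)) (-1) = Ln σ u := by rw [EV_lf, OO.Eg_refl_neg h2 hu, Sp_span]

theorem ne_zero_of_Q {u : U} (hu : Q₁ u ≠ 0) : u ≠ 0 := by rintro rfl; simp at hu

theorem finrank_refl_one (h2 : (2 : F) ≠ 0) {u : U} (hu : Q₁ u ≠ 0) :
    finrank F (EV (lf σ (refl Q₁ u)) 1) + finrank F (Ln σ u) = finrank F V := by
  rw [← EV_refl_neg h2 hu]
  exact Submodule.finrank_add_eq_of_isCompl (isCompl_EV h2 (lf_refl_sq u))

theorem Ln_pos [Nontrivial V] {u : U} (hu : u ≠ 0) : 0 < finrank F (Ln σ u) := by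
  obtain ⟨v, hv, hv0⟩ := Ln_ne_bot (ρ := σ) hu
  exact finrank_pos_iff_exists_ne_zero.2 ⟨⟨v, hv⟩, by simpa using hv0⟩

theorem O_of_lf [Nontrivial V] (hz : Sz Q₁) (nd : Nd Q) (h : Adj Q₁ Q σ) {a : U ≃ₗ[F] U}
    (ha : lf σ a ∈ OU Q) : a ∈ O Q₁ := by
  obtain ⟨z, h1⟩ := exists_ad hz.n1 (a : End F U)
  have := (h _ _ h1).unique nd (OU.ad ha)
  rw [lf_inv_val] at this
  refine OO.mem_O_of_B hz.h2 fun x y => ?_
  rw [H1.TW.rho_injective this] at h1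
  simpa using h1 x (a y)

/-- the orthogonal projection onto a nonsingular vector -/
def pu (Q₁ : QuadraticForm F U) (u : U) : End F U := r1 u ((2 * Q₁ u)⁻¹ • B Q₁ u)

theorem refl_eq_pu (h2 : (2 : F) ≠ 0) (u : U) :
    (refl Q₁ u : U →ₗ[F] U) = (1 : End F U) - (2 : F) • pu Q₁ u := by
  ext x
  simp only [pu, LinearEquiv.coe_coe, refl_apply, LinearMap.sub_apply, LinearMap.smul_apply,
    r1_apply, End.one_apply, smul_smul, smul_eq_mul]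
  congr 2
  field_simp

theorem comm_pu (h2 : (2 : F) ≠ 0) {u : U} {c : End F V} :
    c * σ (pu Q₁ u) = σ (pu Q₁ u) * c ↔ c * lf σ (refl Q₁ u) = lf σ (refl Q₁ u) * c := by
  rw [lf_val, refl_eq_pu h2]
  simp [mul_sub, sub_mul, (smul_right_injective (End F V) h2).eq_iff]

theorem pu_fix (h2 : (2 : F) ≠ 0) {u : U} (hu : Q₁ u ≠ 0) {v : V} (hv : v ∈ Ln σ u) :
    σ (pu Q₁ u) v = v := r1_Ln_one hv (by simp [B_self]; field_simp)

theorem mul_pu (h2 : (2 : F) ≠ 0) {u : U} (hu : Q₁ u ≠ 0) {c : End F V} :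
    c * σ (pu Q₁ u) = σ (pu Q₁ u) ↔ ∀ v ∈ Ln σ u, c v = v :=
  ⟨fun h v hv => by rw [← pu_fix h2 hu hv, ← End.mul_apply, h],
    fun h => LinearMap.ext fun _ => h _ (r1_mem_Ln _ _ _)⟩

variable {T : Type*} [DecidableEq T] {ρ : T → Fr F U V} {S : Finset T} {G : Subgroup (End F V)ˣ}

structure Cy (Q₁ : QuadraticForm F U) (Q : QuadraticForm F V) (ρ : T → Fr F U V) (S : Finset T)
    (G : Subgroup (End F V)ˣ) : Prop extends Cx Q₁ Q ρ S G where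
  two : ∀ i, ∃ j ∈ S, j ≠ i
  hN : ∀ j ∈ S, G ⊓ NF (ρ j) ≤ HH toFam

theorem Cy.rx (hC : Cy Q₁ Q ρ S G) : Rx hC.toFam G := hC.toCx.rx hC.hN

theorem Cy.cl (hC : Cy Q₁ Q ρ S G) {p : ℕ} [Fact p.Prime] [CharP F p] {j : T} (hj : j ∈ S)
    (N : Subgroup (End F V)ˣ) (hG : N ≤ G) {e : End F V} (he : e * e = e) (h0 : Cm (ρ j) e)
    (h1 : ∀ w y, ∀ c ∈ N, lf (ρ j) (eich Q₁ w y) * c * (lf (ρ j) (eich Q₁ w y))⁻¹ ∈ N)
    (hNe : ∀ c ∈ N, (c : End F V) * e = e * c)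
    (hK : ∀ c ∈ N, (c : End F V) * e = e → c ∈ HH hC.toFam)
    (hq : (∀ c ∈ N, c ∈ HH hC.toFam → ((c ^ p : (End F V)ˣ) : End F V) * e = e →
      (c : End F V) * e = e) ∨ ∀ c ∈ N, ((c ^ p : (End F V)ˣ) : End F V) * e = e) :
    N ≤ HH hC.toFam := by
  haveI := hC.nt
  have hz := hC.sz
  have hf : ∀ w y, Q₁ w = 0 → w ≠ 0 → B Q₁ w y = 0 → Q₁ y ≠ 0 → ∀ c ∈ N,
      c⁻¹ * lf (ρ j) (eich Q₁ w y) * c ∈ HH hC.toFam → c ∈ HH hC.toFam := fun w y a1 a2 a3 a4 c hc h =>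
    (inv_mem_iff (H := HH hC.toFam)).1 (hC.rx j hj w y a1 a2 a3 a4 _ (inv_mem (hG hc)) (by rwa [inv_inv]))
  by_cases h : 4 ≤ finrank F U ∨ p < 5
  · obtain ⟨w, y₁, y₂, hw, hw0, b1, b2, h⟩ := hz.exists_plane h
    let K : Subgroup (End F V)ˣ :=
      { carrier := {c | c ∈ N ∧ (c : End F V) * e = e}
        mul_mem' := fun ha hb => ⟨mul_mem ha.1 hb.1, by rw [Units.val_mul, mul_assoc, hb.2, ha.2]⟩
        one_mem' := ⟨one_mem _, by simp⟩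
        inv_mem' := fun ha => ⟨inv_mem ha.1, by rw [Units.inv_mul_eq_iff_eq_mul, ha.2]⟩ }
    have k : ∀ g : (End F V)ˣ, (g : End F V) * e = e * g → ∀ c : (End F V)ˣ, (c : End F V) * e = e →
        ((g * c * g⁻¹ : (End F V)ˣ) : End F V) * e = e := fun g hg c hc => by
      have : (↑g⁻¹ : End F V) * e = e * ↑g⁻¹ := by
        rw [Units.inv_mul_eq_iff_eq_mul, ← mul_assoc, hg, Units.mul_inv_cancel_right]
      rw [Units.val_mul, Units.val_mul, mul_assoc, this, mul_assoc, ← mul_assoc (c : End F V), hc,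
        ← mul_assoc, hg, Units.mul_inv_cancel_right]
    refine OO.le_of_pp (p := p) (x := lf (ρ j) (eich Q₁ w y₁)) (y := lf (ρ j) (eich Q₁ w y₂)) ?_
      (lf_eich_pow p _ _) (lf_eich_pow p _ _) _ N K (hC.lf_mem hj _) (hC.lf_mem hj _) (h1 _ _) (h1 _ _)
      (fun c hc => ⟨h1 _ _ c hc.1, k _ (h0 _).symm c hc.2⟩)
      (fun c hc => ⟨h1 _ _ c hc.1, k _ (h0 _).symm c hc.2⟩) (fun c hc => hK c hc.1 hc.2)
      (fun c hc d hd => ⟨mul_mem (mul_mem hc hd.1) (inv_mem hc), k _ (hNe c hc) d hd.2⟩)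
      (fun i l hil c hc h4 => ?_) (hq.imp (fun h c h1 h2 h3 => ⟨h1, h c h1 h2 h3.2⟩)
        fun h c hc => ⟨pow_mem hc p, h c hc⟩)
    · change _ * _ = _ * _
      rw [← map_mul, ← map_mul, eich_mul hw b1 b2, eich_mul hw b2 b1, add_comm]
    · rw [← map_pow, ← map_pow, ← map_mul, OO.eich_pow hw b1, OO.eich_pow hw b2,
        eich_mul hw (by simp [b1]) (by simp [b2])] at h4
      exact hf w _ hw hw0 (by simp [b1, b2]) (fun h0 => hil (by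
        simpa [CharP.cast_eq_zero_iff F p] using h _ _ h0)) c hc h4
  · obtain ⟨w, y, hw, hw0, hy, hy0⟩ := hz.exists_wy
    refine le_of_hh (F := F) (p := p) (by omega) _ N (lf_eich_pow p w y) ?_ (hC.lf_mem hj _) (h1 w y)
      he (h0 _).symm hNe hK (hf w y hw hw0 hy hy0) hq
    rw [lf_eich_sq hw hy, lf_val, eich_coe1 hw hy, ← map_one (ρ j), ← map_sub, ← map_smul, ← map_mul]
    simp [sub_mul, add_mul, eN_nn hw hy, nn_nn hw]

/-- pointwise stabilisers -/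
def FX (G : Subgroup (End F V)ˣ) (σ : Fr F U V) (R : Submodule F U) : Subgroup (End F V)ˣ where
  carrier := {g | g ∈ G ∧ ∀ v ∈ Sp σ R, (g : End F V) v = v}
  mul_mem' ha hb := ⟨mul_mem ha.1 hb.1, fun v hv => by
    rw [Units.val_mul, End.mul_apply, hb.2 v hv, ha.2 v hv]⟩
  one_mem' := ⟨one_mem _, fun _ _ => rfl⟩
  inv_mem' {g} ha := ⟨inv_mem ha.1, fun v hv => unit_inj g (by rw [app_inv, ha.2 v hv])⟩

variable {R : Submodule F U}

theorem FX_conj {g c : (End F V)ˣ} (hg : g ∈ G) (h : ∀ v ∈ Sp σ R, (↑g⁻¹ : End F V) v ∈ Sp σ R)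
    (hc : c ∈ FX G σ R) : g * c * g⁻¹ ∈ FX G σ R :=
  ⟨mul_mem (mul_mem hg hc.1) (inv_mem hg), fun v hv => by
    rw [Units.val_mul, Units.val_mul, End.mul_apply, End.mul_apply, hc.2 _ (h v hv), app_inv]⟩

theorem FX_cm {g c : (End F V)ˣ} (hg : g ∈ G) (h : Cm σ (g : End F V)) (hc : c ∈ FX G σ R) :
    g * c * g⁻¹ ∈ FX G σ R := FX_conj hg (fun _ hv => Cm.mem_Sp (Cm.inv h) hv) hc

theorem lf_mem_FX {a : U ≃ₗ[F] U} (ha : lf σ a ∈ G) (h : ∀ r ∈ R, a r = r) : lf σ a ∈ FX G σ R :=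
  ⟨ha, fun v hv => by rw [lf_val, Sp_congr hv (y := 1) h]; simp⟩

theorem Cx.x_mem (hC : Cx Q₁ Q ρ S G) {j : T} (hj : j ∈ S) (w y : U) :
    lf (ρ j) (eich Q₁ w y) ∈ G := hC.K j hj _ (hC.sz.eich_mem w y)

theorem Fam.NF_of_fix (hF : Fam Q₁ Q ρ S) {g : (End F V)ˣ} (hg : g ∈ HH hF) {i : T} (hi : i ∈ S)
    {r : U} (hr : r ≠ 0) (h : ∀ v ∈ Ln (ρ i) r, (g : End F V) v = v) : g ∈ NF (ρ i) := by
  haveI := hF.nt
  have key : ∀ j ∈ S, j ≠ i → g ∈ NF (ρ j) := fun j hj hji => by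
    refine (hF.rel hg hj hj).resolve_right fun hc => ?_
    have hc' := hF.comm i hi j hj hji.symm
    have e : ∀ x, ∀ v ∈ Ln (ρ i) r, cf g (ρ j) x v = ρ j x v := fun x v hv => by
      rw [← h v hv, cf_app, h v hv, h _ ((hc' x).mem_Ln hv)]
    obtain ⟨b, α, β, h1, h2, h4, h5⟩ := H1.TW.exists_partner hF.sz.h3 hr
    have := (hc' (r1 r α)).eq_zero hr fun v hv => by
      have := (hc (r1 b α)).apply (r1 r β) v
      rw [e _ _ hv, e _ _ ((hc' _).mem_Ln hv), rho_r1_apply, rho_r1_apply, h1, h5, one_smul,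
        one_smul] at this
      have e2 := congrArg (ρ j (r1 r α)) this
      rw [rho_r1_apply, rho_r1_apply, h1, h2, one_smul, zero_smul] at e2
      exact e2.symm
    exact rho_ne_zero (fun e0 => hr (by simpa [h1] using LinearMap.congr_fun e0 r)) this
  obtain ⟨l, hl, h1⟩ := hg i hi
  by_cases e : l = i
  · exact e ▸ h1
  · have := ((key l hl e).symm.trans h1).cf g⁻¹
    rw [cf_inv_cf, cf_inv_cf] at this
    exact absurd (hF.eq_of_same hl hi this) e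

theorem Cx.kfix (hC : Cx Q₁ Q ρ S G) {i : T} (hi : i ∈ S) (hR : R ≠ ⊥) {g : (End F V)ˣ}
    (hg : g ∈ FX G (ρ i) R) (hH : g ∈ HH hC.toFam) :
    ∃ a ∈ O Q₁, g = lf (ρ i) a ∧ ∀ r ∈ R, a r = r := by
  haveI := hC.nt
  obtain ⟨r, hr, hr0⟩ := R.exists_mem_ne_zero_of_ne_bot hR
  obtain ⟨a, μ, c, -, h2, h3⟩ := dec hC.sz hC.nd (hC.adj i hi) (hC.le hg.1)
    (hC.NF_of_fix hH hi hr0 fun v hv => hg.2 v (Ln_le_Sp hr hv))
  have h4 : ∀ v ∈ Ln (ρ i) r, ρ i a ((c : End F V) v) = v := fun v hv => by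
    have := hg.2 v (Ln_le_Sp hr hv)
    rwa [h3] at this
  obtain ⟨s, hs⟩ : ∃ s : F, s • r = a r := by
    rw [← Submodule.mem_span_singleton]
    by_contra h
    obtain ⟨φ, h5, h6⟩ := exists_dual_ann h
    obtain ⟨v, hv, hv0⟩ := Ln_ne_bot (ρ := ρ i) hr0
    exact hv0 (Ln_disjoint (h6 r (Submodule.mem_span_singleton_self r)) h5 hv
      (h4 v hv ▸ Ln_map (h2.mem_Ln hv) _))
  have h5 := scalar_on h2 hr0 (l := s) fun v hv => by
    simpa using (Ln_congr (h2.mem_Ln hv) (x := s • 1) (by simp [hs])).trans (h4 v hv)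
  have hs0 : s ≠ 0 := by rintro rfl; simp at h5
  have h6 : g = lf (ρ i) (a * sm s⁻¹ (inv_ne_zero hs0)) := by
    rw [h3, map_mul]
    congr 1
    ext1
    rw [lf_sm, ← h5, smul_smul, inv_mul_cancel₀ hs0, one_smul]
  refine ⟨_, O_of_lf hC.sz hC.nd (hC.adj i hi) (h6 ▸ hC.le hg.1), h6, fun x hx => ?_⟩
  have : Sp (ρ i) R ≤ Sp (ρ i) (OO.Eg (a * sm s⁻¹ (inv_ne_zero hs0)) 1) := fun v hv => by
    rw [← EV_lf, ← h6, mem_EV1, hg.2 v hv]
  by_contra h7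
  obtain ⟨φ, h8, h9⟩ := exists_dual_ann (fun h => h7 (OO.mem_Eg1.1 h))
  obtain ⟨v, hv, hv0⟩ := Ln_ne_bot (ρ := ρ i) (u := x) (by rintro rfl; simp at h7)
  exact hv0 ((r1_Ln_one hv h8).symm.trans (this (Ln_le_Sp hx hv) _ fun r hr => by simp [h9 r hr]))

theorem Sz.perp_ne_bot (hz : Sz Q₁) (h : finrank F R ≤ 2) : perp Q₁ R ≠ ⊥ := fun h0 => by
  have := finrank_perp_ge (Q := Q₁) R
  have := hz.h3
  rw [h0, finrank_bot] at *
  omega

theorem Cy.base (hC : Cy Q₁ Q ρ S G) {i : T} (hi : i ∈ S) (hR : NdOn Q₁ R) (h : finrank F R ≤ 2) :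
    FX G (ρ i) (perp Q₁ R) ≤ HH hC.toFam := by
  haveI := hC.nt
  have hz := hC.sz
  obtain ⟨p, hp⟩ := CharP.exists F
  haveI : Fact p.Prime := ⟨CharP.char_is_prime F p⟩
  obtain ⟨j, hj, hji⟩ := hC.two i
  refine hC.cl (p := p) hj _ (fun _ h => h.1) (one_mul 1) Cm.one (fun w y c hc =>
    FX_cm (hC.x_mem hj w y) (cm_lf (hC.comm i hi j hj hji.symm) _) hc) (by simp)
    (fun c _ h => by rw [mul_one, Units.val_eq_one] at h; rw [h]; exact one_mem _)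
    (Or.inl fun c hc hk h1 => ?_)
  obtain ⟨A, hA, rfl, h3⟩ := hC.kfix hi (hz.perp_ne_bot h) hc hk
  rw [mul_one, Units.val_eq_one, ← map_pow, ← map_one (lf (ρ i))] at h1
  have nA := OO.nil_of_pow (lf_inj h1)
  by_contra h4
  have h5 : A ≠ 1 := by rintro rfl; simp at h4
  have h6 := OO.two_le_rank hz.n1 hz.h2 hA nA h5
  have h7 : LinearMap.range ((A : U →ₗ[F] U) - 1) = R := Submodule.eq_of_le_of_finrank_le
    (by rintro _ ⟨x, rfl⟩; exact sub_mem_of_fix_perp hz.n1 hA h3 x) (by omega)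
  obtain ⟨x, hx, hx0⟩ := H6.exists_ne_zero_of_finrank (K := R) (by rw [← h7]; omega)
  obtain ⟨r, hr, hr0, h8⟩ := OO.exists_fixed nA (K := R) (fun x _ => h7 ▸ ⟨x, rfl⟩) hx hx0
  refine hr0 (hR r hr fun y hy => ?_)
  obtain ⟨z, rfl⟩ := h7 ▸ hy
  rw [B_comm]
  exact OO.range_perp_ker hA (sub_eq_zero.1 h8) z

theorem Cy.step1 (hC : Cy Q₁ Q ρ S G) {i : T} (hi : i ∈ S) (hR : R ≠ ⊥) {u : U} (hu : Q₁ u ≠ 0)
    (h : FX G (ρ i) (R ⊔ F ∙ u) ≤ HH hC.toFam) {c : (End F V)ˣ} (hc : c ∈ FX G (ρ i) R)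
    (h1 : c * lf (ρ i) (refl Q₁ u) = lf (ρ i) (refl Q₁ u) * c) : c ∈ HH hC.toFam := by
  haveI := hC.nt
  have hz := hC.sz
  have h2 := hz.h2
  obtain ⟨p, hp⟩ := CharP.exists F
  haveI : Fact p.Prime := ⟨CharP.char_is_prime F p⟩
  obtain ⟨j, hj, hji⟩ := hC.two i
  have hc' := hC.comm i hi j hj hji.symm
  refine hC.cl (p := p) hj (FX G (ρ i) R ⊓ Subgroup.centralizer {lf (ρ i) (refl Q₁ u)})
    (fun _ h => h.1.1) (e := ρ i (pu Q₁ u)) ((mul_pu h2 hu).2 fun v hv => pu_fix h2 hu hv)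
    (hc'.symm _) (fun w y c hc => ⟨FX_cm (hC.x_mem hj w y) (cm_lf hc' _) hc.1, ?_⟩)
    (fun c hc => (comm_pu h2).2 (congrArg Units.val (Subgroup.mem_centralizer_singleton_iff.1 hc.2)))
    (fun c hc e => h ⟨hc.1.1, fun v hv => ?_⟩) (Or.inl fun c hc hk h1 => ?_)
    ⟨hc, Subgroup.mem_centralizer_singleton_iff.2 h1⟩
  · have := Subgroup.mem_centralizer_singleton_iff.2 (lf_comm hc' (eich Q₁ w y) (refl Q₁ u))
    exact Subgroup.mul_mem _ (Subgroup.mul_mem _ this hc.2) (Subgroup.inv_mem _ this)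
  · rw [Sp_sup, Sp_span] at hv
    obtain ⟨a, ha, b, hb, rfl⟩ := Submodule.mem_sup.1 hv
    rw [map_add, hc.1.2 a ha, (mul_pu h2 hu).1 e b hb]
  obtain ⟨A, hA, rfl, h3⟩ := hC.kfix hi hR hc.1 hk
  have h4 := Subgroup.mem_centralizer_singleton_iff.1 hc.2
  rw [← map_mul, ← map_mul] at h4
  have h5 := LinearEquiv.congr_fun (lf_inj h4) u
  rw [mul_app, mul_app, refl_self hu, map_neg] at h5
  obtain ⟨d, hd⟩ := Submodule.mem_span_singleton.1 (OO.Eg_refl_neg h2 hu ▸ OO.mem_Eg2.2 h5.symm)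
  rw [← map_pow, lf_val, ← map_mul] at h1
  have h6 := LinearMap.congr_fun (H1.TW.rho_injective h1) u
  have h7 : pu Q₁ u u = u := by simp [pu, B_self]; field_simp; simp
  rw [End.mul_apply, h7, LinearEquiv.coe_coe, eig_pow hd.symm] at h6
  rw [eq_one_of_pow (p := p) (smul_left_injective F (ne_zero_of_Q hu) (h6.trans (one_smul _ _).symm)),
    one_smul] at hd
  rw [lf_val, ← map_mul, pu, mul_r1, LinearEquiv.coe_coe, ← hd]

theorem refl_mem_FX {u : U} (hu : u ∈ R) (hs : lf σ (refl Q₁ u) ∈ G) :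
    lf σ (refl Q₁ u) ∈ FX G σ (perp Q₁ R) := lf_mem_FX hs fun _ hr => refl_of_perp (hr u hu)

/-- an involution with a small `-1` eigenspace is a reflection -/
theorem eq_refl_of_rank [Nontrivial V] (hz : Sz Q₁) {A : U ≃ₗ[F] U} (hA : A ∈ O Q₁) {u : U}
    (hu : u ≠ 0) (h : finrank F (EV (lf σ A) 1) + finrank F (Ln σ' u) = finrank F V) :
    ∃ v, Q₁ v ≠ 0 ∧ A = refl Q₁ v := by
  have := Ln_pos (σ := σ) hu
  rw [EV_lf, finrank_Sp' hu, finrank_Ln (ρ := σ) hu, finrank_Ln_eq (ρ := σ') (ρ' := σ) hu hu] at h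
  refine OO.eq_refl_of_fix hz.n1 hz.h2 hA ?_ (by nlinarith)
  rintro rfl
  rw [show OO.Eg (1 : U ≃ₗ[F] U) (1 : F) = ⊤ from Submodule.eq_top_iff'.2 fun _ => OO.mem_Eg1.2 rfl,
    finrank_top] at h
  omega

theorem Cy.RR (hC : Cy Q₁ Q ρ S G) {i : T} (hi : i ∈ S) (hR : perp Q₁ R ≠ ⊥)
    (h : ∀ u ∈ R, Q₁ u ≠ 0 → FX G (ρ i) (perp Q₁ R ⊔ F ∙ u) ≤ HH hC.toFam) {u : U} (huR : u ∈ R)
    (hu : Q₁ u ≠ 0) (hs : lf (ρ i) (refl Q₁ u) ∈ G) {c : (End F V)ˣ}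
    (hc : c ∈ FX G (ρ i) (perp Q₁ R)) (hk : c * lf (ρ i) (refl Q₁ u) * c⁻¹ ∈ HH hC.toFam) :
    c ∈ HH hC.toFam := by
  haveI := hC.nt
  have hz := hC.sz
  obtain ⟨A, hA, h1, h3⟩ := hC.kfix hi hR
    (mul_mem (mul_mem hc (refl_mem_FX huR hs)) (inv_mem hc)) hk
  obtain ⟨v, hv, rfl⟩ := eq_refl_of_rank (σ := ρ i) (σ' := ρ i) hz hA (ne_zero_of_Q hu) (by
    rw [← h1, finrank_EV_conj, finrank_refl_one hz.h2 hu])
  have h11 : v ∈ R := by
    rw [← hz.n1.perp_perp R]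
    exact fun x hx => OO.Eg_perp hz.h2 hA (h3 x hx) (refl_self hv)
  obtain ⟨w, y, hw, hw0, hy, hy0⟩ := hz.exists_wy
  obtain ⟨j, hj, hji⟩ := hC.two i
  have hc' := hC.comm i hi j hj hji.symm
  have h12 := hC.step1 hi hR hv (h _ h11 hv) (mul_mem hc (FX_cm (hC.x_mem hj w y) (cm_lf hc' _)
    (inv_mem hc))) (by
      have e1 := lf_comm hc' (eich Q₁ w y)⁻¹ (refl Q₁ v)
      have e2 := lf_comm hc' (eich Q₁ w y) (refl Q₁ u)
      rw [map_inv] at e1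
      rw [mul_assoc, mul_assoc, e1, ← h1]
      simp only [mul_assoc, inv_mul_cancel_left]
      rw [← mul_assoc (lf (ρ j) _), e2, mul_assoc])
  refine hC.rx j hj w y hw hw0 hy hy0 c hc.1 ?_
  simpa [mul_assoc] using mul_mem h12 (hC.lf_mem hj (eich Q₁ w y))

/-- the centraliser of a product of two reflections -/
theorem Cy.sf (hC : Cy Q₁ Q ρ S G) {i : T} (hi : i ∈ S) {u v : U} (hu : Q₁ u ≠ 0) (hv : Q₁ v ≠ 0)
    (hs : lf (ρ i) (refl Q₁ u) ∈ G) (h : refl Q₁ v * refl Q₁ u ≠ 1) {c : (End F V)ˣ} (hc : c ∈ G)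
    (e : c * lf (ρ i) (refl Q₁ v * refl Q₁ u) = lf (ρ i) (refl Q₁ v * refl Q₁ u) * c) :
    c * lf (ρ i) (refl Q₁ u) * c⁻¹ ∈ HH hC.toFam ∨ c ∈ HH hC.toFam := by
  have hz := hC.sz
  have h1 : ∀ d : F, d • u ≠ v := by
    rintro d rfl
    exact h (by rw [refl_smul (by rintro rfl; simp at hv), refl_mul_self])
  by_cases h2 : NdOn Q₁ (Submodule.span F {u, v})
  · refine Or.inl (hC.base hi h2 (Orth.finrank_span_pair_le _ _) (FX_conj hc (fun x hx => ?_)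
      (refl_mem_FX (Submodule.subset_span (by simp)) hs)))
    have e1 : Sp (ρ i) (perp Q₁ (Submodule.span F {u, v})) =
        EV (lf (ρ i) (refl Q₁ v * refl Q₁ u)) 1 := by
      rw [EV_lf]
      congr 1
      exact le_antisymm (fun x hx => OO.mem_Eg1.2 (by
        rw [mul_app, refl_of_perp (mem_perp_span.1 hx u (by simp)),
          refl_of_perp (mem_perp_span.1 hx v (by simp))])) fun x hx => OO.rr_fix hu hv h1 hx
    rw [e1, mem_EV1] at hx ⊢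
    apply unit_inj c
    rw [← End.mul_apply, ← Units.val_mul, e, Units.val_mul, End.mul_apply, app_inv, hx]
  obtain ⟨w, h3, h4, h5⟩ : ∃ w ∈ Submodule.span F {u, v}, (∀ x ∈ Submodule.span F {u, v},
      B Q₁ x w = 0) ∧ w ≠ 0 := by
    by_contra! h
    exact h2 h
  obtain ⟨a, b, rfl⟩ := Submodule.mem_span_pair.1 h3
  have b1 := h4 u (Submodule.subset_span (by simp))
  have b2 : Q₁ (a • u + b • v) = 0 := mul_left_cancel₀ hz.h2 (by rw [← B_self, h4 _ h3, mul_zero])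
  have hb : b ≠ 0 := by
    rintro rfl
    simp [B_self, hz.h2, hu] at b1
    simp [b1] at h5
  have ha : a ≠ 0 := by
    rintro rfl
    simp [Q_smul, hb, hv] at b2
  have e1 := eich_eq_rr (w := (a * Q₁ u)⁻¹ • (a • u + b • v)) (y := u) (by rw [Q_smul, b2, mul_zero])
    (by rw [map_smul, LinearMap.smul_apply, B_comm, b1, smul_zero]) hu
  rw [show u - Q₁ u • (a * Q₁ u)⁻¹ • (a • u + b • v) = (-(b / a)) • v by
    match_scalars <;> field_simp <;> ring, refl_smul (by simp [ha, hb])] at e1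
  refine Or.inr (hC.rx i hi _ u (by rw [Q_smul, b2, mul_zero]) (smul_ne_zero (inv_ne_zero
    (mul_ne_zero ha hu)) h5) (by rw [map_smul, LinearMap.smul_apply, B_comm, b1, smul_zero]) hu c hc ?_)
  rw [e1, e, mul_inv_cancel_right]
  exact hC.lf_mem hi _

theorem Cy.odd_order (hC : Cy Q₁ Q ρ S G) {i : T} (hi : i ∈ S) (hR0 : R ≠ ⊥) {u u' : U}
    (hu : Q₁ u ≠ 0) (hu' : Q₁ u' ≠ 0) (hs : lf (ρ i) (refl Q₁ u) ∈ FX G (ρ i) R)
    (hs' : lf (ρ i) (refl Q₁ u') ∈ FX G (ρ i) R)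
    (hR : ∀ c ∈ FX G (ρ i) R, c * lf (ρ i) (refl Q₁ u) * c⁻¹ ∈ HH hC.toFam → c ∈ HH hC.toFam)
    (hR' : ∀ c ∈ FX G (ρ i) R, c * lf (ρ i) (refl Q₁ u') * c⁻¹ ∈ HH hC.toFam → c ∈ HH hC.toFam)
    {g : (End F V)ˣ} (hg : g ∈ FX G (ρ i) R) (hg' : g ∉ HH hC.toFam) :
    Odd (orderOf (lf (ρ i) (refl Q₁ u) * (g * lf (ρ i) (refl Q₁ u') * g⁻¹))) := by
  rw [← Nat.not_even_iff_odd]
  intro he
  set s := lf (ρ i) (refl Q₁ u) with hs0
  set t := g * lf (ρ i) (refl Q₁ u') * g⁻¹ with ht0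
  have ht : t ∈ FX G (ρ i) R := mul_mem (mul_mem hg hs') (inv_mem hg)
  obtain ⟨m, j, h1, h2, h2', h3⟩ := OO.dih_even' (s := s) (lf_refl_sq u)
    (by rw [ht0, conj_mul, lf_refl_sq, mul_one, mul_inv_cancel] : t * t = 1) he
  have hY' := fun n : ℕ => pow_mem (mul_mem hs ht) n
  set z := (s * t) ^ m
  have hz : z ∈ HH hC.toFam := hR z (hY' m) (by rw [h2, mul_inv_cancel_right]; exact hC.lf_mem hi _)
  have hzs : z * s ∈ HH hC.toFam := mul_mem hz (hC.lf_mem hi _)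
  obtain ⟨u₂, hu₂, h4⟩ : ∃ u₂, Q₁ u₂ ≠ 0 ∧ z * s = lf (ρ i) (refl Q₁ u₂) := by
    rcases h3 with ⟨h3, -⟩ | ⟨h3, -⟩
    · obtain ⟨A, hA, h5, -⟩ := hC.kfix hi hR0 (hY' j) (hR _ (hY' j) (h3 ▸ hzs))
      exact ⟨A u, by rwa [hA], by rw [h3, h5, ← conj_refl hA, map_mul, map_mul, map_inv]⟩
    · have h4 : z * s = ((s * t) ^ (j + 1) * g) * lf (ρ i) (refl Q₁ u') *
          ((s * t) ^ (j + 1) * g)⁻¹ := by
        rw [h3]; nth_rewrite 2 [ht0]; group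
      obtain ⟨A, hA, h5, -⟩ := hC.kfix hi hR0 (mul_mem (hY' (j + 1)) hg)
        (hR' _ (mul_mem (hY' (j + 1)) hg) (h4 ▸ hzs))
      exact ⟨A u', by rwa [hA], by rw [h4, h5, ← conj_refl hA, map_mul, map_mul, map_inv]⟩
  have h5 : z = lf (ρ i) (refl Q₁ u₂ * refl Q₁ u) := by
    rw [map_mul, ← h4, mul_assoc, lf_refl_sq, mul_one]
  exact hg' (hR' g hg ((hC.sf hi hu hu₂ hs.1 (fun e => h1 (by rw [h5, e, map_one])) ht.1
    (h5 ▸ h2'.symm)).elim (hR t ht) id))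

theorem Cy.swap (hC : Cy Q₁ Q ρ S G) {i : T} (hi : i ∈ S) (hR : NdOn Q₁ R) (h3 : 3 ≤ finrank F R)
    (hR0 : perp Q₁ R ≠ ⊥) (hRR : ∀ u ∈ R, Q₁ u ≠ 0 → lf (ρ i) (refl Q₁ u) ∈ G →
      ∀ c ∈ FX G (ρ i) (perp Q₁ R), c * lf (ρ i) (refl Q₁ u) * c⁻¹ ∈ HH hC.toFam →
        c ∈ HH hC.toFam) : FX G (ρ i) (perp Q₁ R) ≤ HH hC.toFam := by
  intro g hg
  by_contra hg'
  haveI := hC.nt
  have hz := hC.sz
  have h2 := hz.h2
  obtain ⟨c, hc, h4⟩ := hC.cls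
  replace h4 := h4 i hi
  obtain ⟨u₁, m1, q1⟩ := hR.exists_Q_eq le_rfl (by omega) c
  have n1 : Q₁ u₁ ≠ 0 := q1 ▸ hc
  have z1 := ne_zero_of_Q n1
  have e1 := finrank_inf_perp_ge (Q := Q₁) R (F ∙ u₁)
  have e2 := finrank_span_singleton_le (F := F) u₁
  obtain ⟨u₂, ⟨m2, b2⟩, q2⟩ := (hR.inf_perp (OO.ndOn_one h2 n1)
    ((Submodule.span_singleton_le_iff_mem _ _).2 m1)).exists_Q_eq le_rfl (by omega) c
  replace b2 := mem_perp_span_singleton.1 b2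
  have n2 : Q₁ u₂ ≠ 0 := q2 ▸ hc
  have y1 := refl_mem_FX m1 (h4 _ q1)
  have y2 := refl_mem_FX m2 (h4 _ q2)
  have r1 := hRR _ m1 n1 (h4 _ q1)
  have r2 := hRR _ m2 n2 (h4 _ q2)
  have ht := mul_mem (mul_mem hg y1) (inv_mem hg)
  have ht2 : g * lf (ρ i) (refl Q₁ u₁) * g⁻¹ * (g * lf (ρ i) (refl Q₁ u₁) * g⁻¹) = 1 := by
    rw [conj_mul, lf_refl_sq, mul_one, mul_inv_cancel]
  obtain ⟨j₁, t₁, a1, a2, a3, a4⟩ := OO.swap_of_odd y1 ht (lf_refl_sq _) ht2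
    (hC.odd_order hi hR0 n1 n1 y1 y1 r1 r1 hg hg')
  obtain ⟨j₂, t₂, c1, c2, c3, c4⟩ := OO.swap_of_odd y2 ht (lf_refl_sq _) ht2
    (hC.odd_order hi hR0 n2 n1 y2 y1 r2 r1 hg hg')
  have k1 : t₁ ∉ HH hC.toFam := fun h => hg' (r1 g hg (a4 ▸ mul_mem (mul_mem h (hC.lf_mem hi _))
    (inv_mem h)))
  have i1 : t₁⁻¹ = t₁ := inv_eq_of_mul_eq_one_right a3
  have i2 : t₂⁻¹ = t₂ := inv_eq_of_mul_eq_one_right c3
  have d1 : t₁ * t₂ * lf (ρ i) (refl Q₁ u₂) * (t₁ * t₂)⁻¹ = lf (ρ i) (refl Q₁ u₁) := by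
    have : t₁ * t₂ * lf (ρ i) (refl Q₁ u₂) * (t₁ * t₂)⁻¹ =
      t₁ * (t₂ * lf (ρ i) (refl Q₁ u₂) * t₂⁻¹) * t₁⁻¹ := by group
    rw [this, c4, ← a4, ← mul_assoc, ← mul_assoc, a3, one_mul, mul_assoc, i1, a3, mul_one]
  have hd := mul_mem a1 c1
  obtain ⟨δ, hδ, d2, d3⟩ := hC.kfix hi hR0 hd (r2 _ hd (d1 ▸ hC.lf_mem hi _))
  have d4 : δ ≠ 1 := by
    rintro rfl
    rw [d2, map_one, one_mul, inv_one, mul_one] at d1
    obtain ⟨e, he⟩ := OO.eq_smul_of_refl h2 n2 n1 (lf_inj d1)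
    simp [← he, B_self, h2, n2] at b2
    simp [← he, b2] at n1
  have f1 := finrank_refl_one (σ := ρ i) h2 n1
  have f2 := finrank_refl_one (σ := ρ i) h2 n2
  rw [← finrank_EV_conj ((lf (ρ i) (refl Q₁ u₁) * (g * lf (ρ i) (refl Q₁ u₁) * g⁻¹)) ^ j₁), ← a2] at f1
  rw [← finrank_EV_conj ((lf (ρ i) (refl Q₁ u₂) * (g * lf (ρ i) (refl Q₁ u₁) * g⁻¹)) ^ j₂), ← c2,
    finrank_Ln_eq (ρ' := ρ i) (ne_zero_of_Q n2) z1] at f2
  have f3 := OO.finrank_inf_ge (EV t₁ 1) (EV t₂ 1)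
  have f0 := finrank_Ln (ρ := ρ i) z1
  have fd := Ln_pos (σ := ρ i) z1
  by_cases h5 : finrank F U ≤ finrank F (OO.Eg δ 1) + 1
  · obtain ⟨u, hu, rfl⟩ := OO.eq_refl_of_fix hz.n1 h2 hδ d4 h5
    refine k1 (hRR u ?_ hu (by rw [← d2]; exact hd.1) _ a1 ?_)
    · rw [← hz.n1.perp_perp R]
      exact fun x hx => OO.Eg_perp h2 hδ (d3 x hx) (refl_self hu)
    · rw [← d2, ← mul_assoc, a3, one_mul, ← i2, ← mul_inv_rev, d2]
      exact inv_mem (hC.lf_mem hi _)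
  have h6 : EV t₁ 1 ⊓ EV t₂ 1 = Sp (ρ i) (OO.Eg δ 1) := Submodule.eq_of_le_of_finrank_le
    (fun v hv => by
      rw [← EV_lf, ← d2, mem_EV1, Units.val_mul, End.mul_apply, mem_EV1.1 hv.2, mem_EV1.1 hv.1])
    (by rw [finrank_Sp' z1]; nlinarith)
  have f4 := congrArg (fun K : Submodule F V => finrank F K) h6
  simp only [finrank_Sp' z1] at f4
  have f5 := hz.n1.finrank_perp (OO.Eg δ 1)
  have f6 : finrank F (perp Q₁ (OO.Eg δ 1)) ≤ 2 := by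
    by_contra h
    nlinarith
  have h7 : t₁ ∈ FX G (ρ i) (OO.Eg δ 1) := ⟨a1.1, fun v hv => mem_EV1.1 (h6 ▸ hv).1⟩
  by_cases h8 : NdOn Q₁ (perp Q₁ (OO.Eg δ 1))
  · exact k1 (hC.base hi h8 f6 (by rwa [hz.n1.perp_perp]))
  obtain ⟨u₀, h9, h10, h11⟩ : ∃ u₀ ∈ perp Q₁ (OO.Eg δ 1), u₀ ∈ OO.Eg δ 1 ∧ u₀ ≠ 0 := by
    by_contra! h
    exact h8 fun v hv h' => h v hv (by rw [← hz.n1.perp_perp (OO.Eg δ 1)]; exact h')
  have l0 : Ln (ρ i) u₀ ≤ Sp (ρ i) (OO.Eg δ 1) := Ln_le_Sp h10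
  let N : Subgroup (End F V)ˣ :=
    { carrier := {c | c ∈ FX G (ρ i) (OO.Eg δ 1) ∧ ∀ v ∈ Sp (ρ i) (perp Q₁ (OO.Eg δ 1)),
        (c : End F V) v - v ∈ Ln (ρ i) u₀}
      mul_mem' := fun {a b} ha hb => ⟨mul_mem ha.1 hb.1, fun v hv => by
        convert add_mem (ha.2 v hv) (hb.2 v hv) using 1
        rw [← ha.1.2 _ (l0 (hb.2 v hv)), map_sub, Units.val_mul, End.mul_apply]; abel⟩
      one_mem' := ⟨one_mem _, fun v _ => by simp⟩
      inv_mem' := fun {a} ha => ⟨inv_mem ha.1, fun v hv => by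
        convert neg_mem (ha.2 v hv) using 1
        rw [← (inv_mem ha.1).2 _ (l0 (ha.2 v hv))]; simp⟩ }
  obtain ⟨p, hp⟩ := CharP.exists F
  haveI : Fact p.Prime := ⟨CharP.char_is_prime F p⟩
  haveI := hz.nt
  obtain ⟨j, hj, hji⟩ := hC.two i
  have hc' := hC.comm i hi j hj hji.symm
  have pp := perp_Sp (hC.adj i hi) hz.n1 hC.nd
  have hN := hC.cl (p := p) hj N (fun _ h => h.1.1) (one_mul 1) Cm.one
    (fun w y c hc => ⟨FX_cm (hC.x_mem hj w y) (cm_lf hc' _) hc.1, fun v hv => by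
      have := (cm_lf hc' (eich Q₁ w y)).mem_Ln (hc.2 _ (Cm.mem_Sp (Cm.inv (cm_lf hc' (eich Q₁ w y))) hv))
      simpa using this⟩) (by simp)
    (fun c _ h => by rw [mul_one, Units.val_eq_one] at h; rw [h]; exact one_mem _)
    (Or.inr fun c hc => by
      have := OO.pow_char_eq_one (p := p) (A := te c) h2 fun x => by
        have : te c x - x ∈ Sp (ρ i) (perp Q₁ (OO.Eg δ 1)) := sub_mem_of_fix_perp hC.nd
          (te_mem h2 (hC.le hc.1.1)) (by rw [pp, hz.n1.perp_perp]; exact hc.1.2) x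
        exact sub_eq_zero.2 (hc.1.2 _ (l0 (hc.2 _ this)))
      rw [mul_one, Units.val_pow_eq_pow_val, ← te_coe, ← OO.coe_pow', this]; rfl)
  have h12 : ∀ v ∈ Sp (ρ i) (perp Q₁ (OO.Eg δ 1)), (t₁ : End F V) v + v ∈ Ln (ρ i) u₀ := by
    have f7 := Submodule.finrank_add_eq_of_isCompl (isCompl_EV h2 a3)
    have f8 := Submodule.finrank_sup_add_finrank_inf_eq (EV t₁ (-1)) (Ln (ρ i) u₀)
    rw [finrank_Ln_eq (ρ' := ρ i) h11 z1, show EV t₁ (-1) ⊓ Ln (ρ i) u₀ = ⊥ from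
      (isCompl_EV h2 a3).symm.disjoint.mono_right (fun v hv => mem_EV1.2 (h7.2 v (l0 hv))) |>.eq_bot,
      finrank_bot] at f8
    have h12 : EV t₁ (-1) ⊔ Ln (ρ i) u₀ = Sp (ρ i) (perp Q₁ (OO.Eg δ 1)) :=
      Submodule.eq_of_le_of_finrank_le (sup_le (fun v hv => by
        rw [← pp]
        exact fun x hx => OO.Eg_perp h2 (te_mem h2 (hC.le a1.1)) (h7.2 x hx) (mem_EV2.1 hv))
        (Ln_le_Sp h9)) (by rw [finrank_Sp' z1]; nlinarith)
    intro v hv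
    obtain ⟨a, ha, b, hb, rfl⟩ := Submodule.mem_sup.1 (h12 ▸ hv)
    convert add_mem hb hb using 1
    rw [map_add, mem_EV2.1 ha, h7.2 b (l0 hb)]; abel
  obtain ⟨w, y, hw, hw0, hy, hy0⟩ := hz.exists_wy
  have hx := cm_lf hc' (eich Q₁ w y)
  have h13 := hN (x := t₁ * (lf (ρ j) (eich Q₁ w y) * t₁⁻¹ * (lf (ρ j) (eich Q₁ w y))⁻¹))
    ⟨mul_mem h7 (FX_cm (hC.x_mem hj w y) hx (inv_mem h7)), fun v hv => by
      have h14 := hx.mem_Ln (h12 _ (Cm.mem_Sp (Cm.inv hx) hv))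
      convert sub_mem h14 (h12 v hv) using 1
      rw [← h7.2 _ (l0 h14), i1]
      simp
      abel⟩
  refine k1 (hC.rx j hj w y hw hw0 hy hy0 _ a1.1 ?_)
  simpa [mul_assoc] using mul_mem h13 (hC.lf_mem hj (eich Q₁ w y))

theorem Cy.FX_le (hC : Cy Q₁ Q ρ S G) {i : T} (hi : i ∈ S) (hR : NdOn Q₁ R)
    (hR0 : perp Q₁ R ≠ ⊥) : FX G (ρ i) (perp Q₁ R) ≤ HH hC.toFam := by
  have hz := hC.sz
  induction hn : finrank F R using Nat.strong_induction_on generalizing R with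
  | _ n ih =>
    by_cases h : finrank F R ≤ 2
    · exact hC.base hi hR h
    refine hC.swap hi hR (by omega) hR0 fun u huR hu hs c hc =>
      hC.RR hi hR0 (fun u huR hu => ?_) huR hu hs hc
    have l1 := (Submodule.span_singleton_le_iff_mem _ _).2 huR
    have e1 := hR.finrank_inf_perp l1
    rw [finrank_span_singleton (ne_zero_of_Q hu)] at e1
    have e2 : perp Q₁ (R ⊓ perp Q₁ (F ∙ u)) = perp Q₁ R ⊔ F ∙ u := by
      rw [hz.n1.perp_inf, hz.n1.perp_perp]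
    rw [← e2]
    exact ih _ (by omega) (hR.inf_perp (OO.ndOn_one hz.h2 hu) l1)
      (fun h0 => hR0 (eq_bot_iff.2 (h0 ▸ perp_anti inf_le_left))) rfl

theorem Cy.FX_one (hC : Cy Q₁ Q ρ S G) {i : T} (hi : i ∈ S) {u : U} (hu : Q₁ u ≠ 0) :
    FX G (ρ i) (F ∙ u) ≤ HH hC.toFam := by
  have := hC.FX_le hi ((OO.ndOn_one hC.sz.h2 hu).perp hC.sz.n1) (by
    rw [hC.sz.n1.perp_perp]; simpa using ne_zero_of_Q hu)
  rwa [hC.sz.n1.perp_perp] at this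

end Cfsg.Agent.H2.TO
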