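import Cfsg.Agent.H2.TO7

set_option autoImplicit false
set_option linter.unusedSectionVars false
set_option linter.unusedSimpArgs false

/-! Orthogonal tensor frames, part 8: centralisers of class reflections. -/

namespace Cfsg.Agent.H2.TO

open Module Cfsg.Agent.Orth Cfsg.Agent.H1.TW

universe v

variable {F : Type*} [Field F] [Finite F] {U : Type*} {V : Type v} [AddCommGroup U] [Module F U]
  [AddCommGroup V] [Module F V] [FiniteDimensional F U] [FiniteDimensional F V]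
  {Q₁ : QuadraticForm F U} {Q : QuadraticForm F V} {σ σ' τ : Fr F U V}

/-- restriction of a frame to an invariant subspace -/
def res (σ : Fr F U V) (L : Submodule F V) (h : ∀ x, ∀ v ∈ L, σ x v ∈ L) : Fr F U L where
  toFun x := (σ x).restrict (h x)
  map_one' := by ext v; simp
  map_mul' x y := by ext v; simp
  map_zero' := by ext v; simp
  map_add' x y := by ext v; simp
  commutes' c := by ext v; simp [Algebra.algebraMap_eq_smul_one]

theorem res_val {L : Submodule F V} {h : ∀ x, ∀ v ∈ L, σ x v ∈ L} (x : End F U) (v : L) :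
    (res σ L h x v : V) = σ x v := rfl

/-- `c` induces `g` on `L` -/
def Ind (L : Submodule F V) (c : (End F V)ˣ) (g : (End F L)ˣ) : Prop :=
  ∀ v : L, (c : End F V) v = (g : End F L) v

section
variable {L : Submodule F V} {c c' : (End F V)ˣ} {g g' : (End F L)ˣ}

theorem Ind.mul (h : Ind L c g) (h' : Ind L c' g') : Ind L (c * c') (g * g') := fun v => by
  rw [Units.val_mul, Units.val_mul, End.mul_apply, End.mul_apply, h', h]

theorem Ind.inv (h : Ind L c g) : Ind L c⁻¹ g⁻¹ := fun v => unit_inj c (by rw [app_inv, h, app_inv])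

theorem exists_ind (h : ∀ v ∈ L, (c : End F V) v ∈ L) : ∃ g, Ind L c g := by
  obtain ⟨g, hg⟩ := (LinearMap.isUnit_iff_ker_eq_bot ((c : End F V).restrict h)).2
    (LinearMap.ker_eq_bot'.2 fun v hv => Subtype.ext (unit_eq_zero c (congrArg Subtype.val hv)))
  exact ⟨g, fun v => by rw [hg]; rfl⟩

theorem ind_lf {h : ∀ x, ∀ v ∈ L, σ x v ∈ L} (a : U ≃ₗ[F] U) :
    Ind L (lf σ a) (lf (res σ L h) a) := fun _ => rfl

theorem Ind.ext (h : Ind L c g) (h' : Ind L c g') : g = g' :=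
  Units.ext (LinearMap.ext fun v => Subtype.ext ((h v).symm.trans (h' v)))

theorem Ind.cf (h : Ind L c g) {hσ : ∀ x, ∀ v ∈ L, σ x v ∈ L} (x : End F U) (v : L) :
    cf c σ x v = cf g (res σ L hσ) x v := by
  rw [cf_apply, cf_apply, End.mul_apply, End.mul_apply, End.mul_apply, End.mul_apply, h.inv, ← h,
    res_val]
end

theorem Ln_mem_of_comm (h2 : (2 : F) ≠ 0) {u : U} (hu : Q₁ u ≠ 0) {c : (End F V)ˣ}
    (h : c * lf σ (refl Q₁ u) = lf σ (refl Q₁ u) * c) {v : V} (hv : v ∈ Ln σ u) :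
    (c : End F V) v ∈ Ln σ u := by
  rw [← EV_refl_neg h2 hu, mem_EV2] at hv ⊢
  rw [← End.mul_apply, ← Units.val_mul, ← h, Units.val_mul, End.mul_apply, hv, map_neg]

theorem Ln_cf_eq {g : (End F V)ˣ} {u : U} (h : ∀ v ∈ Ln σ u, (g : End F V) v ∈ Ln σ u) :
    Ln (cf g σ) u = Ln σ u := by rw [Ln_cf, map_eq_of_le g h]

variable {T : Type*} [DecidableEq T] {ρ : T → Fr F U V} {S : Finset T} {G : Subgroup (End F V)ˣ}

theorem Fam.NF_of_Ln (hF : Fam Q₁ Q ρ S) {g : (End F V)ˣ} (hg : g ∈ HH hF) {i : T} (hi : i ∈ S)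
    {u u' : U} (hu' : u' ≠ 0) (h : Ln (ρ i) u = Ln (cf g (ρ i)) u') : g ∈ NF (ρ i) :=
  haveI := hF.nt
  (hF.rel hg hi hi).resolve_right fun hc => Ln_ne_of_comm hF.sz.h3 hc hu' h

theorem Fam.conj (hF : Fam Q₁ Q ρ S) {g : (End F V)ˣ} (hg : g ∈ OU Q) :
    Fam Q₁ Q (fun i => cf g (ρ i)) S :=
  ⟨hF.sz, hF.nd, hF.nt, fun i hi => (hF.adj i hi).cf hg,
    fun i hi j hj h => (hF.comm i hi j hj h).cf g⟩

@[simp] theorem cf_icf (g : (End F V)ˣ) : cf g⁻¹ (cf g σ) = σ := by rw [← cf_mul]; simp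
@[simp] theorem cf_cfi (g : (End F V)ˣ) : cf g (cf g⁻¹ σ) = σ := by rw [← cf_mul]; simp

theorem HH_conj (hF : Fam Q₁ Q ρ S) {g : (End F V)ˣ} (hF' : Fam Q₁ Q (fun i => cf g (ρ i)) S)
    {k : (End F V)ˣ} : k ∈ HH hF' ↔ g⁻¹ * k * g ∈ HH hF := by
  refine forall₂_congr fun i _ => exists_congr fun j => and_congr_right fun _ => ?_
  rw [cf_mul, cf_mul]
  exact ⟨fun h => by simpa using h.cf g⁻¹, fun h => by simpa using h.cf g⟩

theorem cm_cf {g : (End F V)ˣ} {c : End F V} : Cm (cf g σ) c ↔ Cm σ (↑g⁻¹ * c * g) :=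
  ⟨fun h => by simpa using h.cf g⁻¹, fun h => by simpa [mul_assoc] using h.cf g⟩

theorem Cy.conj (hC : Cy Q₁ Q ρ S G) {g : (End F V)ˣ} (hg : g ∈ G) :
    Cy Q₁ Q (fun i => cf g (ρ i)) S G where
  toFam := hC.toFam.conj (hC.le hg)
  le := hC.le
  neg := hC.neg
  K i hi a ha := hC.K' ((Cf.of_mem hi).cf hg) ha
  cls := by
    obtain ⟨c, hc, h⟩ := hC.cls
    exact ⟨c, hc, fun i hi u hu => lf_cf (ρ := ρ i) g _ ▸ mul_mem (mul_mem hg (h i hi u hu)) (inv_mem hg)⟩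
  nc k hk c hc i hi := by
    have := hC.nc _ (mul_mem (mul_mem (inv_mem hg) hk) hg) _ (fun j hj => cm_cf.1 (hc j hj)) i hi
    rw [cm_cf]
    simpa [mul_assoc] using this
  good i hi j hj k hk w y hw hw0 hy hy0 a ha e := hC.good' (((Cf.of_mem hi).cf hg).cf hk)
    ((Cf.of_mem hj).cf hg) hw hw0 hy hy0 ha e
  two := hC.two
  hN j hj k hk := (HH_conj hC.toFam _).2 (hC.hN j hj ⟨G.mul_mem (G.mul_mem (G.inv_mem hg) hk.1) hg,
    (NF_cf (g := g)).1 (by simpa [mul_assoc] using hk.2)⟩)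

theorem eich_ne_scal (hz : Sz Q₁) {w y : U} (hw : Q₁ w = 0) (hw0 : w ≠ 0) (hy : B Q₁ w y = 0)
    (hy0 : Q₁ y ≠ 0) (s : F) : ¬ ∀ x, eich Q₁ w y x = s • x := fun h => by
  have h1 := h w
  have h2 := h y
  rw [eich_apply hw hy] at h1 h2
  simp only [B_self, hw, hy, B_comm Q₁ y w, mul_zero, zero_smul, sub_zero, add_zero] at h1 h2
  have : s = 1 := smul_left_injective F hw0 (by simpa using h1.symm)
  simp [this, hz.h2, hy0, hw0] at h2

/-- the inductive hypothesis -/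
def IH (Q₁ : QuadraticForm F U) (T : Type*) [DecidableEq T] (n : ℕ) : Prop :=
  ∀ (V : Type v) [AddCommGroup V] [Module F V] [FiniteDimensional F V] (Q : QuadraticForm F V)
    (ρ : T → Fr F U V) (S : Finset T) (G : Subgroup (End F V)ˣ), S.card < n →
    ∀ h : Cx Q₁ Q ρ S G, G ≤ HH h.toFam

/-- centralisers of class reflections -/
def CS (hF : Fam Q₁ Q ρ S) (G : Subgroup (End F V)ˣ) : Prop :=
  ∀ i ∈ S, ∀ u, Q₁ u ≠ 0 → lf (ρ i) (refl Q₁ u) ∈ G → ∀ c ∈ G,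
    c * lf (ρ i) (refl Q₁ u) = lf (ρ i) (refl Q₁ u) * c → c ∈ HH hF

theorem Cy.cs4 (hC : Cy Q₁ Q ρ S G) (h4 : 4 ≤ finrank F U) : CS hC.toFam G := by
  intro i hi u hu _ c hc e
  have hz := hC.sz
  have := finrank_perp_ge (Q := Q₁) (F ∙ u)
  have := finrank_span_singleton_le (F := F) u
  obtain ⟨w, h1, y, h2, hw, hw0, hy, hy0⟩ := exists_wy hz.h2 ((OO.ndOn_one hz.h2 hu).perp hz.n1)
    (by omega)
  refine hC.rx i hi w y hw hw0 hy hy0 c hc (hC.FX_one hi hu (FX_conj hc (fun v hv => ?_)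
    (lf_mem_FX (hC.x_mem hi w y) fun r hr => ?_)))
  · rw [Sp_span] at hv ⊢
    exact Ln_mem_of_comm hz.h2 hu (by rw [inv_mul_eq_iff_eq_mul, ← mul_assoc, e, mul_inv_cancel_right]) hv
  · simp [eich_apply hw hy, B_comm Q₁ w, B_comm Q₁ y, h1 r hr, h2 r hr]

theorem Cy.cs3 (hC : Cy Q₁ Q ρ S G) (h3 : finrank F U = 3) (ih : IH.{v} Q₁ T S.card) :
    CS hC.toFam G := by
  intro i hi u hu hs
  haveI := hC.nt
  have hz := hC.sz
  have hu0 := ne_zero_of_Q hu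
  haveI := hz.nt
  obtain ⟨j₀, hj₀, hji⟩ := hC.two i
  set L := Ln (ρ i) u with hL
  let π : T → T := fun j => if j ∈ S.erase i then j else j₀
  have π1 : ∀ j ∈ S.erase i, π j = j := fun j hj => if_pos hj
  have π2 : ∀ j, π j ∈ S.erase i := fun j => by
    by_cases h : j ∈ S.erase i
    · rwa [π1 j h]
    · rw [show π j = j₀ from if_neg h]; simp [hji, hj₀]
  have cm : ∀ j ∈ S.erase i, Comm (ρ i) (ρ j) := fun j hj =>
    hC.comm i hi j (Finset.mem_of_mem_erase hj) (Finset.ne_of_mem_erase hj).symm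
  let ρ' : T → Fr F U L := fun j => res (ρ (π j)) L fun x v hv => (cm _ (π2 j) x).mem_Ln hv
  have e1 : ∀ j ∈ S.erase i, ∀ x (v : L), (ρ' j x v : V) = ρ j x v := fun j hj x v => by
    rw [res_val, π1 j hj]
  have i1 : ∀ j ∈ S.erase i, ∀ a, Ind L (lf (ρ j) a) (lf (ρ' j) a) := fun j hj a v => (e1 j hj _ v).symm
  let G' : Subgroup (End F L)ˣ :=
    { carrier := {g | ∃ c ∈ G, c * lf (ρ i) (refl Q₁ u) = lf (ρ i) (refl Q₁ u) * c ∧ Ind L c g}
      mul_mem' := fun ⟨c, h1, h2, h3⟩ ⟨d, h4, h5, h6⟩ => ⟨_, mul_mem h1 h4,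
        by rw [mul_assoc, h5, ← mul_assoc, h2, mul_assoc], h3.mul h6⟩
      one_mem' := ⟨1, one_mem _, by simp, fun _ => rfl⟩
      inv_mem' := fun ⟨c, h1, h2, h3⟩ => ⟨_, inv_mem h1,
        by rw [inv_mul_eq_iff_eq_mul, ← mul_assoc, h2, mul_inv_cancel_right], h3.inv⟩ }
  have m1 : ∀ j ∈ S.erase i, ∀ a, lf (ρ j) a ∈ G → lf (ρ' j) a ∈ G' := fun j hj a ha =>
    ⟨_, ha, lf_comm (cm j hj) _ _, i1 j hj a⟩
  have eB : ∀ a b : L, B (Q.comp L.subtype) a b = B Q a b := fun a b => by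
    simp [B_eq_polar, QuadraticMap.polar]
  obtain ⟨v₀, hv₀, hv₀'⟩ := Ln_ne_bot (ρ := ρ i) hu0
  haveI : Nontrivial L := ⟨⟨⟨v₀, hv₀⟩, 0, fun h => hv₀' (congrArg Subtype.val h)⟩⟩
  have hF : Fam Q₁ (Q.comp L.subtype) ρ' (S.erase i) := by
    refine ⟨hz, fun v hv => Subtype.ext ?_, inferInstance, fun j hj x y h a b => ?_,
      fun j hj l hl h x y => ?_⟩
    · have h1 : (v : V) ∈ perp Q (Sp (ρ i) (F ∙ u)) := fun x hx => by
        rw [Sp_span] at hx
        exact (eB ⟨x, hx⟩ v).symm.trans (hv _)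
      have h2 : (v : V) ∈ Sp (ρ i) (F ∙ u) ⊓ Sp (ρ i) (perp Q₁ (F ∙ u)) :=
        ⟨by rw [Sp_span]; exact v.2, perp_Sp (hC.adj i hi) hz.n1 hC.nd (F ∙ u) ▸ h1⟩
      rwa [Sp_inf, (OO.ndOn_one hz.h2 hu).isCompl.inf_eq_bot, Sp_bot] at h2
    · rw [eB, eB, e1 j hj, e1 j hj]
      exact hC.adj j (Finset.mem_of_mem_erase hj) x y h _ _
    · ext v
      simp only [End.mul_apply, e1 j hj, e1 l hl]
      exact (hC.comm j (Finset.mem_of_mem_erase hj) l (Finset.mem_of_mem_erase hl) h x).apply y v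
  have key : ∀ c ∈ G, ∀ g, Ind L c g → ∀ j ∈ S.erase i, ∀ l ∈ S.erase i, ∀ w y, Q₁ w = 0 → w ≠ 0 →
      B Q₁ w y = 0 → Q₁ y ≠ 0 → ∀ a ∈ Gm Q₁, lf (cf g (ρ' j)) (eich Q₁ w y) = lf (ρ' l) a →
      c ∈ HH hC.toFam := by
    intro c hc g hg j hj l hl w y hw hw0 hy hy0 a ha e
    have hj' := Finset.mem_of_mem_erase hj
    have hl' := Finset.mem_of_mem_erase hl
    have h1 := ((hg.mul (i1 j hj (eich Q₁ w y))).mul hg.inv).mul (i1 l hl a).inv
    rw [← lf_cf g, e, mul_inv_cancel] at h1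
    have h2 := hC.FX_one hi hu ⟨mul_mem (mul_mem (mul_mem hc (hC.x_mem hj' w y)) (inv_mem hc))
      (inv_mem (hC.K l hl' a ha)), fun v hv => h1 ⟨v, by rwa [Sp_span] at hv⟩⟩
    exact hC.rx j hj' w y hw hw0 hy hy0 c hc ((mul_mem_cancel_right (inv_mem (hC.lf_mem hl' a))).1 h2)
  have hC' : Cx Q₁ (Q.comp L.subtype) ρ' (S.erase i) G' := by
    refine ⟨hF, ?_, ⟨-1, hC.neg, by simp, fun v => by simp⟩, fun j hj a ha =>
      m1 j hj a (hC.K j (Finset.mem_of_mem_erase hj) a ha), ?_, ?_, ?_⟩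
    · rintro g ⟨c, h1, -, h2⟩ a b
      rw [eB, eB, ← h2, ← h2]
      exact hC.le h1 _ _
    · obtain ⟨c, hc, h⟩ := hC.cls
      exact ⟨c, hc, fun j hj u hu => m1 j hj _ (h j (Finset.mem_of_mem_erase hj) u hu)⟩
    · rintro g ⟨c, h1, h2, h4⟩ d hd j hj x
      obtain ⟨φ, hφ⟩ := H6.exists_dual_one' (F := F) hu0
      let z : End F V := L.subtype ∘ₗ d ∘ₗ (ρ i (r1 u φ)).codRestrict L (r1_mem_Ln u φ)
      have z1 : ∀ v : L, bk (ρ i) φ u z v = d v := fun v => by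
        have := LinearMap.congr_fun (blk_mul_r1 (ρ := ρ i) z φ u u φ) v
        simp only [End.mul_apply, r1_Ln_one v.2 hφ] at this
        rw [bk_apply, this]
        have e : (ρ i (r1 u φ)).codRestrict L (r1_mem_Ln u φ) v = v := Subtype.ext (r1_Ln_one v.2 hφ)
        simp only [z, LinearMap.comp_apply, e, Submodule.subtype_apply]
        exact r1_Ln_one (d v).2 hφ
      have z2 := hC.nc c h1 (bk (ρ i) φ u z) (fun l hl => by
        by_cases e : l = i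
        · exact e ▸ cm_bk φ u z
        have hl' : l ∈ S.erase i := by simp [e, hl]
        refine fun y => bk_comm (cm l hl' y) (LinearMap.ext fun v => ?_) φ u
        have e2 : (ρ i (r1 u φ)).codRestrict L (r1_mem_Ln u φ) (ρ l y v) =
            ρ' l y ((ρ i (r1 u φ)).codRestrict L (r1_mem_Ln u φ) v) :=
          Subtype.ext (by rw [e1 l hl']; exact ((cm l hl' y).apply _ v).symm)
        simp only [z, End.mul_apply, LinearMap.comp_apply, e2, Submodule.subtype_apply]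
        rw [(hd l hl').apply, e1 l hl']) j (Finset.mem_of_mem_erase hj) x
      ext v
      have := LinearMap.congr_fun z2 v
      simp only [End.mul_apply] at this ⊢
      rw [e1 j hj, ← h4, ← h4, ← z1, ← z1, ← h4.inv, ← h4.inv, e1 j hj, this]
    · rintro j hj l hl g ⟨c, h1, h2, h4⟩ w y hw hw0 hy hy0 a ha e
      obtain ⟨p, hp⟩ := CharP.exists F
      haveI : Fact p.Prime := ⟨CharP.char_is_prime F p⟩
      have h5 : a ^ p = 1 := lf_inj (ρ := ρ' l) (by rw [map_pow, ← e, lf_eich_pow, map_one])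
      have h6 : a ∈ Gm Q₁ := by
        by_cases e0 : a = 1
        · exact e0 ▸ one_mem _
        obtain ⟨w', h6, h7, h8⟩ := exists_sing_fixed hz ha (OO.nil_of_pow h5) e0
        obtain ⟨y', h9, h10⟩ := hz.exists_y h6
        obtain ⟨t, rfl⟩ := unip3 hz h3 (OO.odd_char hz.h2) ha h5 h7 h6 h9 h10 h8
        exact hz.eich_mem _ _
      have h7 := key c h1 g h4 j hj l hl w y hw hw0 hy hy0 a h6 e
      obtain ⟨m, hm, h8⟩ := h7 j (Finset.mem_of_mem_erase hj)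
      have h9 := hC.NF_of_Ln h7 hi hu0 (Ln_cf_eq fun v hv => Ln_mem_of_comm hz.h2 hu h2 hv).symm
      have hm' : m ∈ S.erase i := Finset.mem_erase.2 ⟨fun e => by
        have := ((e ▸ h8 : Same (ρ i) _).symm.trans h9).cf c⁻¹
        rw [cf_inv_cf, cf_inv_cf] at this
        exact this.symm.not_comm hz.h3 (cm j hj), hm⟩
      have h10 : Same (ρ' m) (cf g (ρ' j)) := by
        obtain ⟨k, hk⟩ := h8
        refine ⟨k, fun x => LinearMap.ext fun v => Subtype.ext ?_⟩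
        rw [e1 m hm', ← hk, ← h4.cf, π1 j hj]
      by_cases e2 : m = l
      · exact e2 ▸ h10
      obtain ⟨s, hs⟩ := scal_of_cm (σ := cf g (ρ' j)) (x := eich Q₁ w y) (by
        rw [← lf_val, e]; exact h10.cm (cm_lf (hF.comm m hm' l hl e2) a))
      exact absurd (fun x => LinearMap.congr_fun hs x) (eich_ne_scal hz hw hw0 hy hy0 s)
  intro c hc e
  obtain ⟨g, hg⟩ := exists_ind fun v hv => Ln_mem_of_comm hz.h2 hu e hv
  have hj : j₀ ∈ S.erase i := by simp [hji, hj₀]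
  obtain ⟨l, hl, h1⟩ := ih L _ ρ' _ G' (Finset.card_erase_lt_of_mem hi) hC' ⟨c, hc, e, hg⟩ j₀ hj
  obtain ⟨a, μ, h2, h4, -⟩ := same_conf hz hF.nd (hF.adj l hl)
    ((hF.adj j₀ hj).cf (hC'.le ⟨c, hc, e, hg⟩)) h1
  obtain ⟨w, y, hw, hw0, hy, hy0⟩ := hz.exists_wy
  exact key c hc g hg j₀ hj l hl w y hw hw0 hy hy0 _ (h2.gm hz.h2 (hz.eich_mem w y)) (h4 _)

end Cfsg.Agent.H2.TO
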