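import Cfsg.Agent.H2.TO8

set_option autoImplicit false
set_option linter.unusedSectionVars false
set_option linter.unusedSimpArgs false

/-! Orthogonal tensor frames, part 9: class reflections fix one point only. -/

namespace Cfsg.Agent.H2.TO

open Module Cfsg.Agent.Orth Cfsg.Agent.H1.TW

variable {F : Type*} [Field F] [Finite F] {U : Type*} {V : Type*} [AddCommGroup U] [Module F U]
  [AddCommGroup V] [Module F V] [FiniteDimensional F U] [FiniteDimensional F V]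
  {Q₁ : QuadraticForm F U} {Q : QuadraticForm F V} {σ σ' τ : Fr F U V}

theorem inv_app' {s : (End F V)ˣ} (h : s * s = 1) (v : V) : (s : End F V) ((s : End F V) v) = v := by
  rw [← End.mul_apply, ← Units.val_mul, h]; rfl

theorem EV_nd (h2 : (2 : F) ≠ 0) (nd : Nd Q) {s : (End F V)ˣ} (hs : s ∈ OU Q) (h : s * s = 1) {v : V}
    (hv : v ∈ EV s (-1)) (h0 : ∀ y ∈ EV s (-1), B Q y v = 0) : v = 0 := nd v fun x => by
  have h1 := h0 (x - (s : End F V) x) (by rw [mem_EV2, map_sub, inv_app' h, neg_sub])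
  have h3 := hs x v
  rw [mem_EV2.1 hv] at h3
  simp only [map_sub, map_neg, LinearMap.sub_apply] at h1 h3
  exact mul_left_cancel₀ h2 (by linear_combination h1 - h3)

theorem eq_of_EV (h2 : (2 : F) ≠ 0) (nd : Nd Q) {s t : (End F V)ˣ} (hs : s ∈ OU Q) (h : s * s = 1)
    (ht : t ∈ OU Q) (h' : t * t = 1) (e : EV s (-1) = EV t (-1)) : s = t := by
  ext v
  rw [← sub_eq_zero]
  refine EV_nd h2 nd hs h ?_ fun y hy => ?_
  · have := (EV s (-1)).sub_mem (x := v - (t : End F V) v) (y := v - (s : End F V) v)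
      (by rw [e, mem_EV2, map_sub, inv_app' h', neg_sub]) (by rw [mem_EV2, map_sub, inv_app' h, neg_sub])
    simpa using this
  · have h3 := hs y v
    have h4 := ht y v
    rw [mem_EV2.1 hy] at h3
    rw [mem_EV2.1 (e ▸ hy)] at h4
    simp only [map_sub, map_neg, LinearMap.neg_apply] at h3 h4 ⊢
    linear_combination h4 - h3

theorem exists_ne_eig {k : End F U} (h : ¬ ∃ s : F, k = s • 1) : ∃ w, k w ∉ F ∙ w := by
  by_contra! h1
  refine h (k.exists_eq_smul_id_of_forall_notLinearIndependent fun v hv => ?_)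
  obtain ⟨s, hs⟩ := Submodule.mem_span_singleton.1 (h1 v)
  exact (LinearIndependent.pair_iff' (hv.ne_zero 0)).1 hv s hs

variable [Nontrivial V]

theorem lemC2 (hz : Sz Q₁) (nd : Nd Q) (h : Adj Q₁ Q σ) {s : (End F V)ˣ} (hs : s ∈ OU Q)
    (h1 : s * s = 1) (hn : s ∈ NF σ) {u : U} (hu : u ≠ 0)
    (hd : finrank F (EV s (-1)) = finrank F (Ln σ u)) :
    Cm σ (s : End F V) ∨ ∃ z, Q₁ z ≠ 0 ∧ s = lf σ (refl Q₁ z) := by
  obtain ⟨k, c, hc, e⟩ := Same.decomp hn
  by_cases h0 : ∃ t : F, (k : End F U) = t • 1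
  · obtain ⟨t, ht⟩ := h0
    exact Or.inl (by rw [e, ht, map_smul, map_one, smul_mul_assoc, one_mul]; exact hc.smul t)
  have m : ∀ w, ∀ v ∈ Ln σ w, (s : End F V) v ∈ Ln σ ((k : End F U) w) := fun w v hv => by
    rw [e]; exact Ln_map (hc.mem_Ln hv) _
  have key : ∀ w, (k : End F U) w ∉ F ∙ w →
      EV s (-1) ≤ Sp σ (Submodule.span F {w, (k : End F U) w}) := fun w hw => by
    have hw0 : w ≠ 0 := by rintro rfl; simp at hw
    let f : Ln σ w →ₗ[F] V := (1 - (s : End F V)) ∘ₗ (Ln σ w).subtype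
    have inj : Function.Injective f := LinearMap.ker_eq_bot.1 (LinearMap.ker_eq_bot'.2 fun v hv => by
      obtain ⟨φ, h5, h6⟩ := exists_dual_ann hw
      have : (v : V) = (s : End F V) v := sub_eq_zero.1 hv
      exact Subtype.ext (Ln_disjoint (h6 w (Submodule.mem_span_singleton_self w)) h5 v.2
        (this ▸ m w v v.2)))
    rw [← Submodule.eq_of_le_of_finrank_le (S₁ := LinearMap.range f) (S₂ := EV s (-1)) (by
      rintro _ ⟨v, rfl⟩; simp [f, mem_EV2, inv_app' h1]) (by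
        rw [LinearMap.finrank_range_of_inj inj, hd, finrank_Ln_eq hu hw0])]
    rintro _ ⟨v, rfl⟩
    exact Submodule.sub_mem _ (Ln_le_Sp (Submodule.subset_span (by simp)) v.2)
      (Ln_le_Sp (Submodule.subset_span (by simp)) (m w v v.2))
  obtain ⟨w, hw⟩ := exists_ne_eig h0
  set P := Submodule.span F {w, (k : End F U) w} with hP
  have p2 : ∀ a b : U, finrank F (Submodule.span F ({a, b} : Set U)) ≤ 2 := fun a b => by
    classical
    have := (finrank_span_finset_le_card (R := F) ({a, b} : Finset U)).trans Finset.card_le_two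
    rwa [Finset.coe_pair] at this
  obtain ⟨w', h2, h3⟩ : ∃ w', w' ∉ P ∧ (k : End F U) w' ∉ F ∙ w' := by
    obtain ⟨x, hx⟩ : ∃ x, x ∉ P := by
      by_contra! h2
      have := p2 w ((k : End F U) w)
      rw [← hP, Submodule.eq_top_iff'.2 h2, finrank_top] at this
      have := hz.h3
      omega
    have m1 : w ∈ P := Submodule.subset_span (by simp)
    have m2 : (k : End F U) w ∈ P := Submodule.subset_span (by simp)
    by_cases h3 : (k : End F U) x ∈ F ∙ x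
    · refine ⟨w + x, fun h => hx ((P.add_mem_iff_right m1).1 h), fun h4 => ?_⟩
      obtain ⟨a, ha⟩ := Submodule.mem_span_singleton.1 h3
      obtain ⟨b, hb⟩ := Submodule.mem_span_singleton.1 h4
      rw [map_add, ← ha] at hb
      by_cases e : a = b
      · exact hw (Submodule.mem_span_singleton.2 ⟨b, by rw [e] at hb; linear_combination (norm := module) hb⟩)
      refine hx ((P.smul_mem_iff (sub_ne_zero.2 e)).1 ?_)
      rw [show (a - b) • x = b • w - (k : End F U) w by linear_combination (norm := module) -hb]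
      exact P.sub_mem (P.smul_mem _ m1) m2
    · exact ⟨x, hx, h3⟩
  have h4 := le_inf (key w hw) (key w' h3)
  rw [Sp_inf] at h4
  set R := P ⊓ Submodule.span F {w', (k : End F U) w'} with hR
  have h5 : finrank F R ≤ 1 := by
    have := Submodule.finrank_lt_finrank_of_lt (s := R) (lt_of_le_of_ne inf_le_right fun e =>
      h2 (e ▸ Submodule.subset_span (by simp) : w' ∈ R).1)
    have := p2 w' ((k : End F U) w')
    omega
  have h6 : EV s (-1) = Sp σ R := Submodule.eq_of_le_of_finrank_le h4 (by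
    rw [finrank_Sp' hu, hd]; nlinarith)
  obtain ⟨z, hz0, h7⟩ : ∃ z, z ≠ 0 ∧ R = F ∙ z := by
    obtain ⟨z, h8⟩ := finrank_le_one_iff.1 h5
    refine ⟨z, fun e => ?_, le_antisymm (fun x hx => ?_) ((Submodule.span_singleton_le_iff_mem _ _).2 z.2)⟩
    · have := Ln_pos (σ := σ) hu
      rw [← hd, h6, show R = ⊥ from (Submodule.eq_bot_iff _).2 fun x hx => by
        obtain ⟨c, hc⟩ := h8 ⟨x, hx⟩
        simpa [e] using (congrArg Subtype.val hc).symm, Sp_bot, finrank_bot] at this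
      omega
    · obtain ⟨c, hc⟩ := h8 ⟨x, hx⟩
      exact Submodule.mem_span_singleton.2 ⟨c, congrArg Subtype.val hc⟩
  rw [h7] at h6
  have h8 : Q₁ z ≠ 0 := fun h8 => by
    obtain ⟨v, hv, hv0⟩ := Ln_ne_bot (ρ := σ) hz0
    refine hv0 (EV_nd hz.h2 nd hs h1 (by rwa [h6, Sp_span]) fun y hy => Sp_perp_le h hz.n1 (h6 ▸ hy)
      (Ln_le_Sp (fun x hx => ?_) hv))
    obtain ⟨c, rfl⟩ := Submodule.mem_span_singleton.1 hx
    simp [B_self, h8]
  exact Or.inr ⟨z, h8, eq_of_EV hz.h2 nd hs h1 (h.lf_mem (refl_mem_O _ _)) (lf_refl_sq z)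
    (by rw [h6, Sp_span, EV_refl_neg hz.h2 h8])⟩

/-- the swapped case in dimension three -/
theorem swap3 (hz : Sz Q₁) (h3 : finrank F U = 3) {s : (End F V)ˣ} (hc : Comm σ (cf s σ)) {w y u : U}
    (hw : Q₁ w = 0) (hw0 : w ≠ 0) (hy : B Q₁ w y = 0) (hy0 : Q₁ y ≠ 0) (hu : u ≠ 0)
    (hd : finrank F (EV s 1) + finrank F (Ln σ w) = finrank F V) (hE : Ln τ u ≤ EV s (-1))
    (h : ∀ t : F, Cm τ (lf σ (eich Q₁ w (t • y)) * lf (cf s σ) (eich Q₁ w (t • y)) : (End F V)ˣ)) :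
    False := by
  obtain ⟨t, t1, t2⟩ := hz.hq h3
  have h1 := two_frame hc hw0 (F ∙ w)
  have h2 := finrank_inv (ρ := cf s σ) (Ln σ w) (fun x v hv => (hc x).mem_Ln hv) hw0
  have h4 := finrank_Ln (ρ := σ) hw0
  rw [← EV_one, Sp_span, finrank_span_singleton hw0, h3] at h1
  rw [h3] at h2 h4
  have h5 : EV s 1 ⊓ Ln σ w = Ln σ w ⊓ Ln (cf s σ) w := Submodule.eq_of_le_of_finrank_le
    (fun v hv => ⟨hv.2, by rw [← mem_EV1.1 hv.1]; exact mem_Ln_cf.2 hv.2⟩) (by omega)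
  have h6 := ((h t).add (h (-t))).sub ((((h 1).add (h (-1))).smul (t * t)).add
    (Cm.one.smul (2 - 2 * (t * t))))
  have h7 : Cm τ ((2 * (Q₁ y * Q₁ y) * (t * t * (t * t - 1))) • (σ (nn Q₁ w) * cf s σ (nn Q₁ w))) := by
    convert h6 using 1
    simp only [Units.val_mul, lf_val, eich_coe hw hy, map_add, map_sub, map_smul, map_one, mul_add,
      add_mul, mul_sub, sub_mul, mul_one, one_mul, mul_smul_comm, smul_mul_assoc]
    module
  have h8 := h7.eq_zero hu fun v hv => by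
    have m1 := mem_EV2.1 (hE (h7.mem_Ln hv))
    have m2 : ((2 * (Q₁ y * Q₁ y) * (t * t * (t * t - 1))) • (σ (nn Q₁ w) * cf s σ (nn Q₁ w))) v ∈
        Ln σ w ⊓ Ln (cf s σ) w := Submodule.smul_mem _ _
      ⟨r1_mem_Ln w (B Q₁ w) (cf s σ (nn Q₁ w) v), (hc.symm _).mem_Ln (r1_mem_Ln _ _ _)⟩
    rw [← h5] at m2
    have m3 := (mem_EV1.1 m2.1).symm.trans m1
    rw [eq_neg_iff_add_eq_zero, ← two_smul F] at m3
    exact (smul_eq_zero.1 m3).resolve_left hz.h2
  have n0 : nn Q₁ w ≠ 0 := fun e => by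
    obtain ⟨w', -, h9⟩ := hz.partner hw hw0
    simpa [nn, h9, hw0] using LinearMap.congr_fun e w'
  exact rho_ne_zero n0 (nz_mul (hc _) n0 ((smul_eq_zero.1 h8).resolve_left
    (by simp [hz.h2, hy0, t1, sub_ne_zero.2 t2])))

variable {T : Type*} [DecidableEq T] {ρ : T → Fr F U V} {S : Finset T} {G : Subgroup (End F V)ˣ}

omit [Nontrivial V] in
theorem CS.conj {hF : Fam Q₁ Q ρ S} (h : CS hF G) {g : (End F V)ˣ} (hg : g ∈ G)
    (hF' : Fam Q₁ Q (fun i => cf g (ρ i)) S) : CS hF' G := fun i hi u hu hs c hc e => by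
  rw [lf_cf] at hs e
  refine (HH_conj hF hF').2 (h i hi u hu (by simpa [mul_assoc] using mul_mem (mul_mem (inv_mem hg) hs) hg)
    _ (mul_mem (mul_mem (inv_mem hg) hc) hg) ?_)
  calc _ = g⁻¹ * (c * (g * lf (ρ i) (refl Q₁ u) * g⁻¹)) * g := by group
    _ = _ := by rw [e]; group

/-- class reflections fix one point only -/
def RS (hF : Fam Q₁ Q ρ S) (G : Subgroup (End F V)ˣ) : Prop :=
  ∀ i ∈ S, ∀ u, Q₁ u ≠ 0 → lf (ρ i) (refl Q₁ u) ∈ G → ∀ c ∈ G,
    c * lf (ρ i) (refl Q₁ u) * c⁻¹ ∈ HH hF → c ∈ HH hF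

omit [Nontrivial V] in
theorem Cy.rs (hC : Cy Q₁ Q ρ S G) (hcs : CS hC.toFam G) : RS hC.toFam G := by
  intro i hi u hu hs c hc hH
  haveI := hC.nt
  have hz := hC.sz
  have hu0 := ne_zero_of_Q hu
  have hC' := hC.conj hc
  have hcs' := hcs.conj hc hC'.toFam i hi u hu (lf_cf (ρ := ρ i) c _ ▸ mul_mem (mul_mem hc hs) (inv_mem hc))
  rw [← lf_cf] at hH
  set s := lf (cf c (ρ i)) (refl Q₁ u) with hs'
  have sG : s ∈ G := by rw [hs', lf_cf]; exact mul_mem (mul_mem hc hs) (inv_mem hc)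
  obtain ⟨w, y, hw, hw0, hy, hy0⟩ := hz.exists_wy
  have fin : ∀ m ∈ S, Cm (ρ m) (s : End F V) → c ∈ HH hC.toFam := fun m hm h =>
    (inv_mem_iff (H := HH hC.toFam)).1 (hC.rx m hm w y hw hw0 hy hy0 _ (inv_mem hc) (by
      rw [inv_inv]; exact (HH_conj hC.toFam _).1 (hcs' _ (hC.x_mem hm w y) (Cm.lf h _).symm)))
  rcases hC.rel hH hi hi with h | h
  · rcases lemC2 hz hC.nd (hC.adj i hi) (hC.le sG) (lf_refl_sq u) h hu0
      (by rw [EV_refl_neg hz.h2 hu, finrank_Ln_eq hu0 hu0]) with h | ⟨z, -, h⟩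
    · exact fin i hi h
    · obtain ⟨j, hj, hji⟩ := hC.two i
      exact fin j hj (h ▸ cm_lf (hC.comm j hj i hi hji) _)
  exfalso
  have hd : finrank F (EV s 1) + finrank F (Ln (ρ i) w) = finrank F V := by
    rw [finrank_Ln_eq (ρ' := cf c (ρ i)) hw0 hu0, finrank_refl_one hz.h2 hu]
  have h3 : finrank F U = 3 := by
    have h1 := two_frame h hw0 ⊥
    have h4 := finrank_Ln (ρ := ρ i) hw0
    have := Ln_pos (σ := ρ i) hw0
    rw [← EV_one, Sp_bot, inf_bot_eq, finrank_bot, finrank_bot] at h1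
    have h5 := hz.h3
    by_contra h6
    obtain ⟨k, hk⟩ : ∃ k, finrank F U = k + 4 := ⟨finrank F U - 4, by omega⟩
    rw [hk] at h1 h4
    rw [show finrank F (EV s 1) = (k + 3) * finrank F (Ln (ρ i) w) by nlinarith] at h1
    nlinarith [Nat.mul_pos (Nat.succ_pos k) this, Nat.zero_le (k * k * finrank F (Ln (ρ i) w))]
  refine swap3 (τ := cf c (ρ i)) hz h3 h hw hw0 hy hy0 hu0 hd (EV_refl_neg hz.h2 hu).ge fun t => ?_
  obtain ⟨p, hp⟩ := CharP.exists F
  haveI : Fact p.Prime := ⟨CharP.char_is_prime F p⟩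
  set x := lf (ρ i) (eich Q₁ w (t • y)) with hx
  have e1 : x * lf (cf s (ρ i)) (eich Q₁ w (t • y)) = lf (cf s (ρ i)) (eich Q₁ w (t • y)) * x :=
    (lf_comm h _ _).symm
  have ss : s⁻¹ = s := inv_eq_of_mul_eq_one_right (lf_refl_sq u)
  have e2 : x * lf (cf s (ρ i)) (eich Q₁ w (t • y)) * s = s * (x * lf (cf s (ρ i)) (eich Q₁ w (t • y))) := by
    conv_rhs => rw [e1]
    rw [lf_cf, ← hx, ss]
    simp only [mul_assoc, hs', lf_refl_sq, mul_one]
    rw [← mul_assoc _ _ (x * _), lf_refl_sq, one_mul]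
  have gG : x * lf (cf s (ρ i)) (eich Q₁ w (t • y)) ∈ G :=
    mul_mem (hC.x_mem hi _ _) (hC.K' ((Cf.of_mem hi).cf sG) (hz.eich_mem _ _))
  obtain ⟨a, ha, d, hd, h4, h5, -⟩ := dec_odd hz hC.nd (hC'.adj i hi) (hC.le gG)
    (hC'.NF_of_Ln (hcs' _ gG e2) hi hu0 (Ln_cf_eq fun v hv => Ln_mem_of_comm hz.h2 hu e2 hv).symm)
    (OO.odd_char (p := p) hz.h2) (by rw [Commute.mul_pow e1, lf_eich_pow, lf_eich_pow, mul_one])
  rw [h4] at e2 ⊢
  have h6 : a * refl Q₁ u = refl Q₁ u * a := lf_inj (ρ := cf c (ρ i)) (by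
    rw [mul_assoc, Cm.lf hd, ← mul_assoc, ← mul_assoc, mul_left_inj] at e2
    rw [map_mul, map_mul, e2])
  have h7 := LinearEquiv.congr_fun h6 u
  rw [mul_app, mul_app, refl_self hu, map_neg] at h7
  obtain ⟨l, hl⟩ := Submodule.mem_span_singleton.1 (OO.Eg_refl_neg hz.h2 hu ▸ OO.mem_Eg2.2 h7.symm)
  have h8 := fix_of_eig h5 hl.symm
  by_cases e0 : a = 1
  · rw [e0, map_one, one_mul]; exact hd
  exfalso
  have h9 := OO.two_le_rank hz.n1 hz.h2 ha (OO.nil_of_pow h5) e0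
  obtain ⟨w', h10, h11, h12⟩ := exists_sing_fixed hz ha (OO.nil_of_pow h5) e0
  have h13 := LinearMap.finrank_range_add_finrank_ker ((a : U →ₗ[F] U) - 1)
  have h14 : F ∙ w' = LinearMap.ker ((a : U →ₗ[F] U) - 1) := Submodule.eq_of_le_of_finrank_le
    (by simp [h12]) (by rw [finrank_span_singleton h10]; omega)
  obtain ⟨m, rfl⟩ := Submodule.mem_span_singleton.1 (h14 ▸ (by simp [h8]) : u ∈ F ∙ w')
  simp [Q_smul, h11] at hu

end Cfsg.Agent.H2.TO
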