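import Cfsg.Agent.H2.Zass3

/-! Sharply triply transitive groups. -/

set_option autoImplicit false

namespace Cfsg.Agent.H2

open Subgroup MulAction
open scoped MatrixGroups commutatorElement

universe u

theorem card_ringAut (K : Type*) [Field K] [Finite K] {p f : ℕ} (hp : p.Prime)
    (hK : Nat.card K = p ^ f) : Nat.card (K ≃+* K) = f := by
  haveI := Fact.mk hp
  haveI := Fintype.ofFinite K
  haveI : CharP K p := charP_of_card_eq_prime_pow (f := f) (by rw [← Nat.card_eq_fintype_card, hK])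
  letI := ZMod.algebra K p
  have h1 := Module.natCard_eq_pow_finrank (K := ZMod p) (V := K)
  rw [hK, Nat.card_zmod] at h1
  rw [Nat.pow_right_injective hp.two_le h1, ← IsGalois.card_aut_eq_finrank]
  exact Nat.card_congr
    { toFun := fun θ => AlgEquiv.ofRingEquiv (f := θ) (fun x => RingHom.congr_fun
        (Subsingleton.elim ((θ : K →+* K).comp (algebraMap (ZMod p) K)) (algebraMap (ZMod p) K)) x)
      invFun := fun θ => θ.toRingEquiv
      left_inv := fun _ => rfl
      right_inv := fun _ => rfl }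

theorem sign_of_semiregular {α : Type*} [Fintype α] [DecidableEq α] (σ : Equiv.Perm α)
    (h : ∀ (n : ℕ) (y : α), σ y ≠ y → (σ ^ n) y = y → σ ^ n = 1) :
    ∃ m, σ.support.card = m * orderOf σ ∧ Equiv.Perm.sign σ = (-1) ^ (m * orderOf σ + m) := by
  have h1 : σ.cycleType = Multiset.replicate σ.cycleType.card (orderOf σ) := by
    rw [Multiset.eq_replicate_card]
    intro n hn
    refine Nat.dvd_antisymm (Equiv.Perm.dvd_of_mem_cycleType hn) (orderOf_dvd_of_pow_eq_one ?_)
    obtain ⟨c, τ, rfl, hd, hc, rfl⟩ := Equiv.Perm.mem_cycleType_iff.1 hn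
    obtain ⟨y, hy, -⟩ := id hc
    have hτ : τ y = y := (hd y).resolve_left hy
    refine h _ y (by rwa [Equiv.Perm.mul_apply, hτ]) ?_
    rw [hd.commute.mul_pow, Equiv.Perm.mul_apply, Equiv.Perm.pow_apply_eq_self_of_apply_eq_self hτ,
      ← hc.orderOf, pow_orderOf_eq_one, Equiv.Perm.one_apply]
  have h2 : σ.cycleType.sum = σ.cycleType.card * orderOf σ := by
    conv_lhs => rw [h1]
    rw [Multiset.sum_replicate, smul_eq_mul]
  exact ⟨_, by rw [← σ.sum_cycleType, h2], by rw [Equiv.Perm.sign_of_cycleType, h2]⟩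

theorem even_of_anticomm {H V : Type*} [Group H] [AddCommGroup V] [DistribMulAction H V] [Finite V]
    {p f : ℕ} (hp : p.Prime) (hp2 : p ≠ 2) (hV : Nat.card V = p ^ f) (hpV : ∀ v : V, p • v = 0)
    {u y : H} (h : ∀ v : V, y • u • v = -(u • y • v)) : Even f := by
  haveI := Fact.mk hp
  obtain ⟨_⟩ : Nonempty (Module (ZMod p) V) := ⟨AddCommGroup.zmodModule hpV⟩
  have h1 := (FiniteField.pow_finrank_eq_natCard p V).symm
  rw [hV] at h1
  rw [Nat.pow_right_injective hp.two_le h1]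
  let ρ : H → V →ₗ[ZMod p] V := fun g => (DistribSMul.toAddMonoidHom V g).toZModLinearMap p
  have hρ : ∀ g, LinearMap.det (ρ g) ≠ 0 := fun g => by
    have : ρ g ∘ₗ ρ g⁻¹ = LinearMap.id := LinearMap.ext fun v => smul_inv_smul g v
    have h2 := congrArg LinearMap.det this
    rw [LinearMap.det_comp, LinearMap.det_id] at h2
    exact left_ne_zero_of_mul_eq_one h2
  have h2 : ρ y ∘ₗ ρ u = (-1 : ZMod p) • (ρ u ∘ₗ ρ y) := LinearMap.ext fun v => by
    rw [neg_one_smul]; exact h v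
  have h3 := congrArg LinearMap.det h2
  rw [LinearMap.det_smul, LinearMap.det_comp, LinearMap.det_comp, mul_comm,
    right_eq_mul₀ (mul_ne_zero (hρ u) (hρ y))] at h3
  haveI : Fact (2 < p) := ⟨lt_of_le_of_ne hp.two_le hp2.symm⟩
  exact (neg_one_pow_eq_one_iff_even ZMod.neg_one_ne_one).1 h3

variable {G : Type u} {Ω : Type*} [Group G] [MulAction G Ω]

theorem exists_odd_of_cyclic [FaithfulSMul G Ω] [Finite G] [Fintype Ω] [DecidableEq Ω]
    (h3 : ∀ (g : G) (a b c : Ω), a ≠ b → b ≠ c → a ≠ c → g • a = a → g • b = b → g • c = c → g = 1)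
    {a b : Ω} (hab : a ≠ b) (hd : Nat.card (St G a b) + 2 = Nat.card Ω)
    (heven : Even (Nat.card (St G a b))) (P : Sylow 2 (St G a b)) (hP : IsCyclic P) :
    ∃ x ∈ St G a b, Equiv.Perm.sign (toPerm x : Equiv.Perm Ω) ≠ 1 := by
  obtain ⟨x, hx⟩ := isCyclic_iff_exists_orderOf_eq_natCard.1 hP
  rw [P.card_eq_multiplicity] at hx
  have hk : (Nat.card (St G a b)).factorization 2 ≠ 0 :=
    (Nat.Prime.factorization_pos_of_dvd Nat.prime_two Nat.card_pos.ne' heven.two_dvd).ne'
  have h1 := Nat.pow_succ_factorization_not_dvd (Nat.card_pos (α := St G a b)).ne' Nat.prime_two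
  generalize (Nat.card (St G a b)).factorization 2 = k at *
  have ho : orderOf (toPerm (x.1.1 : G) : Equiv.Perm Ω) = 2 ^ k := by
    rw [← hx, ← orderOf_coe, ← orderOf_coe]
    exact orderOf_injective (toPermHom G Ω) toPerm_injective _
  have hx1 : (x.1.1 : G) ≠ 1 := by
    intro e
    rw [e] at ho
    have : orderOf (toPermHom G Ω 1) = 2 ^ k := ho
    rw [map_one, orderOf_one, eq_comm, Nat.pow_eq_one] at this
    omega
  have hfix := fixedBy_eq_pair h3 hx1 hab x.1.2.1 x.1.2.2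
  obtain ⟨m, hm, hs⟩ := sign_of_semiregular (toPerm (x.1.1 : G) : Equiv.Perm Ω) (by
    intro n y hy hn
    change toPermHom G Ω _ ^ n = 1
    change (toPermHom G Ω _ ^ n) y = y at hn
    rw [← map_pow] at hn ⊢
    have h4 := pow_mem x.1.2 n
    rw [h3 _ a b y hab (by rintro rfl; exact hy x.1.2.2) (by rintro rfl; exact hy x.1.2.1) h4.1 h4.2 hn,
      map_one])
  have h5 : (toPerm (x.1.1 : G) : Equiv.Perm Ω).support = {a, b}ᶜ := by
    ext y
    have := Set.ext_iff.1 hfix y
    simp only [mem_fixedBy, Set.mem_insert_iff, Set.mem_singleton_iff] at this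
    simp [this]
  rw [h5, Finset.card_compl, Finset.card_pair hab, ← Nat.card_eq_fintype_card, ho] at hm
  refine ⟨x, x.1.2, ?_⟩
  rw [hs, ho, Ne, neg_one_pow_eq_one_iff_even (by decide),
    Nat.even_add, iff_true_left (((Nat.even_pow' hk).2 even_two).mul_left m)]
  rintro ⟨r, hr⟩
  exact h1 ⟨r, by rw [show Nat.card (St G a b) = m * 2 ^ k by omega, hr]; ring⟩

theorem two_of_three [Finite Ω] (h : IsMultiplyPretransitive G Ω 3) (hΩ : 3 ≤ Nat.card Ω) :
    ∀ a b c d : Ω, a ≠ b → c ≠ d → ∃ g : G, g • a = c ∧ g • b = d :=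
  two_trans_iff.1 (isMultiplyPretransitive_of_le (n := 3) (by omega) hΩ)

theorem card_St_subgroup (L : Subgroup G) (a b : Ω) :
    Nat.card (St L a b) = Nat.card (L.subgroupOf (St G a b)) :=
  Nat.card_congr
    { toFun := fun x => ⟨⟨x.1.1, x.2⟩, x.1.2⟩
      invFun := fun x => ⟨⟨x.1.1, x.2⟩, x.1.2⟩
      left_inv := fun _ => rfl
      right_inv := fun _ => rfl }

theorem index_ker_eq_two {H : Type*} [Group H] (χ : H →* ℤˣ) {x : H} (hx : χ x ≠ 1) :
    χ.ker.index = 2 := by
  rw [index_ker, MonoidHom.range_eq_top.2, card_top, Nat.card_eq_fintype_card, Fintype.card_units_int]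
  intro u
  rcases Int.units_eq_one_or u with rfl | rfl
  · exact ⟨1, map_one χ⟩
  · exact ⟨x, (Int.units_eq_one_or _).resolve_left hx⟩

namespace Coord

variable {V : Type*} {a b : Ω} [AddCommGroup V] [DistribMulAction (St G a b) V] (C : Coord G a b V)
include C

theorem invol_unique [Nontrivial V] (h3 : ∀ (g : G) (a b c : Ω), a ≠ b → b ≠ c → a ≠ c → g • a = a →
    g • b = b → g • c = c → g = 1) {z w : St G a b} (hz : z * z = 1) (hz1 : z ≠ 1) (hw : w * w = 1)
    (hw1 : w ≠ 1) : w = z := by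
  obtain ⟨v, hv⟩ := exists_ne (0 : V)
  rw [eq_comm, ← inv_mul_eq_one]
  exact C.fpf h3 _ v hv (by
    rw [mul_smul, inv_smul_eq_iff, C.neg_of_invol h3 hz hz1, C.neg_of_invol h3 hw hw1])

theorem nsmul_eq_zero [Finite Ω] (h : IsMultiplyPretransitive G Ω 3) {p : ℕ} (hp : p.Prime)
    (hV : p ∣ Nat.card V) (v : V) : p • v = 0 := by
  haveI := C.finite
  haveI := Fact.mk hp
  obtain ⟨w, hw⟩ := exists_prime_addOrderOf_dvd_card' (G := V) p hV
  have hw0 : w ≠ 0 := by rintro rfl; exact hp.one_lt.ne (by simpa using hw)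
  by_cases hv : v = 0
  · rw [hv, smul_zero]
  · obtain ⟨g, rfl⟩ := C.trans_of_three h w v hw0 hv
    rw [smul_comm, ← hw, addOrderOf_nsmul_eq_zero, smul_zero]

theorem pgl_of_odd [FaithfulSMul G Ω] [Finite G] [Finite Ω] (h : IsMultiplyPretransitive G Ω 3)
    (h3 : ∀ (g : G) (a b c : Ω), a ≠ b → b ≠ c → a ≠ c → g • a = a → g • b = b → g • c = c → g = 1)
    {p f : ℕ} (hp : p.Prime) (hp2 : p ≠ 2) (hf : Odd f) (hV : Nat.card V = p ^ f)
    (K : Type) [Field K] [Finite K] (hK : Nat.card K + 1 = Nat.card Ω) :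
    Nonempty (G ≃* PGL(2, K)) := by
  classical
  haveI := Fintype.ofFinite Ω
  haveI := C.finite
  have hcard := C.card
  have hV1 : 1 < Nat.card V := hV ▸ Nat.one_lt_pow hf.pos.ne' hp.one_lt
  haveI : Nontrivial V := Finite.one_lt_card_iff_nontrivial.1 hV1
  have h2 := two_of_three h (by omega)
  have hd := card_of_reg (C.reg_of_three h h3)
  have hodd : Odd (Nat.card V) := hV ▸ (hp.odd_of_ne_two hp2).pow
  have heven : Even (Nat.card (St G a b)) := by
    rw [← hd, Nat.odd_add_one, Nat.not_odd_iff_even] at hodd; exact hodd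
  obtain ⟨z, hz⟩ := exists_prime_orderOf_dvd_card' (G := St G a b) 2 heven.two_dvd
  have hz2 : z * z = 1 := by rw [← pow_two, ← hz, pow_orderOf_eq_one]
  have hz1 : z ≠ 1 := by rintro rfl; simp at hz
  have hzu : ∀ w ∈ St G a b, w * w = 1 → w ≠ 1 → w = z := fun w hw e1 e2 => congrArg Subtype.val
    (C.invol_unique h3 hz2 hz1 (w := ⟨w, hw⟩) (Subtype.ext e1) (fun e => e2 (congrArg Subtype.val e)))
  have hz2' : (z : G) * z = 1 := congrArg Subtype.val hz2
  have hzc : ∀ g ∈ St2 G a b, g * z * g⁻¹ = z := fun g hg => hzu _ (conj_mem_St hg z.2)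
    (by calc _ = g * (z * z) * g⁻¹ := by group
      _ = 1 := by rw [hz2']; group) (by simpa using hz1)
  have hpV := C.nsmul_eq_zero h hp (hV ▸ dvd_pow_self p hf.pos.ne')
  let χ : G →* ℤˣ := Equiv.Perm.sign.comp (toPermHom G Ω)
  have hχ2 : ∀ x y : G, χ x ≠ 1 → χ y ≠ 1 → χ (x * y) = 1 := fun x y hx hy => by
    rw [map_mul, (Int.units_eq_one_or _).resolve_left hx, (Int.units_eq_one_or _).resolve_left hy]
    simp
  by_cases hχz : χ z = 1
  · obtain ⟨x, hx, hx1⟩ : ∃ x ∈ St G a b, χ x ≠ 1 := by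
      obtain ⟨P⟩ : Nonempty (Sylow 2 (St G a b)) := inferInstance
      refine exists_odd_of_cyclic h3 C.ne (by omega) heven P ?_
      obtain ⟨R, _, _, ρ, hρ⟩ := exists_fpf (C.fpf h3)
      obtain ⟨x, hx1, hx2⟩ := pgroup_structure P.isPGroup' ((hρ.noPP 2 Nat.prime_two).subgroup _)
      refine ⟨x, fun y => ?_⟩
      by_contra hy
      have h4 := (hx2 y hy).2
      have h5 : x ^ 2 ∉ (⊥ : Subgroup P) := fun e => hy (hx1 y (by
        rw [← mul_inv_eq_iff_eq_mul, h4, inv_eq_iff_mul_eq_one, ← pow_two]; exact e))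
      obtain ⟨j, h6, h7⟩ := exists_pow_step P.isPGroup' ⊥ h5
      rw [mem_bot, pow_right_comm] at h6
      rw [mem_bot, pow_right_comm x, pow_two] at h7
      have h8 : y * x ^ 2 ^ j * y⁻¹ = (x ^ 2 ^ j)⁻¹ := by rw [← conj_pow, h4, inv_pow]
      generalize x ^ 2 ^ j = u at h6 h7 h8
      have h9 : y * u = u ^ 2 * (u * y) := by
        calc y * u = u⁻¹ * 1 * y := by rw [mul_one, mul_inv_eq_iff_eq_mul.1 h8]
          _ = _ := by rw [← h7]; group
      refine (Nat.not_even_iff_odd.2 hf) (even_of_anticomm hp hp2 hV hpV (u := u) (y := y) fun v => ?_)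
      rw [← mul_smul, h9, mul_smul, mul_smul]
      exact C.neg_of_invol h3 (z := (u ^ 2 : P)) (congrArg Subtype.val h7)
        (fun e => h6 (Subtype.ext e)) _
    have ht : ∀ v, C.t v ∈ χ.ker := fun v => by
      have : χ (C.t v) ^ p = 1 := by rw [← map_pow, ← C.t_nsmul, hpV, C.t_zero, map_one]
      refine (Int.units_eq_one_or _).resolve_right fun e => ?_
      rw [e, (hp.odd_of_ne_two hp2).neg_one_pow] at this
      exact absurd this (by decide)
    have h2L := C.two_trans_of_normal h2 χ.ker ht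
    have h4 := (χ.ker.subgroupOf (St G a b)).card_mul_index
    rw [show (χ.ker.subgroupOf (St G a b)).index = 2 from
      index_ker_eq_two (χ.comp (St G a b).subtype) (x := ⟨x, hx⟩) hx1] at h4
    have hsw := fun x => swaps_invol_of_even h2L
      (fun g a b c p1 p2 p3 p4 p5 p6 => Subtype.ext (h3 g a b c p1 p2 p3 p4 p5 p6)) C.ne
      (by
        rw [card_St_subgroup, even_iff_two_dvd, ← hz]
        exact orderOf_dvd_natCard _ hχz) (by rw [card_St_subgroup]; omega) (x := x)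
    obtain ⟨s, hsa, hsb⟩ := h2L a b b a C.ne C.ne.symm
    have T := C.torus_of_subgroup χ.ker ht s.2 (congrArg Subtype.val (hsw s hsa hsb)) hsa
      (fun x hx hxL => congrArg Subtype.val (inv_of_swaps (h := ⟨x, hxL⟩) hsa hsb (hsw s hsa hsb)
        (hsw _ (by rw [mul_smul, show (⟨x, hxL⟩ : χ.ker) • a = a from hx.1, hsa])
          (by rw [mul_smul, show (⟨x, hxL⟩ : χ.ker) • b = b from hx.2, hsb]))))
    obtain ⟨hirr, hK'⟩ := T.odd_core h3 (C.no_two_torsion h3 hz2 hz1)
      (Or.inr ⟨z, hχz, C.neg_of_invol h3 hz2 hz1⟩)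
    obtain ⟨φ, hlin, hsemi⟩ := (exists_field_coord _ T.comm hirr).2 K (by omega)
    have hlin' := fun g hg => hlin g (fun x hx => T.comm x hx g hg)
    obtain ⟨l, hl, hs, -⟩ := hK' K φ hlin'
    refine ((C.mobius φ (fun g => ?_) hsa hsb hl hs).resolve_right fun h' => h'.1 h).2
    obtain ⟨c, hc, θ, hθ⟩ := hsemi g
    obtain ⟨c', -, hc'⟩ := hlin' (g * g) (by
      show χ (g * g) = 1
      rw [map_mul, Int.units_mul_self])
    simp only [mul_smul, hθ, φ.apply_eq_iff_eq, map_mul] at hc'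
    have h5 : (θ : RingAut K) = 1 := eq_one_of_sq_of_odd (G := RingAut K)
      (by rw [card_ringAut K hp (f := f) (by omega)]; exact hf) (RingEquiv.ext fun y => by
        have e1 := hc' 1
        have e2 := hc' y
        rw [map_one, map_one, mul_one, mul_one] at e1
        rw [← e1, mul_assoc] at e2
        exact mul_left_cancel₀ ((map_ne_zero θ).2 hc) (mul_left_cancel₀ hc e2))
    exact ⟨c, hc, fun y => by rw [hθ, h5]; rfl⟩
  · have h4 := even_two_point_bound h2 h3 C.ne heven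
    have h5 : 2 * {x : G | (x • a = b ∧ x • b = a) ∧ χ x ≠ 1}.ncard ≤ Nat.card (St G a b) := by
      rw [← ncard_map_pair h2 C.ne C.ne.symm, two_mul]
      nth_rewrite 2 [← Set.ncard_image_of_injective _ (mul_left_injective (z : G))]
      rw [← Set.ncard_union_eq]
      · apply Set.ncard_le_ncard _ (Set.toFinite _)
        rintro x (hx | ⟨x, hx, rfl⟩)
        · exact hx.1
        · exact ⟨by rw [mul_smul, show (z : G) • a = a from z.2.1, hx.1.1],
            by rw [mul_smul, show (z : G) • b = b from z.2.2, hx.1.2]⟩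
      · rw [Set.disjoint_left]
        rintro _ hx ⟨x, hx', rfl⟩
        exact hx.2 (hχ2 _ _ hx'.2 hχz)
    have h6 := Set.eq_of_subset_of_ncard_le
      (s := {x : G | (orderOf x = 2 ∧ (fixedBy Ω x).ncard = 2) ∧ x • a = b})
      (t := {x : G | (x • a = b ∧ x • b = a) ∧ χ x ≠ 1}) (by
        rintro x ⟨⟨p1, p2⟩, p3⟩
        refine ⟨⟨p3, swap_of_orderOf_two p1 p3⟩, ?_⟩
        obtain ⟨y, w, hyw, e⟩ := Set.ncard_eq_two.1 p2
        have hy : x • y = y := (e.ge (Or.inl rfl) : y ∈ fixedBy Ω x)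
        have hw : x • w = w := (e.ge (Or.inr rfl) : w ∈ fixedBy Ω x)
        obtain ⟨u, u1, u2⟩ := h2 y w a b hyw C.ne
        have := hzu (u * x * u⁻¹) ⟨show _ • a = a by rw [← u1, conj_smul_smul, hy],
          show _ • b = b by rw [← u2, conj_smul_smul, hw]⟩ (by
            calc _ = u * x ^ 2 * u⁻¹ := by rw [pow_two]; group
              _ = 1 := by rw [← p1, pow_orderOf_eq_one]; group) (by
            intro e
            rw [conj_eq_one_iff] at e
            simp [e] at p1)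
        rw [← this, map_mul, map_mul, map_inv, mul_right_comm, mul_inv_cancel, one_mul] at hχz
        exact hχz) (by omega)
    have hsw : ∀ x : G, x • a = b → x • b = a → χ x ≠ 1 → x * x = 1 := fun x p1 p2 p3 => by
      rw [← pow_two, ← (h6.ge ⟨⟨p1, p2⟩, p3⟩).1.1, pow_orderOf_eq_one]
    obtain ⟨s, hsa, hsb, hs⟩ : ∃ s : G, s • a = b ∧ s • b = a ∧ χ s ≠ 1 := by
      obtain ⟨s, hsa, hsb⟩ := h2 a b b a C.ne C.ne.symm
      by_cases hs : χ s = 1
      · exact ⟨s * z, by rw [mul_smul, show (z : G) • a = a from z.2.1, hsa],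
          by rw [mul_smul, show (z : G) • b = b from z.2.2, hsb], by rwa [map_mul, hs, one_mul]⟩
      · exact ⟨s, hsa, hsb, hs⟩
    have h7 : ∀ x ∈ St G a b, χ x = 1 → s * x * s⁻¹ = x⁻¹ := fun x hx e =>
      inv_of_swaps hsa hsb (hsw s hsa hsb hs) (hsw _ (by rw [mul_smul, hx.1, hsa])
        (by rw [mul_smul, hx.2, hsb]) (by rwa [map_mul, e, mul_one]))
    refine C.pgl_of_inverted h hsa hsb (fun x hx => ?_) K hK
    by_cases e : χ x = 1
    · exact h7 x hx e
    · have h8 := h7 _ (mul_mem hx z.2) (hχ2 _ _ e hχz)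
      calc s * x * s⁻¹ = s * (x * z) * s⁻¹ * (s * z * s⁻¹)⁻¹ := by group
        _ = ((x⁻¹ * z * x⁻¹⁻¹) * z)⁻¹ * x⁻¹ := by
          rw [h8, hzc s (Or.inr ⟨hsa, hsb⟩)]; group
        _ = _ := by rw [hzc x⁻¹ (Or.inl (inv_mem hx)), hz2', inv_one, one_mul]

end Coord

end Cfsg.Agent.H2
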