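import Cfsg.Agent.H2.Zass4

/-! Groups of degree `p + 1`. -/

set_option autoImplicit false

namespace Cfsg.Agent.H2

open Subgroup MulAction
open scoped MatrixGroups commutatorElement

universe u

variable {G : Type u} {Ω : Type*} [Group G] [MulAction G Ω]

theorem affine_of_regular [Finite Ω] (a : Ω) (N : Subgroup G) [hNn : N.Normal]
    (hN : ∀ x y : Ω, ∃! n : N, (n : G) • x = y) (A : Subgroup G) (hA : A ≤ stabilizer G a)
    (hAn : ∀ g ∈ stabilizer G a, ∀ u ∈ A, g * u * g⁻¹ ∈ A) (hAc : ∀ x ∈ A, ∀ y ∈ A, x * y = y * x)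
    (hAt : ∀ y z : Ω, y ≠ a → z ≠ a → ∃ u ∈ A, u • y = z) (heven : Even (Nat.card Ω)) :
    (∃ q, 0 < q ∧ Nat.card Ω = 2 ^ q) ∧ ∀ (K : Type) [Field K] [Finite K], Nat.card K = Nat.card Ω →
      ∃ e : K ≃ Ω, ∀ g : G, ∃ (c b : K) (θ : K ≃+* K), c ≠ 0 ∧ ∀ x, g • e x = e (c * θ x + b) := by
  have hb : Function.Bijective (fun n : N => (n : G) • a) :=
    ⟨fun n m e => (hN a _).unique e rfl, fun y => (hN a y).exists⟩
  have hc : Nat.card N = Nat.card Ω := Nat.card_congr (Equiv.ofBijective _ hb)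
  haveI : Finite N := Finite.of_injective _ hb.1
  have htr : ∀ n m : N, n ≠ 1 → m ≠ 1 → ∃ u ∈ A, u * n * u⁻¹ = m := by
    intro n m hn hm
    obtain ⟨u, hu, e⟩ := hAt _ _ (fun e => hn (hb.1 (e.trans (one_smul G a).symm)))
      (fun e => hm (hb.1 (e.trans (one_smul G a).symm)))
    refine ⟨u, hu, congrArg Subtype.val (hb.1 (a₁ := ⟨_, hNn.conj_mem _ n.2 u⟩) ?_)⟩
    show (u * n * u⁻¹) • a = (m : G) • a
    rw [mul_smul, mul_smul, show u⁻¹ • a = a from inv_mem (hA hu), e]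
  obtain ⟨t, ht⟩ := exists_prime_orderOf_dvd_card' (G := N) 2 (hc ▸ heven.two_dvd)
  have ht1 : t ≠ 1 := by rintro rfl; simp at ht
  have hsq : ∀ n : N, n * n = 1 := by
    intro n
    by_cases hn : n = 1
    · rw [hn, one_mul]
    · obtain ⟨u, -, e⟩ := htr t n ht1 hn
      apply Subtype.ext
      calc (n : G) * n = u * (t ^ 2 : N) * u⁻¹ := by rw [← e, pow_two, coe_mul]; group
        _ = 1 := by rw [← ht, pow_orderOf_eq_one]; simp
  have hcomm : ∀ x y : N, x * y = y * x := fun x y => by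
    rw [← inv_eq_of_mul_eq_one_right (hsq (x * y)), mul_inv_rev, inv_eq_of_mul_eq_one_right (hsq x),
      inv_eq_of_mul_eq_one_right (hsq y)]
  letI : CommGroup N := { mul_comm := hcomm }
  letI : DistribMulAction (stabilizer G a) (Additive N) :=
    { smul := fun h v => Additive.ofMul ⟨h * v.toMul * (h : G)⁻¹, hNn.conj_mem _ v.toMul.2 _⟩
      one_smul := fun v => congrArg Additive.ofMul (Subtype.ext (by
        show 1 * (v.toMul : G) * 1⁻¹ = v.toMul; group))
      mul_smul := fun h k v => congrArg Additive.ofMul (Subtype.ext (by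
        show (h * k : G) * (v.toMul : G) * (h * k : G)⁻¹ = h * (k * v.toMul * (k : G)⁻¹) * (h : G)⁻¹
        group))
      smul_zero := fun h => congrArg Additive.ofMul (Subtype.ext (by
        show (h : G) * 1 * (h : G)⁻¹ = 1; group))
      smul_add := fun h v w => congrArg Additive.ofMul (Subtype.ext (by
        show (h : G) * ((v.toMul : G) * w.toMul) * (h : G)⁻¹ =
          h * v.toMul * (h : G)⁻¹ * (h * w.toMul * (h : G)⁻¹)
        group)) }
  haveI : Nontrivial (Additive N) := ⟨Additive.ofMul t, 0, ht1⟩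
  haveI : (A.subgroupOf (stabilizer G a)).Normal := ⟨fun u hu g => hAn g g.2 u hu⟩
  obtain ⟨⟨p, f, hp, hf, hV⟩, hφ⟩ := exists_field_coord (V := Additive N) (A.subgroupOf (stabilizer G a))
    (fun x hx y hy => Subtype.ext (hAc _ hx _ hy)) (by
      intro W hW
      rw [or_iff_not_imp_left, eq_top_iff]
      intro hne y _
      obtain ⟨⟨x, hxW⟩, hx⟩ := (AddSubgroup.ne_bot_iff_exists_ne_zero).1 hne
      by_cases hy : y = 0
      · rw [hy]; exact W.zero_mem
      · obtain ⟨u, hu, e⟩ := htr x.toMul y.toMul (fun e => hx (Subtype.ext e)) hy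
        have := hW ⟨u, hA hu⟩ hu x hxW
        rwa [show (⟨u, hA hu⟩ : stabilizer G a) • x = y from
          congrArg Additive.ofMul (Subtype.ext e)] at this)
  have hV' : Nat.card (Additive N) = Nat.card Ω := hc
  refine ⟨⟨f, hf, ?_⟩, fun K _ _ hK => ?_⟩
  · rw [← hV', hV] at heven ⊢
    rw [hp.even_iff.1 ((Nat.even_pow' hf.ne').1 heven)]
  · obtain ⟨φ, -, hs⟩ := hφ K (hK.trans hV'.symm)
    refine ⟨(φ.toEquiv.trans Additive.toMul).trans (Equiv.ofBijective _ hb), fun g => ?_⟩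
    obtain ⟨n, hn, -⟩ := hN a (g • a)
    obtain ⟨c, hc0, θ, hθ⟩ := hs ⟨(n : G)⁻¹ * g, by rw [mem_stabilizer_iff, mul_smul, ← hn, inv_smul_smul]⟩
    obtain ⟨b, hb'⟩ := φ.surjective (Additive.ofMul n)
    refine ⟨c, b, θ, hc0, fun x => ?_⟩
    show g • ((φ x).toMul : G) • a = ((φ (c * θ x + b)).toMul : G) • a
    rw [add_comm, map_add, hb', ← hθ]
    show _ = ((n : G) * (((n : G)⁻¹ * g) * (φ x).toMul * ((n : G)⁻¹ * g)⁻¹)) • a
    rw [mul_smul, mul_smul, mul_smul, mul_smul, smul_inv_smul, mul_inv_rev, inv_inv, mul_smul, hn,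
      inv_smul_smul]

theorem card_St_dvd_of_semiaffine [FaithfulSMul G Ω] {K : Type*} [Field K] (e : K ≃ Ω)
    (h : ∀ g : G, ∃ (c b : K) (θ : K ≃+* K), c ≠ 0 ∧ ∀ x, g • e x = e (c * θ x + b)) :
    Nat.card (St G (e 0) (e 1)) ∣ Nat.card (K ≃+* K) := by
  have h1 : ∀ g : St G (e 0) (e 1), ∃ θ : RingAut K, ∀ x, (g : G) • e x = e (θ x) := by
    intro g
    obtain ⟨c, b, θ, -, hg⟩ := h g
    have e0 := e.injective ((hg 0).symm.trans g.2.1)
    have e1 := e.injective ((hg 1).symm.trans g.2.2)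
    rw [map_zero, mul_zero, zero_add] at e0
    rw [map_one, mul_one, e0, add_zero] at e1
    exact ⟨θ, fun x => by rw [hg, e0, e1, one_mul, add_zero]⟩
  choose θ hθ using h1
  refine card_dvd_of_injective (MonoidHom.mk' θ fun g k => RingEquiv.ext fun x => e.injective (by
    rw [← hθ, coe_mul, mul_smul, hθ, hθ]; rfl)) ((injective_iff_map_eq_one _).2 fun g hg => ?_)
  refine Subtype.ext (eq_of_smul_eq_smul fun y : Ω => ?_)
  obtain ⟨x, rfl⟩ := e.surjective y
  rw [hθ, show θ g = 1 from hg, coe_one, one_smul]; rfl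

theorem prime_degree_setup [FaithfulSMul G Ω] [Finite G] [Finite Ω] [IsPretransitive G Ω] {p d : ℕ}
    (hp : p.Prime) (hΩ : Nat.card Ω = p + 1) (hG : Nat.card G = (p + 1) * p * d) (hd : d < p) :
    ∃ (a : Ω) (P : Subgroup G), P ≤ stabilizer G a ∧
      (∀ g ∈ stabilizer G a, ∀ u ∈ P, g * u * g⁻¹ ∈ P) ∧ (∀ x ∈ P, ∀ y ∈ P, x * y = y * x) ∧
      ∀ y z : Ω, y ≠ a → z ≠ a → ∃! u : P, (u : G) • y = z := by
  haveI := Fact.mk hp
  haveI : Nonempty Ω := (Nat.card_pos_iff.1 (by omega)).1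
  obtain ⟨a⟩ : Nonempty Ω := inferInstance
  have h1 := card_eq_card_mul_stab (G := G) a
  rw [hG, hΩ, mul_assoc, Nat.mul_right_inj (by omega)] at h1
  have hd0 : 0 < d := Nat.pos_of_mul_pos_left (h1 ▸ Nat.card_pos)
  obtain ⟨P⟩ : Nonempty (Sylow p (stabilizer G a)) := inferInstance
  have hP : Nat.card P = p := by
    rw [P.card_eq_multiplicity, ← h1, Nat.factorization_mul hp.ne_zero hd0.ne', Finsupp.add_apply,
      hp.factorization_self, Nat.factorization_eq_zero_of_lt hd, add_zero, pow_one]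
  have hi : (P : Subgroup (stabilizer G a)).index = d := by
    have := (P : Subgroup (stabilizer G a)).card_mul_index
    rw [hP, ← h1] at this
    exact Nat.eq_of_mul_eq_mul_left hp.pos this
  have hn : Nat.card (Sylow p (stabilizer G a)) = 1 := by
    have h2 := card_sylow_modEq_one p (stabilizer G a)
    have h3 := Nat.le_of_dvd hd0 (hi ▸ P.card_dvd_index)
    exact h2.eq_of_lt_of_lt (by omega) hp.one_lt
  haveI : Subsingleton (Sylow p (stabilizer G a)) := (Nat.card_eq_one_iff_unique.1 hn).1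
  have hPn := P.normal_of_subsingleton
  haveI := isCyclic_of_prime_card hP
  have hreg := regular_of_card (G := stabilizer G a) (Ω := SubMulAction.ofStabilizer G a) (F := P) (by
    intro g hg hg1 y hy
    have hg1' : (g : G) ≠ 1 := fun e => hg1 (Subtype.ext e)
    have h2 := card_modEq_fixedBy (Ω := Ω) hp (g := (g : G)) (k := 1) (by
      rw [pow_one, ← hP]
      exact congrArg (fun x : P => x.1.1) (pow_card_eq_one' (x := ⟨g, hg⟩)))
    have h3 : (fixedBy Ω (g : G)).ncard < p + 1 := by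
      rw [← hΩ, ← Set.ncard_univ]
      refine Set.ncard_lt_ncard (Set.ssubset_univ_iff.2 fun e => hg1' ?_)
      exact eq_of_smul_eq_smul fun y : Ω => by
        rw [one_smul]; exact (e.ge trivial : y ∈ fixedBy Ω (g : G))
    have h4 : 2 ≤ (fixedBy Ω (g : G)).ncard := by
      rw [← Set.ncard_pair (Ne.symm y.2 : a ≠ y)]
      apply Set.ncard_le_ncard _ (Set.toFinite _)
      rintro _ (rfl | rfl)
      · exact g.2
      · exact congrArg Subtype.val hy
    rw [hΩ] at h2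
    have h5 := Nat.le_of_dvd (by omega) ((Nat.modEq_iff_dvd' h3.le).1 h2.symm)
    omega) (by
      have := card_ne_add_one a
      change Nat.card {y // y ≠ a} ≤ _
      omega)
  refine ⟨a, (P : Subgroup (stabilizer G a)).map (stabilizer G a).subtype, map_subtype_le _, ?_, ?_, ?_⟩
  · rintro g hg _ ⟨u, hu, rfl⟩
    exact ⟨_, hPn.conj_mem u hu ⟨g, hg⟩, rfl⟩
  · rintro _ ⟨x, hx, rfl⟩ _ ⟨y, hy, rfl⟩
    exact congrArg (fun x : P => x.1.1) (mul_comm' (⟨x, hx⟩ : P) ⟨y, hy⟩)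
  · intro y z hy hz
    obtain ⟨u, hu, hu'⟩ := hreg ⟨y, hy⟩ ⟨z, hz⟩
    refine ⟨⟨u.1.1, u.1, u.2, rfl⟩, congrArg Subtype.val hu, ?_⟩
    rintro ⟨_, v, hv, rfl⟩ h
    exact Subtype.ext (congrArg (fun w : P => w.1.1) (hu' ⟨v, hv⟩ (Subtype.ext h)))

theorem prime_degree_main [FaithfulSMul G Ω] [Finite G] [Finite Ω] [IsPretransitive G Ω] {p d : ℕ}
    [hp' : Fact p.Prime] (hΩ : Nat.card Ω = p + 1) (hG : Nat.card G = (p + 1) * p * d) (hd : d < p) :
    (d = p - 1 ∧ Nonempty (G ≃* PGL(2, ZMod p))) ∨ (2 * d = p - 1 ∧ Nonempty (G ≃* PSL(2, ZMod p))) ∨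
      ∃ q : ℕ, q.Prime ∧ p + 1 = 2 ^ q ∧ (d = 1 ∨ d = q) ∧ ∃ e : GaloisField 2 q ≃ Ω, ∀ g : G,
        ∃ (c b : GaloisField 2 q) (θ : GaloisField 2 q ≃+* GaloisField 2 q), c ≠ 0 ∧
          ∀ x, g • e x = e (c * θ x + b) := by
  have hp := hp'.out
  have hp2 := hp.two_le
  obtain ⟨a, P, hP, hPn, hPc, hPr⟩ := prime_degree_setup hp hΩ hG hd
  have h2 : ∀ a b c d : Ω, a ≠ b → c ≠ d → ∃ g : G, g • a = c ∧ g • b = d := by
    intro x y x' y' hxy hxy'
    obtain ⟨g, hg⟩ := exists_smul_eq G x a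
    obtain ⟨k, hk⟩ := exists_smul_eq G x' a
    obtain ⟨u, hu, -⟩ := hPr (g • y) (k • y') (fun e => hxy ((smul_left_cancel_iff g).1 (hg.trans e.symm)))
      (fun e => hxy' ((smul_left_cancel_iff k).1 (hk.trans e.symm)))
    exact ⟨k⁻¹ * u * g, by rw [mul_smul, mul_smul, hg, hP u.2, inv_smul_eq_iff, hk],
      by rw [mul_smul, mul_smul, hu, inv_smul_smul]⟩
  have hSt : ∀ x y : Ω, x ≠ y → Nat.card (St G x y) = d := by
    intro x y hxy
    have := card_eq_two_trans h2 hxy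
    rw [hG, hΩ, mul_assoc, Nat.add_sub_cancel, Nat.mul_right_inj (by omega),
      Nat.mul_right_inj (by omega)] at this
    exact this.symm
  haveI : Nontrivial Ω := Finite.one_lt_card_iff_nontrivial.1 (by omega)
  obtain ⟨b, hb⟩ := exists_ne a
  obtain ⟨V, _, _, C, -⟩ := exists_coord hb.symm P hP hPn hPc hPr
  haveI := C.finite
  have hV : Nat.card V = p := by have := C.card; omega
  haveI : Nontrivial V := Finite.one_lt_card_iff_nontrivial.1 (by omega)
  have h3 : ∀ (g : G) (a b c : Ω), a ≠ b → b ≠ c → a ≠ c → g • a = a → g • b = b → g • c = c →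
      g = 1 := by
    intro g x y z hxy hyz hxz hx hy hz
    obtain ⟨u, u1, u2⟩ := h2 x y a b hxy hb.symm
    obtain ⟨v, hv⟩ := C.ι_surj (u • z) (fun e => hxz ((smul_left_cancel_iff u).1 (u1.trans e.symm)))
    have hv0 : v ≠ 0 := by
      rintro rfl
      exact hyz ((smul_left_cancel_iff u).1 (u2.trans (C.ι_zero.symm.trans hv)))
    let h : St G a b := ⟨u * g * u⁻¹, show _ • a = a by rw [← u1, conj_smul_smul, hx],
      show _ • b = b by rw [← u2, conj_smul_smul, hy]⟩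
    have h4 : h • v = v := C.ι_inj (by
      rw [← C.h_ι, hv]; exact (conj_smul_smul u g z).trans (by rw [hz]))
    rw [← conj_eq_one_iff (a := u)]
    refine eq_of_smul_eq_smul fun w : Ω => ?_
    rw [one_smul]
    by_cases hw : w = a
    · rw [hw]; exact h.2.1
    · obtain ⟨w, rfl⟩ := C.ι_surj w hw
      obtain ⟨k, rfl⟩ := mem_zmultiples_of_prime_card hV hv0 (g' := w)
      refine (C.h_ι h _).trans (congrArg C.ι ?_)
      simp only
      rw [smul_comm, h4]
  have hK : Nat.card (ZMod p) + 1 = Nat.card Ω := by rw [Nat.card_zmod, hΩ]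
  have h3t : IsMultiplyPretransitive G Ω 3 → (d = p - 1 ∧ Nonempty (G ≃* PGL(2, ZMod p))) := by
    intro h
    have h4 := card_of_reg (C.reg_of_three h h3)
    rw [hSt _ _ C.ne] at h4
    refine ⟨by omega, ?_⟩
    by_cases hp2 : p = 2
    · obtain ⟨s, hsa, hsb⟩ := h2 a b b a C.ne hb
      refine C.pgl_of_inverted h hsa hsb (fun x hx => ?_) _ hK
      have : St G a b = ⊥ := card_eq_one.1 (by rw [hSt _ _ C.ne]; omega)
      rw [this, mem_bot] at hx
      simp [hx]
    · exact C.pgl_of_odd h h3 hp hp2 odd_one (by rw [hV, pow_one]) _ hK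
  by_cases hp2' : p = 2
  · refine Or.inl (h3t (C.three_trans_of_card h2 h3 ?_))
    have : 0 < Nat.card (St G a b) := Nat.card_pos
    omega
  by_cases hreg : ∀ N : Subgroup G, N.Normal → IsPretransitive N Ω → ∃ a : Ω, stabilizer N a ≠ ⊥
  · rcases C.dichotomy h2 h3 hreg with h | ⟨h4, -, h5⟩
    · exact Or.inl (h3t h)
    · rw [hSt _ _ C.ne] at h4
      exact Or.inr (Or.inl ⟨by omega, h5 _ hK⟩)
  push Not at hreg
  obtain ⟨N, hN, hN1, hN2⟩ := hreg
  obtain ⟨⟨q, hq0, hq⟩, hK'⟩ := affine_of_regular a N (fun x y => by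
      obtain ⟨n, hn⟩ := exists_smul_eq N x y
      refine ⟨n, hn, fun m hm => ?_⟩
      have : n⁻¹ * m ∈ stabilizer N x := by
        rw [mem_stabilizer_iff, mul_smul, inv_smul_eq_iff, hn]; exact hm
      rw [hN2, mem_bot] at this
      exact (inv_mul_eq_one.1 this).symm) P hP hPn hPc (fun y z hy hz => by
      obtain ⟨u, hu, -⟩ := hPr y z hy hz
      exact ⟨u, u.2, hu⟩) (hΩ ▸ (hp.odd_of_ne_two hp2').add_one)
  have hq' : q.Prime := (Nat.prime_of_pow_sub_one_prime (a := 2) (by rintro rfl; omega)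
    (by rw [← hq, hΩ]; exact hp)).2
  have hc := GaloisField.card 2 q hq0.ne'
  obtain ⟨e, he⟩ := hK' (GaloisField 2 q) (hc.trans hq.symm)
  have h4 := card_St_dvd_of_semiaffine e he
  rw [hSt _ _ (e.injective.ne zero_ne_one), card_ringAut _ Nat.prime_two hc] at h4
  exact Or.inr (Or.inr ⟨q, hq', hΩ.symm.trans hq, (Nat.dvd_prime hq').1 h4, e, he⟩)

end Cfsg.Agent.H2
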