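import Cfsg.Agent.H2.Zass4

/-! Subgroups of index two in near-field groups. -/

set_option autoImplicit false

namespace Cfsg.Agent.H2

open Subgroup MulAction
open scoped MatrixGroups commutatorElement

universe u

theorem exists_sign_of_index_two {H : Type*} [Group H] (N : Subgroup H) (h : N.index = 2) :
    ∃ χ : H →* ℤˣ, ∃ x, χ x ≠ 1 := by
  classical
  refine ⟨MonoidHom.mk' (fun x => if x ∈ N then 1 else -1) (fun x y => ?_), ?_⟩
  · have := mul_mem_iff_of_index_two h (a := x) (b := y)
    by_cases hx : x ∈ N <;> by_cases hy : y ∈ N <;> simp [this, hx, hy]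
  · obtain ⟨x, hx⟩ : ∃ x, x ∉ N := by
      by_contra h'
      push Not at h'
      rw [(eq_top_iff' N).2 h', index_top] at h
      exact absurd h (by norm_num)
    exact ⟨x, by simp [hx]⟩

theorem exists_sign_of_hom {H Q : Type*} [Group H] [Group Q] [Finite Q] (f : H →* Q)
    (h : IsPGroup 2 f.range) {x : H} (hx : f x ≠ 1) : ∃ χ : H →* ℤˣ, ∃ x, χ x ≠ 1 := by
  haveI : Nontrivial f.range := ⟨⟨_, x, rfl⟩, 1, fun e => hx (congrArg Subtype.val e)⟩
  obtain ⟨n, hn0, hn⟩ := h.nontrivial_iff_card.1 inferInstance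
  obtain ⟨n, rfl⟩ := Nat.exists_eq_add_one.2 hn0
  obtain ⟨K, hK⟩ := Sylow.exists_subgroup_card_pow_prime (G := f.range) 2 (n := n)
    (hn ▸ pow_dvd_pow 2 (Nat.le_succ n))
  have h1 := K.card_mul_index
  rw [hK, hn, pow_succ] at h1
  refine exists_sign_of_index_two (K.comap f.rangeRestrict) ?_
  rw [index_comap_of_surjective _ f.rangeRestrict_surjective]
  exact Nat.eq_of_mul_eq_mul_left (by positivity) h1

theorem exists_sign_of_comm {H Q : Type*} [Group H] [CommGroup Q] [Finite Q] (f : H →* Q)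
    (hf : Function.Surjective f) (h : Even (Nat.card Q)) : ∃ χ : H →* ℤˣ, ∃ x, χ x ≠ 1 := by
  obtain ⟨k, m, hm, e⟩ := Nat.exists_eq_two_pow_mul_odd (Nat.card_pos (α := Q)).ne'
  obtain ⟨t, ht⟩ := exists_prime_orderOf_dvd_card' (G := Q) 2 h.two_dvd
  obtain ⟨x, rfl⟩ := hf t
  refine exists_sign_of_hom ((powMonoidHom m).comp f) ?_ (x := x) fun e' => ?_
  · rintro ⟨_, y, rfl⟩
    refine ⟨k, Subtype.ext ?_⟩
    show (f y ^ m) ^ 2 ^ k = 1
    rw [← pow_mul, mul_comm, ← e, pow_card_eq_one']
  · exact (Nat.not_even_iff_odd.2 hm) (even_iff_two_dvd.2 (ht ▸ orderOf_dvd_of_pow_eq_one e'))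

theorem exists_sign_of_nearfield {H V : Type*} [Group H] [AddCommGroup V] [DistribMulAction H V]
    [Finite V] [Nontrivial V] (hreg : ∀ v w : V, v ≠ 0 → w ≠ 0 → ∃! g : H, g • v = w)
    (h3 : ∀ A B : Subgroup H, Nat.card A = 3 → Nat.card B = 3 → A = B)
    (hcyc : ∀ P : Sylow 2 H, IsCyclic P → ∃ χ : H →* ℤˣ, ∃ x, χ x ≠ 1) :
    ∃ χ : H →* ℤˣ, ∃ x, χ x ≠ 1 := by
  haveI := finite_of_reg hreg
  have hf := fpf_of_reg hreg
  have h3n : ∀ A : Subgroup H, Nat.card A = 3 → A.Normal := fun A hA => ⟨fun x hx g => by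
    rw [← h3 (A.map (MulAut.conj g).toMonoidHom) A
      (by rw [card_map_of_injective (MulAut.conj g).injective, hA]) hA]
    exact ⟨x, hx, rfl⟩⟩
  rcases nearfield_cases hreg with ⟨A, _, _, hA⟩ | ⟨ψ, hψ, _⟩ | ⟨N, _, hN, hp⟩
  · set C := centralizer (A : Set H)
    haveI : C.Normal := normal_centralizer
    have h1 : ⁅(⊤ : Subgroup H), (⊤ : Subgroup H)⁆ ≤ C :=
      commutator_le_centralizer_of_cyclic A ⊤ fun g _ x hx => Normal.conj_mem inferInstance x hx g
    rcases Nat.even_or_odd C.index with h | h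
    · have hc : ∀ x y : H ⧸ C, x * y = y * x := fun x y => by
        induction x using QuotientGroup.induction_on with | H x =>
        induction y using QuotientGroup.induction_on with | H y =>
        rw [← commutatorElement_eq_one_iff_mul_comm]
        exact (QuotientGroup.eq_one_iff ⁅x, y⁆).2 (h1 (commutator_mem_commutator trivial trivial))
      letI : CommGroup (H ⧸ C) := { mul_comm := hc }
      exact exists_sign_of_comm (QuotientGroup.mk' C) (QuotientGroup.mk'_surjective C) h
    · obtain ⟨P⟩ : Nonempty (Sylow 2 H) := inferInstance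
      haveI := isCyclic_of_comm_normal hreg C (centralizer_comm_of_irred (rho_injective hf) hA)
      have hP : (P : Subgroup H) ≤ C := fun x hx => by
        obtain ⟨k, hk⟩ := IsPGroup.iff_orderOf.1 P.isPGroup' ⟨x, hx⟩
        rw [orderOf_mk] at hk
        obtain ⟨m, hm⟩ := exists_pow_eq_self_of_coprime (x := x) (n := C.index)
          (hk ▸ (Nat.coprime_two_right.2 h).pow_right k)
        rw [← hm]
        exact pow_mem (C.pow_index_mem x) m
      exact hcyc P (isCyclic_of_surjective _ (subgroupOfEquivOfLe hP).surjective)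
  · obtain ⟨-, q, k, -, h4, h5⟩ := card_sq_Q8 hreg ψ hψ
    have h6 := index_centralizer_Q8 ψ hψ
    set C := centralizer (ψ.range : Set H)
    haveI : C.Normal := normal_centralizer
    have h7 : ¬ 3 ∣ C.index := by
      intro h
      obtain ⟨c, hc⟩ := exists_prime_orderOf_dvd_card' (G := H) 3 (h.trans C.index_dvd_card)
      have h8 : Nat.card (zpowers c) = 3 := by rw [Nat.card_zpowers, hc]
      haveI := h3n _ h8
      have h9 : zpowers c ≤ C := fun x hx y hy => commute_of_normal_of_disjoint ψ.range (zpowers c)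
        inferInstance inferInstance (disjoint_iff.2 (inf_eq_bot_of_coprime (by
          rw [h8, ← Nat.card_congr (MonoidHom.ofInjective hψ).toEquiv, Nat.card_eq_fintype_card,
            QuaternionGroup.card]; norm_num))) y x hy hx
      obtain ⟨m, hm⟩ := h8 ▸ card_dvd_of_le h9
      have hm0 : 0 < m := Nat.pos_of_mul_pos_left (hm ▸ Nat.card_pos)
      rw [h5] at h h6
      rw [h4, hm] at h h6
      have h10 : 3 ∣ k := (Nat.prime_three.dvd_mul.1 h).resolve_left (by
        rw [mul_assoc]; omega)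
      obtain ⟨k, rfl⟩ := h10
      have hk : 0 < k := Nat.pos_of_ne_zero (by rintro rfl; simp at h6)
      have := Nat.le_of_dvd (by norm_num) h6
      have : 1 ≤ m * k := Nat.mul_pos hm0 hk
      nlinarith
    have h8 : C.index ∣ 2 ^ 3 :=
      ((Nat.Prime.coprime_iff_not_dvd Nat.prime_three).2 h7).symm.dvd_of_dvd_mul_left h6
    refine exists_sign_of_hom (QuotientGroup.mk' C) (fun x => ⟨3, ?_⟩) (x := ψ (QuaternionGroup.a 1))
      fun e => ?_
    · exact orderOf_dvd_iff_pow_eq_one.1 ((orderOf_coe x ▸ orderOf_dvd_natCard (x : H ⧸ C)).trans h8)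
    · have := (QuotientGroup.eq_one_iff _).1 e _ ⟨QuaternionGroup.xa 0, rfl⟩
      rw [← map_mul, ← map_mul] at this
      exact absurd (hψ this) (by decide)
  · exfalso
    obtain ⟨R, _, _, ρ, hρ⟩ := exists_fpf hf
    haveI : Nontrivial N := (nontrivial_iff_ne_bot N).2 hN
    have hρ' := hρ.subgroup N
    obtain ⟨c, hc⟩ := exists_prime_orderOf_dvd_card' 3 (three_dvd_card_of_perfect hp hρ'.noPP hρ'.uniq)
    haveI := h3n (zpowers (c : H)) (by rw [Nat.card_zpowers, orderOf_coe, hc])
    have h4 := commutator_le_centralizer_of_cyclic (zpowers (c : H)) N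
      fun g _ x hx => Normal.conj_mem inferInstance x hx g
    rw [← map_subtype_commutator, hp] at h4
    have := not_central_of_perfect hp (p := 3) (fun P => isCyclic_of_noPP_odd P.isPGroup'
      ((hρ'.noPP 3 Nat.prime_three).subgroup _) (by norm_num)) (c := c)
      (by rw [← hc, pow_orderOf_eq_one])
      fun g => Subtype.ext (h4 ⟨g, trivial, rfl⟩ _ (mem_zpowers _)).symm
    rw [this, orderOf_one] at hc
    exact absurd hc (by norm_num)

end Cfsg.Agent.H2
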